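import Mathlib
import Cfsg.Prelude.Def_CaseTheorems
import Cfsg.Agent.Lib.Helper2.SylowAux
import Cfsg.Agent.Lib.Helper2.Lift

set_option autoImplicit false

namespace Cfsg.Agent.Lib.Helper2.PRank

open Cfsg

variable {G : Type*} [Group G]

def Big (p n : ℕ) (X : Subgroup G) : Prop :=
  ∃ A : Subgroup G, A ≤ X ∧ IsMulCommutative A ∧ (∀ a ∈ A, a ^ p = 1) ∧ p ^ n < Nat.card A

theorem not_pRankLE_iff (p n : ℕ) (X : Subgroup G) : ¬ PRankLE p n ↥X ↔ Big p n X := by
  constructor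
  · intro h
    unfold PRankLE at h
    push Not at h
    obtain ⟨A, hA, hexp, hcard⟩ := h
    refine ⟨A.map X.subtype, Subgroup.map_subtype_le A, ?_, ?_, ?_⟩
    · exact Subgroup.map_isMulCommutative A X.subtype
    · rintro _ ⟨a, ha, rfl⟩
      have := hexp a ha
      rw [← map_pow, this, map_one]
    · rw [Subgroup.card_map_of_injective X.subtype_injective]
      exact hcard
  · rintro ⟨A, hAX, hA, hexp, hcard⟩ h
    have h1 := h (A.subgroupOf X) inferInstance (fun a ha => by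
      apply Subtype.ext
      simpa using hexp a (Subgroup.mem_subgroupOf.1 ha))
    rw [Nat.card_congr (Subgroup.subgroupOfEquivOfLe hAX).toEquiv] at h1
    omega

theorem Big.mono {p n : ℕ} {X Y : Subgroup G} (h : X ≤ Y) (hX : Big p n X) : Big p n Y := by
  obtain ⟨A, hAX, hA⟩ := hX
  exact ⟨A, hAX.trans h, hA⟩

theorem Big.conj {p n : ℕ} {X : Subgroup G} (hX : Big p n X) (g : G) :
    Big p n (X.map (MulAut.conj g).toMonoidHom) := by
  obtain ⟨A, hAX, hA, hexp, hcard⟩ := hX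
  refine ⟨A.map (MulAut.conj g).toMonoidHom, Subgroup.map_mono hAX, ?_, ?_, ?_⟩
  · exact Subgroup.map_isMulCommutative A _
  · rintro _ ⟨a, ha, rfl⟩
    have := hexp a ha
    rw [← map_pow, this, map_one]
  · rw [Subgroup.card_map_of_injective (MulAut.conj g).injective]
    exact hcard

theorem Big.isPGroup {p n : ℕ} {X : Subgroup G} (hX : Big p n X) :
    ∃ A : Subgroup G, A ≤ X ∧ IsPGroup p A ∧ Big p n A := by
  obtain ⟨A, hAX, hA, hexp, hcard⟩ := hX
  exact ⟨A, hAX, SylowAux.isPGroup_of_elementary A hexp, A, le_rfl, hA, hexp, hcard⟩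

theorem exists_max_pgroup [Finite G] {p : ℕ} [Fact p.Prime] {A M : Subgroup G}
    (hA : IsPGroup p A) (hAM : A ≤ M) :
    ∃ Q : Subgroup G, A ≤ Q ∧ Q ≤ M ∧ IsPGroup p Q ∧
      ∀ R : Subgroup G, IsPGroup p R → Q ≤ R → R ≤ M → R = Q := by
  obtain ⟨Q, hQ⟩ := (hA.comap_subtype : IsPGroup p (A.subgroupOf M)).exists_le_sylow
  refine ⟨(Q : Subgroup ↥M).map M.subtype, ?_, Subgroup.map_subtype_le _, Q.2.map _, ?_⟩
  · intro a ha
    exact ⟨⟨a, hAM ha⟩, hQ (Subgroup.mem_subgroupOf.2 ha), rfl⟩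
  · intro R hR hQR hRM
    have h1 : (Q : Subgroup ↥M) ≤ R.subgroupOf M := by
      intro x hx
      exact Subgroup.mem_subgroupOf.2 (hQR ⟨x, hx, rfl⟩)
    have h2 : R.subgroupOf M = (Q : Subgroup ↥M) := Q.3 hR.comap_subtype h1
    rw [← h2, Subgroup.map_subgroupOf_eq_of_le hRM]

theorem max_pgroup_of_normalizer_le [Finite G] {p : ℕ} [Fact p.Prime] {Q M : Subgroup G}
    (hQM : Q ≤ M)
    (hmax : ∀ R : Subgroup G, IsPGroup p R → Q ≤ R → R ≤ M → R = Q)
    (hN : Subgroup.normalizer (Q : Set G) ≤ M) :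
    ∀ S : Subgroup G, IsPGroup p S → Q ≤ S → S = Q := by
  intro S hS hQS
  by_contra hne
  obtain ⟨x, hxS, hxQ, hxn⟩ := SylowAux.exists_normalizing_not_mem hS hQS (fun h => hne h.symm)
  have hxN : x ∈ Subgroup.normalizer (Q : Set G) := Subgroup.mem_normalizer_iff.2 hxn
  have h1 : Q ⊔ Subgroup.zpowers x ≤ S :=
    sup_le hQS ((Subgroup.zpowers_le).2 hxS)
  have h2 : Q ⊔ Subgroup.zpowers x ≤ M :=
    sup_le hQM ((Subgroup.zpowers_le).2 (hN hxN))
  have h3 := hmax _ (hS.to_le h1) le_sup_left h2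
  have h4 : x ∈ Q ⊔ Subgroup.zpowers x := (le_sup_right : _ ≤ Q ⊔ Subgroup.zpowers x)
    (Subgroup.mem_zpowers x)
  rw [h3] at h4
  exact hxQ h4

theorem strongly_embedded_criterion [Finite G] {p : ℕ} [Fact p.Prime] (n : ℕ) (H : Subgroup G)
    (P : Sylow p ↥H) :
    (∀ X : Subgroup G, X ≤ (P : Subgroup ↥H).map H.subtype → Big p n X →
        Subgroup.normalizer (X : Set G) ≤ H) ↔
      (∀ g : G, g ∉ H → ¬ Big p n (H ⊓ H.map (MulAut.conj g).toMonoidHom)) := by
  constructor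
  · intro hN g hg hBig
    have hN' : ∀ X : Subgroup G, X ≤ H → IsPGroup p X → Big p n X →
        Subgroup.normalizer (X : Set G) ≤ H := by
      intro X hXH hX hXB
      obtain ⟨h, hh⟩ := SylowAux.exists_conj_le_sylow P
        (hX.comap_subtype : IsPGroup p (X.subgroupOf H))
      have hX' : X.map (MulAut.conj (h : G)⁻¹).toMonoidHom ≤
          (P : Subgroup ↥H).map H.subtype := by
        rintro _ ⟨x, hx, rfl⟩
        refine ⟨h⁻¹ * ⟨x, hXH hx⟩ * h, hh ⟨x, hXH hx⟩ (Subgroup.mem_subgroupOf.2 hx), ?_⟩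
        simp [MulAut.conj_apply]
      have h1 := hN _ hX' (hXB.conj _)
      intro y hy
      have h2 : (h : G)⁻¹ * y * h ∈ Subgroup.normalizer
          ((X.map (MulAut.conj (h : G)⁻¹).toMonoidHom : Subgroup G) : Set G) := by
        apply Lift.conj_le_mem_normalizer
        rintro _ ⟨x, hx, rfl⟩
        rw [Subgroup.mem_normalizer_iff] at hy
        refine ⟨y * x * y⁻¹, (hy x).1 hx, ?_⟩
        simp only [MulEquiv.coe_toMonoidHom, MulAut.conj_apply]
        group
      have h3 := h1 h2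
      have h4 : y = h * ((h : G)⁻¹ * y * h) * (h : G)⁻¹ := by group
      rw [h4]
      exact H.mul_mem (H.mul_mem h.2 h3) (H.inv_mem h.2)
    obtain ⟨A, hAM, hAp, hAB⟩ := hBig.isPGroup
    obtain ⟨Q, hAQ, hQM, hQp, hQmax⟩ := exists_max_pgroup hAp hAM
    have hQB : Big p n Q := hAB.mono hAQ
    have hQH : Q ≤ H := hQM.trans inf_le_left
    have hNQ1 : Subgroup.normalizer (Q : Set G) ≤ H := hN' Q hQH hQp hQB
    have hQg : Q.map (MulAut.conj g⁻¹).toMonoidHom ≤ H := by
      rintro _ ⟨x, hx, rfl⟩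
      have h1 := (SylowAux.mem_map_conj H g x).1 (hQM hx).2
      simpa [MulAut.conj_apply] using h1
    have hNQ2 := hN' _ hQg (hQp.map _) (hQB.conj _)
    have hNQ : Subgroup.normalizer (Q : Set G) ≤ H ⊓ H.map (MulAut.conj g).toMonoidHom := by
      intro y hy
      refine ⟨hNQ1 hy, ?_⟩
      refine (SylowAux.mem_map_conj H g y).2 ?_
      apply hNQ2
      apply Lift.conj_le_mem_normalizer
      rintro _ ⟨x, hx, rfl⟩
      rw [Subgroup.mem_normalizer_iff] at hy
      refine ⟨y * x * y⁻¹, (hy x).1 hx, ?_⟩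
      simp only [MulEquiv.coe_toMonoidHom, MulAut.conj_apply]
      group
    have hSyl := max_pgroup_of_normalizer_le hQM hQmax hNQ
    let S : Sylow p G := ⟨Q, hQp, fun {R} hR hQR => hSyl R hR hQR⟩
    obtain ⟨h, hhH, hh⟩ := SylowAux.exists_conj_le_sylow_of_le S (H := H) hQH hQg (hQp.map _)
    have h5 : (g * h)⁻¹ ∈ Subgroup.normalizer (Q : Set G) := by
      apply Lift.conj_le_mem_normalizer
      intro a ha
      have h6 := hh (g⁻¹ * a * g) ⟨a, ha, by simp [MulAut.conj_apply]⟩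
      have h7 : (g * h)⁻¹ * a * (g * h)⁻¹⁻¹ = h⁻¹ * (g⁻¹ * a * g) * h := by group
      rw [h7]
      exact h6
    have h8 := hNQ1 h5
    have h9 : g = ((g * h)⁻¹)⁻¹ * h⁻¹ := by group
    apply hg
    rw [h9]
    exact H.mul_mem (H.inv_mem h8) (H.inv_mem hhH)
  · intro hM X hXP hXB y hy
    by_contra hyH
    apply hM y hyH
    apply hXB.mono
    have hXH : X ≤ H := hXP.trans (Subgroup.map_subtype_le _)
    refine le_inf hXH ?_
    intro x hx
    rw [SylowAux.mem_map_conj]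
    apply hXH
    have hy' := Subgroup.inv_mem _ hy
    rw [Subgroup.mem_normalizer_iff] at hy'
    have := (hy' x).1 hx
    simpa using this

end Cfsg.Agent.Lib.Helper2.PRank
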