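import Mathlib
import Cfsg.Prelude.Def_CaseTheorems
import Cfsg.Agent.Lib.Helper2.SylowAux
import Cfsg.Agent.Lib.Helper2.PRank

set_option autoImplicit false

namespace Cfsg.Agent.Lib.Helper2.AbSylow

open Cfsg
open scoped IsMulCommutative

theorem exists_index_two_of_hom {G A : Type*} [Group G] [Group A] [Finite A]
    (hA : IsPGroup 2 A) (f : G →* A) (x : G) (hx : f x ≠ 1) :
    ∃ H : Subgroup G, H.index = 2 := by
  have hR : IsPGroup 2 f.range := hA.to_subgroup _
  obtain ⟨k, hk⟩ := IsPGroup.iff_card.1 hR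
  have hk0 : k ≠ 0 := by
    rintro rfl
    rw [pow_zero] at hk
    have h1 : f.range = ⊥ := Subgroup.card_eq_one.1 hk
    have h2 : f x ∈ f.range := ⟨x, rfl⟩
    rw [h1, Subgroup.mem_bot] at h2
    exact hx h2
  have hdvd : 2 ^ (k - 1) ∣ Nat.card f.range := by
    rw [hk]
    exact pow_dvd_pow 2 (Nat.sub_le k 1)
  obtain ⟨K, hK⟩ := Sylow.exists_subgroup_card_pow_prime 2 hdvd
  have hidx : K.index = 2 := by
    have h1 := K.card_mul_index
    rw [hK, hk] at h1
    have h2 : 2 ^ k = 2 ^ (k - 1) * 2 := by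
      rw [← pow_succ]
      congr 1
      omega
    rw [h2] at h1
    exact Nat.eq_of_mul_eq_mul_left (pow_pos (by norm_num) _) h1
  refine ⟨K.comap f.rangeRestrict, ?_⟩
  rw [Subgroup.index_comap_of_surjective K f.rangeRestrict_surjective, hidx]

theorem fixed_eq_one {G : Type*} [Group G] [Finite G] (hG : ∀ H : Subgroup G, H.index ≠ 2)
    (S : Sylow 2 G) (hS : IsMulCommutative (S : Subgroup G)) (x : G)
    (hx : x ∈ (S : Subgroup G))
    (hfix : ∀ n ∈ Subgroup.normalizer ((S : Subgroup G) : Set G), n * x * n⁻¹ = x) : x = 1 := by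
  have key : ∀ (k : ℕ) (g₀ : G), g₀⁻¹ * x ^ k * g₀ ∈ (S : Subgroup G) →
      g₀⁻¹ * x ^ k * g₀ = x ^ k := by
    intro k g₀ h
    obtain ⟨n, hn, h'⟩ := S.conj_eq_normalizer_conj_of_mem (x ^ k) g₀ (Subgroup.pow_mem _ hx k) h
    rw [h']
    have h1 := hfix n⁻¹ (Subgroup.inv_mem _ hn)
    have h2 : n⁻¹ * x ^ k * n = (n⁻¹ * x * n⁻¹⁻¹) ^ k := by rw [conj_pow, inv_inv]
    rw [h2, h1]
  have hV := MonoidHom.transfer_eq_pow (MonoidHom.id (S : Subgroup G)) x key
  have hV1 : MonoidHom.transfer (MonoidHom.id (S : Subgroup G)) x = 1 := by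
    by_contra hne
    obtain ⟨H, hH⟩ := exists_index_two_of_hom S.2 (MonoidHom.transfer (MonoidHom.id (S : Subgroup G))) x hne
    exact hG H hH
  rw [hV1] at hV
  have h3 : x ^ (S : Subgroup G).index = 1 := by
    have := congrArg Subtype.val hV
    simpa using this.symm
  obtain ⟨j, hj⟩ := (IsPGroup.iff_orderOf.1 S.2) ⟨x, hx⟩
  have h4 : orderOf x = 2 ^ j := by rw [← hj, Subgroup.orderOf_mk]
  have h5 : orderOf x ∣ (S : Subgroup G).index := orderOf_dvd_of_pow_eq_one h3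
  have h6 : ¬ 2 ∣ (S : Subgroup G).index := S.not_dvd_index
  rw [h4] at h5
  have hj0 : j = 0 := by
    by_contra hj0
    exact h6 ((dvd_pow_self 2 hj0).trans h5)
  rw [hj0, pow_zero, orderOf_eq_one_iff] at h4
  exact h4

theorem prod_parity {A : Type*} [CommGroup A] (W : Subgroup A)
    (hidx : ∀ a b : A, a ^ 2 = 1 → b ^ 2 = 1 → a ∉ W → b ∉ W → a * b ∈ W)
    {ι : Type*} (f : ι → A) (s : Finset ι) (hf : ∀ i ∈ s, f i ^ 2 = 1 ∧ f i ∉ W) :
    (∏ i ∈ s, f i) ^ 2 = 1 ∧ ((∏ i ∈ s, f i) ∈ W ↔ Even s.card) := by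
  classical
  induction s using Finset.induction_on with
  | empty => simp
  | insert a s ha ih =>
    obtain ⟨ih1, ih2⟩ := ih (fun i hi => hf i (Finset.mem_insert_of_mem hi))
    obtain ⟨ha2, haW⟩ := hf a (Finset.mem_insert_self a s)
    rw [Finset.prod_insert ha, Finset.card_insert_of_notMem ha]
    refine ⟨by rw [mul_pow, ha2, ih1, one_mul], ?_⟩
    rw [Nat.even_add_one]
    constructor
    · intro h hev
      have h1 := ih2.2 hev
      apply haW
      have : f a = f a * (∏ i ∈ s, f i) * (∏ i ∈ s, f i)⁻¹ := by group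
      rw [this]
      exact W.mul_mem h (W.inv_mem h1)
    · intro hodd
      have h1 : (∏ i ∈ s, f i) ∉ W := fun h => hodd (ih2.1 h)
      exact hidx _ _ ha2 ih1 haW h1

def omega1 {G : Type*} [Group G] (S : Subgroup G) (hS : ∀ a ∈ S, ∀ b ∈ S, a * b = b * a) :
    Subgroup G where
  carrier := {x | x ∈ S ∧ x ^ 2 = 1}
  mul_mem' := by
    rintro a b ⟨ha, ha2⟩ ⟨hb, hb2⟩
    refine ⟨S.mul_mem ha hb, ?_⟩
    have h1 : (a * b) ^ 2 = a * (b * a) * b := by rw [pow_two]; group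
    rw [h1, ← hS a ha b hb]
    have h2 : a * (a * b) * b = a ^ 2 * b ^ 2 := by rw [pow_two, pow_two]; group
    rw [h2, ha2, hb2, one_mul]
  one_mem' := ⟨S.one_mem, one_pow 2⟩
  inv_mem' := by
    rintro a ⟨ha, ha2⟩
    exact ⟨S.inv_mem ha, by rw [inv_pow, ha2, inv_one]⟩

theorem mem_omega1 {G : Type*} [Group G] (S : Subgroup G)
    (hS : ∀ a ∈ S, ∀ b ∈ S, a * b = b * a) (x : G) :
    x ∈ omega1 S hS ↔ x ∈ S ∧ x ^ 2 = 1 := Iff.rfl

theorem omega1_comm {G : Type*} [Group G] (S : Subgroup G)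
    (hS : ∀ a ∈ S, ∀ b ∈ S, a * b = b * a) : IsMulCommutative ↥(omega1 S hS) :=
  ⟨⟨fun a b => Subtype.ext (hS a a.2.1 b b.2.1)⟩⟩

theorem card_pow_two {G : Type*} [Group G] [Finite G] (V : Subgroup G)
    (hV : ∀ a ∈ V, a ^ 2 = 1) : ∃ j : ℕ, Nat.card V = 2 ^ j :=
  IsPGroup.iff_card.1 (SylowAux.isPGroup_of_elementary V hV)

theorem card_omega1 {G : Type*} [Group G] [Finite G] (S : Subgroup G)
    (hS : ∀ a ∈ S, ∀ b ∈ S, a * b = b * a) (r : ℕ) (hr1 : 1 ≤ r)
    (h1 : PRankLE 2 r ↥S) (h2 : ¬ PRankLE 2 (r - 1) ↥S) :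
    Nat.card (omega1 S hS) = 2 ^ r := by
  have hVS : omega1 S hS ≤ S := fun x hx => hx.1
  have hVexp : ∀ a ∈ omega1 S hS, a ^ 2 = 1 := fun a ha => ha.2
  obtain ⟨j, hj⟩ := card_pow_two (omega1 S hS) hVexp
  have hle : Nat.card (omega1 S hS) ≤ 2 ^ r := by
    by_contra hlt
    push Not at hlt
    exact (PRank.not_pRankLE_iff 2 r S).2 ⟨omega1 S hS, hVS, omega1_comm S hS, hVexp, hlt⟩ h1
  obtain ⟨A, hAS, -, hAexp, hAcard⟩ := (PRank.not_pRankLE_iff 2 (r - 1) S).1 h2
  have hAV : A ≤ omega1 S hS := fun a ha => ⟨hAS ha, hAexp a ha⟩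
  have hge : 2 ^ (r - 1) < Nat.card (omega1 S hS) :=
    lt_of_lt_of_le hAcard (Subgroup.card_le_of_le hAV)
  rw [hj] at hle hge ⊢
  have e1 : j ≤ r := (Nat.pow_le_pow_iff_right (by norm_num)).1 hle
  have e2 : r - 1 < j := (Nat.pow_lt_pow_iff_right (by norm_num)).1 hge
  congr 1
  omega

theorem card_omega1_inf {G : Type*} [Group G] [Finite G] (S R : Subgroup G)
    (hS : ∀ a ∈ S, ∀ b ∈ S, a * b = b * a) (hRS : R ≤ S) (r : ℕ) (hr1 : 1 ≤ r)
    (h1 : PRankLE 2 (r - 1) ↥R) (h2 : r = 1 ∨ ¬ PRankLE 2 (r - 2) ↥R) :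
    Nat.card ↥(omega1 S hS ⊓ R) = 2 ^ (r - 1) := by
  have hWexp : ∀ a ∈ omega1 S hS ⊓ R, a ^ 2 = 1 := fun a ha => ha.1.2
  have hWcomm : IsMulCommutative ↥(omega1 S hS ⊓ R) :=
    ⟨⟨fun a b => Subtype.ext (hS a a.2.1.1 b b.2.1.1)⟩⟩
  obtain ⟨j, hj⟩ := card_pow_two (omega1 S hS ⊓ R) hWexp
  have hle : Nat.card ↥(omega1 S hS ⊓ R) ≤ 2 ^ (r - 1) := by
    by_contra hlt
    push Not at hlt
    exact (PRank.not_pRankLE_iff 2 (r - 1) R).2
      ⟨omega1 S hS ⊓ R, inf_le_right, hWcomm, hWexp, hlt⟩ h1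
  rw [hj] at hle ⊢
  have e1 : j ≤ r - 1 := (Nat.pow_le_pow_iff_right (by norm_num)).1 hle
  congr 1
  rcases h2 with h2 | h2
  · omega
  · obtain ⟨A, hAR, -, hAexp, hAcard⟩ := (PRank.not_pRankLE_iff 2 (r - 2) R).1 h2
    have hAW : A ≤ omega1 S hS ⊓ R := fun a ha => ⟨⟨hRS (hAR ha), hAexp a ha⟩, hAR ha⟩
    have hge : 2 ^ (r - 2) < Nat.card ↥(omega1 S hS ⊓ R) :=
      lt_of_lt_of_le hAcard (Subgroup.card_le_of_le hAW)
    rw [hj] at hge
    have e2 : r - 2 < j := (Nat.pow_lt_pow_iff_right (by norm_num)).1 hge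
    omega

theorem index_two_mul {G : Type*} [Group G] [Finite G] (V W : Subgroup G) (hWV : W ≤ V)
    (hcard : Nat.card V = 2 * Nat.card W) (a b : G) (ha : a ∈ V) (hb : b ∈ V) (haW : a ∉ W)
    (hbW : b ∉ W) : a * b ∈ W := by
  have h1 := (W.subgroupOf V).card_mul_index
  rw [Nat.card_congr (Subgroup.subgroupOfEquivOfLe hWV).toEquiv, hcard, mul_comm] at h1
  have h2 : (W.subgroupOf V).index = 2 := Nat.eq_of_mul_eq_mul_right Nat.card_pos h1
  have h3 := Subgroup.mul_mem_iff_of_index_two h2 (a := (⟨a, ha⟩ : ↥V)) (b := ⟨b, hb⟩)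
  have h4 : (⟨a, ha⟩ : ↥V) * ⟨b, hb⟩ ∈ W.subgroupOf V :=
    h3.2 ⟨fun h => absurd (Subgroup.mem_subgroupOf.1 h) haW,
      fun h => absurd (Subgroup.mem_subgroupOf.1 h) hbW⟩
  exact Subgroup.mem_subgroupOf.1 h4

theorem conj_into {G : Type*} [Group G] [Finite G] (hG : ∀ H : Subgroup G, H.index ≠ 2)
    (S : Sylow 2 G) (hS : IsMulCommutative (S : Subgroup G)) (r : ℕ) (hr1 : 1 ≤ r)
    (hSr : PRankLE 2 r (S : Subgroup G) ∧ ¬ PRankLE 2 (r - 1) (S : Subgroup G))
    (R : Subgroup G) (hRS : R ≤ S)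
    (hRr : PRankLE 2 (r - 1) R ∧ (r = 1 ∨ ¬ PRankLE 2 (r - 2) R)) (t : G)
    (ht : orderOf t = 2) (htS : t ∈ S) :
    ∃ n ∈ Subgroup.normalizer ((S : Subgroup G) : Set G), n * t * n⁻¹ ∈ R := by
  classical
  by_contra hcon
  push Not at hcon
  have hSc : ∀ a ∈ (S : Subgroup G), ∀ b ∈ (S : Subgroup G), a * b = b * a :=
    fun a ha b hb => congrArg Subtype.val (hS.is_comm.comm ⟨a, ha⟩ ⟨b, hb⟩)
  have ht2 : t ^ 2 = 1 := by
    rw [← ht]
    exact pow_orderOf_eq_one t
  have hcV := card_omega1 (S : Subgroup G) hSc r hr1 hSr.1 hSr.2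
  have hcW := card_omega1_inf (S : Subgroup G) R hSc hRS r hr1 hRr.1 hRr.2
  have hcard : Nat.card (omega1 (S : Subgroup G) hSc) =
      2 * Nat.card ↥(omega1 (S : Subgroup G) hSc ⊓ R) := by
    rw [hcV, hcW, ← pow_succ']
    congr 1
    omega
  have hFmem : ∀ n : ↥(Subgroup.normalizer ((S : Subgroup G) : Set G)),
      (n : G) * t * (n : G)⁻¹ ∈ (S : Subgroup G) :=
    fun n => ((Subgroup.mem_normalizer_iff.1 n.2) t).1 htS
  let F : ↥(Subgroup.normalizer ((S : Subgroup G) : Set G)) → ↥(S : Subgroup G) :=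
    fun n => ⟨(n : G) * t * (n : G)⁻¹, hFmem n⟩
  have hFcoset : ∀ n n' : ↥(Subgroup.normalizer ((S : Subgroup G) : Set G)),
      n⁻¹ * n' ∈ (S : Subgroup G).subgroupOf (Subgroup.normalizer ((S : Subgroup G) : Set G)) →
      F n = F n' := by
    intro n n' h
    apply Subtype.ext
    show (n : G) * t * (n : G)⁻¹ = (n' : G) * t * (n' : G)⁻¹
    have hs : (n : G)⁻¹ * (n' : G) ∈ (S : Subgroup G) := Subgroup.mem_subgroupOf.1 h
    have hc := hSc _ hs t htS
    have e : (n' : G) * t * (n' : G)⁻¹ =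
        (n : G) * (((n : G)⁻¹ * (n' : G)) * t) * ((n : G)⁻¹ * (n' : G))⁻¹ * (n : G)⁻¹ := by group
    rw [e, hc]
    group
  have hfin : Fintype (↥(Subgroup.normalizer ((S : Subgroup G) : Set G)) ⧸
      (S : Subgroup G).subgroupOf (Subgroup.normalizer ((S : Subgroup G) : Set G))) :=
    Fintype.ofFinite _
  have hPinv : ∀ m ∈ Subgroup.normalizer ((S : Subgroup G) : Set G),
      m * ((∏ q : ↥(Subgroup.normalizer ((S : Subgroup G) : Set G)) ⧸
        (S : Subgroup G).subgroupOf (Subgroup.normalizer ((S : Subgroup G) : Set G)),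
          F q.out : ↥(S : Subgroup G)) : G) * m⁻¹ =
        ((∏ q : ↥(Subgroup.normalizer ((S : Subgroup G) : Set G)) ⧸
        (S : Subgroup G).subgroupOf (Subgroup.normalizer ((S : Subgroup G) : Set G)),
          F q.out : ↥(S : Subgroup G)) : G) := by
    intro m hm
    let cm : ↥(S : Subgroup G) →* ↥(S : Subgroup G) :=
      { toFun := fun s => ⟨m * (s : G) * m⁻¹, ((Subgroup.mem_normalizer_iff.1 hm) s).1 s.2⟩
        map_one' := by
          apply Subtype.ext
          simp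
        map_mul' := by
          intro a b
          apply Subtype.ext
          simp }
    have h1 : cm (∏ q : ↥(Subgroup.normalizer ((S : Subgroup G) : Set G)) ⧸
        (S : Subgroup G).subgroupOf (Subgroup.normalizer ((S : Subgroup G) : Set G)), F q.out) =
        ∏ q : ↥(Subgroup.normalizer ((S : Subgroup G) : Set G)) ⧸
        (S : Subgroup G).subgroupOf (Subgroup.normalizer ((S : Subgroup G) : Set G)), F q.out := by
      rw [map_prod]
      have hre := Equiv.prod_comp (MulAction.toPerm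
        (⟨m, hm⟩ : ↥(Subgroup.normalizer ((S : Subgroup G) : Set G))))
        (fun q : ↥(Subgroup.normalizer ((S : Subgroup G) : Set G)) ⧸
          (S : Subgroup G).subgroupOf (Subgroup.normalizer ((S : Subgroup G) : Set G)) => F q.out)
      rw [← hre]
      apply Finset.prod_congr rfl
      intro q _
      have h2 : cm (F q.out) = F (⟨m, hm⟩ * q.out) := by
        apply Subtype.ext
        show m * ((q.out : G) * t * (q.out : G)⁻¹) * m⁻¹ =
          (m * (q.out : G)) * t * (m * (q.out : G))⁻¹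
        group
      rw [h2]
      apply hFcoset
      rw [← QuotientGroup.eq, MulAction.toPerm_apply, QuotientGroup.out_eq']
      have h3 : (((⟨m, hm⟩ : ↥(Subgroup.normalizer ((S : Subgroup G) : Set G))) * q.out :
          ↥(Subgroup.normalizer ((S : Subgroup G) : Set G))) :
          ↥(Subgroup.normalizer ((S : Subgroup G) : Set G)) ⧸
            (S : Subgroup G).subgroupOf (Subgroup.normalizer ((S : Subgroup G) : Set G))) =
          (⟨m, hm⟩ : ↥(Subgroup.normalizer ((S : Subgroup G) : Set G))) •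
            ((q.out : ↥(Subgroup.normalizer ((S : Subgroup G) : Set G))) :
              ↥(Subgroup.normalizer ((S : Subgroup G) : Set G)) ⧸
              (S : Subgroup G).subgroupOf (Subgroup.normalizer ((S : Subgroup G) : Set G))) :=
        rfl
      rw [h3, QuotientGroup.out_eq']
    exact congrArg Subtype.val h1
  have hP1 := fixed_eq_one hG S hS _ (Subtype.property _) hPinv
  have hpar := prod_parity (R.subgroupOf (S : Subgroup G))
    (by
      intro a b ha2 hb2 haW hbW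
      have ha2' : (a : G) ^ 2 = 1 := by
        have := congrArg Subtype.val ha2
        simpa using this
      have hb2' : (b : G) ^ 2 = 1 := by
        have := congrArg Subtype.val hb2
        simpa using this
      have h1 := index_two_mul (omega1 (S : Subgroup G) hSc) (omega1 (S : Subgroup G) hSc ⊓ R)
        inf_le_left hcard (a : G) (b : G) ⟨a.2, ha2'⟩ ⟨b.2, hb2'⟩
        (fun h => haW (Subgroup.mem_subgroupOf.2 h.2)) (fun h => hbW (Subgroup.mem_subgroupOf.2 h.2))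
      exact Subgroup.mem_subgroupOf.2 h1.2)
    (fun q : ↥(Subgroup.normalizer ((S : Subgroup G) : Set G)) ⧸
        (S : Subgroup G).subgroupOf (Subgroup.normalizer ((S : Subgroup G) : Set G)) => F q.out)
    Finset.univ
    (by
      intro q _
      refine ⟨?_, ?_⟩
      · apply Subtype.ext
        show ((q.out : G) * t * (q.out : G)⁻¹) ^ 2 = 1
        rw [conj_pow, ht2]
        group
      · intro h
        exact hcon _ q.out.2 (Subgroup.mem_subgroupOf.1 h))
  have hPW : (∏ q : ↥(Subgroup.normalizer ((S : Subgroup G) : Set G)) ⧸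
        (S : Subgroup G).subgroupOf (Subgroup.normalizer ((S : Subgroup G) : Set G)), F q.out) ∈
      R.subgroupOf (S : Subgroup G) := by
    rw [Subgroup.mem_subgroupOf, hP1]
    exact R.one_mem
  have heven := hpar.2.1 hPW
  rw [Finset.card_univ, ← Nat.card_eq_fintype_card] at heven
  have hrel : ((S : Subgroup G).subgroupOf (Subgroup.normalizer ((S : Subgroup G) : Set G))).index ∣
      (S : Subgroup G).index := by
    have := Subgroup.relIndex_mul_index (Subgroup.le_normalizer : (S : Subgroup G) ≤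
      Subgroup.normalizer ((S : Subgroup G) : Set G))
    exact Dvd.intro _ this
  exact S.not_dvd_index ((even_iff_two_dvd.1 heven).trans hrel)

end Cfsg.Agent.Lib.Helper2.AbSylow
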