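import Mathlib

set_option autoImplicit false

namespace Cfsg.Agent.Lib.Helper2.BinQ

variable {F V : Type*} [Field F] [AddCommGroup V] [Module F V]

theorem polar_self [CharP F 2] (Q : QuadraticForm F V) (x : V) :
    QuadraticMap.polar Q x x = 0 := by
  have hx : x + x = 0 := by
    rw [← two_smul F x, CharTwo.two_eq_zero, zero_smul]
  rw [QuadraticMap.polar, hx, QuadraticMap.map_zero, zero_sub, sub_eq_add_neg, ← neg_add,
    CharTwo.add_self_eq_zero, neg_zero]

theorem lin_indep [CharP F 2] (Q : QuadraticForm F V) {v w : V}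
    (h : QuadraticMap.polar Q v w = 1) : LinearIndependent F ![v, w] := by
  rw [LinearIndependent.pair_iff]
  intro s t hst
  have h1 : QuadraticMap.polar Q v (s • v + t • w) = 0 := by
    rw [hst]
    simp
  have h2 : QuadraticMap.polar Q (s • v + t • w) w = 0 := by
    rw [hst]
    simp
  rw [QuadraticMap.polar_add_right, QuadraticMap.polar_smul_right,
    QuadraticMap.polar_smul_right, polar_self, h] at h1
  rw [QuadraticMap.polar_add_left, QuadraticMap.polar_smul_left,
    QuadraticMap.polar_smul_left, polar_self, h] at h2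
  simp at h1 h2
  exact ⟨h2, h1⟩

theorem main [Finite F] [CharP F 2] (Q : QuadraticForm F V) (h2 : Module.finrank F V = 2)
    (hQ : (QuadraticMap.polarBilin Q).Nondegenerate) :
    (∃ v w : V, LinearIndependent F ![v, w] ∧ Q v = 0 ∧ Q w = 0 ∧
      QuadraticMap.polar Q v w = 1) ∨
    (∃ (v w : V) (μ : F), LinearIndependent F ![v, w] ∧ (∀ x : F, x ^ 2 + x + μ ≠ 0) ∧
      Q v = 1 ∧ Q w = μ ∧ QuadraticMap.polar Q v w = 1) := by
  have hnt : Nontrivial V := Module.nontrivial_of_finrank_pos (R := F) (by omega)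
  have hex : ∀ v : V, v ≠ 0 → ∃ w, QuadraticMap.polar Q v w = 1 := by
    intro v hv
    have h1 : ∃ w, QuadraticMap.polarBilin Q v w ≠ 0 := by
      by_contra hcon
      push Not at hcon
      exact hv (hQ.1 v hcon)
    obtain ⟨w, hw⟩ := h1
    refine ⟨(QuadraticMap.polar Q v w)⁻¹ • w, ?_⟩
    rw [QuadraticMap.polar_smul_right, smul_eq_mul]
    exact inv_mul_cancel₀ hw
  by_cases hiso : ∃ v : V, v ≠ 0 ∧ Q v = 0
  · left
    obtain ⟨v, hv, hQv⟩ := hiso
    obtain ⟨w, hw⟩ := hex v hv
    have hp : QuadraticMap.polar Q v (w + Q w • v) = 1 := by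
      rw [QuadraticMap.polar_add_right, QuadraticMap.polar_smul_right, polar_self, hw]
      simp
    refine ⟨v, w + Q w • v, lin_indep Q hp, hQv, ?_, hp⟩
    rw [QuadraticMap.map_add Q, QuadraticMap.map_smul, hQv, QuadraticMap.polar_smul_right,
      QuadraticMap.polar_comm Q w v, hw]
    simp
    exact CharTwo.add_self_eq_zero _
  · right
    push Not at hiso
    obtain ⟨v₀, hv₀⟩ := exists_ne (0 : V)
    have ha := hiso v₀ hv₀
    have := Fintype.ofFinite F
    obtain ⟨b, hb⟩ := FiniteField.isSquare_of_char_two (ringChar.eq F 2) (Q v₀)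
    have hb0 : b ≠ 0 := by
      rintro rfl
      simp at hb
      exact ha hb
    have hv : b⁻¹ • v₀ ≠ 0 := smul_ne_zero (inv_ne_zero hb0) hv₀
    have hQv : Q (b⁻¹ • v₀) = 1 := by
      rw [QuadraticMap.map_smul, hb, smul_eq_mul]
      field_simp
    obtain ⟨w, hw⟩ := hex _ hv
    refine ⟨b⁻¹ • v₀, w, Q w, lin_indep Q hw, ?_, hQv, rfl, hw⟩
    intro x hx
    have hne : x • (b⁻¹ • v₀) + w ≠ 0 := by
      intro h0
      have h3 := (LinearIndependent.pair_iff.1 (lin_indep Q hw)) x 1 (by
        rw [one_smul]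
        exact h0)
      exact one_ne_zero h3.2
    apply hiso _ hne
    rw [QuadraticMap.map_add Q, QuadraticMap.map_smul, hQv, QuadraticMap.polar_smul_left, hw]
    simp only [smul_eq_mul, mul_one]
    linear_combination hx

end Cfsg.Agent.Lib.Helper2.BinQ
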