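import Mathlib

set_option autoImplicit false

namespace Cfsg.Agent.Lib.Helper2.Blichfeldt

open Polynomial

theorem burnside_pow {G α : Type*} [Group G] [Finite G] [Finite α] [MulAction G α] (k : ℕ) :
    ∃ c : ℕ, (∑ᶠ g : G, (Nat.card (MulAction.fixedBy α g)) ^ k) = c * Nat.card G := by
  classical
  haveI : Fintype G := Fintype.ofFinite G
  haveI : Fintype α := Fintype.ofFinite α
  have h := MulAction.sum_card_fixedBy_eq_card_orbits_mul_card_group G (Fin k → α)
  refine ⟨Fintype.card (Quotient (MulAction.orbitRel G (Fin k → α))), ?_⟩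
  rw [finsum_eq_sum_of_fintype, Nat.card_eq_fintype_card, ← h]
  apply Finset.sum_congr rfl
  intro g _
  have e : MulAction.fixedBy (Fin k → α) g ≃ (Fin k → MulAction.fixedBy α g) :=
    { toFun := fun f i => ⟨f.1 i, by have := congrFun f.2 i; exact this⟩
      invFun := fun f => ⟨fun i => (f i).1, by funext i; exact (f i).2⟩
      left_inv := fun f => rfl
      right_inv := fun f => rfl }
  rw [Fintype.card_congr e, Fintype.card_fun, Fintype.card_fin, Nat.card_eq_fintype_card]

theorem blichfeldt_int {G α : Type*} [Group G] [Finite G] [Finite α] [MulAction G α]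
    (L : Finset ℕ) (hL : ∀ g : G, g ≠ 1 → Nat.card (MulAction.fixedBy α g) ∈ L) :
    (Nat.card G : ℤ) ∣ ∏ l ∈ L, ((Nat.card α : ℤ) - (l : ℤ)) := by
  classical
  haveI : Fintype G := Fintype.ofFinite G
  let P : Polynomial ℤ := ∏ l ∈ L, (X - C (l : ℤ))
  have hev : ∀ x : ℤ, P.eval x = ∏ l ∈ L, (x - (l : ℤ)) := by
    intro x
    simp [P, Polynomial.eval_prod]
  have hsum : ∑ g : G, P.eval ((Nat.card (MulAction.fixedBy α g) : ℕ) : ℤ) =
      P.eval (Nat.card α : ℤ) := by
    rw [Finset.sum_eq_single (1 : G)]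
    · congr 2
      have : MulAction.fixedBy α (1 : G) = Set.univ := by
        ext x; simp
      rw [this, Nat.card_coe_set_eq, Set.ncard_univ]
    · intro g _ hg
      rw [hev]
      exact Finset.prod_eq_zero (hL g hg) (sub_self _)
    · intro h
      exact absurd (Finset.mem_univ _) h
  rw [← hev, ← hsum]
  have hexp : ∀ g : G, P.eval ((Nat.card (MulAction.fixedBy α g) : ℕ) : ℤ) =
      ∑ i ∈ Finset.range (P.natDegree + 1),
        P.coeff i * ((Nat.card (MulAction.fixedBy α g) : ℕ) : ℤ) ^ i :=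
    fun g => Polynomial.eval_eq_sum_range _
  rw [Finset.sum_congr rfl (fun g _ => hexp g), Finset.sum_comm]
  apply Finset.dvd_sum
  intro i _
  rw [← Finset.mul_sum]
  apply Dvd.dvd.mul_left
  obtain ⟨c, hc⟩ := burnside_pow (G := G) (α := α) i
  rw [finsum_eq_sum_of_fintype] at hc
  have : (∑ g : G, ((Nat.card (MulAction.fixedBy α g) : ℕ) : ℤ) ^ i) =
      ((c * Nat.card G : ℕ) : ℤ) := by
    rw [← hc]
    push_cast
    rfl
  rw [this]
  push_cast
  exact Dvd.intro_left _ rfl

theorem blichfeldt_nat {G α : Type*} [Group G] [Finite G] [Finite α] [MulAction G α]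
    (L : Finset ℕ) (hL : ∀ g : G, g ≠ 1 → Nat.card (MulAction.fixedBy α g) ∈ L) :
    Nat.card G ∣ ∏ l ∈ L, (Nat.card α - l) := by
  by_cases h : ∀ l ∈ L, l ≤ Nat.card α
  · have h1 := blichfeldt_int (G := G) (α := α) L hL
    have h2 : (∏ l ∈ L, ((Nat.card α : ℤ) - (l : ℤ))) = ((∏ l ∈ L, (Nat.card α - l) : ℕ) : ℤ) := by
      rw [Nat.cast_prod]
      apply Finset.prod_congr rfl
      intro l hl
      rw [Nat.cast_sub (h l hl)]
    rw [h2] at h1
    exact Int.natCast_dvd_natCast.1 h1
  · push Not at h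
    obtain ⟨l, hl, hlt⟩ := h
    have : ∏ l ∈ L, (Nat.card α - l) = 0 :=
      Finset.prod_eq_zero hl (Nat.sub_eq_zero_of_le hlt.le)
    rw [this]
    exact dvd_zero _

end Cfsg.Agent.Lib.Helper2.Blichfeldt
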