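import Mathlib

set_option autoImplicit false

namespace Cfsg.Agent.Lib.Helper2.BorelCount

theorem card_lt (n : ℕ) : Nat.card {p : Fin n × Fin n // p.2 < p.1} = n * (n - 1) / 2 := by
  classical
  rw [Nat.card_eq_fintype_card, Fintype.card_subtype, Finset.card_filter, Fintype.sum_prod_type]
  have h : ∀ i : Fin n, ∑ j : Fin n, (if j < i then 1 else 0) = (i : ℕ) := by
    intro i
    rw [← Finset.card_filter, Finset.filter_gt_eq_Iio, Fin.card_Iio]
  simp only [h]
  rw [Fin.sum_univ_eq_sum_range (fun i => i) n, Finset.sum_range_id]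

theorem borel_card {F : Type*} [Field F] [Fintype F] {q : ℕ} (hF : Fintype.card F = q) (n : ℕ) :
    Nat.card {g : Matrix.GeneralLinearGroup (Fin n) F //
      ∀ i j : Fin n, i < j → (g : Matrix (Fin n) (Fin n) F) i j = 0} =
      q ^ (n * (n - 1) / 2) * (q - 1) ^ n := by
  classical
  have hdet : ∀ M : Matrix (Fin n) (Fin n) F, (∀ i j : Fin n, i < j → M i j = 0) →
      M.det = ∏ i, M i i := by
    intro M hM
    exact Matrix.det_of_isLowerTriangular M
      (fun i j hij => hM i j (OrderDual.toDual_lt_toDual.1 hij))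
  have hlow : ∀ dl : (Fin n → Fˣ) × ({p : Fin n × Fin n // p.2 < p.1} → F),
      ∀ i j : Fin n, i < j →
        (fun i j : Fin n => if h : j < i then dl.2 ⟨(i, j), h⟩
          else if i = j then (dl.1 i : F) else 0) i j = 0 := by
    intro dl i j hij
    show (if h : j < i then dl.2 ⟨(i, j), h⟩ else if i = j then (dl.1 i : F) else 0) = 0
    rw [dif_neg (not_lt.2 hij.le), if_neg hij.ne]
  have hne : ∀ dl : (Fin n → Fˣ) × ({p : Fin n × Fin n // p.2 < p.1} → F),
      (Matrix.det (fun i j : Fin n => if h : j < i then dl.2 ⟨(i, j), h⟩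
          else if i = j then (dl.1 i : F) else 0)) ≠ 0 := by
    intro dl
    rw [hdet _ (hlow dl), Finset.prod_ne_zero_iff]
    intro i _
    show (if h : i < i then dl.2 ⟨(i, i), h⟩ else if i = i then (dl.1 i : F) else 0) ≠ 0
    rw [dif_neg (lt_irrefl i), if_pos rfl]
    exact (dl.1 i).ne_zero
  have hdiag : ∀ g : {g : Matrix.GeneralLinearGroup (Fin n) F //
      ∀ i j : Fin n, i < j → (g : Matrix (Fin n) (Fin n) F) i j = 0}, ∀ i : Fin n,
      (g.1 : Matrix (Fin n) (Fin n) F) i i ≠ 0 := by
    intro g i h0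
    have h1 := hdet _ g.2
    have h2 : (g.1 : Matrix (Fin n) (Fin n) F).det ≠ 0 :=
      ((Matrix.isUnit_iff_isUnit_det _).1 (Units.isUnit g.1)).ne_zero
    rw [h1] at h2
    exact h2 (Finset.prod_eq_zero (Finset.mem_univ i) h0)
  let e : {g : Matrix.GeneralLinearGroup (Fin n) F //
      ∀ i j : Fin n, i < j → (g : Matrix (Fin n) (Fin n) F) i j = 0} ≃
      (Fin n → Fˣ) × ({p : Fin n × Fin n // p.2 < p.1} → F) :=
    { toFun := fun g => (fun i => Units.mk0 ((g.1 : Matrix (Fin n) (Fin n) F) i i) (hdiag g i),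
        fun p => (g.1 : Matrix (Fin n) (Fin n) F) p.1.1 p.1.2)
      invFun := fun dl => ⟨Matrix.GeneralLinearGroup.mkOfDetNeZero _ (hne dl), hlow dl⟩
      left_inv := fun g => by
        apply Subtype.ext
        apply Units.ext
        ext i j
        show (if h : j < i then ((g.1 : Matrix (Fin n) (Fin n) F) i j)
          else if i = j then ((g.1 : Matrix (Fin n) (Fin n) F) i i) else 0) =
            (g.1 : Matrix (Fin n) (Fin n) F) i j
        by_cases h : j < i
        · rw [dif_pos h]
        · rw [dif_neg h]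
          by_cases h' : i = j
          · rw [if_pos h', h']
          · rw [if_neg h']
            exact (g.2 i j (lt_of_le_of_ne (not_lt.1 h) h')).symm
      right_inv := fun dl => by
        apply Prod.ext
        · funext i
          apply Units.ext
          show (if h : i < i then dl.2 ⟨(i, i), h⟩ else if i = i then (dl.1 i : F) else 0) =
            dl.1 i
          rw [dif_neg (lt_irrefl i), if_pos rfl]
        · funext p
          show (if h : p.1.2 < p.1.1 then dl.2 ⟨(p.1.1, p.1.2), h⟩
            else if p.1.1 = p.1.2 then (dl.1 p.1.1 : F) else 0) = dl.2 p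
          rw [dif_pos p.2] }
  rw [Nat.card_congr e, Nat.card_prod, Nat.card_fun, Nat.card_fun, Nat.card_units, card_lt,
    Nat.card_eq_fintype_card, hF, Nat.card_eq_fintype_card, Fintype.card_fin, mul_comm]

end Cfsg.Agent.Lib.Helper2.BorelCount
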