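import Mathlib
import Cfsg.Prelude.Def_ChevStructure

set_option autoImplicit false

namespace Cfsg.Agent.Lib.Helper2.ChevAdd

open Cfsg.Lie

def ents (D : ChevalleyDatum) (r s : ℕ) : List (List (ℕ × ℤ)) :=
  ((D.chain.getD r #[]).toList.filter (fun e => e.1 = s)).map (fun e => e.2.toList)

def colOK (D : ChevalleyDatum) (r u : ℕ) : Bool :=
  decide (u < D.nroots) && decide (u ≠ r) && decide (u ≠ D.negIdx.getD r 0)

def shapeOK (D : ChevalleyDatum) (r : ℕ) : List (ℕ × ℤ) → Bool
  | [] => true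
  | [(u1, _)] => colOK D r u1 && decide (ents D r u1 = [])
  | [(u1, M1), (u2, M2)] => colOK D r u1 && colOK D r u2 &&
      decide (ents D r u1 = [[(u2, 2 * M2 / M1)]]) && decide (M1 * (2 * M2 / M1) = 2 * M2) &&
      decide (ents D r u2 = [])
  | [(u1, M1), (u2, M2), (u3, M3)] => colOK D r u1 && colOK D r u2 && colOK D r u3 &&
      decide (ents D r u1 = [[(u2, 2 * M2 / M1), (u3, 3 * M3 / M1)]]) &&
      decide (M1 * (2 * M2 / M1) = 2 * M2) && decide (M1 * (3 * M3 / M1) = 3 * M3) &&
      decide (ents D r u2 = [[(u3, 3 * M3 / M2)]]) && decide (M2 * (3 * M3 / M2) = 3 * M3) &&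
      decide (ents D r u3 = [])
  | _ => false

def rootOK (D : ChevalleyDatum) (r : ℕ) : Bool :=
  decide (((List.range D.rank).map
    (fun i => (D.cartanSR.getD i #[]).getD r 0 * (D.coroot.getD r #[]).getD i 0)).sum = 2) &&
  (D.chain.getD r #[]).toList.all (fun e => shapeOK D r e.2.toList)

def addB (D : ChevalleyDatum) : Bool := (List.range D.nroots).all (rootOK D)

end Cfsg.Agent.Lib.Helper2.ChevAdd
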