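import Mathlib
import Cfsg.Agent.Lib.Helper2.ChevAdd0

set_option autoImplicit false

namespace Cfsg.Agent.Lib.Helper2.ChevAdd

open Cfsg.Lie

variable {F : Type*} [Field F]

def ind (u w : ℕ) : F := if u = w then 1 else 0

def Pl (l : List (ℕ × ℤ)) (w : ℕ) (t : F) : F :=
  ((l.zipIdx.filter (fun q => q.1.1 = w)).map (fun q => ((q.1.2 : ℤ) : F) * t ^ (q.2 + 1))).sum

def PP (D : ChevalleyDatum) (r s w : ℕ) (t : F) : F :=
  ((D.chainCoeff r s w).map (fun km => ((km.2 : ℤ) : F) * t ^ km.1)).sum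

theorem Pl_nil (w : ℕ) (t : F) : Pl ([] : List (ℕ × ℤ)) w t = 0 := by
  simp [Pl]

theorem Pl_one (u1 : ℕ) (M1 : ℤ) (w : ℕ) (t : F) :
    Pl [(u1, M1)] w t = ind u1 w * ((M1 : F) * t) := by
  by_cases h1 : u1 = w <;> simp [Pl, ind, h1]

theorem Pl_two (u1 u2 : ℕ) (M1 M2 : ℤ) (w : ℕ) (t : F) :
    Pl [(u1, M1), (u2, M2)] w t = ind u1 w * ((M1 : F) * t) + ind u2 w * ((M2 : F) * t ^ 2) := by
  by_cases h1 : u1 = w <;> by_cases h2 : u2 = w <;> simp [Pl, ind, h1, h2]

theorem Pl_three (u1 u2 u3 : ℕ) (M1 M2 M3 : ℤ) (w : ℕ) (t : F) :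
    Pl [(u1, M1), (u2, M2), (u3, M3)] w t =
      ind u1 w * ((M1 : F) * t) + ind u2 w * ((M2 : F) * t ^ 2) + ind u3 w * ((M3 : F) * t ^ 3) := by
  by_cases h1 : u1 = w <;> by_cases h2 : u2 = w <;> by_cases h3 : u3 = w <;>
    simp [Pl, ind, h1, h2, h3] <;> ring

theorem PP_eq (D : ChevalleyDatum) (r s w : ℕ) (t : F) :
    PP D r s w t = ((ents D r s).map (fun l => Pl l w t)).sum := by
  unfold PP ChevalleyDatum.chainCoeff ents
  generalize (D.chain.getD r #[]).toList.filter (fun e => e.1 = s) = L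
  induction L with
  | nil => simp
  | cons e L ih =>
    simp only [List.flatMap_cons, List.map_append, List.sum_append, List.map_cons, List.sum_cons]
    rw [ih]
    congr 1
    simp [Pl, List.map_map, Function.comp_def]

theorem sum_filter_fin {n : ℕ} (T : List ((ℕ × ℤ) × ℕ)) (hT : ∀ q ∈ T, q.1.1 < n)
    (f : (ℕ × ℤ) × ℕ → F) (g : ℕ → F) :
    ∑ u : Fin n, ((T.filter (fun q => q.1.1 = u.val)).map f).sum * g u.val =
      (T.map (fun q => f q * g q.1.1)).sum := by
  induction T with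
  | nil => simp
  | cons q T ih =>
    have hq : q.1.1 < n := hT q List.mem_cons_self
    have hT' : ∀ q' ∈ T, q'.1.1 < n := fun q' h => hT q' (List.mem_cons_of_mem _ h)
    have key : ∀ u : Fin n, ((List.filter (fun q' => decide (q'.1.1 = u.val)) (q :: T)).map f).sum =
        (if q.1.1 = u.val then f q else 0) +
          ((T.filter (fun q' => q'.1.1 = u.val)).map f).sum := by
      intro u
      by_cases h : q.1.1 = u.val
      · simp [List.filter_cons, h]
      · simp [List.filter_cons, h]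
    simp only [key, add_mul, Finset.sum_add_distrib, ih hT', List.map_cons, List.sum_cons]
    congr 1
    rw [Finset.sum_eq_single (⟨q.1.1, hq⟩ : Fin n)]
    · simp
    · intro u _ hu
      have h : q.1.1 ≠ u.val := fun h => hu (Fin.ext h.symm)
      simp [h]
    · intro h
      exact absurd (Finset.mem_univ _) h

theorem sum_PP_mul (D : ChevalleyDatum) (r s : ℕ)
    (hlt : ∀ l ∈ ents D r s, ∀ q ∈ l, q.1 < D.nroots) (t : F) (g : ℕ → F) :
    ∑ u : Fin D.nroots, PP D r s u.val t * g u.val =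
      ((ents D r s).map (fun l =>
        (l.zipIdx.map (fun q => ((q.1.2 : ℤ) : F) * t ^ (q.2 + 1) * g q.1.1)).sum)).sum := by
  simp only [PP_eq]
  generalize ents D r s = LL at hlt ⊢
  induction LL with
  | nil => simp
  | cons l LL ih =>
    simp only [List.map_cons, List.sum_cons, add_mul, Finset.sum_add_distrib]
    rw [ih (fun l' hl' => hlt l' (List.mem_cons_of_mem _ hl'))]
    congr 1
    unfold Pl
    apply sum_filter_fin
    intro q hq
    have h1 : l[q.2]? = some q.1 := List.mem_zipIdx_iff_getElem?.1 hq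
    exact hlt l List.mem_cons_self q.1 (List.mem_of_getElem? h1)

theorem shape_col (D : ChevalleyDatum) (r : ℕ) (l : List (ℕ × ℤ)) (h : shapeOK D r l = true) :
    ∀ q ∈ l, colOK D r q.1 = true := by
  match l, h with
  | [], _ => intro q hq; simp at hq
  | [(u1, M1)], h =>
    simp only [shapeOK, Bool.and_eq_true, decide_eq_true_eq] at h
    intro q hq
    simp only [List.mem_singleton] at hq
    rw [hq]
    exact h.1
  | [(u1, M1), (u2, M2)], h =>
    simp only [shapeOK, Bool.and_eq_true, decide_eq_true_eq] at h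
    intro q hq
    simp only [List.mem_cons, List.not_mem_nil, or_false] at hq
    rcases hq with rfl | rfl
    · exact h.1.1.1.1
    · exact h.1.1.1.2
  | [(u1, M1), (u2, M2), (u3, M3)], h =>
    simp only [shapeOK, Bool.and_eq_true, decide_eq_true_eq] at h
    intro q hq
    simp only [List.mem_cons, List.not_mem_nil, or_false] at hq
    rcases hq with rfl | rfl | rfl
    · exact h.1.1.1.1.1.1.1.1
    · exact h.1.1.1.1.1.1.1.2
    · exact h.1.1.1.1.1.1.2
  | _ :: _ :: _ :: _ :: _, h => simp [shapeOK] at h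

theorem entry_id (D : ChevalleyDatum) (r : ℕ) (l : List (ℕ × ℤ)) (h : shapeOK D r l = true)
    (w : ℕ) (t1 t2 : F) :
    Pl l w t1 + Pl l w t2 +
      (l.zipIdx.map (fun q => ((q.1.2 : ℤ) : F) * t2 ^ (q.2 + 1) * PP D r q.1.1 w t1)).sum =
    Pl l w (t1 + t2) := by
  match l, h with
  | [], _ => simp [Pl]
  | [(u1, M1)], h =>
    simp only [shapeOK, Bool.and_eq_true, decide_eq_true_eq] at h
    have e1 : PP D r u1 w t1 = 0 := by
      rw [PP_eq, h.2]
      simp
    simp only [Pl_one, List.zipIdx_cons, List.zipIdx_nil, List.map_cons, List.map_nil,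
      List.sum_cons, List.sum_nil, e1]
    ring
  | [(u1, M1), (u2, M2)], h =>
    simp only [shapeOK, Bool.and_eq_true, decide_eq_true_eq] at h
    obtain ⟨⟨⟨_, h1⟩, h2⟩, h3⟩ := h
    obtain ⟨N, hN1, hN2⟩ : ∃ N : ℤ, ents D r u1 = [[(u2, N)]] ∧ M1 * N = 2 * M2 := ⟨_, h1, h2⟩
    have hc : (M1 : F) * (N : F) = 2 * (M2 : F) := by exact_mod_cast congrArg (Int.cast : ℤ → F) hN2
    have e1 : PP D r u1 w t1 = ind u2 w * ((N : F) * t1) := by
      rw [PP_eq, hN1]
      simp [Pl_one]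
    have e2 : PP D r u2 w t1 = 0 := by
      rw [PP_eq, h3]
      simp
    simp only [Pl_two, List.zipIdx_cons, List.zipIdx_nil, List.map_cons, List.map_nil,
      List.sum_cons, List.sum_nil, e1, e2]
    linear_combination (ind u2 w * t1 * t2) * hc
  | [(u1, M1), (u2, M2), (u3, M3)], h =>
    simp only [shapeOK, Bool.and_eq_true, decide_eq_true_eq] at h
    obtain ⟨⟨⟨⟨⟨⟨_, h1⟩, h2⟩, h3⟩, h4⟩, h5⟩, h6⟩ := h
    obtain ⟨N1, N2, hN1, hN2, hN3⟩ : ∃ N1 N2 : ℤ, ents D r u1 = [[(u2, N1), (u3, N2)]] ∧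
        M1 * N1 = 2 * M2 ∧ M1 * N2 = 3 * M3 := ⟨_, _, h1, h2, h3⟩
    obtain ⟨N3, hN4, hN5⟩ : ∃ N3 : ℤ, ents D r u2 = [[(u3, N3)]] ∧ M2 * N3 = 3 * M3 :=
      ⟨_, h4, h5⟩
    have hc1 : (M1 : F) * (N1 : F) = 2 * (M2 : F) := by
      exact_mod_cast congrArg (Int.cast : ℤ → F) hN2
    have hc2 : (M1 : F) * (N2 : F) = 3 * (M3 : F) := by
      exact_mod_cast congrArg (Int.cast : ℤ → F) hN3
    have hc3 : (M2 : F) * (N3 : F) = 3 * (M3 : F) := by
      exact_mod_cast congrArg (Int.cast : ℤ → F) hN5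
    have e1 : PP D r u1 w t1 = ind u2 w * ((N1 : F) * t1) + ind u3 w * ((N2 : F) * t1 ^ 2) := by
      rw [PP_eq, hN1]
      simp [Pl_two]
    have e2 : PP D r u2 w t1 = ind u3 w * ((N3 : F) * t1) := by
      rw [PP_eq, hN4]
      simp [Pl_one]
    have e3 : PP D r u3 w t1 = 0 := by
      rw [PP_eq, h6]
      simp
    simp only [Pl_three, List.zipIdx_cons, List.zipIdx_nil, List.map_cons, List.map_nil,
      List.sum_cons, List.sum_nil, e1, e2, e3]
    linear_combination (ind u2 w * t1 * t2) * hc1 + (ind u3 w * t1 ^ 2 * t2) * hc2 +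
      (ind u3 w * t1 * t2 ^ 2) * hc3
  | _ :: _ :: _ :: _ :: _, h => simp [shapeOK] at h

end Cfsg.Agent.Lib.Helper2.ChevAdd
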