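import Mathlib
import Cfsg.Agent.Lib.Helper2.ChevAdd1

set_option autoImplicit false

namespace Cfsg.Agent.Lib.Helper2.ChevAdd

open Cfsg.Lie

variable {F : Type*} [Field F]

theorem sum_mul_ite {ι : Type*} [Fintype ι] [DecidableEq ι] (f : ι → F) (a : ι) (c : F) :
    ∑ x, f x * (if x = a then c else 0) = f a * c := by
  simp

theorem sum_ite_mul {ι : Type*} [Fintype ι] [DecidableEq ι] (g : ι → F) (a : ι) :
    ∑ x, (if a = x then 1 else 0) * g x = g a := by
  simp

theorem sum_mul_ite2 {ι : Type*} [Fintype ι] [DecidableEq ι] (f : ι → F) (a b : ι) (hab : a ≠ b)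
    (c d : F) :
    ∑ x, f x * (if x = a then c else if x = b then d else 0) = f a * c + f b * d := by
  rw [Fintype.sum_eq_add a b hab]
  · simp [hab.symm]
  · intro x hx
    simp [hx.1, hx.2]

theorem sum_range_list (f : ℕ → F) (n : ℕ) :
    ∑ i ∈ Finset.range n, f i = ((List.range n).map f).sum := by
  induction n with
  | zero => simp
  | succ n ih => rw [Finset.sum_range_succ, List.range_succ, List.map_append, List.sum_append, ih]; simp

variable (D : ChevalleyDatum) (r : Fin D.nroots)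

theorem xm_ii (t : F) (i' i : Fin D.rank) :
    D.xMat F r t (Sum.inl i') (Sum.inl i) = if i' = i then 1 else 0 := rfl

theorem xm_ri (t : F) (u : Fin D.nroots) (i : Fin D.rank) :
    D.xMat F r t (Sum.inr u) (Sum.inl i) =
      if u = r then - (((D.cartanSR.getD i.val #[]).getD r.val 0 : ℤ) : F) * t else 0 := rfl

theorem xm_ir (t : F) (i' : Fin D.rank) : D.xMat F r t (Sum.inl i') (Sum.inr r) = 0 := by
  simp only [ChevalleyDatum.xMat, Matrix.of_apply, if_true]

theorem xm_rr (t : F) (u : Fin D.nroots) :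
    D.xMat F r t (Sum.inr u) (Sum.inr r) = if u = r then 1 else 0 := by
  simp only [ChevalleyDatum.xMat, Matrix.of_apply, if_true]

theorem xm_in (t : F) (s : Fin D.nroots) (h1 : s ≠ r) (h2 : s.val = D.negIdx.getD r.val 0)
    (i' : Fin D.rank) :
    D.xMat F r t (Sum.inl i') (Sum.inr s) =
      (((D.coroot.getD r.val #[]).getD i'.val 0 : ℤ) : F) * t := by
  simp only [ChevalleyDatum.xMat, Matrix.of_apply, if_neg h1, if_pos h2]

theorem xm_rn (t : F) (s : Fin D.nroots) (h1 : s ≠ r) (h2 : s.val = D.negIdx.getD r.val 0)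
    (u : Fin D.nroots) :
    D.xMat F r t (Sum.inr u) (Sum.inr s) = if u = s then 1 else if u = r then -(t ^ 2) else 0 := by
  simp only [ChevalleyDatum.xMat, Matrix.of_apply, if_neg h1, if_pos h2]

theorem xm_ig (t : F) (s : Fin D.nroots) (h1 : s ≠ r) (h2 : s.val ≠ D.negIdx.getD r.val 0)
    (i' : Fin D.rank) : D.xMat F r t (Sum.inl i') (Sum.inr s) = 0 := by
  simp only [ChevalleyDatum.xMat, Matrix.of_apply, if_neg h1, if_neg h2]

theorem xm_rg (t : F) (s : Fin D.nroots) (h1 : s ≠ r) (h2 : s.val ≠ D.negIdx.getD r.val 0)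
    (u : Fin D.nroots) :
    D.xMat F r t (Sum.inr u) (Sum.inr s) = (if u = s then 1 else 0) + PP D r.val s.val u.val t := by
  simp only [ChevalleyDatum.xMat, Matrix.of_apply, if_neg h1, if_neg h2]
  rfl

theorem root_ok (hG : addB D = true) : rootOK D r.val = true := by
  unfold addB at hG
  rw [List.all_eq_true] at hG
  exact hG r.val (List.mem_range.2 r.isLt)

theorem ents_shape (hG : addB D = true) (s : ℕ) : ∀ l ∈ ents D r.val s, shapeOK D r.val l = true := by
  intro l hl
  have h1 := root_ok D r hG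
  unfold rootOK at h1
  rw [Bool.and_eq_true, List.all_eq_true] at h1
  unfold ents at hl
  rw [List.mem_map] at hl
  obtain ⟨e, he, rfl⟩ := hl
  exact h1.2 e (List.mem_filter.1 he).1

theorem coeff_col (hG : addB D = true) (s u : ℕ) (hne : D.chainCoeff r.val s u ≠ []) :
    u < D.nroots ∧ u ≠ r.val ∧ u ≠ D.negIdx.getD r.val 0 := by
  obtain ⟨km, hkm⟩ := List.exists_mem_of_ne_nil _ hne
  unfold ChevalleyDatum.chainCoeff at hkm
  rw [List.mem_flatMap] at hkm
  obtain ⟨e, he, hkm⟩ := hkm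
  rw [List.mem_map] at hkm
  obtain ⟨q, hq, _⟩ := hkm
  rw [List.mem_filter] at hq
  obtain ⟨hq1, hq2⟩ := hq
  simp only [decide_eq_true_eq] at hq2
  have h1 : e.2.toList[q.2]? = some q.1 := List.mem_zipIdx_iff_getElem?.1 hq1
  have h2 : q.1 ∈ e.2.toList := List.mem_of_getElem? h1
  have h3 : e.2.toList ∈ ents D r.val s := by
    unfold ents
    exact List.mem_map.2 ⟨e, he, rfl⟩
  have h4 := shape_col D r.val _ (ents_shape D r hG s _ h3) q.1 h2
  unfold colOK at h4
  simp only [Bool.and_eq_true, decide_eq_true_eq] at h4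
  rw [hq2] at h4
  exact ⟨h4.1.1, h4.1.2, h4.2⟩

theorem PP_nil (s u : ℕ) (t : F) (h : D.chainCoeff r.val s u = []) : PP D r.val s u t = 0 := by
  unfold PP
  rw [h]
  rfl

theorem cartan_sum (hG : addB D = true) :
    ∑ i : Fin D.rank, (((D.cartanSR.getD i.val #[]).getD r.val 0 : ℤ) : F) *
      (((D.coroot.getD r.val #[]).getD i.val 0 : ℤ) : F) = 2 := by
  have h1 := root_ok D r hG
  unfold rootOK at h1
  rw [Bool.and_eq_true, decide_eq_true_eq] at h1
  have h2 := congrArg (Int.cast : ℤ → F) h1.1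
  rw [Fin.sum_univ_eq_sum_range (fun i => (((D.cartanSR.getD i #[]).getD r.val 0 : ℤ) : F) *
      (((D.coroot.getD r.val #[]).getD i 0 : ℤ) : F)) D.rank, sum_range_list]
  rw [Int.cast_list_sum, List.map_map] at h2
  have h3 : (Int.cast : ℤ → F) ∘ (fun i => (D.cartanSR.getD i #[]).getD r.val 0 *
      (D.coroot.getD r.val #[]).getD i 0) = fun i => (((D.cartanSR.getD i #[]).getD r.val 0 : ℤ) : F) *
      (((D.coroot.getD r.val #[]).getD i 0 : ℤ) : F) := by
    funext i
    simp
  rw [h3] at h2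
  rw [h2]
  norm_num

end Cfsg.Agent.Lib.Helper2.ChevAdd
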