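import Mathlib
import Cfsg.Agent.Lib.Helper2.ChevAdd2

set_option autoImplicit false

namespace Cfsg.Agent.Lib.Helper2.ChevAdd

open Cfsg.Lie

variable {F : Type*} [Field F] (D : ChevalleyDatum) (r : Fin D.nroots)

theorem add_gen_inr (hG : addB D = true) (t1 t2 : F) (s : Fin D.nroots) (h1 : s ≠ r)
    (h2 : s.val ≠ D.negIdx.getD r.val 0) (w : Fin D.nroots) :
    ∑ u : Fin D.nroots, D.xMat F r t1 (Sum.inr w) (Sum.inr u) *
        ((if u = s then 1 else 0) + PP D r.val s.val u.val t2) =
      (if w = s then 1 else 0) + PP D r.val s.val w.val (t1 + t2) := by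
  have hterm : ∀ u : Fin D.nroots, D.xMat F r t1 (Sum.inr w) (Sum.inr u) *
      ((if u = s then 1 else 0) + PP D r.val s.val u.val t2) =
      D.xMat F r t1 (Sum.inr w) (Sum.inr u) * (if u = s then 1 else 0) +
        (if w = u then 1 else 0) * PP D r.val s.val u.val t2 +
        PP D r.val s.val u.val t2 * PP D r.val u.val w.val t1 := by
    intro u
    by_cases hu : D.chainCoeff r.val s.val u.val = []
    · rw [PP_nil D r _ _ t2 hu]
      ring
    · obtain ⟨_, hu2, hu3⟩ := coeff_col D r hG s.val u.val hu
      have hur : u ≠ r := fun h => hu2 (congrArg Fin.val h)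
      rw [xm_rg D r t1 u hur hu3 w]
      ring
  simp only [hterm, Finset.sum_add_distrib]
  rw [sum_mul_ite, sum_ite_mul (fun u : Fin D.nroots => PP D r.val s.val u.val t2) w,
    xm_rg D r t1 s h1 h2 w, mul_one]
  have hlt : ∀ l ∈ ents D r.val s.val, ∀ q ∈ l, q.1 < D.nroots := by
    intro l hl q hq
    have h4 := shape_col D r.val l (ents_shape D r hG s.val l hl) q hq
    unfold colOK at h4
    simp only [Bool.and_eq_true, decide_eq_true_eq] at h4
    exact h4.1.1
  rw [sum_PP_mul D r.val s.val hlt t2 (fun k => PP D r.val k w.val t1)]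
  rw [PP_eq D r.val s.val w.val t1, PP_eq D r.val s.val w.val t2,
    PP_eq D r.val s.val w.val (t1 + t2)]
  have hmap : (ents D r.val s.val).map (fun l => Pl l w.val (t1 + t2)) =
      (ents D r.val s.val).map (fun l => Pl l w.val t1 + Pl l w.val t2 +
        (l.zipIdx.map (fun q => ((q.1.2 : ℤ) : F) * t2 ^ (q.2 + 1) *
          PP D r.val q.1.1 w.val t1)).sum) := by
    apply List.map_congr_left
    intro l hl
    exact (entry_id D r.val l (ents_shape D r hG s.val l hl) w.val t1 t2).symm
  rw [hmap, List.sum_map_add, List.sum_map_add]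
  ring

theorem add_gen_inl (hG : addB D = true) (t1 t2 : F) (s : Fin D.nroots) (h1 : s ≠ r)
    (h2 : s.val ≠ D.negIdx.getD r.val 0) (i' : Fin D.rank) :
    ∑ u : Fin D.nroots, D.xMat F r t1 (Sum.inl i') (Sum.inr u) *
        ((if u = s then 1 else 0) + PP D r.val s.val u.val t2) = 0 := by
  apply Finset.sum_eq_zero
  intro u _
  by_cases hu : D.chainCoeff r.val s.val u.val = []
  · rw [PP_nil D r _ _ t2 hu, add_zero]
    by_cases hus : u = s
    · rw [hus, xm_ig D r t1 s h1 h2 i', zero_mul]
    · rw [if_neg hus, mul_zero]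
  · obtain ⟨_, hu2, hu3⟩ := coeff_col D r hG s.val u.val hu
    have hur : u ≠ r := fun h => hu2 (congrArg Fin.val h)
    rw [xm_ig D r t1 u hur hu3 i', zero_mul]

theorem add_entry (hG : addB D = true) (t1 t2 : F) (row col : D.Idx) :
    ∑ c : D.Idx, D.xMat F r t1 row c * D.xMat F r t2 c col = D.xMat F r (t1 + t2) row col := by
  rw [Fintype.sum_sum_type]
  rcases col with i | s
  · simp only [xm_ii, xm_ri]
    rw [sum_mul_ite, sum_mul_ite]
    rcases row with i' | w
    · rw [xm_ii, xm_ir, xm_ii]
      ring
    · rw [xm_ri, xm_rr, xm_ri]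
      split_ifs <;> ring
  · by_cases h1 : s = r
    · rw [h1]
      simp only [xm_ir, xm_rr, mul_zero, Finset.sum_const_zero, zero_add]
      rw [sum_mul_ite, mul_one]
      rcases row with i' | w
      · rw [xm_ir, xm_ir]
      · rw [xm_rr, xm_rr]
    · by_cases h2 : s.val = D.negIdx.getD r.val 0
      · simp only [xm_in D r t2 s h1 h2, xm_rn D r t2 s h1 h2]
        rw [sum_mul_ite2 _ s r h1]
        rcases row with i' | w
        · simp only [xm_ii]
          rw [sum_ite_mul (fun i : Fin D.rank =>
            (((D.coroot.getD r.val #[]).getD i.val 0 : ℤ) : F) * t2) i',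
            xm_in D r t1 s h1 h2, xm_ir, xm_in D r (t1 + t2) s h1 h2]
          ring
        · simp only [xm_ri]
          rw [xm_rn D r t1 s h1 h2, xm_rr, xm_rn D r (t1 + t2) s h1 h2]
          by_cases hw : w = r
          · have hrs : ¬ r = s := fun h => h1 h.symm
            rw [hw]
            simp only [if_true, if_neg hrs]
            have hs := cartan_sum (F := F) D r hG
            have h3 : ∀ i : Fin D.rank, -(((D.cartanSR.getD i.val #[]).getD r.val 0 : ℤ) : F) * t1 *
                ((((D.coroot.getD r.val #[]).getD i.val 0 : ℤ) : F) * t2) =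
                -(t1 * t2) * ((((D.cartanSR.getD i.val #[]).getD r.val 0 : ℤ) : F) *
                  (((D.coroot.getD r.val #[]).getD i.val 0 : ℤ) : F)) := by
              intro i
              ring
            simp only [h3]
            rw [← Finset.mul_sum, hs]
            ring
          · simp only [if_neg hw, zero_mul, Finset.sum_const_zero]
            split_ifs <;> ring
      · simp only [xm_ig D r t2 s h1 h2, xm_rg D r t2 s h1 h2, mul_zero, Finset.sum_const_zero,
          zero_add]
        rcases row with i' | w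
        · rw [add_gen_inl D r hG t1 t2 s h1 h2 i', xm_ig D r (t1 + t2) s h1 h2]
        · rw [add_gen_inr D r hG t1 t2 s h1 h2 w, xm_rg D r (t1 + t2) s h1 h2]

theorem x_add (hG : addB D = true) (r : ℕ) (hr : r < D.nroots) (t1 t2 : F) :
    D.x F r t1 * D.x F r t2 = D.x F r (t1 + t2) := by
  unfold ChevalleyDatum.x
  rw [dif_pos hr, dif_pos hr, dif_pos hr]
  ext row col
  rw [Matrix.mul_apply]
  exact add_entry D ⟨r, hr⟩ hG t1 t2 row col

end Cfsg.Agent.Lib.Helper2.ChevAdd
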