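import Mathlib
import Cfsg.Agent.Lib.Helper2.ChevAdd3
import Cfsg.Prelude.Def_ChevG2
import Cfsg.Prelude.Def_ChevB2
import Cfsg.Prelude.Def_ChevF4
import Cfsg.Prelude.Def_ChevD4
import Cfsg.Prelude.Def_ChevE6
import Cfsg.Prelude.Def_ChevE7
import Cfsg.Prelude.Def_ChevE8

set_option autoImplicit false

namespace Cfsg.Agent.Lib.Helper2.ChevAdd

open Cfsg.Lie

set_option maxRecDepth 100000 in
theorem add_G2 : addB chevG2 = true := by decide +kernel

set_option maxRecDepth 100000 in
theorem add_B2 : addB chevB2 = true := by decide +kernel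

set_option maxRecDepth 100000 in
theorem add_F4 : addB chevF4 = true := by decide +kernel

set_option maxRecDepth 100000 in
theorem add_D4 : addB chevD4 = true := by decide +kernel

set_option maxRecDepth 100000 in
theorem add_E6 : addB chevE6 = true := by decide +kernel

set_option maxRecDepth 100000 in
theorem add_E7 : addB chevE7 = true := by decide +kernel

set_option maxRecDepth 100000 in
theorem add_E8 : addB chevE8 = true := by decide +kernel

theorem add_of_mem (D : ChevalleyDatum)
    (hD : D ∈ [chevG2, chevB2, chevD4, chevF4, chevE6, chevE7, chevE8]) : addB D = true := by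
  simp only [List.mem_cons, List.not_mem_nil, or_false] at hD
  rcases hD with rfl | rfl | rfl | rfl | rfl | rfl | rfl
  · exact add_G2
  · exact add_B2
  · exact add_D4
  · exact add_F4
  · exact add_E6
  · exact add_E7
  · exact add_E8

theorem s1023 {F : Type*} [Field F] (D : ChevalleyDatum)
    (hD : D ∈ [chevG2, chevB2, chevD4, chevF4, chevE6, chevE7, chevE8]) (r : ℕ)
    (hr : r < D.nroots) (t₁ t₂ : F) : D.x F r t₁ * D.x F r t₂ = D.x F r (t₁ + t₂) :=
  x_add D (add_of_mem D hD) r hr t₁ t₂

end Cfsg.Agent.Lib.Helper2.ChevAdd
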