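import Mathlib
import Cfsg.Agent.Lib.Helper2.ChevAdd3

set_option autoImplicit false

namespace Cfsg.Agent.Lib.Helper2.ChevAdd

open Cfsg.Lie
open scoped MatrixGroups

variable {F : Type*} [Field F] (D : ChevalleyDatum)

theorem coeff_pos (r s u : ℕ) (km : ℕ × ℤ) (h : km ∈ D.chainCoeff r s u) : km.1 ≠ 0 := by
  unfold ChevalleyDatum.chainCoeff at h
  rw [List.mem_flatMap] at h
  obtain ⟨e, _, h⟩ := h
  rw [List.mem_map] at h
  obtain ⟨q, _, rfl⟩ := h
  exact Nat.succ_ne_zero _

theorem PP_zero (r s u : ℕ) : PP (F := F) D r s u 0 = 0 := by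
  unfold PP
  apply List.sum_eq_zero
  intro x hx
  rw [List.mem_map] at hx
  obtain ⟨km, hkm, rfl⟩ := hx
  rw [zero_pow (coeff_pos D r s u km hkm), mul_zero]

theorem xMat_zero (r : Fin D.nroots) : D.xMat F r 0 = 1 := by
  ext row col
  rcases col with i | s
  · rcases row with i' | u
    · rw [xm_ii, Matrix.one_apply]
      simp only [Sum.inl.injEq]
    · rw [xm_ri, Matrix.one_apply]
      simp
  · by_cases h1 : s = r
    · rw [h1]
      rcases row with i' | u
      · rw [xm_ir, Matrix.one_apply]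
        simp
      · rw [xm_rr, Matrix.one_apply]
        simp only [Sum.inr.injEq]
    · by_cases h2 : s.val = D.negIdx.getD r.val 0
      · rcases row with i' | u
        · rw [xm_in D r 0 s h1 h2, Matrix.one_apply]
          simp
        · rw [xm_rn D r 0 s h1 h2, Matrix.one_apply]
          simp only [Sum.inr.injEq]
          split_ifs <;> simp
      · rcases row with i' | u
        · rw [xm_ig D r 0 s h1 h2, Matrix.one_apply]
          simp
        · rw [xm_rg D r 0 s h1 h2, PP_zero, add_zero, Matrix.one_apply]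
          simp only [Sum.inr.injEq]

theorem x_zero (r : ℕ) : D.x F r 0 = 1 := by
  unfold ChevalleyDatum.x
  split_ifs with h
  · exact xMat_zero D ⟨r, h⟩
  · rfl

theorem x_mul_neg (hG : addB D = true) (r : ℕ) (t : F) : D.x F r t * D.x F r (-t) = 1 := by
  by_cases hr : r < D.nroots
  · rw [x_add D hG r hr, add_neg_cancel, x_zero]
  · unfold ChevalleyDatum.x
    rw [dif_neg hr, dif_neg hr, one_mul]

def xGL (hG : addB D = true) (r : ℕ) (t : F) : GL D.Idx F :=
  ⟨D.x F r t, D.x F r (-t), x_mul_neg D hG r t, by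
    have h := x_mul_neg D hG r (-t)
    rw [neg_neg] at h
    exact h⟩

theorem xGL_coe (hG : addB D = true) (r : ℕ) (t : F) :
    ((xGL D hG r t : GL D.Idx F) : Matrix D.Idx D.Idx F) = D.x F r t := rfl

theorem xGL_mem (hG : addB D = true) (r : ℕ) (t : F) : xGL D hG r t ∈ D.group F := by
  by_cases hr : r < D.nroots
  · apply Subgroup.subset_closure
    refine ⟨⟨r, hr⟩, t, ?_⟩
    rw [xGL_coe]
    unfold ChevalleyDatum.x
    rw [dif_pos hr]
  · have h : xGL D hG r t = 1 := by
      apply Units.ext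
      rw [xGL_coe]
      unfold ChevalleyDatum.x
      rw [dif_neg hr]
      rfl
    rw [h]
    exact Subgroup.one_mem _

def wGL (hG : addB D = true) (w : List (ℕ × F)) : GL D.Idx F :=
  (w.map (fun p => xGL D hG p.1 p.2)).prod

theorem wGL_coe (hG : addB D = true) (w : List (ℕ × F)) :
    ((wGL D hG w : GL D.Idx F) : Matrix D.Idx D.Idx F) = D.wordMat F w := by
  unfold wGL ChevalleyDatum.wordMat
  induction w with
  | nil => rfl
  | cons p w ih =>
    rw [List.map_cons, List.prod_cons, List.map_cons, List.prod_cons, Units.val_mul, ih, xGL_coe]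

theorem wGL_mem (hG : addB D = true) (w : List (ℕ × F)) : wGL D hG w ∈ D.group F := by
  unfold wGL
  apply Subgroup.list_prod_mem
  intro x hx
  rw [List.mem_map] at hx
  obtain ⟨p, _, rfl⟩ := hx
  exact xGL_mem D hG p.1 p.2

theorem wGL_append (hG : addB D = true) (w1 w2 : List (ℕ × F)) :
    wGL D hG (w1 ++ w2) = wGL D hG w1 * wGL D hG w2 := by
  unfold wGL
  rw [List.map_append, List.prod_append]

theorem eq_wGL (hG : addB D = true) (g : GL D.Idx F) (w : List (ℕ × F))
    (h : (g : Matrix D.Idx D.Idx F) = D.wordMat F w) : g = wGL D hG w := by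
  apply Units.ext
  rw [h, wGL_coe]

theorem eq_xGL (hG : addB D = true) (g : GL D.Idx F) (r : ℕ) (t : F)
    (h : (g : Matrix D.Idx D.Idx F) = D.x F r t) : g = xGL D hG r t := by
  apply Units.ext
  rw [h, xGL_coe]

def posNeg (D : ChevalleyDatum) : Bool :=
  (List.range D.nroots).all (fun r => decide (D.IsPosRoot r) ||
    (decide (D.IsPosRoot (D.neg r)) && decide (D.neg (D.neg r) = r)))

theorem borel_le (hG : addB D = true) : D.borelSubgroup F ≤ D.group F := by
  unfold ChevalleyDatum.borelSubgroup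
  apply sup_le
  · unfold ChevalleyDatum.posUnipotent
    rw [Subgroup.closure_le]
    rintro g ⟨r, t, _, h⟩
    rw [eq_xGL D hG g r t h]
    exact xGL_mem D hG r t
  · unfold ChevalleyDatum.diagonalSubgroup
    rw [Subgroup.closure_le]
    rintro g ⟨r, t, _, _, h⟩
    rw [eq_wGL D hG g _ h]
    exact wGL_mem D hG _

theorem monomial_le (hG : addB D = true) : D.monomialSubgroup F ≤ D.group F := by
  unfold ChevalleyDatum.monomialSubgroup
  apply sup_le
  · unfold ChevalleyDatum.diagonalSubgroup
    rw [Subgroup.closure_le]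
    rintro g ⟨r, t, _, _, h⟩
    rw [eq_wGL D hG g _ h]
    exact wGL_mem D hG _
  · rw [Subgroup.closure_le]
    rintro g ⟨r, _, h⟩
    rw [eq_wGL D hG g _ h]
    exact wGL_mem D hG _

theorem nGL_mem (hG : addB D = true) (r : ℕ) (hr : r < D.nroots) (c : F) (hc : c ≠ 0) :
    wGL D hG (D.nWord r c) ∈ D.monomialSubgroup F := by
  have h1 : wGL D hG (D.nWord r (1 : F)) ∈ D.monomialSubgroup F := by
    unfold ChevalleyDatum.monomialSubgroup
    apply Subgroup.mem_sup_right
    apply Subgroup.subset_closure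
    exact ⟨r, hr, wGL_coe D hG _⟩
  have hH : ∀ c : F, c ≠ 0 → wGL D hG (D.hWord r c) ∈ D.monomialSubgroup F := by
    intro c hc
    unfold ChevalleyDatum.monomialSubgroup
    apply Subgroup.mem_sup_left
    apply Subgroup.subset_closure
    exact ⟨r, c, hr, hc, wGL_coe D hG _⟩
  have h2 := hH 1 one_ne_zero
  have h3 := hH c hc
  unfold ChevalleyDatum.hWord at h2 h3
  rw [wGL_append] at h2 h3
  have h4 : wGL D hG (D.nWord r (-1 : F)) ∈ D.monomialSubgroup F := by
    have h5 := Subgroup.mul_mem _ (Subgroup.inv_mem _ h1) h2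
    rwa [inv_mul_cancel_left] at h5
  have h6 := Subgroup.mul_mem _ h3 (Subgroup.inv_mem _ h4)
  rwa [mul_inv_cancel_right] at h6

theorem group_le (hG : addB D = true) (hP : posNeg D = true) :
    D.group F ≤ D.borelSubgroup F ⊔ D.monomialSubgroup F := by
  unfold ChevalleyDatum.group
  rw [Subgroup.closure_le]
  rintro g ⟨r, t, h⟩
  have hx : (g : Matrix D.Idx D.Idx F) = D.x F r.val t := by
    rw [h]
    unfold ChevalleyDatum.x
    rw [dif_pos r.isLt]
  have hU : ∀ (r' : ℕ) (c : F), D.IsPosRoot r' →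
      xGL D hG r' c ∈ D.borelSubgroup F ⊔ D.monomialSubgroup F := by
    intro r' c hpos
    apply Subgroup.mem_sup_left
    unfold ChevalleyDatum.borelSubgroup
    apply Subgroup.mem_sup_left
    apply Subgroup.subset_closure
    exact ⟨r', c, hpos, xGL_coe D hG r' c⟩
  unfold posNeg at hP
  rw [List.all_eq_true] at hP
  have h1 := hP r.val (List.mem_range.2 r.isLt)
  simp only [Bool.or_eq_true, Bool.and_eq_true, decide_eq_true_eq] at h1
  rw [SetLike.mem_coe, eq_xGL D hG g r.val t hx]
  rcases h1 with h1 | ⟨h1, h2⟩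
  · exact hU r.val t h1
  · by_cases ht : t = 0
    · have h3 : xGL D hG r.val t = 1 := by
        apply Units.ext
        rw [xGL_coe, ht, x_zero]
        rfl
      rw [h3]
      exact Subgroup.one_mem _
    · have hc : -t⁻¹ ≠ 0 := neg_ne_zero.2 (inv_ne_zero ht)
      have hn := nGL_mem D hG (D.neg r.val) h1.1 (-t⁻¹) hc
      have ha := hU (D.neg r.val) (-t⁻¹) h1
      have hw : wGL D hG (D.nWord (D.neg r.val) (-t⁻¹)) =
          xGL D hG (D.neg r.val) (-t⁻¹) * xGL D hG r.val t * xGL D hG (D.neg r.val) (-t⁻¹) := by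
        unfold wGL ChevalleyDatum.nWord
        simp only [List.map_cons, List.map_nil, List.prod_cons, List.prod_nil, mul_one]
        rw [h2, neg_inv, inv_inv, neg_neg, mul_assoc]
      have h4 : xGL D hG r.val t = (xGL D hG (D.neg r.val) (-t⁻¹))⁻¹ *
          wGL D hG (D.nWord (D.neg r.val) (-t⁻¹)) * (xGL D hG (D.neg r.val) (-t⁻¹))⁻¹ := by
        rw [hw]
        group
      rw [h4]
      exact Subgroup.mul_mem _ (Subgroup.mul_mem _ (Subgroup.inv_mem _ ha)
        (Subgroup.mem_sup_right hn)) (Subgroup.inv_mem _ ha)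

theorem bn_main (hG : addB D = true) (hP : posNeg D = true) :
    D.borelSubgroup F ≤ D.group F ∧ D.monomialSubgroup F ≤ D.group F ∧
      D.borelSubgroup F ⊔ D.monomialSubgroup F = D.group F :=
  ⟨borel_le D hG, monomial_le D hG,
    le_antisymm (sup_le (borel_le D hG) (monomial_le D hG)) (group_le D hG hP)⟩

end Cfsg.Agent.Lib.Helper2.ChevAdd
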