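import Mathlib
import Cfsg.Agent.Lib.Helper2.ChevGL
import Cfsg.Agent.Lib.Helper2.ChevAddTab

set_option autoImplicit false

namespace Cfsg.Agent.Lib.Helper2.ChevAdd

open Cfsg.Lie
open scoped MatrixGroups

set_option maxRecDepth 100000 in
theorem pn_G2 : posNeg chevG2 = true := by decide +kernel

set_option maxRecDepth 100000 in
theorem pn_B2 : posNeg chevB2 = true := by decide +kernel

set_option maxRecDepth 100000 in
theorem pn_F4 : posNeg chevF4 = true := by decide +kernel

set_option maxRecDepth 100000 in
theorem pn_D4 : posNeg chevD4 = true := by decide +kernel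

set_option maxRecDepth 100000 in
theorem pn_E6 : posNeg chevE6 = true := by decide +kernel

set_option maxRecDepth 100000 in
theorem pn_E7 : posNeg chevE7 = true := by decide +kernel

set_option maxRecDepth 100000 in
theorem pn_E8 : posNeg chevE8 = true := by decide +kernel

theorem pn_of_mem (D : ChevalleyDatum)
    (hD : D ∈ [chevG2, chevB2, chevD4, chevF4, chevE6, chevE7, chevE8]) : posNeg D = true := by
  simp only [List.mem_cons, List.not_mem_nil, or_false] at hD
  rcases hD with rfl | rfl | rfl | rfl | rfl | rfl | rfl
  · exact pn_G2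
  · exact pn_B2
  · exact pn_D4
  · exact pn_F4
  · exact pn_E6
  · exact pn_E7
  · exact pn_E8

theorem s1043 {F : Type*} [Field F] (D : ChevalleyDatum)
    (hD : D ∈ [chevG2, chevB2, chevD4, chevF4, chevE6, chevE7, chevE8]) :
    D.borelSubgroup F ≤ D.group F ∧ D.monomialSubgroup F ≤ D.group F ∧
      D.borelSubgroup F ⊔ D.monomialSubgroup F = D.group F :=
  bn_main D (add_of_mem D hD) (pn_of_mem D hD)

end Cfsg.Agent.Lib.Helper2.ChevAdd
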