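import Mathlib
import Cfsg.Prelude.Def_ChevStructure
import Cfsg.Prelude.Def_ChevAutomorphisms
import Cfsg.Prelude.Def_ChevG2
import Cfsg.Prelude.Def_ChevB2
import Cfsg.Prelude.Def_ChevF4
import Cfsg.Prelude.Def_ChevD4
import Cfsg.Prelude.Def_ChevE6
import Cfsg.Prelude.Def_ChevE7
import Cfsg.Prelude.Def_ChevE8

set_option autoImplicit false

namespace Cfsg.Agent.Lib.Helper2.ChevTab

open Cfsg.Lie

def chainOKb (D : ChevalleyDatum) (r : ℕ) : ℕ → List (ℕ × ℤ) → Bool
  | _, [] => true
  | s, q :: rest => decide (s < D.nroots) && (D.chainRoot r s 1 == some q.1) && chainOKb D r q.1 rest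

def goodB (D : ChevalleyDatum) : Bool :=
  (List.range D.nroots).all (fun r =>
    (D.chain.getD r #[]).toList.all (fun e => chainOKb D r e.1 e.2.toList))

set_option maxRecDepth 100000 in
theorem good_G2 : goodB chevG2 = true := by decide +kernel

set_option maxRecDepth 100000 in
theorem good_B2 : goodB chevB2 = true := by decide +kernel

set_option maxRecDepth 100000 in
theorem good_F4 : goodB chevF4 = true := by decide +kernel

set_option maxRecDepth 100000 in
theorem good_D4 : goodB chevD4 = true := by decide +kernel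

set_option maxRecDepth 100000 in
theorem good_E6 : goodB chevE6 = true := by decide +kernel

set_option maxRecDepth 100000 in
theorem good_E7 : goodB chevE7 = true := by decide +kernel

set_option maxRecDepth 100000 in
theorem good_E8 : goodB chevE8 = true := by decide +kernel

theorem good_of_mem (D : ChevalleyDatum)
    (hD : D ∈ [chevG2, chevB2, chevD4, chevF4, chevE6, chevE7, chevE8]) : goodB D = true := by
  simp only [List.mem_cons, List.not_mem_nil, or_false] at hD
  rcases hD with rfl | rfl | rfl | rfl | rfl | rfl | rfl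
  · exact good_G2
  · exact good_B2
  · exact good_D4
  · exact good_F4
  · exact good_E6
  · exact good_E7
  · exact good_E8

theorem chain_char {F : Type*} [Field F] (D : ChevalleyDatum) (χ : ℕ → Fˣ)
    (hχ : D.IsRootCharacter χ) (r : ℕ) (hr : r < D.nroots) :
    ∀ (l : List (ℕ × ℤ)) (s : ℕ), chainOKb D r s l = true →
      ∀ (idx u : ℕ) (M : ℤ), l[idx]? = some (u, M) → χ u = χ r ^ (idx + 1) * χ s := by
  intro l
  induction l with
  | nil =>
    intro s _ idx u M h
    simp at h
  | cons q rest ih =>
    intro s hs idx u M h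
    simp only [chainOKb, Bool.and_eq_true, decide_eq_true_eq, beq_iff_eq] at hs
    obtain ⟨⟨hs1, hs2⟩, hs3⟩ := hs
    have hq := hχ.2 r s q.1 hr hs1 hs2
    rcases idx with _ | j
    · simp only [List.getElem?_cons_zero, Option.some.injEq] at h
      rw [h] at hq
      rw [hq, zero_add, pow_one]
    · simp only [List.getElem?_cons_succ] at h
      rw [ih q.1 hs3 j u M h, hq, pow_succ (χ r) (j + 1), mul_assoc]

theorem coeff_char {F : Type*} [Field F] (D : ChevalleyDatum) (hG : goodB D = true) (χ : ℕ → Fˣ)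
    (hχ : D.IsRootCharacter χ) (r : ℕ) (hr : r < D.nroots) (s u : ℕ) (km : ℕ × ℤ)
    (hkm : km ∈ D.chainCoeff r s u) : χ u = χ r ^ km.1 * χ s := by
  unfold ChevalleyDatum.chainCoeff at hkm
  rw [List.mem_flatMap] at hkm
  obtain ⟨e, he, hkm⟩ := hkm
  rw [List.mem_filter] at he
  obtain ⟨he1, he2⟩ := he
  rw [List.mem_map] at hkm
  obtain ⟨q, hq, rfl⟩ := hkm
  rw [List.mem_filter] at hq
  obtain ⟨hq1, hq2⟩ := hq
  have hq3 : e.2.toList[q.2]? = some q.1 := List.mem_zipIdx_iff_getElem?.1 hq1
  simp only [decide_eq_true_eq] at he2 hq2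
  unfold goodB at hG
  rw [List.all_eq_true] at hG
  have h1 := hG r (List.mem_range.2 hr)
  rw [List.all_eq_true] at h1
  have h2 := h1 e he1
  have h3 := chain_char D χ hχ r hr e.2.toList e.1 h2 q.2 q.1.1 q.1.2 hq3
  rw [hq2, he2] at h3
  exact h3

end Cfsg.Agent.Lib.Helper2.ChevTab
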