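import Mathlib
import Cfsg.Agent.Lib.Helper2.ChevTab

set_option autoImplicit false

namespace Cfsg.Agent.Lib.Helper2.ChevTab

open Cfsg.Lie

theorem unit_mul_inv {F : Type*} [Field F] (a : Fˣ) : (a : F) * ((a⁻¹ : Fˣ) : F) = 1 := by
  rw [← Units.val_mul, mul_inv_cancel, Units.val_one]

theorem conj_entry {F : Type*} [Field F] (D : ChevalleyDatum) (hG : goodB D = true) (χ : ℕ → Fˣ)
    (hχ : D.IsRootCharacter χ) (r : Fin D.nroots) (t : F) (row col : D.Idx) :
    Sum.elim (fun _ => (1 : F)) (fun u : Fin D.nroots => (χ u.val : F)) row *
      D.xMat F r t row col *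
      Sum.elim (fun _ => (1 : F)) (fun u : Fin D.nroots => (((χ u.val)⁻¹ : Fˣ) : F)) col =
    D.xMat F r ((χ r.val : F) * t) row col := by
  rcases col with i | s
  · rcases row with i' | u
    · simp [ChevalleyDatum.xMat]
    · simp only [ChevalleyDatum.xMat, Matrix.of_apply, Sum.elim_inr, Sum.elim_inl, mul_one]
      split_ifs with h
      · subst h
        ring
      · ring
  · by_cases h1 : s = r
    · subst h1
      rcases row with i' | u
      · simp [ChevalleyDatum.xMat]
      · simp only [ChevalleyDatum.xMat, Matrix.of_apply, Sum.elim_inr, if_true]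
        split_ifs with h
        · subst h
          rw [mul_one, unit_mul_inv]
        · ring
    · by_cases h2 : s.val = D.negIdx.getD r.val 0
      · have hneg : (χ s.val)⁻¹ = χ r.val := by
          have h3 := hχ.1 r.val r.isLt
          unfold ChevalleyDatum.neg at h3
          rw [h2, h3, inv_inv]
        rcases row with i' | u
        · simp only [ChevalleyDatum.xMat, Matrix.of_apply, Sum.elim_inr, Sum.elim_inl, if_neg h1,
            if_pos h2, hneg]
          ring
        · simp only [ChevalleyDatum.xMat, Matrix.of_apply, Sum.elim_inr, if_neg h1, if_pos h2]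
          split_ifs with h4 h5
          · subst h4
            rw [mul_one, unit_mul_inv]
          · subst h5
            rw [hneg]
            ring
          · ring
      · rcases row with i' | u
        · simp only [ChevalleyDatum.xMat, Matrix.of_apply, Sum.elim_inr, Sum.elim_inl, if_neg h1,
            if_neg h2]
          ring
        · simp only [ChevalleyDatum.xMat, Matrix.of_apply, Sum.elim_inr, if_neg h1, if_neg h2]
          rw [mul_add, add_mul]
          congr 1
          · split_ifs with h4
            · subst h4
              rw [mul_one, unit_mul_inv]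
            · ring
          · rw [← List.sum_map_mul_left, ← List.sum_map_mul_right]
            apply congrArg List.sum
            apply List.map_congr_left
            intro km hkm
            have h5 := coeff_char D hG χ hχ r.val r.isLt s.val u.val km hkm
            rw [h5, Units.val_mul, Units.val_pow_eq_pow_val, mul_pow]
            have h6 := unit_mul_inv (χ s.val)
            calc (χ r.val : F) ^ km.1 * (χ s.val : F) * (((km.2 : ℤ) : F) * t ^ km.1) *
                  (((χ s.val)⁻¹ : Fˣ) : F)
                = ((km.2 : ℤ) : F) * ((χ r.val : F) ^ km.1 * t ^ km.1) *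
                    ((χ s.val : F) * (((χ s.val)⁻¹ : Fˣ) : F)) := by ring
              _ = ((km.2 : ℤ) : F) * ((χ r.val : F) ^ km.1 * t ^ km.1) := by rw [h6, mul_one]

theorem s2157 {F : Type*} [Field F] (D : ChevalleyDatum)
    (hD : D ∈ [chevG2, chevB2, chevD4, chevF4, chevE6, chevE7, chevE8]) (χ : ℕ → Fˣ)
    (hχ : D.IsRootCharacter χ) (r : ℕ) (hr : r < D.nroots) (t : F) :
    D.charDiag F χ * D.x F r t * D.charDiag F (fun s => (χ s)⁻¹) =
      D.x F r ((χ r : F) * t) := by
  unfold ChevalleyDatum.x
  rw [dif_pos hr, dif_pos hr]
  unfold ChevalleyDatum.charDiag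
  ext row col
  rw [Matrix.mul_diagonal, Matrix.diagonal_mul]
  exact conj_entry D (good_of_mem D hD) χ hχ ⟨r, hr⟩ t row col

end Cfsg.Agent.Lib.Helper2.ChevTab
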