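import Mathlib

set_option autoImplicit false

namespace Cfsg.Agent.Lib.Helper2.ChevSym

inductive Tr (α : Type) where
  | leaf : α → Tr α
  | node : Tr α → Tr α → Tr α

def Tr.get {α : Type} : Tr α → ℕ → α
  | .leaf a, _ => a
  | .node l r, n => bif Nat.beq (n % 2) 0 then l.get (n / 2) else r.get (n / 2)

def build {α : Type} : ℕ → (ℕ → α) → Tr α
  | 0, f => .leaf (f 0)
  | k + 1, f => .node (build k (fun n => f (2 * n))) (build k (fun n => f (2 * n + 1)))

theorem get_build {α : Type} (k : ℕ) :
    ∀ (f : ℕ → α) (n : ℕ), n < 2 ^ k → (build k f).get n = f n := by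
  induction k with
  | zero =>
    intro f n h
    have h0 : n = 0 := by simpa using h
    subst h0
    rfl
  | succ k ih =>
    intro f n h
    have h2 : n / 2 < 2 ^ k := by
      rw [pow_succ] at h
      omega
    show (bif Nat.beq (n % 2) 0 then (build k (fun n => f (2 * n))).get (n / 2)
      else (build k (fun n => f (2 * n + 1))).get (n / 2)) = f n
    rcases Nat.mod_two_eq_zero_or_one n with h0 | h1
    · rw [h0]
      show (build k (fun n => f (2 * n))).get (n / 2) = f n
      rw [ih _ _ h2]
      congr 1
      omega
    · rw [h1]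
      show (build k (fun n => f (2 * n + 1))).get (n / 2) = f n
      rw [ih _ _ h2]
      congr 1
      omega

end Cfsg.Agent.Lib.Helper2.ChevSym
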