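import Mathlib
import Cfsg.Agent.Lib.Helper2.ChevTrie
import Cfsg.Prelude.Def_ChevStructure

set_option autoImplicit false

namespace Cfsg.Agent.Lib.Helper2.ChevSym

open Cfsg.Lie

theorem lt256 {n : ℕ} (h : n < 256) : n < 2 ^ 8 := by
  norm_num
  exact h

def alt {α : Type} : Bool → List α → List α
  | _, [] => []
  | true, a :: l => a :: alt false l
  | false, _ :: l => alt true l

theorem alt_getD {α : Type} (d : α) : ∀ (l : List α) (m : ℕ),
    (alt true l).getD m d = l.getD (2 * m) d ∧ (alt false l).getD m d = l.getD (2 * m + 1) d := by
  intro l
  induction l with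
  | nil =>
    intro m
    simp [alt]
  | cons a l ih =>
    intro m
    constructor
    · cases m with
      | zero => simp [alt]
      | succ m =>
        have h1 := (ih m).2
        have h2 : alt true (a :: l) = a :: alt false l := rfl
        rw [h2, List.getD_cons_succ, h1, show 2 * (m + 1) = (2 * m + 1) + 1 by ring,
          List.getD_cons_succ]
    · have h1 := (ih m).1
      have h2 : alt false (a :: l) = alt true l := rfl
      rw [h2, h1, List.getD_cons_succ]

def ofLists : ℕ → List (List ℤ) → Tr (List ℤ)
  | 0, rows => .leaf (rows.map (fun l => l.headD 0))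
  | k + 1, rows => .node (ofLists k (rows.map (alt true))) (ofLists k (rows.map (alt false)))

theorem get_ofLists (k : ℕ) : ∀ (rows : List (List ℤ)) (n : ℕ), n < 2 ^ k →
    (ofLists k rows).get n = rows.map (fun l => l.getD n 0) := by
  induction k with
  | zero =>
    intro rows n h
    have h0 : n = 0 := by simpa using h
    subst h0
    show rows.map (fun l => l.headD 0) = _
    apply List.map_congr_left
    intro l _
    cases l <;> rfl
  | succ k ih =>
    intro rows n h
    have h2 : n / 2 < 2 ^ k := by
      rw [pow_succ] at h
      omega
    show (bif Nat.beq (n % 2) 0 then (ofLists k (rows.map (alt true))).get (n / 2)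
      else (ofLists k (rows.map (alt false))).get (n / 2)) = _
    rcases Nat.mod_two_eq_zero_or_one n with h0 | h1
    · rw [h0]
      show (ofLists k (rows.map (alt true))).get (n / 2) = _
      rw [ih _ _ h2, List.map_map]
      apply List.map_congr_left
      intro l _
      show (alt true l).getD (n / 2) 0 = l.getD n 0
      rw [(alt_getD 0 l (n / 2)).1]
      congr 1
      omega
    · rw [h1]
      show (ofLists k (rows.map (alt false))).get (n / 2) = _
      rw [ih _ _ h2, List.map_map]
      apply List.map_congr_left
      intro l _
      show (alt false l).getD (n / 2) 0 = l.getD n 0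
      rw [(alt_getD 0 l (n / 2)).2]
      congr 1
      omega

def crows (D : ChevalleyDatum) : List (List ℤ) := D.cartanSR.toList.map Array.toList

def cl (D : ChevalleyDatum) (v : ℕ) : List ℤ := (crows D).map (fun l => l.getD v 0)

def ctrie (D : ChevalleyDatum) : Tr (List ℤ) := ofLists 8 (crows D)

theorem ctrie_get (D : ChevalleyDatum) (v : ℕ) (hv : v < 256) : (ctrie D).get v = cl D v :=
  get_ofLists 8 _ v (lt256 hv)

theorem cl_length (D : ChevalleyDatum) (v : ℕ) : (cl D v).length = (crows D).length := by
  unfold cl
  rw [List.length_map]

theorem cl_getD (D : ChevalleyDatum) (v i : ℕ) : (cl D v).getD i 0 = D.cartan i v := by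
  unfold cl crows ChevalleyDatum.cartan
  simp only [List.getD_eq_getElem?_getD, List.getElem?_map, Array.getElem?_toList,
    Array.getD_eq_getD_getElem?]
  cases h : D.cartanSR[i]? with
  | none => simp
  | some a => simp

theorem zipWith_getD (l1 l2 : List ℤ) (h : l1.length = l2.length) (i : ℕ) :
    (List.zipWith (· + ·) l1 l2).getD i 0 = l1.getD i 0 + l2.getD i 0 := by
  induction l1 generalizing l2 i with
  | nil =>
    cases l2 with
    | nil => simp
    | cons b l2 => simp at h
  | cons a l1 ih =>
    cases l2 with
    | nil => simp at h
    | cons b l2 =>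
      cases i with
      | zero => simp
      | succ i =>
        rw [List.zipWith_cons_cons, List.getD_cons_succ, List.getD_cons_succ, List.getD_cons_succ]
        exact ih l2 (by simpa using h) i

theorem map_neg_getD (l : List ℤ) (i : ℕ) : (l.map (fun x => -x)).getD i 0 = -(l.getD i 0) := by
  induction l generalizing i with
  | nil => simp
  | cons a l ih =>
    cases i with
    | zero => simp
    | succ i =>
      rw [List.map_cons, List.getD_cons_succ, List.getD_cons_succ]
      exact ih i

end Cfsg.Agent.Lib.Helper2.ChevSym
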