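import Mathlib
import Cfsg.Agent.Lib.Helper2.ChevTrie2
import Cfsg.Agent.Lib.Helper2.ChevDiag

set_option autoImplicit false

namespace Cfsg.Agent.Lib.Helper2.ChevSym

open Cfsg.Lie

def rcE (T : Tr (List ℤ)) (r e1 : ℕ) : List (ℕ × ℤ) → Bool
  | [] => true
  | q :: _ => decide (e1 < 256) && decide (q.1 < 256) &&
      decide (T.get q.1 = List.zipWith (· + ·) (T.get r) (T.get e1))

def rcBT (D : ChevalleyDatum) (T : Tr (List ℤ)) : Bool :=
  decide (D.nroots ≤ 256) &&
  (List.range D.nroots).all (fun r =>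
    decide (D.negIdx.getD r 0 < 256) &&
    decide (T.get (D.negIdx.getD r 0) = (T.get r).map (fun x => -x)) &&
    (D.chain.getD r #[]).toList.all (fun e => rcE T r e.1 e.2.toList))

def rcB (D : ChevalleyDatum) : Bool := rcBT D (ctrie D)

theorem rc_256 (D : ChevalleyDatum) (h : rcB D = true) : D.nroots ≤ 256 := by
  unfold rcB rcBT at h
  simp only [Bool.and_eq_true, decide_eq_true_eq] at h
  exact h.1

theorem rcl_neg (D : ChevalleyDatum) (h : rcB D = true) (r : ℕ) (hr : r < D.nroots) :
    cl D (D.neg r) = (cl D r).map (fun x => -x) := by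
  unfold rcB rcBT at h
  simp only [Bool.and_eq_true, decide_eq_true_eq, List.all_eq_true, List.mem_range] at h
  obtain ⟨h256, hall⟩ := h
  obtain ⟨⟨h1, h2⟩, -⟩ := hall r hr
  rw [ctrie_get D _ h1, ctrie_get D _ (lt_of_lt_of_le hr h256)] at h2
  exact h2

theorem rcl_add (D : ChevalleyDatum) (h : rcB D = true) (r s k : ℕ) (hr : r < D.nroots)
    (hk : D.chainRoot r s 1 = some k) :
    cl D k = List.zipWith (· + ·) (cl D r) (cl D s) := by
  unfold rcB rcBT at h
  simp only [Bool.and_eq_true, decide_eq_true_eq, List.all_eq_true, List.mem_range] at h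
  obtain ⟨h256, hall⟩ := h
  obtain ⟨-, h3⟩ := hall r hr
  unfold ChevalleyDatum.chainRoot ChevalleyDatum.chainEntry at hk
  cases hf : (D.chain.getD r #[]).toList.find? (fun e => decide (e.1 = s)) with
  | none =>
    rw [hf] at hk
    simp at hk
  | some e =>
    rw [hf] at hk
    dsimp only at hk
    have he1 : e.1 = s := by simpa using List.find?_some hf
    have he2 := h3 e (List.mem_of_find?_eq_some hf)
    cases hl : e.2.toList with
    | nil =>
      rw [hl] at hk
      simp at hk
    | cons q rest =>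
      rw [hl] at hk he2
      have hq : q.1 = k := by simpa using hk
      simp only [rcE, Bool.and_eq_true, decide_eq_true_eq] at he2
      obtain ⟨⟨h4, h5⟩, h6⟩ := he2
      rw [ctrie_get D _ h5, ctrie_get D _ (lt_of_lt_of_le hr h256), ctrie_get D _ h4, hq, he1] at h6
      exact h6

theorem rc_neg (D : ChevalleyDatum) (h : rcB D = true) (r : ℕ) (hr : r < D.nroots) (i : ℕ) :
    D.cartan i (D.neg r) = - D.cartan i r := by
  rw [← cl_getD, rcl_neg D h r hr, map_neg_getD, cl_getD]

theorem rc_add (D : ChevalleyDatum) (h : rcB D = true) (r s k : ℕ) (hr : r < D.nroots)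
    (hk : D.chainRoot r s 1 = some k) (i : ℕ) :
    D.cartan i k = D.cartan i r + D.cartan i s := by
  rw [← cl_getD, rcl_add D h r s k hr hk,
    zipWith_getD _ _ (by rw [cl_length, cl_length]), cl_getD, cl_getD]

theorem char_simple {F : Type*} [Field F] (D : ChevalleyDatum) (h : rcB D = true) (i : ℕ)
    (u : Fˣ) : D.IsRootCharacter (fun v => u ^ (D.cartan i v)) := by
  constructor
  · intro r hr
    show u ^ (D.cartan i (D.neg r)) = (u ^ (D.cartan i r))⁻¹
    rw [rc_neg D h r hr i, zpow_neg]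
  · intro r s k hr _ hk
    show u ^ (D.cartan i k) = u ^ (D.cartan i r) * u ^ (D.cartan i s)
    rw [rc_add D h r s k hr hk i, zpow_add]

theorem conj_x {F : Type*} [Field F] (D : ChevalleyDatum) (hG : ChevTab.goodB D = true)
    (χ : ℕ → Fˣ) (hχ : D.IsRootCharacter χ) (r : ℕ) (hr : r < D.nroots) (t : F) :
    D.charDiag F χ * D.x F r t * D.charDiag F (fun s => (χ s)⁻¹) =
      D.x F r ((χ r : F) * t) := by
  unfold ChevalleyDatum.x
  rw [dif_pos hr, dif_pos hr]
  unfold ChevalleyDatum.charDiag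
  ext row col
  rw [Matrix.mul_diagonal, Matrix.diagonal_mul]
  exact ChevTab.conj_entry D hG χ hχ ⟨r, hr⟩ t row col

theorem charDiag_inv {F : Type*} [Field F] (D : ChevalleyDatum) (χ : ℕ → Fˣ) :
    D.charDiag F (fun s => (χ s)⁻¹) * D.charDiag F χ = 1 := by
  unfold ChevalleyDatum.charDiag
  rw [Matrix.diagonal_mul_diagonal, ← Matrix.diagonal_one]
  congr 1
  ext x
  rcases x with i | s
  · simp
  · simp

theorem comm_x {F : Type*} [Field F] (D : ChevalleyDatum) (hG : ChevTab.goodB D = true)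
    (χ : ℕ → Fˣ) (hχ : D.IsRootCharacter χ) (r : ℕ) (hr : r < D.nroots) (t : F) :
    D.charDiag F χ * D.x F r t = D.x F r ((χ r : F) * t) * D.charDiag F χ := by
  rw [← conj_x D hG χ hχ r hr t, mul_assoc, charDiag_inv, mul_one]

end Cfsg.Agent.Lib.Helper2.ChevSym
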