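import Mathlib
import Cfsg.Agent.Lib.Helper2.ChevAdd2
import Cfsg.Agent.Lib.Helper2.ChevTrie

set_option autoImplicit false

namespace Cfsg.Agent.Lib.Helper2.ChevFast

open Cfsg.Lie
open Cfsg.Agent.Lib.Helper2.ChevAdd
open Cfsg.Agent.Lib.Helper2.ChevSym

abbrev LP := List (ℕ × ℕ × ℕ × ℤ)

variable {F : Type*} [Field F]

def ev (c d t : F) (p : LP) : F :=
  (p.map (fun m => ((m.2.2.2 : ℤ) : F) * c ^ m.1 * d ^ m.2.1 * t ^ m.2.2.1)).sum

theorem ev_nil (c d t : F) : ev c d t [] = 0 := rfl

theorem ev_cons (c d t : F) (a : ℕ × ℕ × ℕ × ℤ) (p : LP) :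
    ev c d t (a :: p) =
      ((a.2.2.2 : ℤ) : F) * c ^ a.1 * d ^ a.2.1 * t ^ a.2.2.1 + ev c d t p := by
  unfold ev
  rw [List.map_cons, List.sum_cons]

theorem ev_append (c d t : F) (p q : LP) : ev c d t (p ++ q) = ev c d t p + ev c d t q := by
  unfold ev
  rw [List.map_append, List.sum_append]

def lone : LP := [(0, 0, 0, 1)]

theorem ev_lone (c d t : F) : ev c d t lone = 1 := by
  simp [ev, lone]

def lscale (k : ℤ) (p : LP) : LP := p.map (fun a => (a.1, a.2.1, a.2.2.1, k * a.2.2.2))

theorem ev_lscale (c d t : F) (k : ℤ) (p : LP) : ev c d t (lscale k p) = (k : F) * ev c d t p := by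
  induction p with
  | nil => simp [lscale, ev]
  | cons a p ih =>
    unfold lscale at ih ⊢
    rw [List.map_cons, ev_cons, ev_cons, ih]
    push_cast
    ring

def lins (a b n : ℕ) (k : ℤ) : LP → LP
  | [] => bif decide (k = 0) then [] else [(a, b, n, k)]
  | x :: p => bif (Nat.beq x.1 a && (Nat.beq x.2.1 b && Nat.beq x.2.2.1 n)) then
      (bif decide (x.2.2.2 + k = 0) then p else (a, b, n, x.2.2.2 + k) :: p)
    else x :: lins a b n k p

theorem ev_lins (c d t : F) (a b n : ℕ) (k : ℤ) (p : LP) :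
    ev c d t (lins a b n k p) = ev c d t p + (k : F) * c ^ a * d ^ b * t ^ n := by
  induction p with
  | nil =>
    simp only [lins]
    by_cases hk : k = 0
    · simp [hk, ev]
    · simp [hk, ev]
  | cons x p ih =>
    simp only [lins]
    by_cases h : (Nat.beq x.1 a && (Nat.beq x.2.1 b && Nat.beq x.2.2.1 n)) = true
    · rw [h, cond_true]
      simp only [Bool.and_eq_true, Nat.beq_eq] at h
      obtain ⟨h1, h2, h3⟩ := h
      by_cases hk : x.2.2.2 + k = 0
      · rw [decide_eq_true hk, cond_true, ev_cons, ← h1, ← h2, ← h3]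
        have h4 : ((x.2.2.2 : ℤ) : F) + (k : F) = 0 := by
          exact_mod_cast congrArg (Int.cast : ℤ → F) hk
        linear_combination (- c ^ x.1 * d ^ x.2.1 * t ^ x.2.2.1) * h4
      · rw [decide_eq_false hk, cond_false, ev_cons, ev_cons, ← h1, ← h2, ← h3]
        push_cast
        ring
    · rw [Bool.not_eq_true] at h
      rw [h, cond_false, ev_cons, ev_cons, ih]
      ring

def ladd (p q : LP) : LP := q.foldl (fun acc x => lins x.1 x.2.1 x.2.2.1 x.2.2.2 acc) p

theorem ev_ladd (c d t : F) (p q : LP) : ev c d t (ladd p q) = ev c d t p + ev c d t q := by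
  unfold ladd
  induction q generalizing p with
  | nil => rw [List.foldl_nil, ev_nil, add_zero]
  | cons x q ih =>
    rw [List.foldl_cons, ih, ev_lins, ev_cons]
    ring

def lmul (p q : LP) : LP :=
  p.foldl (fun acc x => q.foldl (fun acc' y =>
    lins ((x.1 + y.1) - (x.2.1 + y.2.1)) ((x.2.1 + y.2.1) - (x.1 + y.1)) (x.2.2.1 + y.2.2.1)
      (x.2.2.2 * y.2.2.2) acc') acc) []

theorem canc (c d : F) (hcd : c * d = 1) (A B : ℕ) :
    c ^ (A - B) * d ^ (B - A) = c ^ A * d ^ B := by
  rcases le_total A B with h | h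
  · obtain ⟨m, rfl⟩ := Nat.exists_eq_add_of_le h
    rw [Nat.sub_eq_zero_of_le (Nat.le_add_right A m), Nat.add_sub_cancel_left, pow_zero, one_mul,
      pow_add, ← mul_assoc, ← mul_pow, hcd, one_pow, one_mul]
  · obtain ⟨m, rfl⟩ := Nat.exists_eq_add_of_le h
    rw [Nat.sub_eq_zero_of_le (Nat.le_add_right B m), Nat.add_sub_cancel_left, pow_zero, mul_one,
      pow_add, mul_right_comm, ← mul_pow, hcd, one_pow, one_mul]

theorem ev_lmul_inner (c d t : F) (hcd : c * d = 1) (x : ℕ × ℕ × ℕ × ℤ) (q acc : LP) :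
    ev c d t (q.foldl (fun acc' y =>
      lins ((x.1 + y.1) - (x.2.1 + y.2.1)) ((x.2.1 + y.2.1) - (x.1 + y.1)) (x.2.2.1 + y.2.2.1)
        (x.2.2.2 * y.2.2.2) acc') acc) =
      ev c d t acc + ((x.2.2.2 : ℤ) : F) * c ^ x.1 * d ^ x.2.1 * t ^ x.2.2.1 * ev c d t q := by
  induction q generalizing acc with
  | nil => rw [List.foldl_nil, ev_nil, mul_zero, add_zero]
  | cons y q ih =>
    rw [List.foldl_cons, ih, ev_lins, ev_cons]
    have h := canc c d hcd (x.1 + y.1) (x.2.1 + y.2.1)
    rw [pow_add, pow_add] at h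
    push_cast
    rw [pow_add]
    linear_combination (((x.2.2.2 : ℤ) : F) * ((y.2.2.2 : ℤ) : F) * t ^ x.2.2.1 * t ^ y.2.2.1) * h

theorem ev_lmul_aux (c d t : F) (hcd : c * d = 1) (p q acc : LP) :
    ev c d t (p.foldl (fun acc x => q.foldl (fun acc' y =>
      lins ((x.1 + y.1) - (x.2.1 + y.2.1)) ((x.2.1 + y.2.1) - (x.1 + y.1)) (x.2.2.1 + y.2.2.1)
        (x.2.2.2 * y.2.2.2) acc') acc) acc) = ev c d t acc + ev c d t p * ev c d t q := by
  induction p generalizing acc with
  | nil => rw [List.foldl_nil, ev_nil, zero_mul, add_zero]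
  | cons x p ih =>
    rw [List.foldl_cons, ih, ev_lmul_inner c d t hcd, ev_cons]
    ring

theorem ev_lmul (c d t : F) (hcd : c * d = 1) (p q : LP) :
    ev c d t (lmul p q) = ev c d t p * ev c d t q := by
  unfold lmul
  rw [ev_lmul_aux c d t hcd, ev_nil, zero_add]

def lpow (p : LP) : ℕ → LP
  | 0 => lone
  | n + 1 => lmul (lpow p n) p

theorem ev_lpow (c d t : F) (hcd : c * d = 1) (p : LP) (n : ℕ) :
    ev c d t (lpow p n) = ev c d t p ^ n := by
  induction n with
  | zero => rw [lpow, ev_lone, pow_zero]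
  | succ n ih => rw [lpow, ev_lmul c d t hcd, ih, pow_succ]

def coefAt (p : LP) (m : ℕ × ℕ × ℕ) : ℤ :=
  ((p.filter (fun b => Nat.beq b.1 m.1 && (Nat.beq b.2.1 m.2.1 && Nat.beq b.2.2.1 m.2.2))).map
    (fun b => b.2.2.2)).sum

theorem coefAt_cons (a : ℕ × ℕ × ℕ × ℤ) (p : LP) (m : ℕ × ℕ × ℕ) :
    coefAt (a :: p) m = (if (a.1, a.2.1, a.2.2.1) = m then a.2.2.2 else 0) + coefAt p m := by
  unfold coefAt
  by_cases h : (a.1, a.2.1, a.2.2.1) = m
  · have h1 : a.1 = m.1 := by rw [← h]
    have h2 : a.2.1 = m.2.1 := by rw [← h]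
    have h3 : a.2.2.1 = m.2.2 := by rw [← h]
    rw [List.filter_cons_of_pos (by simp [h1, h2, h3]), List.map_cons, List.sum_cons, if_pos h]
  · have h3 : ¬ (a.1 = m.1 ∧ a.2.1 = m.2.1 ∧ a.2.2.1 = m.2.2) := by
      rintro ⟨h1, h2, h3⟩
      exact h (Prod.ext h1 (Prod.ext h2 h3))
    rw [List.filter_cons_of_neg (by simpa using h3), if_neg h, zero_add]

theorem ev_eq_sum (c d t : F) (p : LP) (S : Finset (ℕ × ℕ × ℕ))
    (hS : ∀ a ∈ p, (a.1, a.2.1, a.2.2.1) ∈ S) :
    ev c d t p = ∑ m ∈ S, ((coefAt p m : ℤ) : F) * c ^ m.1 * d ^ m.2.1 * t ^ m.2.2 := by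
  induction p with
  | nil => simp [ev, coefAt]
  | cons a p ih =>
    rw [ev_cons, ih (fun b hb => hS b (List.mem_cons_of_mem _ hb))]
    simp only [coefAt_cons, Int.cast_add, add_mul, Finset.sum_add_distrib]
    congr 1
    rw [Finset.sum_eq_single (a.1, a.2.1, a.2.2.1)]
    · rw [if_pos rfl]
    · intro b _ hb
      rw [if_neg (fun h => hb h.symm), Int.cast_zero, zero_mul, zero_mul, zero_mul]
    · intro h
      exact absurd (hS a List.mem_cons_self) h

def lzero (p : LP) : Bool :=
  p.all (fun a => decide (coefAt p (a.1, a.2.1, a.2.2.1) = 0))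

theorem lzero_sound (c d t : F) (p : LP) (h : lzero p = true) : ev c d t p = 0 := by
  classical
  rw [ev_eq_sum c d t p (p.map (fun a => (a.1, a.2.1, a.2.2.1))).toFinset
    (fun a ha => List.mem_toFinset.2 (List.mem_map.2 ⟨a, ha, rfl⟩))]
  apply Finset.sum_eq_zero
  intro m hm
  rw [List.mem_toFinset, List.mem_map] at hm
  obtain ⟨a, ha, rfl⟩ := hm
  unfold lzero at h
  rw [List.all_eq_true] at h
  have h1 := h a ha
  rw [decide_eq_true_eq] at h1
  rw [h1, Int.cast_zero, zero_mul, zero_mul, zero_mul]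

abbrev SV := List (ℕ × LP)

def cf (v : SV) (i : ℕ) : LP := (v.filter (fun e => Nat.beq e.1 i)).flatMap (fun e => e.2)

theorem cf_nil (i : ℕ) : cf [] i = [] := rfl

theorem cf_cons (e : ℕ × LP) (v : SV) (i : ℕ) :
    cf (e :: v) i = (if e.1 = i then e.2 else []) ++ cf v i := by
  unfold cf
  by_cases h : e.1 = i
  · have hp : (fun e : ℕ × LP => Nat.beq e.1 i) e = true := by
      show Nat.beq e.1 i = true
      rw [h]
      exact Nat.beq_refl i
    rw [List.filter_cons_of_pos (p := fun e : ℕ × LP => Nat.beq e.1 i) (a := e) (l := v) hp,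
      List.flatMap_cons, if_pos h]
  · have hn : ¬ ((fun e : ℕ × LP => Nat.beq e.1 i) e = true) :=
      fun hb => h (Nat.eq_of_beq_eq_true hb)
    rw [List.filter_cons_of_neg (p := fun e : ℕ × LP => Nat.beq e.1 i) (a := e) (l := v) hn,
      if_neg h, List.nil_append]

theorem cf_append (v w : SV) (i : ℕ) : cf (v ++ w) i = cf v i ++ cf w i := by
  unfold cf
  rw [List.filter_append, List.flatMap_append]

theorem cf_empty_of (v : SV) (i : ℕ) (h : ∀ e ∈ v, e.1 ≠ i) : cf v i = [] := by
  induction v with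
  | nil => rfl
  | cons e v ih =>
    rw [cf_cons, if_neg (h e List.mem_cons_self), List.nil_append,
      ih (fun e' he' => h e' (List.mem_cons_of_mem _ he'))]

def veq (v w : SV) : Bool :=
  (v ++ w).all (fun e => lzero (cf v e.1 ++ lscale (-1) (cf w e.1)))

theorem veq_sound (c d t : F) (v w : SV) (h : veq v w = true) (i : ℕ) :
    ev c d t (cf v i) = ev c d t (cf w i) := by
  by_cases hi : ∃ e ∈ v ++ w, e.1 = i
  · obtain ⟨e, he, rfl⟩ := hi
    unfold veq at h
    rw [List.all_eq_true] at h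
    have h1 := lzero_sound c d t _ (h e he)
    rw [ev_append, ev_lscale] at h1
    push_cast at h1
    linear_combination h1
  · have h1 : ∀ e ∈ v, e.1 ≠ i := fun e he hei => hi ⟨e, List.mem_append_left _ he, hei⟩
    have h2 : ∀ e ∈ w, e.1 ≠ i := fun e he hei => hi ⟨e, List.mem_append_right _ he, hei⟩
    rw [cf_empty_of v i h1, cf_empty_of w i h2]

def vins (i : ℕ) (p : LP) : SV → SV
  | [] => [(i, ladd [] p)]
  | e :: v => bif Nat.beq e.1 i then (e.1, ladd e.2 p) :: v else e :: vins i p v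

theorem ev_vins (c d t : F) (i : ℕ) (p : LP) (v : SV) (j : ℕ) :
    ev c d t (cf (vins i p v) j) = ev c d t (cf v j) + (if i = j then ev c d t p else 0) := by
  induction v with
  | nil =>
    simp only [vins]
    rw [cf_cons, cf_nil, List.append_nil, ev_nil, zero_add]
    by_cases h : i = j
    · rw [if_pos h, if_pos h, ev_ladd, ev_nil, zero_add]
    · rw [if_neg h, if_neg h, ev_nil]
  | cons e v ih =>
    simp only [vins]
    by_cases h : Nat.beq e.1 i = true
    · have hei : e.1 = i := Nat.eq_of_beq_eq_true h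
      rw [h, cond_true, cf_cons, cf_cons, ev_append, ev_append]
      by_cases hj : e.1 = j
      · rw [if_pos hj, if_pos hj, if_pos (hei ▸ hj), ev_ladd]
        ring
      · rw [if_neg hj, if_neg hj, if_neg (fun h' => hj (hei.trans h')), ev_nil]
        ring
    · rw [Bool.not_eq_true] at h
      rw [h, cond_false, cf_cons, cf_cons, ev_append, ev_append, ih]
      ring

def xappF (col : ℕ → SV) (v : SV) : SV :=
  (v.foldl (fun acc e => (col e.1).foldl (fun acc' f => vins f.1 (lmul e.2 f.2) acc') acc)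
    []).filter (fun e => !e.2.isEmpty)

theorem cf_filter_nonempty (v : SV) (j : ℕ) : cf (v.filter (fun e => !e.2.isEmpty)) j = cf v j := by
  induction v with
  | nil => rfl
  | cons e v ih =>
    by_cases h : e.2 = []
    · rw [List.filter_cons_of_neg (by simp [h]), ih, cf_cons, h]
      split_ifs <;> rfl
    · rw [List.filter_cons_of_pos (by simp [h]), cf_cons, cf_cons, ih]

theorem xapp_inner (c d t : F) (hcd : c * d = 1) (p : LP) (w acc : SV) (j : ℕ) :
    ev c d t (cf (w.foldl (fun acc' f => vins f.1 (lmul p f.2) acc') acc) j) =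
      ev c d t (cf acc j) + ev c d t p * ev c d t (cf w j) := by
  induction w generalizing acc with
  | nil => rw [List.foldl_nil, cf_nil, ev_nil, mul_zero, add_zero]
  | cons f w ih =>
    rw [List.foldl_cons, ih, ev_vins, cf_cons, ev_append, ev_lmul c d t hcd]
    by_cases h : f.1 = j
    · rw [if_pos h, if_pos h]
      ring
    · rw [if_neg h, if_neg h, ev_nil]
      ring

theorem xapp_outer (c d t : F) (hcd : c * d = 1) (col : ℕ → SV) (v acc : SV) (j : ℕ) :
    ev c d t (cf (v.foldl (fun acc e =>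
      (col e.1).foldl (fun acc' f => vins f.1 (lmul e.2 f.2) acc') acc) acc) j) =
      ev c d t (cf acc j) + (v.map (fun e => ev c d t e.2 * ev c d t (cf (col e.1) j))).sum := by
  induction v generalizing acc with
  | nil => simp
  | cons e v ih =>
    rw [List.foldl_cons, ih, xapp_inner c d t hcd, List.map_cons, List.sum_cons]
    ring

theorem xappF_ev (c d t : F) (hcd : c * d = 1) (col : ℕ → SV) (v : SV) (j : ℕ) :
    ev c d t (cf (xappF col v) j) =
      (v.map (fun e => ev c d t e.2 * ev c d t (cf (col e.1) j))).sum := by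
  unfold xappF
  rw [cf_filter_nonempty, xapp_outer c d t hcd, cf_nil, ev_nil, zero_add]

def enc (D : ChevalleyDatum) : D.Idx → ℕ
  | Sum.inl i => i.val
  | Sum.inr s => D.rank + s.val

theorem enc_inl (D : ChevalleyDatum) (i : Fin D.rank) : enc D (Sum.inl i) = i.val := rfl

theorem enc_inr (D : ChevalleyDatum) (s : Fin D.nroots) : enc D (Sum.inr s) = D.rank + s.val := rfl

theorem enc_inj (D : ChevalleyDatum) : Function.Injective (enc D) := by
  rintro (i | s) (i' | s') h
  · rw [enc_inl, enc_inl] at h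
    rw [Fin.ext h]
  · rw [enc_inl, enc_inr] at h
    have := i.isLt
    omega
  · rw [enc_inl, enc_inr] at h
    have := i'.isLt
    omega
  · rw [enc_inr, enc_inr] at h
    rw [Fin.ext (by omega : s.val = s'.val)]

theorem enc_lt (D : ChevalleyDatum) (x : D.Idx) : enc D x < D.rank + D.nroots := by
  rcases x with i | s
  · rw [enc_inl]
    have := i.isLt
    omega
  · rw [enc_inr]
    have := s.isLt
    omega

theorem enc_surj (D : ChevalleyDatum) (idx : ℕ) (h : idx < D.rank + D.nroots) :
    ∃ x : D.Idx, enc D x = idx := by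
  by_cases h1 : idx < D.rank
  · exact ⟨Sum.inl ⟨idx, h1⟩, rfl⟩
  · refine ⟨Sum.inr ⟨idx - D.rank, by omega⟩, ?_⟩
    rw [enc_inr]
    show D.rank + (idx - D.rank) = idx
    omega

def semv (c d t : F) (D : ChevalleyDatum) (v : SV) : D.Idx → F :=
  fun x => ev c d t (cf v (enc D x))

def Rep (c d t : F) (D : ChevalleyDatum) (col : ℕ → SV) (M : Matrix D.Idx D.Idx F) : Prop :=
  (∀ row colidx, ev c d t (cf (col (enc D colidx)) (enc D row)) = M row colidx) ∧
  (∀ idx, D.rank + D.nroots ≤ idx → ∀ row, ev c d t (cf (col idx) (enc D row)) = 0)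

theorem sum_semv (c d t : F) (D : ChevalleyDatum) (col : ℕ → SV) (M : Matrix D.Idx D.Idx F)
    (hR : Rep c d t D col M) (v : SV) (row : D.Idx) :
    (v.map (fun e => ev c d t e.2 * ev c d t (cf (col e.1) (enc D row)))).sum =
      ∑ x, M row x * ev c d t (cf v (enc D x)) := by
  induction v with
  | nil => simp [cf_nil, ev_nil]
  | cons e v ih =>
    rw [List.map_cons, List.sum_cons, ih]
    simp only [cf_cons, ev_append, mul_add, Finset.sum_add_distrib]
    congr 1
    by_cases he : e.1 < D.rank + D.nroots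
    · obtain ⟨col0, hcol0⟩ := enc_surj D e.1 he
      rw [← hcol0, hR.1, Finset.sum_eq_single col0]
      · rw [if_pos rfl, mul_comm]
      · intro b _ hb
        rw [if_neg (fun h => hb (enc_inj D h).symm), ev_nil, mul_zero]
      · intro h
        exact absurd (Finset.mem_univ _) h
    · rw [hR.2 e.1 (by omega), mul_zero]
      symm
      apply Finset.sum_eq_zero
      intro b _
      have hb := enc_lt D b
      rw [if_neg (by omega), ev_nil, mul_zero]

theorem xappF_sem (c d t : F) (hcd : c * d = 1) (D : ChevalleyDatum) (col : ℕ → SV)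
    (M : Matrix D.Idx D.Idx F) (hR : Rep c d t D col M) (v : SV) :
    semv c d t D (xappF col v) = M.mulVec (semv c d t D v) := by
  ext row
  show ev c d t (cf (xappF col v) (enc D row)) = ∑ x, M row x * ev c d t (cf v (enc D x))
  rw [xappF_ev c d t hcd, sum_semv c d t D col M hR]

def wappF (cols : List (ℕ → SV)) (v : SV) : SV := cols.foldr (fun col acc => xappF col acc) v

theorem wappF_sem (c d t : F) (hcd : c * d = 1) (D : ChevalleyDatum) (cols : List (ℕ → SV))
    (Ms : List (Matrix D.Idx D.Idx F)) (hR : List.Forall₂ (Rep c d t D) cols Ms) (v : SV) :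
    semv c d t D (wappF cols v) = Ms.prod.mulVec (semv c d t D v) := by
  induction hR with
  | nil => simp [wappF]
  | @cons col M cols' Ms' h _ ih =>
    show semv c d t D (xappF col (wappF cols' v)) = _
    rw [xappF_sem c d t hcd D _ _ h, ih, List.prod_cons, Matrix.mulVec_mulVec]

def bv (idx : ℕ) : SV := [(idx, lone)]

theorem semv_bv (c d t : F) (D : ChevalleyDatum) (col : D.Idx) :
    semv c d t D (bv (enc D col)) = Pi.single col 1 := by
  ext x
  unfold semv bv
  rw [cf_cons, cf_nil, List.append_nil]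
  by_cases h : x = col
  · subst h
    rw [if_pos rfl, ev_lone, Pi.single_eq_same]
  · rw [if_neg (fun h' => h (enc_inj D h').symm), ev_nil, Pi.single_eq_of_ne h]

theorem word_entryF (c d t : F) (hcd : c * d = 1) (D : ChevalleyDatum) (cols : List (ℕ → SV))
    (Ms : List (Matrix D.Idx D.Idx F)) (hR : List.Forall₂ (Rep c d t D) cols Ms)
    (row col : D.Idx) :
    Ms.prod row col = ev c d t (cf (wappF cols (bv (enc D col))) (enc D row)) := by
  have h1 := congrFun (wappF_sem c d t hcd D cols Ms hR (bv (enc D col))) row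
  rw [semv_bv, Matrix.mulVec_single_one] at h1
  exact h1.symm

end Cfsg.Agent.Lib.Helper2.ChevFast
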