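import Mathlib
import Cfsg.Agent.Lib.Helper2.ChevFast

set_option autoImplicit false

namespace Cfsg.Agent.Lib.Helper2.ChevFast

open Cfsg.Lie
open Cfsg.Agent.Lib.Helper2.ChevAdd
open Cfsg.Agent.Lib.Helper2.ChevSym

variable {F : Type*} [Field F]

theorem blt_t {a b : ℕ} (h : a < b) : Nat.blt a b = true := by
  rw [Nat.blt_eq]
  exact h

theorem blt_f {a b : ℕ} (h : ¬ a < b) : Nat.blt a b = false := by
  rw [← Bool.not_eq_true, Nat.blt_eq]
  exact h

theorem beq_t {a b : ℕ} (h : a = b) : Nat.beq a b = true := by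
  rw [Nat.beq_eq]
  exact h

theorem beq_f {a b : ℕ} (h : ¬ a = b) : Nat.beq a b = false := by
  rw [← Bool.not_eq_true, Nat.beq_eq]
  exact h

def bp {α : Type} : ℕ → List (ℕ × α) → Tr (List (ℕ × α))
  | 0, l => .leaf l
  | _ + 1, [] => .leaf []
  | k + 1, a :: l => .node
      (bp k (((a :: l).filter (fun e => Nat.beq (e.1 % 2) 0)).map (fun e => (e.1 / 2, e.2))))
      (bp k (((a :: l).filter (fun e => !Nat.beq (e.1 % 2) 0)).map (fun e => (e.1 / 2, e.2))))

def tget {α : Type} (k : ℕ) (t : Tr (List (ℕ × α))) (s : ℕ) : List α :=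
  ((t.get s).filter (fun x => Nat.beq x.1 (s / 2 ^ k))).map (fun x => x.2)

theorem split_even {α : Type} (L : List (ℕ × α)) (s : ℕ) (h0 : s % 2 = 0) :
    ((((L.filter (fun e => Nat.beq (e.1 % 2) 0)).map (fun e => (e.1 / 2, e.2))).filter
      (fun x => Nat.beq x.1 (s / 2))).map (fun x => x.2)) =
      (L.filter (fun x => Nat.beq x.1 s)).map (fun x => x.2) := by
  rw [List.filter_map, List.map_map, List.filter_filter]
  congr 1
  apply List.filter_congr
  intro x _
  rw [Bool.eq_iff_iff]
  simp only [Function.comp_apply, Bool.and_eq_true, Nat.beq_eq]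
  omega

theorem split_odd {α : Type} (L : List (ℕ × α)) (s : ℕ) (h1 : s % 2 = 1) :
    ((((L.filter (fun e => !Nat.beq (e.1 % 2) 0)).map (fun e => (e.1 / 2, e.2))).filter
      (fun x => Nat.beq x.1 (s / 2))).map (fun x => x.2)) =
      (L.filter (fun x => Nat.beq x.1 s)).map (fun x => x.2) := by
  rw [List.filter_map, List.map_map, List.filter_filter]
  congr 1
  apply List.filter_congr
  intro x _
  rw [Bool.eq_iff_iff]
  simp only [Function.comp_apply, Bool.and_eq_true, Nat.beq_eq, Bool.not_eq_true',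
    ← Bool.not_eq_true]
  omega

theorem tget_bp {α : Type} (k : ℕ) : ∀ (l : List (ℕ × α)) (s : ℕ),
    tget k (bp k l) s = (l.filter (fun x => Nat.beq x.1 s)).map (fun x => x.2) := by
  induction k with
  | zero =>
    intro l s
    unfold tget
    rw [pow_zero, Nat.div_one]
    rfl
  | succ k ih =>
    intro l s
    cases l with
    | nil => rfl
    | cons a l =>
      have hdiv : s / 2 ^ (k + 1) = s / 2 / 2 ^ k := by
        rw [pow_succ', Nat.div_div_eq_div_mul]
      unfold tget
      rw [hdiv]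
      rcases Nat.mod_two_eq_zero_or_one s with h0 | h1
      · have hg : (bp (k + 1) (a :: l)).get s =
            (bp k (((a :: l).filter (fun e => Nat.beq (e.1 % 2) 0)).map
              (fun e => (e.1 / 2, e.2)))).get (s / 2) := by
          show (bif Nat.beq (s % 2) 0 then _ else _) = _
          rw [h0]
          rfl
        rw [hg]
        have h2 := ih (((a :: l).filter (fun e => Nat.beq (e.1 % 2) 0)).map
              (fun e => (e.1 / 2, e.2))) (s / 2)
        unfold tget at h2
        rw [h2, split_even _ s h0]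
      · have hg : (bp (k + 1) (a :: l)).get s =
            (bp k (((a :: l).filter (fun e => !Nat.beq (e.1 % 2) 0)).map
              (fun e => (e.1 / 2, e.2)))).get (s / 2) := by
          show (bif Nat.beq (s % 2) 0 then _ else _) = _
          rw [h1]
          rfl
        rw [hg]
        have h2 := ih (((a :: l).filter (fun e => !Nat.beq (e.1 % 2) 0)).map
              (fun e => (e.1 / 2, e.2))) (s / 2)
        unfold tget at h2
        rw [h2, split_odd _ s h1]

structure RD where
  r : ℕ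
  nr : ℕ
  tr : Tr (List (ℕ × (ℕ × Array (ℕ × ℤ))))
  co : List ℤ
  ca : List ℤ

def rd (D : ChevalleyDatum) (r : ℕ) : RD where
  r := r
  nr := D.negIdx.getD r 0
  tr := bp 8 ((D.chain.getD r #[]).toList.map (fun e => (e.1, e)))
  co := (List.range D.rank).map (fun i => (D.coroot.getD r #[]).getD i 0)
  ca := (List.range D.rank).map (fun i => (D.cartanSR.getD i #[]).getD r 0)

theorem rd_co (D : ChevalleyDatum) (r i : ℕ) (hi : i < D.rank) :
    (rd D r).co.getD i 0 = (D.coroot.getD r #[]).getD i 0 := by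
  simp [rd, List.getD_eq_getElem?_getD, hi]

theorem rd_ca (D : ChevalleyDatum) (r i : ℕ) (hi : i < D.rank) :
    (rd D r).ca.getD i 0 = (D.cartanSR.getD i #[]).getD r 0 := by
  simp [rd, List.getD_eq_getElem?_getD, hi]

theorem rd_tget (D : ChevalleyDatum) (r s : ℕ) :
    tget 8 (rd D r).tr s = (D.chain.getD r #[]).toList.filter (fun e => decide (e.1 = s)) := by
  show tget 8 (bp 8 ((D.chain.getD r #[]).toList.map (fun e => (e.1, e)))) s = _
  rw [tget_bp, List.filter_map, List.map_map]
  have h1 : ((fun x : ℕ × (ℕ × Array (ℕ × ℤ)) => x.2) ∘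
      (fun e : ℕ × Array (ℕ × ℤ) => (e.1, e))) = id := rfl
  rw [h1, List.map_id]
  apply List.filter_congr
  intro x _
  rw [Bool.eq_iff_iff]
  simp only [Function.comp_apply, Nat.beq_eq, decide_eq_true_eq]

def xcolF (rk nr : ℕ) (R : RD) (τ : LP) (idx : ℕ) : SV :=
  bif Nat.blt idx rk then [(idx, lone), (rk + R.r, lscale (-(R.ca.getD idx 0)) τ)]
  else bif Nat.blt idx (rk + nr) then
    (bif Nat.beq (idx - rk) R.r then [(idx, lone)]
    else bif Nat.beq (idx - rk) R.nr then
      (idx, lone) :: (rk + R.r, lscale (-1) (lmul τ τ)) ::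
        (List.range rk).map (fun i => (i, lscale (R.co.getD i 0) τ))
    else (idx, lone) :: (tget 8 R.tr (idx - rk)).flatMap
      (fun e => e.2.toList.zipIdx.map (fun q => (rk + q.1.1, lscale q.1.2 (lpow τ (q.2 + 1))))))
  else []

theorem range_sem (c d t : F) (g : ℕ → LP) (n j : ℕ) :
    ev c d t (cf ((List.range n).map (fun i => (i, g i))) j) =
      if j < n then ev c d t (g j) else 0 := by
  induction n with
  | zero => simp [cf, ev]
  | succ n ih =>
    rw [List.range_succ, List.map_append, cf_append, ev_append, ih, List.map_cons, List.map_nil,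
      cf_cons, cf_nil, List.append_nil]
    by_cases h1 : j < n
    · rw [if_pos h1, if_neg (by omega), if_pos (by omega), ev_nil, add_zero]
    · by_cases h2 : n = j
      · rw [if_neg h1, if_pos h2, if_pos (by omega), zero_add, h2]
      · rw [if_neg h1, if_neg h2, if_neg (by omega), ev_nil, add_zero]

theorem fm_inner (c d t : F) (rk u : ℕ) (g : ((ℕ × ℤ) × ℕ) → LP) (Z : List ((ℕ × ℤ) × ℕ)) :
    ev c d t (cf (Z.map (fun q => (rk + q.1.1, g q))) (rk + u)) =
      ((Z.filter (fun q => decide (q.1.1 = u))).map (fun q => ev c d t (g q))).sum := by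
  induction Z with
  | nil => rfl
  | cons q Z ih =>
    rw [List.map_cons, cf_cons, ev_append, ih]
    by_cases h : q.1.1 = u
    · rw [if_pos (by rw [h]), List.filter_cons_of_pos (by simpa using h), List.map_cons,
        List.sum_cons]
    · rw [if_neg (by omega), ev_nil, zero_add, List.filter_cons_of_neg (by simpa using h)]

theorem fm_sem (c d t : F) (hcd : c * d = 1) (D : ChevalleyDatum) (r s u : ℕ) (τ : LP) :
    ev c d t (cf (((D.chain.getD r #[]).toList.filter (fun e => decide (e.1 = s))).flatMap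
        (fun e => e.2.toList.zipIdx.map
          (fun q => (D.rank + q.1.1, lscale q.1.2 (lpow τ (q.2 + 1)))))) (D.rank + u)) =
      PP D r s u (ev c d t τ) := by
  unfold PP ChevalleyDatum.chainCoeff
  generalize (D.chain.getD r #[]).toList.filter (fun e => decide (e.1 = s)) = L
  induction L with
  | nil => rfl
  | cons e L ih =>
    rw [List.flatMap_cons, cf_append, ev_append, ih, List.flatMap_cons, List.map_append,
      List.sum_append]
    congr 1
    rw [fm_inner, List.map_map]
    apply congrArg List.sum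
    apply List.map_congr_left
    intro q _
    simp only [Function.comp_apply]
    rw [ev_lscale, ev_lpow c d t hcd]

theorem fm_low (D : ChevalleyDatum) (L : List (ℕ × Array (ℕ × ℤ))) (τ : LP) (i : ℕ)
    (hi : i < D.rank) :
    cf (L.flatMap (fun e => e.2.toList.zipIdx.map
          (fun q => (D.rank + q.1.1, lscale q.1.2 (lpow τ (q.2 + 1)))))) i = [] := by
  apply cf_empty_of
  intro e he
  rw [List.mem_flatMap] at he
  obtain ⟨e', _, he⟩ := he
  rw [List.mem_map] at he
  obtain ⟨q, _, rfl⟩ := he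
  show D.rank + q.1.1 ≠ i
  omega

theorem xcolF_rep (c d t : F) (hcd : c * d = 1) (D : ChevalleyDatum) (r : Fin D.nroots)
    (τ : LP) : Rep c d t D (xcolF D.rank D.nroots (rd D r.val) τ) (D.xMat F r (ev c d t τ)) := by
  have hrr : (rd D r.val).r = r.val := rfl
  have hnr : (rd D r.val).nr = D.negIdx.getD r.val 0 := rfl
  constructor
  · intro row col
    rcases col with i | s
    · have hi := i.isLt
      unfold xcolF
      rw [enc_inl, blt_t hi, cond_true, hrr, rd_ca D r.val i.val hi]
      rcases row with i' | u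
      · have hi' := i'.isLt
        rw [enc_inl, cf_cons, cf_cons, cf_nil, List.append_nil, xm_ii,
          if_neg (by omega : ¬ (D.rank + r.val = i'.val)), List.append_nil]
        by_cases h : i' = i
        · rw [if_pos (by rw [h]), if_pos h, ev_lone]
        · rw [if_neg (fun h' => h (Fin.ext h'.symm)), if_neg h, ev_nil]
      · rw [enc_inr, cf_cons, cf_cons, cf_nil, List.append_nil, xm_ri,
          if_neg (by omega : ¬ (i.val = D.rank + u.val)), List.nil_append]
        by_cases h : u = r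
        · rw [if_pos (by rw [h]), if_pos h, ev_lscale]
          push_cast
          ring
        · rw [if_neg (fun h' => h (Fin.ext (by omega))), if_neg h, ev_nil]
    · have hs := s.isLt
      unfold xcolF
      rw [enc_inr, blt_f (by omega), cond_false, blt_t (by omega), cond_true,
        Nat.add_sub_cancel_left, hrr, hnr]
      by_cases h1 : s = r
      · rw [beq_t (by rw [h1]), cond_true, h1]
        rcases row with i' | u
        · have hi' := i'.isLt
          rw [enc_inl, cf_cons, cf_nil, List.append_nil, if_neg (by omega), ev_nil, xm_ir]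
        · rw [enc_inr, cf_cons, cf_nil, List.append_nil, xm_rr]
          by_cases h : u = r
          · rw [if_pos (by rw [h]), if_pos h, ev_lone]
          · rw [if_neg (fun h' => h (Fin.ext (by omega))), if_neg h, ev_nil]
      · have h1' : ¬ (s.val = r.val) := fun h => h1 (Fin.ext h)
        rw [beq_f h1', cond_false]
        by_cases h2 : s.val = D.negIdx.getD r.val 0
        · rw [beq_t h2, cond_true]
          rcases row with i' | u
          · have hi' := i'.isLt
            rw [enc_inl, cf_cons, cf_cons, if_neg (by omega), if_neg (by omega), List.nil_append,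
              List.nil_append, range_sem, if_pos hi', ev_lscale, rd_co D r.val i'.val hi',
              xm_in D r _ s h1 h2]
          · rw [enc_inr, cf_cons, cf_cons, ev_append, ev_append, range_sem,
              if_neg (by omega : ¬ (D.rank + u.val < D.rank)), add_zero, xm_rn D r _ s h1 h2]
            by_cases h3 : u = s
            · have h4 : ¬ (D.rank + r.val = D.rank + u.val) := by
                rw [h3]
                omega
              rw [if_pos (by rw [h3]), if_pos h3, if_neg h4, ev_lone, ev_nil, add_zero]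
            · have h3' : ¬ (D.rank + s.val = D.rank + u.val) := fun h => h3 (Fin.ext (by omega))
              rw [if_neg h3', if_neg h3, ev_nil, zero_add]
              by_cases h4 : u = r
              · rw [if_pos (by rw [h4]), if_pos h4, ev_lscale, ev_lmul c d t hcd]
                push_cast
                ring
              · rw [if_neg (fun h => h4 (Fin.ext (by omega))), if_neg h4, ev_nil]
        · rw [beq_f h2, cond_false, rd_tget]
          rcases row with i' | u
          · have hi' := i'.isLt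
            rw [enc_inl, cf_cons, if_neg (by omega), List.nil_append, fm_low D _ τ i'.val hi',
              ev_nil, xm_ig D r _ s h1 h2]
          · rw [enc_inr, cf_cons, ev_append, fm_sem c d t hcd, xm_rg D r _ s h1 h2]
            congr 1
            by_cases h3 : u = s
            · rw [if_pos (by rw [h3]), if_pos h3, ev_lone]
            · rw [if_neg (fun h => h3 (Fin.ext (by omega))), if_neg h3, ev_nil]
  · intro idx hidx row
    unfold xcolF
    rw [blt_f (by omega), cond_false, blt_f (by omega), cond_false, cf_nil, ev_nil]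

def colT (ct : Tr SV) (f : ℕ → SV) (j : ℕ) : SV := bif Nat.blt j 256 then ct.get j else f j

theorem colT_eq (f : ℕ → SV) : colT (build 8 f) f = f := by
  funext j
  unfold colT
  by_cases h : j < 256
  · rw [blt_t h, cond_true, get_build 8 f j (by norm_num; exact h)]
  · rw [blt_f h, cond_false]

def mkcol (D : ChevalleyDatum) (R : RD) (τ : LP) : ℕ → SV :=
  colT (build 8 (xcolF D.rank D.nroots R τ)) (xcolF D.rank D.nroots R τ)

theorem mkcol_eq (D : ChevalleyDatum) (R : RD) (τ : LP) :
    mkcol D R τ = xcolF D.rank D.nroots R τ := colT_eq _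

def hcolsC (c1 c2 c3 c4 : ℕ → SV) : List (ℕ → SV) := [c1, c2, c1, c3, c4, c3]

def hcolsR (D : ChevalleyDatum) (R1 R2 : RD) : List (ℕ → SV) :=
  hcolsC (mkcol D R1 [(1, 0, 0, 1)]) (mkcol D R2 [(0, 1, 0, -1)]) (mkcol D R1 [(0, 0, 0, -1)])
    (mkcol D R2 [(0, 0, 0, 1)])

def hcols (D : ChevalleyDatum) (r : ℕ) : List (ℕ → SV) :=
  hcolsR D (rd D r) (rd D (D.negIdx.getD r 0))

def hexpF (rk : ℕ) (A : ℕ → ℤ) (idx : ℕ) : SV :=
  bif Nat.blt idx rk then [(idx, lone)]
  else [(idx, [(Int.toNat (A (idx - rk)), Int.toNat (-(A (idx - rk))), 0, 1)])]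

def hcheckC (cols : List (ℕ → SV)) (rk dim : ℕ) (A : ℕ → ℤ) : Bool :=
  (List.range dim).all (fun idx => veq (wappF cols (bv idx)) (hexpF rk A idx))

def hcheckF (D : ChevalleyDatum) (r : ℕ) (A : ℕ → ℤ) : Bool :=
  Nat.blt r D.nroots && (Nat.blt (D.negIdx.getD r 0) D.nroots &&
    hcheckC (hcols D r) D.rank (D.rank + D.nroots) A)

theorem zpow_split (c : F) (hc : c ≠ 0) (A : ℤ) : c ^ A.toNat * (c⁻¹) ^ (-A).toNat = c ^ A := by
  obtain ⟨n, rfl | rfl⟩ := Int.eq_nat_or_neg A
  · simp
  · simp

theorem h_diagF (D : ChevalleyDatum) (r : ℕ) (A : ℕ → ℤ) (hchk : hcheckF D r A = true) (c : F)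
    (hc : c ≠ 0) :
    D.hMat F r c =
      Matrix.diagonal (Sum.elim (fun _ => (1 : F)) (fun s : Fin D.nroots => c ^ (A s.val))) := by
  unfold hcheckF hcheckC at hchk
  simp only [Bool.and_eq_true, Nat.blt_eq, List.all_eq_true, List.mem_range] at hchk
  obtain ⟨hr, hnr, hall⟩ := hchk
  have hcd : c * c⁻¹ = 1 := mul_inv_cancel₀ hc
  have hM : D.hMat F r c = [D.xMat F ⟨r, hr⟩ (ev c c⁻¹ 1 [(1, 0, 0, 1)]),
      D.xMat F ⟨D.negIdx.getD r 0, hnr⟩ (ev c c⁻¹ 1 [(0, 1, 0, -1)]),
      D.xMat F ⟨r, hr⟩ (ev c c⁻¹ 1 [(1, 0, 0, 1)]),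
      D.xMat F ⟨r, hr⟩ (ev c c⁻¹ 1 [(0, 0, 0, -1)]),
      D.xMat F ⟨D.negIdx.getD r 0, hnr⟩ (ev c c⁻¹ 1 [(0, 0, 0, 1)]),
      D.xMat F ⟨r, hr⟩ (ev c c⁻¹ 1 [(0, 0, 0, -1)])].prod := by
    have hxr : ∀ t : F, D.x F r t = D.xMat F ⟨r, hr⟩ t := fun t => by
      unfold ChevalleyDatum.x
      rw [dif_pos hr]
    have hxn : ∀ t : F, D.x F (D.negIdx.getD r 0) t = D.xMat F ⟨D.negIdx.getD r 0, hnr⟩ t :=
      fun t => by
        unfold ChevalleyDatum.x
        rw [dif_pos hnr]
    have e1 : ev c c⁻¹ 1 [(1, 0, 0, 1)] = c := by simp [ev]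
    have e2 : ev c c⁻¹ 1 [(0, 1, 0, -1)] = -c⁻¹ := by simp [ev]
    have e3 : ev c c⁻¹ 1 [(0, 0, 0, -1)] = -1 := by simp [ev]
    have e4 : ev c c⁻¹ 1 [(0, 0, 0, 1)] = -(-1 : F)⁻¹ := by simp [ev, inv_neg]
    unfold ChevalleyDatum.hMat ChevalleyDatum.hWord ChevalleyDatum.nWord ChevalleyDatum.wordMat
      ChevalleyDatum.neg
    rw [e1, e2, e3, e4, ← hxr, ← hxr, ← hxn, ← hxn]
    rfl
  have hR : List.Forall₂ (Rep c c⁻¹ 1 D) (hcols D r) [D.xMat F ⟨r, hr⟩ (ev c c⁻¹ 1 [(1, 0, 0, 1)]),
      D.xMat F ⟨D.negIdx.getD r 0, hnr⟩ (ev c c⁻¹ 1 [(0, 1, 0, -1)]),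
      D.xMat F ⟨r, hr⟩ (ev c c⁻¹ 1 [(1, 0, 0, 1)]),
      D.xMat F ⟨r, hr⟩ (ev c c⁻¹ 1 [(0, 0, 0, -1)]),
      D.xMat F ⟨D.negIdx.getD r 0, hnr⟩ (ev c c⁻¹ 1 [(0, 0, 0, 1)]),
      D.xMat F ⟨r, hr⟩ (ev c c⁻¹ 1 [(0, 0, 0, -1)])] := by
    unfold hcols hcolsR hcolsC
    simp only [mkcol_eq]
    exact List.Forall₂.cons (xcolF_rep c c⁻¹ 1 hcd D ⟨r, hr⟩ _)
      (List.Forall₂.cons (xcolF_rep c c⁻¹ 1 hcd D ⟨D.negIdx.getD r 0, hnr⟩ _)
      (List.Forall₂.cons (xcolF_rep c c⁻¹ 1 hcd D ⟨r, hr⟩ _)
      (List.Forall₂.cons (xcolF_rep c c⁻¹ 1 hcd D ⟨r, hr⟩ _)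
      (List.Forall₂.cons (xcolF_rep c c⁻¹ 1 hcd D ⟨D.negIdx.getD r 0, hnr⟩ _)
      (List.Forall₂.cons (xcolF_rep c c⁻¹ 1 hcd D ⟨r, hr⟩ _) List.Forall₂.nil)))))
  ext row col
  rw [hM, word_entryF c c⁻¹ 1 hcd D _ _ hR row col,
    veq_sound c c⁻¹ 1 _ _ (hall (enc D col) (enc_lt D col)) (enc D row)]
  unfold hexpF
  rcases col with i | s
  · have hi := i.isLt
    rw [enc_inl, blt_t hi, cond_true, cf_cons, cf_nil, List.append_nil]
    by_cases h : row = Sum.inl i
    · subst h
      rw [enc_inl, if_pos rfl, ev_lone, Matrix.diagonal_apply_eq, Sum.elim_inl]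
    · rw [if_neg (fun h' => h (enc_inj D (by rw [enc_inl]; exact h'.symm))), ev_nil,
        Matrix.diagonal_apply_ne _ h]
  · rw [enc_inr, blt_f (by omega), cond_false, Nat.add_sub_cancel_left, cf_cons, cf_nil,
      List.append_nil]
    by_cases h : row = Sum.inr s
    · subst h
      rw [enc_inr, if_pos rfl, Matrix.diagonal_apply_eq, Sum.elim_inr, ev_cons, ev_nil,
        ← zpow_split c hc (A s.val)]
      simp
    · rw [if_neg (fun h' => h (enc_inj D (by rw [enc_inr]; exact h'.symm))), ev_nil,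
        Matrix.diagonal_apply_ne _ h]

end Cfsg.Agent.Lib.Helper2.ChevFast
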