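import Mathlib
import Cfsg.Agent.Lib.Helper2.ChevFast2
import Cfsg.Agent.Lib.Helper2.ChevChar

set_option autoImplicit false

namespace Cfsg.Agent.Lib.Helper2.ChevFast

open Cfsg.Lie
open Cfsg.Agent.Lib.Helper2.ChevAdd
open Cfsg.Agent.Lib.Helper2.ChevSym

variable {F : Type*} [Field F]

def art (a b : List ℤ) : ℤ := (List.zipWith (· * ·) a b).sum

theorem art_neg (a l : List ℤ) : art a (l.map (fun x => -x)) = - art a l := by
  unfold art
  induction a generalizing l with
  | nil => simp
  | cons x a ih =>
    cases l with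
    | nil => simp
    | cons y l =>
      rw [List.map_cons, List.zipWith_cons_cons, List.zipWith_cons_cons, List.sum_cons,
        List.sum_cons, ih l]
      ring

theorem art_add (a l1 l2 : List ℤ) (h : l1.length = l2.length) :
    art a (List.zipWith (· + ·) l1 l2) = art a l1 + art a l2 := by
  unfold art
  induction a generalizing l1 l2 with
  | nil => simp
  | cons x a ih =>
    cases l1 with
    | nil =>
      cases l2 with
      | nil => simp
      | cons z l2 => simp at h
    | cons y l1 =>
      cases l2 with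
      | nil => simp at h
      | cons z l2 =>
        rw [List.zipWith_cons_cons, List.zipWith_cons_cons, List.zipWith_cons_cons,
          List.zipWith_cons_cons, List.sum_cons, List.sum_cons, List.sum_cons,
          ih l1 l2 (by simpa using h)]
        ring

def hsBF (D : ChevalleyDatum) (T : Tr (List ℤ)) (lo n : ℕ) : Bool :=
  (List.range' lo n).all (fun i => hcheckF D (D.simple i) (fun v => (T.get v).getD i 0))

def haBF (D : ChevalleyDatum) (T : Tr (List ℤ)) (lo n : ℕ) : Bool :=
  (List.range' lo n).all
    (fun r => hcheckF D r (fun v => art (D.coroot.getD r #[]).toList (T.get v)))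

theorem hs_app (D : ChevalleyDatum) (T : Tr (List ℤ)) (lo n m : ℕ) (h1 : hsBF D T lo n = true)
    (h2 : hsBF D T (lo + n) m = true) : hsBF D T lo (n + m) = true := by
  unfold hsBF at h1 h2 ⊢
  rw [← List.range'_append_1, List.all_append, h1, h2]
  rfl

theorem ha_app (D : ChevalleyDatum) (T : Tr (List ℤ)) (lo n m : ℕ) (h1 : haBF D T lo n = true)
    (h2 : haBF D T (lo + n) m = true) : haBF D T lo (n + m) = true := by
  unfold haBF at h1 h2 ⊢
  rw [← List.range'_append_1, List.all_append, h1, h2]
  rfl

theorem hs_diagF (D : ChevalleyDatum) (hB : hsBF D (ctrie D) 0 D.rank = true)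
    (h256 : D.nroots ≤ 256) (i : ℕ) (hi : i < D.rank) (c : F) (hc : c ≠ 0) :
    D.hMat F (D.simple i) c =
      Matrix.diagonal (Sum.elim (fun _ => (1 : F)) (fun s : Fin D.nroots => c ^ (D.cartan i s))) := by
  unfold hsBF at hB
  rw [List.all_eq_true] at hB
  rw [h_diagF D (D.simple i) _ (hB i (List.mem_range'_1.2 ⟨Nat.zero_le i, by omega⟩)) c hc]
  congr 1
  funext x
  rcases x with j | s
  · rfl
  · show c ^ ((ctrie D).get s.val).getD i 0 = c ^ D.cartan i s.val
    rw [ctrie_get D s.val (lt_of_lt_of_le s.isLt h256), cl_getD]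

def Art (D : ChevalleyDatum) (r v : ℕ) : ℤ := art (D.coroot.getD r #[]).toList (cl D v)

theorem ha_diagF (D : ChevalleyDatum) (hB : haBF D (ctrie D) 0 D.nroots = true)
    (h256 : D.nroots ≤ 256) (r : ℕ) (hr : r < D.nroots) (c : F) (hc : c ≠ 0) :
    D.hMat F r c =
      Matrix.diagonal (Sum.elim (fun _ => (1 : F)) (fun s : Fin D.nroots => c ^ (Art D r s))) := by
  unfold haBF at hB
  rw [List.all_eq_true] at hB
  rw [h_diagF D r _ (hB r (List.mem_range'_1.2 ⟨Nat.zero_le r, by omega⟩)) c hc]
  congr 1
  funext x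
  rcases x with j | s
  · rfl
  · show c ^ art (D.coroot.getD r #[]).toList ((ctrie D).get s.val) = c ^ Art D r s.val
    rw [ctrie_get D s.val (lt_of_lt_of_le s.isLt h256)]
    rfl

theorem Art_neg (D : ChevalleyDatum) (h : rcB D = true) (r v : ℕ) (hv : v < D.nroots) :
    Art D r (D.neg v) = - Art D r v := by
  unfold Art
  rw [rcl_neg D h v hv, art_neg]

theorem Art_add (D : ChevalleyDatum) (h : rcB D = true) (r a b k : ℕ) (ha : a < D.nroots)
    (hk : D.chainRoot a b 1 = some k) : Art D r k = Art D r a + Art D r b := by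
  unfold Art
  rw [rcl_add D h a b k ha hk, art_add _ _ _ (by rw [cl_length, cl_length])]

theorem char_art (D : ChevalleyDatum) (h : rcB D = true) (r : ℕ) (u : Fˣ) :
    D.IsRootCharacter (fun v => u ^ (Art D r v)) := by
  constructor
  · intro v hv
    show u ^ (Art D r (D.neg v)) = (u ^ (Art D r v))⁻¹
    rw [Art_neg D h r v hv, zpow_neg]
  · intro a b k ha _ hk
    show u ^ (Art D r k) = u ^ (Art D r a) * u ^ (Art D r b)
    rw [Art_add D h r a b k ha hk, zpow_add]

end Cfsg.Agent.Lib.Helper2.ChevFast
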