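import Mathlib
import Cfsg.Agent.Lib.Helper2.ChevFast3

set_option autoImplicit false

namespace Cfsg.Agent.Lib.Helper2.ChevFast

open Cfsg.Lie
open Cfsg.Agent.Lib.Helper2.ChevAdd
open Cfsg.Agent.Lib.Helper2.ChevSym

variable {F : Type*} [Field F]

def ncols (D : ChevalleyDatum) (r : ℕ) : List (ℕ → SV) :=
  [mkcol D (rd D r) [(0, 0, 0, 1)], mkcol D (rd D (D.negIdx.getD r 0)) [(0, 0, 0, -1)],
    mkcol D (rd D r) [(0, 0, 0, 1)]]

def ncolG (D : ChevalleyDatum) (i : ℕ) (idx : ℕ) : SV := wappF (ncols D (D.simple i)) (bv idx)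

def ncolF (D : ChevalleyDatum) (i : ℕ) : ℕ → SV := colT (build 8 (ncolG D i)) (ncolG D i)

theorem ncolF_eq (D : ChevalleyDatum) (i : ℕ) : ncolF D i = ncolG D i := colT_eq _

def lsum (p : LP) : ℤ := (p.map (fun a => a.2.2.2)).sum

def etaF (D : ChevalleyDatum) (i s : ℕ) : ℤ :=
  lsum (cf (ncolF D i (D.rank + s)) (D.rank + D.reflectRoot i s))

def nexpF (D : ChevalleyDatum) (i : ℕ) (η : ℕ → ℤ) (idx : ℕ) : SV :=
  bif Nat.blt idx D.rank then [(idx, lone), (i, [(0, 0, 0, - D.cartan idx (D.simple i))])]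
  else [(D.rank + D.reflectRoot i (idx - D.rank), [(0, 0, 0, η (idx - D.rank))])]

def ncheckB (D : ChevalleyDatum) (i : ℕ) : Bool :=
  Nat.blt (D.simple i) D.nroots && (Nat.blt (D.negIdx.getD (D.simple i) 0) D.nroots &&
    ((List.range (D.rank + D.nroots)).all
        (fun idx => veq (ncolF D i idx) (nexpF D i (etaF D i) idx)) &&
      ((List.range D.nroots).all (fun s =>
          (etaF D i s == 1 || etaF D i s == -1) &&
            (etaF D i s * etaF D i (D.reflectRoot i s) == (-1) ^ (D.cartan i s).natAbs &&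
              etaF D i s * etaF D i (D.neg s) == 1)) &&
        (etaF D i (D.simple i) == -1 && etaF D i (D.neg (D.simple i)) == -1))))

theorem ev1 (k : ℤ) : ev (1 : F) 1 1 [(0, 0, 0, k)] = (k : F) := by
  simp [ev]

theorem n_explicit (D : ChevalleyDatum) (i : ℕ) (hi : i < D.rank) (hchk : ncheckB D i = true) :
    D.nMat F (D.simple i) 1 = Matrix.of (fun (row col : D.Idx) =>
        Sum.elim
          (fun j' : Fin D.rank => Sum.elim
            (fun j : Fin D.rank => (if j' = j then (1 : F) else 0) -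
              (if (j' : ℕ) = i then ((D.cartan j (D.simple i) : ℤ) : F) else 0))
            (fun _ => (0 : F)) col)
          (fun s' : Fin D.nroots => Sum.elim
            (fun _ => (0 : F))
            (fun s : Fin D.nroots =>
              if (s' : ℕ) = D.reflectRoot i s then ((etaF D i s : ℤ) : F) else 0) col)
          row) := by
  unfold ncheckB at hchk
  simp only [Bool.and_eq_true, Nat.blt_eq, List.all_eq_true, List.mem_range] at hchk
  obtain ⟨hr, hnr, hall, -, -⟩ := hchk
  have hcd : (1 : F) * 1 = 1 := mul_one 1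
  have hM : D.nMat F (D.simple i) 1 = [D.xMat F ⟨D.simple i, hr⟩ (ev 1 1 1 [(0, 0, 0, 1)]),
      D.xMat F ⟨D.negIdx.getD (D.simple i) 0, hnr⟩ (ev 1 1 1 [(0, 0, 0, -1)]),
      D.xMat F ⟨D.simple i, hr⟩ (ev 1 1 1 [(0, 0, 0, 1)])].prod := by
    have hxr : ∀ t : F, D.x F (D.simple i) t = D.xMat F ⟨D.simple i, hr⟩ t := fun t => by
      unfold ChevalleyDatum.x
      rw [dif_pos hr]
    have hxn : ∀ t : F, D.x F (D.negIdx.getD (D.simple i) 0) t =
        D.xMat F ⟨D.negIdx.getD (D.simple i) 0, hnr⟩ t :=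
      fun t => by
        unfold ChevalleyDatum.x
        rw [dif_pos hnr]
    have e1 : ev (1 : F) 1 1 [(0, 0, 0, 1)] = 1 := by simp [ev]
    have e2 : ev (1 : F) 1 1 [(0, 0, 0, -1)] = -(1 : F)⁻¹ := by simp [ev]
    unfold ChevalleyDatum.nMat ChevalleyDatum.nWord ChevalleyDatum.wordMat ChevalleyDatum.neg
    rw [e1, e2, ← hxr, ← hxn]
    rfl
  have hR : List.Forall₂ (Rep (1 : F) 1 1 D) (ncols D (D.simple i))
      [D.xMat F ⟨D.simple i, hr⟩ (ev 1 1 1 [(0, 0, 0, 1)]),
      D.xMat F ⟨D.negIdx.getD (D.simple i) 0, hnr⟩ (ev 1 1 1 [(0, 0, 0, -1)]),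
      D.xMat F ⟨D.simple i, hr⟩ (ev 1 1 1 [(0, 0, 0, 1)])] := by
    unfold ncols
    simp only [mkcol_eq]
    exact List.Forall₂.cons (xcolF_rep 1 1 1 hcd D ⟨D.simple i, hr⟩ _)
      (List.Forall₂.cons (xcolF_rep 1 1 1 hcd D ⟨D.negIdx.getD (D.simple i) 0, hnr⟩ _)
      (List.Forall₂.cons (xcolF_rep 1 1 1 hcd D ⟨D.simple i, hr⟩ _) List.Forall₂.nil))
  ext row col
  have hv := veq_sound (1 : F) 1 1 _ _ (hall (enc D col) (enc_lt D col)) (enc D row)
  rw [ncolF_eq] at hv
  rw [hM, word_entryF 1 1 1 hcd D _ _ hR row col]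
  have hv' : ev (1 : F) 1 1 (cf (wappF (ncols D (D.simple i)) (bv (enc D col))) (enc D row)) =
      ev 1 1 1 (cf (nexpF D i (etaF D i) (enc D col)) (enc D row)) := hv
  rw [hv']
  unfold nexpF
  rcases col with j | s
  · have hj := j.isLt
    rw [enc_inl, blt_t hj, cond_true, cf_cons, cf_cons, cf_nil, List.append_nil, ev_append]
    rcases row with j' | s'
    · rw [enc_inl, Matrix.of_apply, Sum.elim_inl, Sum.elim_inl]
      have h1 : ev (1 : F) 1 1 (if (j : ℕ) = (j' : ℕ) then lone else []) =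
          (if j' = j then (1 : F) else 0) := by
        by_cases h : j' = j
        · rw [if_pos (by rw [h]), if_pos h, ev_lone]
        · rw [if_neg (fun h' => h (Fin.ext h'.symm)), if_neg h, ev_nil]
      have h2 : ev (1 : F) 1 1
          (if i = (j' : ℕ) then [(0, 0, 0, - D.cartan j (D.simple i))] else []) =
          - (if (j' : ℕ) = i then ((D.cartan j (D.simple i) : ℤ) : F) else 0) := by
        by_cases h : (j' : ℕ) = i
        · rw [if_pos h.symm, if_pos h, ev1]
          push_cast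
          rfl
        · rw [if_neg (fun h' => h h'.symm), if_neg h, ev_nil, neg_zero]
      rw [h1, h2, sub_eq_add_neg]
    · have hs' := s'.isLt
      rw [enc_inr, Matrix.of_apply, Sum.elim_inr, Sum.elim_inl, if_neg (by omega),
        if_neg (by omega), ev_nil, add_zero]
  · have hs := s.isLt
    rw [enc_inr, blt_f (by omega), cond_false, Nat.add_sub_cancel_left, cf_cons, cf_nil,
      List.append_nil]
    rcases row with j' | s'
    · have hj' := j'.isLt
      rw [enc_inl, Matrix.of_apply, Sum.elim_inl, Sum.elim_inr, if_neg (by omega), ev_nil]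
    · rw [enc_inr, Matrix.of_apply, Sum.elim_inr, Sum.elim_inr]
      by_cases h : (s' : ℕ) = D.reflectRoot i s
      · rw [if_pos (by rw [h]), if_pos h, ev1]
      · rw [if_neg (fun h' => h (by omega)), if_neg h, ev_nil]

theorem n_props (D : ChevalleyDatum) (i : ℕ) (hchk : ncheckB D i = true) :
    (∀ s < D.nroots, etaF D i s = 1 ∨ etaF D i s = -1) ∧ etaF D i (D.simple i) = -1 ∧
      etaF D i (D.neg (D.simple i)) = -1 ∧
      (∀ s < D.nroots, etaF D i s * etaF D i (D.reflectRoot i s) = (-1) ^ (D.cartan i s).natAbs ∧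
        etaF D i s * etaF D i (D.neg s) = 1) := by
  unfold ncheckB at hchk
  simp only [Bool.and_eq_true, Nat.blt_eq, List.all_eq_true, List.mem_range, Bool.or_eq_true,
    beq_iff_eq] at hchk
  obtain ⟨-, -, -, hall, h1, h2⟩ := hchk
  exact ⟨fun s hs => (hall s hs).1, h1, h2, fun s hs => (hall s hs).2⟩

end Cfsg.Agent.Lib.Helper2.ChevFast
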