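import Mathlib
import Cfsg.Agent.Lib.Helper2.ChevN

set_option autoImplicit false

namespace Cfsg.Agent.Lib.Helper2.ChevFast

open Cfsg.Lie
open Cfsg.Agent.Lib.Helper2.ChevAdd
open Cfsg.Agent.Lib.Helper2.ChevSym

variable {F : Type*} [Field F]

def conjB (D : ChevalleyDatum) (i s : ℕ) : Bool :=
  Nat.blt (D.reflectRoot i s) D.nroots &&
  (List.range (D.rank + D.nroots)).all (fun idx =>
    veq (wappF [ncolF D i, mkcol D (rd D s) [(0, 0, 1, 1)]] (bv idx))
      (wappF [mkcol D (rd D (D.reflectRoot i s)) [(0, 0, 1, etaF D i s)], ncolF D i] (bv idx)))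

def conjR (D : ChevalleyDatum) (i lo n : ℕ) : Bool := (List.range' lo n).all (fun s => conjB D i s)

theorem conjR_app (D : ChevalleyDatum) (i lo n m : ℕ) (h1 : conjR D i lo n = true)
    (h2 : conjR D i (lo + n) m = true) : conjR D i lo (n + m) = true := by
  unfold conjR at h1 h2 ⊢
  rw [← List.range'_append_1, List.all_append, h1, h2]
  rfl

theorem conjR_spec (D : ChevalleyDatum) (i : ℕ) (h : conjR D i 0 D.nroots = true) (s : ℕ)
    (hs : s < D.nroots) : conjB D i s = true := by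
  unfold conjR at h
  rw [List.all_eq_true] at h
  exact h s (List.mem_range'_1.2 ⟨Nat.zero_le s, by omega⟩)

theorem n_bounds (D : ChevalleyDatum) (i : ℕ) (hchk : ncheckB D i = true) :
    D.simple i < D.nroots ∧ D.negIdx.getD (D.simple i) 0 < D.nroots := by
  unfold ncheckB at hchk
  simp only [Bool.and_eq_true, Nat.blt_eq] at hchk
  exact ⟨hchk.1, hchk.2.1⟩

theorem ncol_rep (D : ChevalleyDatum) (i : ℕ) (hr : D.simple i < D.nroots)
    (hnr : D.negIdx.getD (D.simple i) 0 < D.nroots) (t : F) :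
    Rep (1 : F) 1 t D (ncolF D i) (D.nMat F (D.simple i) 1) := by
  have hcd : (1 : F) * 1 = 1 := mul_one 1
  have hM : D.nMat F (D.simple i) 1 = [D.xMat F ⟨D.simple i, hr⟩ (ev 1 1 t [(0, 0, 0, 1)]),
      D.xMat F ⟨D.negIdx.getD (D.simple i) 0, hnr⟩ (ev 1 1 t [(0, 0, 0, -1)]),
      D.xMat F ⟨D.simple i, hr⟩ (ev 1 1 t [(0, 0, 0, 1)])].prod := by
    have hxr : ∀ u : F, D.x F (D.simple i) u = D.xMat F ⟨D.simple i, hr⟩ u := fun u => by
      unfold ChevalleyDatum.x
      rw [dif_pos hr]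
    have hxn : ∀ u : F, D.x F (D.negIdx.getD (D.simple i) 0) u =
        D.xMat F ⟨D.negIdx.getD (D.simple i) 0, hnr⟩ u :=
      fun u => by
        unfold ChevalleyDatum.x
        rw [dif_pos hnr]
    have e1 : ev (1 : F) 1 t [(0, 0, 0, 1)] = 1 := by simp [ev]
    have e2 : ev (1 : F) 1 t [(0, 0, 0, -1)] = -(1 : F)⁻¹ := by simp [ev]
    unfold ChevalleyDatum.nMat ChevalleyDatum.nWord ChevalleyDatum.wordMat ChevalleyDatum.neg
    rw [e1, e2, ← hxr, ← hxn]
    rfl
  have hR : List.Forall₂ (Rep (1 : F) 1 t D) (ncols D (D.simple i))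
      [D.xMat F ⟨D.simple i, hr⟩ (ev 1 1 t [(0, 0, 0, 1)]),
      D.xMat F ⟨D.negIdx.getD (D.simple i) 0, hnr⟩ (ev 1 1 t [(0, 0, 0, -1)]),
      D.xMat F ⟨D.simple i, hr⟩ (ev 1 1 t [(0, 0, 0, 1)])] := by
    unfold ncols
    simp only [mkcol_eq]
    exact List.Forall₂.cons (xcolF_rep 1 1 t hcd D ⟨D.simple i, hr⟩ _)
      (List.Forall₂.cons (xcolF_rep 1 1 t hcd D ⟨D.negIdx.getD (D.simple i) 0, hnr⟩ _)
      (List.Forall₂.cons (xcolF_rep 1 1 t hcd D ⟨D.simple i, hr⟩ _) List.Forall₂.nil))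
  rw [ncolF_eq]
  constructor
  · intro row col
    rw [hM]
    exact (word_entryF 1 1 t hcd D _ _ hR row col).symm
  · intro idx hidx row
    have h1 := congrFun (wappF_sem 1 1 t hcd D _ _ hR (bv idx)) row
    have h2 : semv (1 : F) 1 t D (bv idx) = 0 := by
      ext x
      unfold semv bv
      have hx := enc_lt D x
      rw [cf_cons, cf_nil, List.append_nil, if_neg (by omega), ev_nil]
      rfl
    rw [h2, Matrix.mulVec_zero] at h1
    exact h1

theorem conj_sound (D : ChevalleyDatum) (i s : ℕ) (hs : s < D.nroots)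
    (hr : D.simple i < D.nroots) (hnr : D.negIdx.getD (D.simple i) 0 < D.nroots)
    (hchk : conjB D i s = true) (t : F) :
    D.nMat F (D.simple i) 1 * D.x F s t =
      D.x F (D.reflectRoot i s) (((etaF D i s : ℤ) : F) * t) * D.nMat F (D.simple i) 1 := by
  unfold conjB at hchk
  simp only [Bool.and_eq_true, Nat.blt_eq, List.all_eq_true, List.mem_range] at hchk
  obtain ⟨hw, hall⟩ := hchk
  have hcd : (1 : F) * 1 = 1 := mul_one 1
  have hN := ncol_rep D i hr hnr t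
  have hxs : D.x F s t = D.xMat F ⟨s, hs⟩ (ev 1 1 t [(0, 0, 1, 1)]) := by
    unfold ChevalleyDatum.x
    rw [dif_pos hs]
    congr 1
    simp [ev]
  have hxw : D.x F (D.reflectRoot i s) (((etaF D i s : ℤ) : F) * t) =
      D.xMat F ⟨D.reflectRoot i s, hw⟩ (ev 1 1 t [(0, 0, 1, etaF D i s)]) := by
    unfold ChevalleyDatum.x
    rw [dif_pos hw]
    congr 1
    simp [ev]
  have hR1 : List.Forall₂ (Rep (1 : F) 1 t D) [ncolF D i, mkcol D (rd D s) [(0, 0, 1, 1)]]
      [D.nMat F (D.simple i) 1, D.xMat F ⟨s, hs⟩ (ev 1 1 t [(0, 0, 1, 1)])] := by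
    refine List.Forall₂.cons hN (List.Forall₂.cons ?_ List.Forall₂.nil)
    rw [mkcol_eq]
    exact xcolF_rep 1 1 t hcd D ⟨s, hs⟩ _
  have hR2 : List.Forall₂ (Rep (1 : F) 1 t D)
      [mkcol D (rd D (D.reflectRoot i s)) [(0, 0, 1, etaF D i s)], ncolF D i]
      [D.xMat F ⟨D.reflectRoot i s, hw⟩ (ev 1 1 t [(0, 0, 1, etaF D i s)]),
        D.nMat F (D.simple i) 1] := by
    refine List.Forall₂.cons ?_ (List.Forall₂.cons hN List.Forall₂.nil)
    rw [mkcol_eq]
    exact xcolF_rep 1 1 t hcd D ⟨D.reflectRoot i s, hw⟩ _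
  rw [hxs, hxw]
  ext row col
  have e1 := word_entryF 1 1 t hcd D _ _ hR1 row col
  have e2 := word_entryF 1 1 t hcd D _ _ hR2 row col
  simp only [List.prod_cons, List.prod_nil, mul_one] at e1 e2
  rw [e1, e2]
  exact veq_sound 1 1 t _ _ (hall (enc D col) (enc_lt D col)) (enc D row)

end Cfsg.Agent.Lib.Helper2.ChevFast
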