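import Mathlib
import Cfsg.Agent.Lib.Helper2.ChevCj

set_option autoImplicit false

namespace Cfsg.Agent.Lib.Helper2.ChevFast

open Cfsg.Lie
open Cfsg.Agent.Lib.Helper2.ChevAdd
open Cfsg.Agent.Lib.Helper2.ChevSym

set_option maxRecDepth 100000 in
theorem cj_E6_4_0 : conjR chevE6 4 0 24 = true := by decide +kernel

set_option maxRecDepth 100000 in
theorem cj_E6_4_1 : conjR chevE6 4 24 24 = true := by decide +kernel

set_option maxRecDepth 100000 in
theorem cj_E6_4_2 : conjR chevE6 4 48 24 = true := by decide +kernel

set_option maxRecDepth 100000 in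
theorem cj_E6_5_0 : conjR chevE6 5 0 24 = true := by decide +kernel

set_option maxRecDepth 100000 in
theorem cj_E6_5_1 : conjR chevE6 5 24 24 = true := by decide +kernel

set_option maxRecDepth 100000 in
theorem cj_E6_5_2 : conjR chevE6 5 48 24 = true := by decide +kernel

end Cfsg.Agent.Lib.Helper2.ChevFast
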