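import Mathlib
import Cfsg.Agent.Lib.Helper2.ChevCj

set_option autoImplicit false

namespace Cfsg.Agent.Lib.Helper2.ChevFast

open Cfsg.Lie
open Cfsg.Agent.Lib.Helper2.ChevAdd
open Cfsg.Agent.Lib.Helper2.ChevSym

set_option maxRecDepth 100000 in
theorem cj_E8_1_18 : conjR chevE8 1 144 8 = true := by decide +kernel

set_option maxRecDepth 100000 in
theorem cj_E8_1_19 : conjR chevE8 1 152 8 = true := by decide +kernel

set_option maxRecDepth 100000 in
theorem cj_E8_1_20 : conjR chevE8 1 160 8 = true := by decide +kernel

set_option maxRecDepth 100000 in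
theorem cj_E8_1_21 : conjR chevE8 1 168 8 = true := by decide +kernel

set_option maxRecDepth 100000 in
theorem cj_E8_1_22 : conjR chevE8 1 176 8 = true := by decide +kernel

set_option maxRecDepth 100000 in
theorem cj_E8_1_23 : conjR chevE8 1 184 8 = true := by decide +kernel

set_option maxRecDepth 100000 in
theorem cj_E8_1_24 : conjR chevE8 1 192 8 = true := by decide +kernel

set_option maxRecDepth 100000 in
theorem cj_E8_1_25 : conjR chevE8 1 200 8 = true := by decide +kernel

end Cfsg.Agent.Lib.Helper2.ChevFast
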