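import Mathlib
import Cfsg.Agent.Lib.Helper2.ChevCj

set_option autoImplicit false

namespace Cfsg.Agent.Lib.Helper2.ChevFast

open Cfsg.Lie
open Cfsg.Agent.Lib.Helper2.ChevAdd
open Cfsg.Agent.Lib.Helper2.ChevSym

set_option maxRecDepth 100000 in
theorem cj_E8_2_12 : conjR chevE8 2 96 8 = true := by decide +kernel

set_option maxRecDepth 100000 in
theorem cj_E8_2_13 : conjR chevE8 2 104 8 = true := by decide +kernel

set_option maxRecDepth 100000 in
theorem cj_E8_2_14 : conjR chevE8 2 112 8 = true := by decide +kernel

set_option maxRecDepth 100000 in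
theorem cj_E8_2_15 : conjR chevE8 2 120 8 = true := by decide +kernel

set_option maxRecDepth 100000 in
theorem cj_E8_2_16 : conjR chevE8 2 128 8 = true := by decide +kernel

set_option maxRecDepth 100000 in
theorem cj_E8_2_17 : conjR chevE8 2 136 8 = true := by decide +kernel

set_option maxRecDepth 100000 in
theorem cj_E8_2_18 : conjR chevE8 2 144 8 = true := by decide +kernel

set_option maxRecDepth 100000 in
theorem cj_E8_2_19 : conjR chevE8 2 152 8 = true := by decide +kernel

end Cfsg.Agent.Lib.Helper2.ChevFast
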