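import Mathlib
import Cfsg.Agent.Lib.Helper2.ChevCj

set_option autoImplicit false

namespace Cfsg.Agent.Lib.Helper2.ChevFast

open Cfsg.Lie
open Cfsg.Agent.Lib.Helper2.ChevAdd
open Cfsg.Agent.Lib.Helper2.ChevSym

set_option maxRecDepth 100000 in
theorem cj_E8_2_20 : conjR chevE8 2 160 8 = true := by decide +kernel

set_option maxRecDepth 100000 in
theorem cj_E8_2_21 : conjR chevE8 2 168 8 = true := by decide +kernel

set_option maxRecDepth 100000 in
theorem cj_E8_2_22 : conjR chevE8 2 176 8 = true := by decide +kernel

set_option maxRecDepth 100000 in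
theorem cj_E8_2_23 : conjR chevE8 2 184 8 = true := by decide +kernel

set_option maxRecDepth 100000 in
theorem cj_E8_2_24 : conjR chevE8 2 192 8 = true := by decide +kernel

set_option maxRecDepth 100000 in
theorem cj_E8_2_25 : conjR chevE8 2 200 8 = true := by decide +kernel

set_option maxRecDepth 100000 in
theorem cj_E8_2_26 : conjR chevE8 2 208 8 = true := by decide +kernel

set_option maxRecDepth 100000 in
theorem cj_E8_2_27 : conjR chevE8 2 216 8 = true := by decide +kernel

end Cfsg.Agent.Lib.Helper2.ChevFast
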