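import Mathlib
import Cfsg.Agent.Lib.Helper2.ChevCj

set_option autoImplicit false

namespace Cfsg.Agent.Lib.Helper2.ChevFast

open Cfsg.Lie
open Cfsg.Agent.Lib.Helper2.ChevAdd
open Cfsg.Agent.Lib.Helper2.ChevSym

set_option maxRecDepth 100000 in
theorem cj_E8_3_6 : conjR chevE8 3 48 8 = true := by decide +kernel

set_option maxRecDepth 100000 in
theorem cj_E8_3_7 : conjR chevE8 3 56 8 = true := by decide +kernel

set_option maxRecDepth 100000 in
theorem cj_E8_3_8 : conjR chevE8 3 64 8 = true := by decide +kernel

set_option maxRecDepth 100000 in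
theorem cj_E8_3_9 : conjR chevE8 3 72 8 = true := by decide +kernel

set_option maxRecDepth 100000 in
theorem cj_E8_3_10 : conjR chevE8 3 80 8 = true := by decide +kernel

set_option maxRecDepth 100000 in
theorem cj_E8_3_11 : conjR chevE8 3 88 8 = true := by decide +kernel

set_option maxRecDepth 100000 in
theorem cj_E8_3_12 : conjR chevE8 3 96 8 = true := by decide +kernel

set_option maxRecDepth 100000 in
theorem cj_E8_3_13 : conjR chevE8 3 104 8 = true := by decide +kernel

end Cfsg.Agent.Lib.Helper2.ChevFast
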