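import Mathlib
import Cfsg.Agent.Lib.Helper2.ChevCj

set_option autoImplicit false

namespace Cfsg.Agent.Lib.Helper2.ChevFast

open Cfsg.Lie
open Cfsg.Agent.Lib.Helper2.ChevAdd
open Cfsg.Agent.Lib.Helper2.ChevSym

set_option maxRecDepth 100000 in
theorem cj_E8_6_4 : conjR chevE8 6 32 8 = true := by decide +kernel

set_option maxRecDepth 100000 in
theorem cj_E8_6_5 : conjR chevE8 6 40 8 = true := by decide +kernel

set_option maxRecDepth 100000 in
theorem cj_E8_6_6 : conjR chevE8 6 48 8 = true := by decide +kernel

set_option maxRecDepth 100000 in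
theorem cj_E8_6_7 : conjR chevE8 6 56 8 = true := by decide +kernel

set_option maxRecDepth 100000 in
theorem cj_E8_6_8 : conjR chevE8 6 64 8 = true := by decide +kernel

set_option maxRecDepth 100000 in
theorem cj_E8_6_9 : conjR chevE8 6 72 8 = true := by decide +kernel

set_option maxRecDepth 100000 in
theorem cj_E8_6_10 : conjR chevE8 6 80 8 = true := by decide +kernel

set_option maxRecDepth 100000 in
theorem cj_E8_6_11 : conjR chevE8 6 88 8 = true := by decide +kernel

end Cfsg.Agent.Lib.Helper2.ChevFast
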