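import Mathlib
import Cfsg.Agent.Lib.Helper2.ChevCj

set_option autoImplicit false

namespace Cfsg.Agent.Lib.Helper2.ChevFast

open Cfsg.Lie
open Cfsg.Agent.Lib.Helper2.ChevAdd
open Cfsg.Agent.Lib.Helper2.ChevSym

set_option maxRecDepth 100000 in
theorem cj_E8_7_14 : conjR chevE8 7 112 8 = true := by decide +kernel

set_option maxRecDepth 100000 in
theorem cj_E8_7_15 : conjR chevE8 7 120 8 = true := by decide +kernel

set_option maxRecDepth 100000 in
theorem cj_E8_7_16 : conjR chevE8 7 128 8 = true := by decide +kernel

set_option maxRecDepth 100000 in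
theorem cj_E8_7_17 : conjR chevE8 7 136 8 = true := by decide +kernel

set_option maxRecDepth 100000 in
theorem cj_E8_7_18 : conjR chevE8 7 144 8 = true := by decide +kernel

set_option maxRecDepth 100000 in
theorem cj_E8_7_19 : conjR chevE8 7 152 8 = true := by decide +kernel

set_option maxRecDepth 100000 in
theorem cj_E8_7_20 : conjR chevE8 7 160 8 = true := by decide +kernel

set_option maxRecDepth 100000 in
theorem cj_E8_7_21 : conjR chevE8 7 168 8 = true := by decide +kernel

end Cfsg.Agent.Lib.Helper2.ChevFast
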