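import Mathlib
import Cfsg.Agent.Lib.Helper2.ChevCj

set_option autoImplicit false

namespace Cfsg.Agent.Lib.Helper2.ChevFast

open Cfsg.Lie
open Cfsg.Agent.Lib.Helper2.ChevAdd
open Cfsg.Agent.Lib.Helper2.ChevSym

set_option maxRecDepth 100000 in
theorem cj_G2_0_0 : conjR chevG2 0 0 12 = true := by decide +kernel

set_option maxRecDepth 100000 in
theorem cj_G2_1_0 : conjR chevG2 1 0 12 = true := by decide +kernel

set_option maxRecDepth 100000 in
theorem cj_B2_0_0 : conjR chevB2 0 0 8 = true := by decide +kernel

set_option maxRecDepth 100000 in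
theorem cj_B2_1_0 : conjR chevB2 1 0 8 = true := by decide +kernel

set_option maxRecDepth 100000 in
theorem cj_D4_0_0 : conjR chevD4 0 0 24 = true := by decide +kernel

set_option maxRecDepth 100000 in
theorem cj_D4_1_0 : conjR chevD4 1 0 24 = true := by decide +kernel

set_option maxRecDepth 100000 in
theorem cj_D4_2_0 : conjR chevD4 2 0 24 = true := by decide +kernel

set_option maxRecDepth 100000 in
theorem cj_D4_3_0 : conjR chevD4 3 0 24 = true := by decide +kernel

set_option maxRecDepth 100000 in
theorem cj_F4_0_0 : conjR chevF4 0 0 48 = true := by decide +kernel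

set_option maxRecDepth 100000 in
theorem cj_F4_1_0 : conjR chevF4 1 0 48 = true := by decide +kernel

set_option maxRecDepth 100000 in
theorem cj_F4_2_0 : conjR chevF4 2 0 48 = true := by decide +kernel

set_option maxRecDepth 100000 in
theorem cj_F4_3_0 : conjR chevF4 3 0 48 = true := by decide +kernel

end Cfsg.Agent.Lib.Helper2.ChevFast
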