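import Mathlib
import Cfsg.Agent.Lib.Helper2.ChevGL
import Cfsg.Agent.Lib.Helper2.ChevAddTab

set_option autoImplicit false

namespace Cfsg.Agent.Lib.Helper2.ChevAdd

open Cfsg.Lie
open scoped MatrixGroups

variable {F : Type*} [Field F] (D : ChevalleyDatum)

def rho (D : ChevalleyDatum) : D.Idx → ℕ
  | Sum.inl i => D.nroots / 2 + i.val
  | Sum.inr s => if s.val < D.nroots / 2 then s.val else s.val + D.rank

theorem rho_inl (i : Fin D.rank) : rho D (Sum.inl i) = D.nroots / 2 + i.val := rfl

theorem rho_inr (s : Fin D.nroots) :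
    rho D (Sum.inr s) = if s.val < D.nroots / 2 then s.val else s.val + D.rank := rfl

theorem rho_lt (i : D.Idx) : rho D i < D.rank + D.nroots := by
  rcases i with i | s
  · rw [rho_inl]
    have := i.isLt
    omega
  · rw [rho_inr]
    have := s.isLt
    split_ifs <;> omega

theorem rho_mono (s u : Fin D.nroots) (h : s.val < u.val) : rho D (Sum.inr s) < rho D (Sum.inr u) := by
  rw [rho_inr, rho_inr]
  split_ifs <;> omega

def UT (M : Matrix D.Idx D.Idx F) : Prop :=
  (∀ i, M i i = 1) ∧ ∀ i j, i ≠ j → rho D i ≤ rho D j → M i j = 0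

theorem UT_one : UT D (1 : Matrix D.Idx D.Idx F) :=
  ⟨fun i => Matrix.one_apply_eq i, fun i j hij _ => Matrix.one_apply_ne hij⟩

theorem UT_mul {M N : Matrix D.Idx D.Idx F} (hM : UT D M) (hN : UT D N) : UT D (M * N) := by
  constructor
  · intro i
    rw [Matrix.mul_apply, Finset.sum_eq_single i]
    · rw [hM.1, hN.1, one_mul]
    · intro k _ hk
      by_cases h : rho D i ≤ rho D k
      · rw [hM.2 i k (Ne.symm hk) h, zero_mul]
      · rw [hN.2 k i hk (by omega), mul_zero]
    · intro h
      exact absurd (Finset.mem_univ _) h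
  · intro i j hij hle
    rw [Matrix.mul_apply]
    apply Finset.sum_eq_zero
    intro k _
    by_cases hk : k = i
    · rw [hk, hN.2 i j hij hle, mul_zero]
    · by_cases h : rho D i ≤ rho D k
      · rw [hM.2 i k (Ne.symm hk) h, zero_mul]
      · have hkj : k ≠ j := by
          rintro rfl
          omega
        rw [hN.2 k j hkj (by omega), mul_zero]

theorem UT_pow_aux {M : Matrix D.Idx D.Idx F} (hM : UT D M) (k : ℕ) :
    ∀ i j, rho D i < rho D j + k → ((M - 1) ^ k) i j = 0 := by
  induction k with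
  | zero =>
    intro i j h
    rw [pow_zero]
    apply Matrix.one_apply_ne
    rintro rfl
    omega
  | succ k ih =>
    intro i j h
    rw [pow_succ, Matrix.mul_apply]
    apply Finset.sum_eq_zero
    intro l _
    by_cases hl : rho D i < rho D l + k
    · rw [ih i l hl, zero_mul]
    · have h1 : (M - 1) l j = 0 := by
        rw [Matrix.sub_apply]
        by_cases hlj : l = j
        · rw [hlj, hM.1, Matrix.one_apply_eq, sub_self]
        · rw [hM.2 l j hlj (by omega), Matrix.one_apply_ne hlj, sub_zero]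
      rw [h1, mul_zero]

theorem UT_pow {M : Matrix D.Idx D.Idx F} (hM : UT D M) : (M - 1) ^ (D.rank + D.nroots) = 0 := by
  ext i j
  rw [UT_pow_aux D hM (D.rank + D.nroots) i j (by have := rho_lt D i; omega)]
  rfl

def uniB (D : ChevalleyDatum) : Bool :=
  (List.range D.nroots).all (fun r => !decide (D.IsPosRoot r) ||
    (decide (D.nroots / 2 ≤ r) && decide (D.negIdx.getD r 0 < D.nroots / 2) &&
      (D.chain.getD r #[]).toList.all (fun e => e.2.toList.all (fun q => decide (e.1 < q.1)))))

theorem uni_spec (hU : uniB D = true) (r : ℕ) (hr : D.IsPosRoot r) :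
    D.nroots / 2 ≤ r ∧ D.negIdx.getD r 0 < D.nroots / 2 ∧
      ∀ e ∈ (D.chain.getD r #[]).toList, ∀ q ∈ e.2.toList, e.1 < q.1 := by
  unfold uniB at hU
  rw [List.all_eq_true] at hU
  have h := hU r (List.mem_range.2 hr.1)
  simp only [Bool.or_eq_true, Bool.not_eq_true', decide_eq_false_iff_not, Bool.and_eq_true,
    decide_eq_true_eq, List.all_eq_true] at h
  rcases h with h | h
  · exact absurd hr h
  · exact ⟨h.1.1, h.1.2, h.2⟩

theorem coeff_lt (hU : uniB D = true) (r : ℕ) (hr : D.IsPosRoot r) (s u : ℕ)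
    (hne : D.chainCoeff r s u ≠ []) : s < u := by
  obtain ⟨km, hkm⟩ := List.exists_mem_of_ne_nil _ hne
  unfold ChevalleyDatum.chainCoeff at hkm
  rw [List.mem_flatMap] at hkm
  obtain ⟨e, he, hkm⟩ := hkm
  rw [List.mem_map] at hkm
  obtain ⟨q, hq, _⟩ := hkm
  rw [List.mem_filter] at hq he
  obtain ⟨hq1, hq2⟩ := hq
  simp only [decide_eq_true_eq] at hq2 he
  have h1 : e.2.toList[q.2]? = some q.1 := List.mem_zipIdx_iff_getElem?.1 hq1
  have h2 : q.1 ∈ e.2.toList := List.mem_of_getElem? h1
  have h3 := (uni_spec D hU r hr).2.2 e he.1 q.1 h2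
  omega

theorem UT_x (hU : uniB D = true) (r : ℕ) (hr : D.IsPosRoot r) (t : F) : UT D (D.x F r t) := by
  obtain ⟨hN, hneg, -⟩ := uni_spec D hU r hr
  have hlt := coeff_lt D hU r hr
  unfold ChevalleyDatum.x
  rw [dif_pos hr.1]
  have hrr : rho D (Sum.inr ⟨r, hr.1⟩) = r + D.rank := by
    rw [rho_inr, if_neg (by simp only []; omega)]
  constructor
  · rintro (i | s)
    · rw [xm_ii, if_pos rfl]
    · by_cases h1 : s = ⟨r, hr.1⟩
      · rw [h1, xm_rr, if_pos rfl]
      · by_cases h2 : s.val = D.negIdx.getD r 0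
        · rw [xm_rn D ⟨r, hr.1⟩ t s h1 h2, if_pos rfl]
        · rw [xm_rg D ⟨r, hr.1⟩ t s h1 h2, if_pos rfl, PP_nil, add_zero]
          by_contra hne
          have := hlt s.val s.val hne
          omega
  · rintro (i' | u) (i | s) hij hle
    · rw [xm_ii, if_neg (fun h => hij (by rw [h]))]
    · by_cases h1 : s = ⟨r, hr.1⟩
      · rw [h1, xm_ir]
      · by_cases h2 : s.val = D.negIdx.getD r 0
        · exfalso
          rw [rho_inl, rho_inr, if_pos (by omega)] at hle
          omega
        · rw [xm_ig D ⟨r, hr.1⟩ t s h1 h2]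
    · rw [xm_ri]
      by_cases h1 : u = ⟨r, hr.1⟩
      · exfalso
        rw [h1, hrr, rho_inl] at hle
        have := i.isLt
        omega
      · rw [if_neg h1]
    · have hus : u ≠ s := fun h => hij (by rw [h])
      by_cases h1 : s = ⟨r, hr.1⟩
      · rw [h1, xm_rr, if_neg (by rw [← h1]; exact hus)]
      · by_cases h2 : s.val = D.negIdx.getD r 0
        · rw [xm_rn D ⟨r, hr.1⟩ t s h1 h2, if_neg hus]
          by_cases h3 : u = ⟨r, hr.1⟩
          · exfalso
            rw [h3, hrr, rho_inr, if_pos (by omega)] at hle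
            omega
          · rw [if_neg h3]
        · rw [xm_rg D ⟨r, hr.1⟩ t s h1 h2, if_neg hus, zero_add, PP_nil]
          by_contra hne
          have h4 := hlt s.val u.val hne
          have := rho_mono D s u h4
          omega

theorem uni_main (hG : addB D = true) (hU : uniB D = true) (g : GL D.Idx F)
    (hg : g ∈ D.posUnipotent F) :
    ((g : Matrix D.Idx D.Idx F) - 1) ^ (D.rank + D.nroots) = 0 := by
  have key : UT D (g : Matrix D.Idx D.Idx F) ∧ UT D ((g⁻¹ : GL D.Idx F) : Matrix D.Idx D.Idx F) := by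
    unfold ChevalleyDatum.posUnipotent at hg
    induction hg using Subgroup.closure_induction with
    | mem x hx =>
      obtain ⟨r, t, hr, hx⟩ := hx
      have h1 := eq_xGL D hG x r t hx
      rw [h1]
      exact ⟨UT_x D hU r hr t, UT_x D hU r hr (-t)⟩
    | one =>
      rw [inv_one]
      exact ⟨UT_one D, UT_one D⟩
    | mul x y _ _ hx hy =>
      rw [mul_inv_rev]
      exact ⟨UT_mul D hx.1 hy.1, UT_mul D hy.2 hx.2⟩
    | inv x _ hx =>
      rw [inv_inv]
      exact ⟨hx.2, hx.1⟩
  exact UT_pow D key.1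

set_option maxRecDepth 100000 in
theorem uni_G2 : uniB chevG2 = true := by decide +kernel

set_option maxRecDepth 100000 in
theorem uni_B2 : uniB chevB2 = true := by decide +kernel

set_option maxRecDepth 100000 in
theorem uni_F4 : uniB chevF4 = true := by decide +kernel

set_option maxRecDepth 100000 in
theorem uni_D4 : uniB chevD4 = true := by decide +kernel

set_option maxRecDepth 100000 in
theorem uni_E6 : uniB chevE6 = true := by decide +kernel

set_option maxRecDepth 100000 in
theorem uni_E7 : uniB chevE7 = true := by decide +kernel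

set_option maxRecDepth 100000 in
theorem uni_E8 : uniB chevE8 = true := by decide +kernel

theorem uni_of_mem (D : ChevalleyDatum)
    (hD : D ∈ [chevG2, chevB2, chevD4, chevF4, chevE6, chevE7, chevE8]) : uniB D = true := by
  simp only [List.mem_cons, List.not_mem_nil, or_false] at hD
  rcases hD with rfl | rfl | rfl | rfl | rfl | rfl | rfl
  · exact uni_G2
  · exact uni_B2
  · exact uni_D4
  · exact uni_F4
  · exact uni_E6
  · exact uni_E7
  · exact uni_E8

theorem s1028 {F : Type*} [Field F] (D : ChevalleyDatum)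
    (hD : D ∈ [chevG2, chevB2, chevD4, chevF4, chevE6, chevE7, chevE8]) (g : GL D.Idx F)
    (hg : g ∈ D.posUnipotent F) :
    ((g : Matrix D.Idx D.Idx F) - 1) ^ (D.rank + D.nroots) = 0 :=
  uni_main D (add_of_mem D hD) (uni_of_mem D hD) g hg

end Cfsg.Agent.Lib.Helper2.ChevAdd
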