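import Mathlib
import Cfsg.Agent.Lib.Helper2.ChevUni

set_option autoImplicit false

namespace Cfsg.Agent.Lib.Helper2.ChevAdd

open Cfsg.Lie
open scoped MatrixGroups commutatorElement

variable {F : Type*} [Field F] (D : ChevalleyDatum)

theorem UT_mem (hG : addB D = true) (hU : uniB D = true) (g : GL D.Idx F)
    (hg : g ∈ D.posUnipotent F) :
    UT D (g : Matrix D.Idx D.Idx F) ∧ UT D ((g⁻¹ : GL D.Idx F) : Matrix D.Idx D.Idx F) := by
  unfold ChevalleyDatum.posUnipotent at hg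
  induction hg using Subgroup.closure_induction with
  | mem x hx =>
    obtain ⟨r, t, hr, hx⟩ := hx
    have h1 := eq_xGL D hG x r t hx
    rw [h1]
    exact ⟨UT_x D hU r hr t, UT_x D hU r hr (-t)⟩
  | one =>
    rw [inv_one]
    exact ⟨UT_one D, UT_one D⟩
  | mul x y _ _ hx hy =>
    rw [mul_inv_rev]
    exact ⟨UT_mul D hx.1 hy.1, UT_mul D hy.2 hx.2⟩
  | inv x _ hx =>
    rw [inv_inv]
    exact ⟨hx.2, hx.1⟩

def Lv (k : ℕ) (M : Matrix D.Idx D.Idx F) : Prop := ∀ i j, rho D i < rho D j + k → M i j = 0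

theorem Lv_mul {a b : ℕ} {M N : Matrix D.Idx D.Idx F} (hM : Lv D a M) (hN : Lv D b N) :
    Lv D (a + b) (M * N) := by
  intro i j h
  rw [Matrix.mul_apply]
  apply Finset.sum_eq_zero
  intro l _
  by_cases hl : rho D i < rho D l + a
  · rw [hM i l hl, zero_mul]
  · rw [hN l j (by omega), mul_zero]

theorem Lv_sub {k : ℕ} {M N : Matrix D.Idx D.Idx F} (hM : Lv D k M) (hN : Lv D k N) :
    Lv D k (M - N) := by
  intro i j h
  rw [Matrix.sub_apply, hM i j h, hN i j h, sub_zero]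

theorem Lv_add {k : ℕ} {M N : Matrix D.Idx D.Idx F} (hM : Lv D k M) (hN : Lv D k N) :
    Lv D k (M + N) := by
  intro i j h
  rw [Matrix.add_apply, hM i j h, hN i j h, add_zero]

theorem Lv_neg {k : ℕ} {M : Matrix D.Idx D.Idx F} (hM : Lv D k M) : Lv D k (-M) := by
  intro i j h
  rw [Matrix.neg_apply, hM i j h, neg_zero]

theorem Lv_zero (k : ℕ) : Lv D k (0 : Matrix D.Idx D.Idx F) := fun _ _ _ => rfl

theorem UT_Lv0 {M : Matrix D.Idx D.Idx F} (hM : UT D M) : Lv D 0 M := by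
  intro i j h
  apply hM.2 i j
  · rintro rfl
    omega
  · omega

theorem UT_Lv1 {M : Matrix D.Idx D.Idx F} (hM : UT D M) : Lv D 1 (M - 1) := by
  intro i j h
  rw [Matrix.sub_apply]
  by_cases hij : i = j
  · rw [hij, hM.1, Matrix.one_apply_eq, sub_self]
  · rw [hM.2 i j hij (by omega), Matrix.one_apply_ne hij, sub_zero]

theorem Lv_eq_zero {k : ℕ} (hk : D.rank + D.nroots ≤ k) {M : Matrix D.Idx D.Idx F}
    (hM : Lv D k M) : M = 0 := by
  ext i j
  rw [hM i j (by have := rho_lt D i; omega)]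
  rfl

def ser (hG : addB D = true) (hU : uniB D = true) (k : ℕ) : Subgroup (D.posUnipotent F) where
  carrier := {g | Lv D (k + 1) (((g : GL D.Idx F) : Matrix D.Idx D.Idx F) - 1)}
  one_mem' := by
    show Lv D (k + 1) ((((1 : D.posUnipotent F) : GL D.Idx F) : Matrix D.Idx D.Idx F) - 1)
    rw [Subgroup.coe_one, Units.val_one, sub_self]
    exact Lv_zero D _
  mul_mem' := by
    intro a b ha hb
    show Lv D (k + 1) ((((a * b : D.posUnipotent F) : GL D.Idx F) : Matrix D.Idx D.Idx F) - 1)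
    have e : (((a * b : D.posUnipotent F) : GL D.Idx F) : Matrix D.Idx D.Idx F) - 1 =
        (((a : GL D.Idx F) : Matrix D.Idx D.Idx F) - 1) * ((b : GL D.Idx F) : Matrix D.Idx D.Idx F)
          + (((b : GL D.Idx F) : Matrix D.Idx D.Idx F) - 1) := by
      rw [Subgroup.coe_mul, Units.val_mul]
      noncomm_ring
    rw [e]
    have h1 := Lv_mul D ha (UT_Lv0 D (UT_mem D hG hU b.1 b.2).1)
    rw [add_zero] at h1
    exact Lv_add D h1 hb
  inv_mem' := by
    intro a ha
    show Lv D (k + 1) ((((a⁻¹ : D.posUnipotent F) : GL D.Idx F) : Matrix D.Idx D.Idx F) - 1)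
    have e : (((a⁻¹ : D.posUnipotent F) : GL D.Idx F) : Matrix D.Idx D.Idx F) - 1 =
        -((((a : GL D.Idx F)⁻¹ : GL D.Idx F) : Matrix D.Idx D.Idx F) *
          (((a : GL D.Idx F) : Matrix D.Idx D.Idx F) - 1)) := by
      rw [Subgroup.coe_inv, mul_sub, mul_one, ← Units.val_mul, inv_mul_cancel, Units.val_one]
      abel
    rw [e]
    have h1 := Lv_mul D (UT_Lv0 D (UT_mem D hG hU a.1 a.2).2) ha
    rw [zero_add] at h1
    exact Lv_neg D h1

theorem comm_id {R : Type*} [Ring R] (X G X' G' : R) (hX : X * X' = 1) (hG : G * G' = 1) :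
    X * G * X' * G' - 1 = ((X - 1) * (G - 1) - (G - 1) * (X - 1)) * (X' * G') := by
  have h1 : (X - 1) * (G - 1) - (G - 1) * (X - 1) = X * G - G * X := by noncomm_ring
  rw [h1, sub_mul, ← mul_assoc, ← mul_assoc, mul_assoc G X X', hX, mul_one, hG]

theorem nil_main (hG : addB D = true) (hU : uniB D = true) :
    Group.IsNilpotent (D.posUnipotent F) := by
  rw [Subgroup.nilpotent_iff_finite_descending_central_series]
  refine ⟨D.rank + D.nroots, ser D hG hU, ⟨?_, ?_⟩, ?_⟩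
  · rw [eq_top_iff]
    intro g _
    exact UT_Lv1 D (UT_mem D hG hU g.1 g.2).1
  · intro x n hx g
    show Lv D (n + 1 + 1) ((((⁅x, g⁆ : D.posUnipotent F) : GL D.Idx F) : Matrix D.Idx D.Idx F) - 1)
    have hx1 := UT_mem D hG hU x.1 x.2
    have hg1 := UT_mem D hG hU g.1 g.2
    have e : (((⁅x, g⁆ : D.posUnipotent F) : GL D.Idx F) : Matrix D.Idx D.Idx F) =
        ((x : GL D.Idx F) : Matrix D.Idx D.Idx F) * ((g : GL D.Idx F) : Matrix D.Idx D.Idx F) *
          (((x : GL D.Idx F)⁻¹ : GL D.Idx F) : Matrix D.Idx D.Idx F) *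
          (((g : GL D.Idx F)⁻¹ : GL D.Idx F) : Matrix D.Idx D.Idx F) := by
      rw [commutatorElement_def]
      simp only [Subgroup.coe_mul, Subgroup.coe_inv, Units.val_mul]
    rw [e, comm_id _ _ _ _ (by rw [← Units.val_mul, mul_inv_cancel, Units.val_one])
      (by rw [← Units.val_mul, mul_inv_cancel, Units.val_one])]
    have h1 : Lv D (n + 1 + 1) ((((x : GL D.Idx F) : Matrix D.Idx D.Idx F) - 1) *
        (((g : GL D.Idx F) : Matrix D.Idx D.Idx F) - 1)) := Lv_mul D hx (UT_Lv1 D hg1.1)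
    have h2 : Lv D (1 + (n + 1)) ((((g : GL D.Idx F) : Matrix D.Idx D.Idx F) - 1) *
        (((x : GL D.Idx F) : Matrix D.Idx D.Idx F) - 1)) := Lv_mul D (UT_Lv1 D hg1.1) hx
    rw [add_comm 1 (n + 1)] at h2
    have h3 := Lv_mul D (Lv_sub D h1 h2) (UT_Lv0 D (UT_mul D hx1.2 hg1.2))
    rw [add_zero] at h3
    exact h3
  · rw [eq_bot_iff]
    intro g hg
    have h1 : (((g : GL D.Idx F) : Matrix D.Idx D.Idx F) - 1) = 0 :=
      Lv_eq_zero D (by omega) hg
    rw [Subgroup.mem_bot]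
    apply Subtype.ext
    apply Units.ext
    rw [Subgroup.coe_one, Units.val_one]
    exact sub_eq_zero.1 h1

theorem s1029 {F : Type*} [Field F] (D : ChevalleyDatum)
    (hD : D ∈ [chevG2, chevB2, chevD4, chevF4, chevE6, chevE7, chevE8]) :
    Group.IsNilpotent (D.posUnipotent F) :=
  nil_main D (add_of_mem D hD) (uni_of_mem D hD)

end Cfsg.Agent.Lib.Helper2.ChevAdd
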