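import Mathlib
import Cfsg.Agent.Lib.Helper2.ChevFast3
import Cfsg.Agent.Lib.Helper2.ChevNil

set_option autoImplicit false

namespace Cfsg.Agent.Lib.Helper2.ChevFast

open Cfsg.Lie
open Cfsg.Agent.Lib.Helper2.ChevAdd
open Cfsg.Agent.Lib.Helper2.ChevSym
open scoped MatrixGroups

variable {F : Type*} [Field F] (D : ChevalleyDatum)

theorem rchar_one : D.IsRootCharacter (fun _ => (1 : Fˣ)) :=
  ⟨fun _ _ => by simp, fun _ _ _ _ _ _ => by simp⟩

theorem rchar_mul {χ ψ : ℕ → Fˣ} (h1 : D.IsRootCharacter χ) (h2 : D.IsRootCharacter ψ) :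
    D.IsRootCharacter (fun v => χ v * ψ v) := by
  constructor
  · intro r hr
    show χ (D.neg r) * ψ (D.neg r) = (χ r * ψ r)⁻¹
    rw [h1.1 r hr, h2.1 r hr, mul_inv]
  · intro r s k hr hs hk
    show χ k * ψ k = χ r * ψ r * (χ s * ψ s)
    rw [h1.2 r s k hr hs hk, h2.2 r s k hr hs hk]
    exact mul_mul_mul_comm _ _ _ _

theorem rchar_inv {χ : ℕ → Fˣ} (h : D.IsRootCharacter χ) :
    D.IsRootCharacter (fun v => (χ v)⁻¹) := by
  constructor
  · intro r hr
    show (χ (D.neg r))⁻¹ = ((χ r)⁻¹)⁻¹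
    rw [h.1 r hr]
  · intro r s k hr hs hk
    show (χ k)⁻¹ = (χ r)⁻¹ * (χ s)⁻¹
    rw [h.2 r s k hr hs hk, mul_inv]

theorem charDiag_mul (χ ψ : ℕ → Fˣ) :
    D.charDiag F χ * D.charDiag F ψ = D.charDiag F (fun v => χ v * ψ v) := by
  unfold ChevalleyDatum.charDiag
  rw [Matrix.diagonal_mul_diagonal]
  congr 1
  funext x
  rcases x with i | s <;> simp

theorem charDiag_one : D.charDiag F (fun _ => (1 : Fˣ)) = 1 := by
  unfold ChevalleyDatum.charDiag
  rw [← Matrix.diagonal_one]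
  congr 1
  funext x
  rcases x with i | s <;> simp

def IsCD (g : GL D.Idx F) : Prop :=
  ∃ χ : ℕ → Fˣ, D.IsRootCharacter χ ∧ (g : Matrix D.Idx D.Idx F) = D.charDiag F χ

theorem CD_inv_val {g : GL D.Idx F} {χ : ℕ → Fˣ}
    (h : (g : Matrix D.Idx D.Idx F) = D.charDiag F χ) :
    ((g⁻¹ : GL D.Idx F) : Matrix D.Idx D.Idx F) = D.charDiag F (fun v => (χ v)⁻¹) := by
  apply Units.inv_eq_of_mul_eq_one_right
  rw [h, charDiag_mul]
  have h1 : (fun v => χ v * (χ v)⁻¹) = fun _ => (1 : Fˣ) := by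
    funext v
    simp
  rw [h1, charDiag_one]

theorem IsCD_one : IsCD D (1 : GL D.Idx F) :=
  ⟨_, rchar_one D, by rw [charDiag_one]; rfl⟩

theorem IsCD_mul {g h : GL D.Idx F} (hg : IsCD D g) (hh : IsCD D h) : IsCD D (g * h) := by
  obtain ⟨χ, h1, h2⟩ := hg
  obtain ⟨ψ, h3, h4⟩ := hh
  exact ⟨_, rchar_mul D h1 h3, by rw [Units.val_mul, h2, h4, charDiag_mul]⟩

theorem IsCD_inv {g : GL D.Idx F} (hg : IsCD D g) : IsCD D g⁻¹ := by
  obtain ⟨χ, h1, h2⟩ := hg
  exact ⟨_, rchar_inv D h1, CD_inv_val D h2⟩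

theorem hgen_CD (hA : haBF D (ctrie D) 0 D.nroots = true) (hrc : rcB D = true)
    (g : GL D.Idx F) (r : ℕ) (hr : r < D.nroots) (c : F) (hc : c ≠ 0)
    (hg : (g : Matrix D.Idx D.Idx F) = D.hMat F r c) : IsCD D g := by
  refine ⟨fun v => (Units.mk0 c hc) ^ (Art D r v), char_art D hrc r _, ?_⟩
  rw [hg, ha_diagF D hA (rc_256 D hrc) r hr c hc]
  unfold ChevalleyDatum.charDiag
  congr 1
  funext x
  rcases x with j | v
  · rfl
  · show c ^ (Art D r v.val) = ((Units.mk0 c hc ^ Art D r v.val : Fˣ) : F)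
    rw [Units.val_zpow_eq_zpow_val]
    rfl

theorem H_CD (hA : haBF D (ctrie D) 0 D.nroots = true) (hrc : rcB D = true)
    (g : GL D.Idx F) (hg : g ∈ D.diagonalSubgroup F) : IsCD D g := by
  unfold ChevalleyDatum.diagonalSubgroup at hg
  induction hg using Subgroup.closure_induction with
  | mem x hx =>
    obtain ⟨r, t, hr, ht, hx⟩ := hx
    exact hgen_CD D hA hrc x r hr t ht hx
  | one => exact IsCD_one D
  | mul x y _ _ hx hy => exact IsCD_mul D hx hy
  | inv x _ hx => exact IsCD_inv D hx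

theorem conj_xGL (hG : addB D = true) (hT : ChevTab.goodB D = true) (g : GL D.Idx F)
    (χ : ℕ → Fˣ) (hχ : D.IsRootCharacter χ) (hg : (g : Matrix D.Idx D.Idx F) = D.charDiag F χ)
    (s : ℕ) (t : F) : g * xGL D hG s t * g⁻¹ = xGL D hG s ((χ s : F) * t) := by
  apply Units.ext
  rw [Units.val_mul, Units.val_mul, xGL_coe, xGL_coe, hg, CD_inv_val D hg]
  by_cases hs : s < D.nroots
  · exact conj_x D hT χ hχ s hs t
  · unfold ChevalleyDatum.x
    rw [dif_neg hs, dif_neg hs, mul_one, charDiag_mul]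
    have h1 : (fun v => χ v * (χ v)⁻¹) = fun _ => (1 : Fˣ) := by
      funext v
      simp
    rw [h1, charDiag_one]

theorem conj_U (hG : addB D = true) (hT : ChevTab.goodB D = true) (g : GL D.Idx F)
    (hg : IsCD D g) (u : GL D.Idx F) (hu : u ∈ D.posUnipotent F) :
    g * u * g⁻¹ ∈ D.posUnipotent F := by
  obtain ⟨χ, hχ, hgv⟩ := hg
  unfold ChevalleyDatum.posUnipotent at hu ⊢
  induction hu using Subgroup.closure_induction with
  | mem x hx =>
    obtain ⟨r, t, hr, hx⟩ := hx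
    rw [eq_xGL D hG x r t hx, conj_xGL D hG hT g χ hχ hgv]
    exact Subgroup.subset_closure ⟨r, _, hr, xGL_coe D hG r _⟩
  | one =>
    rw [mul_one, mul_inv_cancel]
    exact Subgroup.one_mem _
  | mul x y _ _ hx hy =>
    have h1 : g * (x * y) * g⁻¹ = (g * x * g⁻¹) * (g * y * g⁻¹) := by group
    rw [h1]
    exact Subgroup.mul_mem _ hx hy
  | inv x _ hx =>
    have h1 : g * x⁻¹ * g⁻¹ = (g * x * g⁻¹)⁻¹ := by group
    rw [h1]
    exact Subgroup.inv_mem _ hx

theorem s1036_main (hG : addB D = true) (hT : ChevTab.goodB D = true)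
    (hA : haBF D (ctrie D) 0 D.nroots = true) (hrc : rcB D = true) (hU : uniB D = true) :
    D.diagonalSubgroup F ≤ Subgroup.normalizer (D.posUnipotent F : Set (GL D.Idx F)) ∧
      D.posUnipotent F ⊓ D.diagonalSubgroup F = ⊥ := by
  constructor
  · intro g hg
    have hcd := H_CD D hA hrc g hg
    rw [Subgroup.mem_normalizer_iff]
    intro u
    constructor
    · exact conj_U D hG hT g hcd u
    · intro h
      have h2 := conj_U D hG hT g⁻¹ (IsCD_inv D hcd) _ h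
      have h3 : g⁻¹ * (g * u * g⁻¹) * g⁻¹⁻¹ = u := by group
      rwa [h3] at h2
  · rw [eq_bot_iff]
    intro g hg
    obtain ⟨hg1, hg2⟩ := hg
    obtain ⟨χ, _, hgv⟩ := H_CD D hA hrc g hg2
    have hut := (UT_mem D hG hU g hg1).1
    rw [Subgroup.mem_bot]
    apply Units.ext
    rw [Units.val_one]
    ext i j
    by_cases hij : i = j
    · rw [hij, hut.1, Matrix.one_apply_eq]
    · rw [hgv]
      unfold ChevalleyDatum.charDiag
      rw [Matrix.diagonal_apply_ne _ hij, Matrix.one_apply_ne hij]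

theorem xx_inv (hG : addB D = true) (s : ℕ) (t : F) : xGL D hG s t * xGL D hG s (-t) = 1 := by
  apply Units.ext
  rw [Units.val_mul, xGL_coe, xGL_coe, x_mul_neg D hG s t]
  rfl

theorem nn_inv (hG : addB D = true) (r : ℕ) :
    wGL D hG (D.nWord r (1 : F)) * wGL D hG (D.nWord r (-1 : F)) = 1 := by
  unfold wGL ChevalleyDatum.nWord
  simp only [List.map_cons, List.map_nil, List.prod_cons, List.prod_nil, mul_one]
  have e2 : (-(-1 : F)⁻¹) = -(-(1 : F)⁻¹) := by rw [inv_neg]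
  rw [e2]
  have e3 : xGL D hG r (1 : F) * (xGL D hG (D.neg r) (-(1 : F)⁻¹) * xGL D hG r 1) *
      (xGL D hG r (-1) * (xGL D hG (D.neg r) (-(-(1 : F)⁻¹)) * xGL D hG r (-1))) =
      xGL D hG r (1 : F) * (xGL D hG (D.neg r) (-(1 : F)⁻¹) *
        ((xGL D hG r 1 * xGL D hG r (-1)) * xGL D hG (D.neg r) (-(-(1 : F)⁻¹)))) *
        xGL D hG r (-1) := by group
  rw [e3, xx_inv, one_mul, xx_inv, mul_one, xx_inv]

theorem h_as_nn (hG : addB D = true) (r : ℕ) (c : F) :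
    wGL D hG (D.hWord r c) = wGL D hG (D.nWord r c) * wGL D hG (D.nWord r (-1)) := by
  unfold ChevalleyDatum.hWord
  rw [wGL_append]

theorem conj_n (hG : addB D = true) (hT : ChevTab.goodB D = true) (g : GL D.Idx F)
    (χ : ℕ → Fˣ) (hχ : D.IsRootCharacter χ) (hgv : (g : Matrix D.Idx D.Idx F) = D.charDiag F χ)
    (r : ℕ) (hr : r < D.nroots) :
    g * wGL D hG (D.nWord r (1 : F)) * g⁻¹ = wGL D hG (D.nWord r ((χ r : Fˣ) : F)) := by
  unfold wGL ChevalleyDatum.nWord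
  simp only [List.map_cons, List.map_nil, List.prod_cons, List.prod_nil, mul_one]
  have e : g * (xGL D hG r (1 : F) * (xGL D hG (D.neg r) (-(1 : F)⁻¹) * xGL D hG r 1)) * g⁻¹ =
      (g * xGL D hG r (1 : F) * g⁻¹) * ((g * xGL D hG (D.neg r) (-(1 : F)⁻¹) * g⁻¹) *
        (g * xGL D hG r 1 * g⁻¹)) := by group
  rw [e, conj_xGL D hG hT g χ hχ hgv, conj_xGL D hG hT g χ hχ hgv]
  have h1 : ((χ r : Fˣ) : F) * 1 = χ r := mul_one _
  have h2 : ((χ (D.neg r) : Fˣ) : F) * -(1 : F)⁻¹ = -((χ r : Fˣ) : F)⁻¹ := by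
    rw [hχ.1 r hr, Units.val_inv_eq_inv_val]
    simp
  rw [h1, h2]

theorem s1038_main (hG : addB D = true) (hT : ChevTab.goodB D = true)
    (hA : haBF D (ctrie D) 0 D.nroots = true) (hrc : rcB D = true) :
    ((D.diagonalSubgroup F).subgroupOf (D.monomialSubgroup F)).Normal := by
  have hle : D.diagonalSubgroup F ≤ D.monomialSubgroup F := le_sup_left
  rw [Subgroup.normal_subgroupOf_iff_le_normalizer hle]
  unfold ChevalleyDatum.monomialSubgroup
  apply sup_le Subgroup.le_normalizer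
  rw [Subgroup.closure_le]
  rintro n ⟨r, hr, hn⟩
  have hn' : n = wGL D hG (D.nWord r (1 : F)) := eq_wGL D hG n _ hn
  have hinv : wGL D hG (D.nWord r (-1 : F)) = n⁻¹ := by
    rw [hn']
    exact eq_inv_of_mul_eq_one_right (nn_inv D hG r)
  have fwd : ∀ k ∈ D.diagonalSubgroup F, n * k * n⁻¹ ∈ D.diagonalSubgroup F := by
    intro k hk
    obtain ⟨χ, hχ, hv⟩ := H_CD D hA hrc k⁻¹ (Subgroup.inv_mem _ hk)
    have h1 := conj_n D hG hT k⁻¹ χ hχ hv r hr
    rw [inv_inv, ← hn'] at h1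
    have h2 : wGL D hG (D.hWord r ((χ r : Fˣ) : F)) ∈ D.diagonalSubgroup F :=
      Subgroup.subset_closure ⟨r, _, hr, Units.ne_zero _, wGL_coe D hG _⟩
    have h3 := h_as_nn D hG r ((χ r : Fˣ) : F)
    rw [← h1, hinv] at h3
    have h4 : n * k * n⁻¹ = k * wGL D hG (D.hWord r ((χ r : Fˣ) : F)) := by
      rw [h3]
      group
    rw [h4]
    exact Subgroup.mul_mem _ hk h2
  have hz : wGL D hG (D.hWord r (-1 : F)) ∈ D.diagonalSubgroup F :=
    Subgroup.subset_closure ⟨r, _, hr, neg_ne_zero.2 one_ne_zero, wGL_coe D hG _⟩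
  have hz2 : n⁻¹ = n * wGL D hG (D.hWord r (-1 : F)) := by
    rw [h_as_nn, hinv]
    group
  show n ∈ Subgroup.normalizer (D.diagonalSubgroup F : Set (GL D.Idx F))
  rw [Subgroup.mem_normalizer_iff]
  intro k
  constructor
  · exact fwd k
  · intro hk
    have h5 := fwd _ (Subgroup.mul_mem _ (Subgroup.mul_mem _ hz hk) (Subgroup.inv_mem _ hz))
    have h6 : n * (wGL D hG (D.hWord r (-1 : F)) * (n * k * n⁻¹) *
        (wGL D hG (D.hWord r (-1 : F)))⁻¹) * n⁻¹ = k := by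
      have h7 : (wGL D hG (D.hWord r (-1 : F)))⁻¹ = n⁻¹⁻¹ * n⁻¹⁻¹ := by
        rw [h_as_nn, hinv, mul_inv_rev]
      rw [h7, h_as_nn, hinv]
      group
    rwa [h6] at h5

end Cfsg.Agent.Lib.Helper2.ChevFast
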