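import Mathlib
import Cfsg.Agent.Lib.Helper2.ChevH

set_option autoImplicit false

namespace Cfsg.Agent.Lib.Helper2.ChevFast

open Cfsg.Lie
open Cfsg.Agent.Lib.Helper2.ChevAdd
open Cfsg.Agent.Lib.Helper2.ChevSym
open scoped MatrixGroups

variable {F : Type*} [Field F] (D : ChevalleyDatum)

def uniNB (D : ChevalleyDatum) : Bool :=
  (List.range D.nroots).all (fun r => !decide (D.IsNegRoot r) ||
    (decide (r < D.nroots / 2) && decide (D.nroots / 2 ≤ D.negIdx.getD r 0) &&
      (D.chain.getD r #[]).toList.all (fun e => e.2.toList.all (fun q => decide (q.1 < e.1)))))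

theorem uniN_spec (hU : uniNB D = true) (r : ℕ) (hr : D.IsNegRoot r) :
    r < D.nroots / 2 ∧ D.nroots / 2 ≤ D.negIdx.getD r 0 ∧
      ∀ e ∈ (D.chain.getD r #[]).toList, ∀ q ∈ e.2.toList, q.1 < e.1 := by
  unfold uniNB at hU
  rw [List.all_eq_true] at hU
  have h := hU r (List.mem_range.2 hr.1)
  simp only [Bool.or_eq_true, Bool.not_eq_true', decide_eq_false_iff_not, Bool.and_eq_true,
    decide_eq_true_eq, List.all_eq_true] at h
  rcases h with h | h
  · exact absurd hr h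
  · exact ⟨h.1.1, h.1.2, h.2⟩

theorem coeff_gt (hU : uniNB D = true) (r : ℕ) (hr : D.IsNegRoot r) (s u : ℕ)
    (hne : D.chainCoeff r s u ≠ []) : u < s := by
  obtain ⟨km, hkm⟩ := List.exists_mem_of_ne_nil _ hne
  unfold ChevalleyDatum.chainCoeff at hkm
  rw [List.mem_flatMap] at hkm
  obtain ⟨e, he, hkm⟩ := hkm
  rw [List.mem_map] at hkm
  obtain ⟨q, hq, _⟩ := hkm
  rw [List.mem_filter] at hq he
  obtain ⟨hq1, hq2⟩ := hq
  simp only [decide_eq_true_eq] at hq2 he
  have h1 : e.2.toList[q.2]? = some q.1 := List.mem_zipIdx_iff_getElem?.1 hq1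
  have h2 : q.1 ∈ e.2.toList := List.mem_of_getElem? h1
  have h3 := (uniN_spec D hU r hr).2.2 e he.1 q.1 h2
  omega

def UTn (M : Matrix D.Idx D.Idx F) : Prop := UT D M.transpose

theorem UTn_one : UTn D (1 : Matrix D.Idx D.Idx F) := by
  unfold UTn
  rw [Matrix.transpose_one]
  exact UT_one D

theorem UTn_mul {M N : Matrix D.Idx D.Idx F} (hM : UTn D M) (hN : UTn D N) : UTn D (M * N) := by
  unfold UTn at hM hN ⊢
  rw [Matrix.transpose_mul]
  exact UT_mul D hN hM

theorem UTn_x (hU : uniNB D = true) (r : ℕ) (hr : D.IsNegRoot r) (t : F) :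
    UTn D (D.x F r t) := by
  obtain ⟨hN, hneg, -⟩ := uniN_spec D hU r hr
  have hgt := coeff_gt D hU r hr
  unfold ChevalleyDatum.x
  rw [dif_pos hr.1]
  have hrr : rho D (Sum.inr ⟨r, hr.1⟩) = r := by
    rw [rho_inr, if_pos (by simp only []; omega)]
  constructor
  · rintro (i | s)
    · rw [Matrix.transpose_apply, xm_ii, if_pos rfl]
    · rw [Matrix.transpose_apply]
      by_cases h1 : s = ⟨r, hr.1⟩
      · rw [h1, xm_rr, if_pos rfl]
      · by_cases h2 : s.val = D.negIdx.getD r 0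
        · rw [xm_rn D ⟨r, hr.1⟩ t s h1 h2, if_pos rfl]
        · rw [xm_rg D ⟨r, hr.1⟩ t s h1 h2, if_pos rfl, PP_nil, add_zero]
          by_contra hne
          have := hgt s.val s.val hne
          omega
  · rintro (i | s) (i' | u) hij hle
    · rw [Matrix.transpose_apply, xm_ii, if_neg (fun h => hij (by rw [h]))]
    · rw [Matrix.transpose_apply, xm_ri]
      by_cases h1 : u = ⟨r, hr.1⟩
      · exfalso
        rw [h1, hrr, rho_inl] at hle
        omega
      · rw [if_neg h1]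
    · rw [Matrix.transpose_apply]
      by_cases h1 : s = ⟨r, hr.1⟩
      · rw [h1, xm_ir]
      · by_cases h2 : s.val = D.negIdx.getD r 0
        · exfalso
          rw [rho_inl, rho_inr, if_neg (by omega)] at hle
          have := i'.isLt
          omega
        · rw [xm_ig D ⟨r, hr.1⟩ t s h1 h2]
    · rw [Matrix.transpose_apply]
      have hus : u ≠ s := fun h => hij (by rw [h])
      by_cases h1 : s = ⟨r, hr.1⟩
      · rw [h1, xm_rr, if_neg (by rw [← h1]; exact hus)]
      · by_cases h2 : s.val = D.negIdx.getD r 0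
        · rw [xm_rn D ⟨r, hr.1⟩ t s h1 h2, if_neg hus]
          by_cases h3 : u = ⟨r, hr.1⟩
          · exfalso
            rw [h3, hrr, rho_inr, if_neg (by omega)] at hle
            omega
          · rw [if_neg h3]
        · rw [xm_rg D ⟨r, hr.1⟩ t s h1 h2, if_neg hus, zero_add, PP_nil]
          by_contra hne
          have h4 := hgt s.val u.val hne
          have := rho_mono D u s h4
          omega

theorem UTn_mem (hG : addB D = true) (hU : uniNB D = true) (g : GL D.Idx F)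
    (hg : g ∈ D.negUnipotent F) :
    UTn D (g : Matrix D.Idx D.Idx F) ∧ UTn D ((g⁻¹ : GL D.Idx F) : Matrix D.Idx D.Idx F) := by
  unfold ChevalleyDatum.negUnipotent at hg
  induction hg using Subgroup.closure_induction with
  | mem x hx =>
    obtain ⟨r, t, hr, hx⟩ := hx
    have h1 := eq_xGL D hG x r t hx
    rw [h1]
    exact ⟨UTn_x D hU r hr t, UTn_x D hU r hr (-t)⟩
  | one =>
    rw [inv_one]
    exact ⟨UTn_one D, UTn_one D⟩
  | mul x y _ _ hx hy =>
    rw [mul_inv_rev]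
    exact ⟨UTn_mul D hx.1 hy.1, UTn_mul D hy.2 hx.2⟩
  | inv x _ hx =>
    rw [inv_inv]
    exact ⟨hx.2, hx.1⟩

theorem conj_V (hG : addB D = true) (hT : ChevTab.goodB D = true) (g : GL D.Idx F)
    (hg : IsCD D g) (u : GL D.Idx F) (hu : u ∈ D.negUnipotent F) :
    g * u * g⁻¹ ∈ D.negUnipotent F := by
  obtain ⟨χ, hχ, hgv⟩ := hg
  unfold ChevalleyDatum.negUnipotent at hu ⊢
  induction hu using Subgroup.closure_induction with
  | mem x hx =>
    obtain ⟨r, t, hr, hx⟩ := hx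
    rw [eq_xGL D hG x r t hx, conj_xGL D hG hT g χ hχ hgv]
    exact Subgroup.subset_closure ⟨r, _, hr, xGL_coe D hG r _⟩
  | one =>
    rw [mul_one, mul_inv_cancel]
    exact Subgroup.one_mem _
  | mul x y _ _ hx hy =>
    have h1 : g * (x * y) * g⁻¹ = (g * x * g⁻¹) * (g * y * g⁻¹) := by group
    rw [h1]
    exact Subgroup.mul_mem _ hx hy
  | inv x _ hx =>
    have h1 : g * x⁻¹ * g⁻¹ = (g * x * g⁻¹)⁻¹ := by group
    rw [h1]
    exact Subgroup.inv_mem _ hx

theorem sup_decomp {G : Type*} [Group G] (A H : Subgroup G)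
    (hn : ∀ h ∈ H, ∀ a ∈ A, h * a * h⁻¹ ∈ A) (g : G) (hg : g ∈ A ⊔ H) :
    ∃ a ∈ A, ∃ h ∈ H, g = a * h := by
  rw [Subgroup.sup_eq_closure] at hg
  induction hg using Subgroup.closure_induction with
  | mem x hx =>
    rcases hx with hx | hx
    · exact ⟨x, hx, 1, H.one_mem, (mul_one x).symm⟩
    · exact ⟨1, A.one_mem, x, hx, (one_mul x).symm⟩
  | one => exact ⟨1, A.one_mem, 1, H.one_mem, (mul_one 1).symm⟩
  | mul x y _ _ hx hy =>
    obtain ⟨a1, ha1, h1, hh1, rfl⟩ := hx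
    obtain ⟨a2, ha2, h2, hh2, rfl⟩ := hy
    exact ⟨a1 * (h1 * a2 * h1⁻¹), A.mul_mem ha1 (hn h1 hh1 a2 ha2), h1 * h2, H.mul_mem hh1 hh2,
      by group⟩
  | inv x _ hx =>
    obtain ⟨a, ha, h, hh, rfl⟩ := hx
    exact ⟨h⁻¹ * a⁻¹ * h⁻¹⁻¹, hn h⁻¹ (H.inv_mem hh) a⁻¹ (A.inv_mem ha), h⁻¹, H.inv_mem hh,
      by group⟩

theorem ut_diag (u v : Matrix D.Idx D.Idx F) (ψ : ℕ → Fˣ) (hu : UT D u) (hv : UTn D v)
    (h : u = v * D.charDiag F ψ) : u = 1 := by
  unfold ChevalleyDatum.charDiag at h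
  unfold UTn at hv
  ext i j
  by_cases hij : i = j
  · rw [hij, hu.1, Matrix.one_apply_eq]
  · rw [Matrix.one_apply_ne hij]
    by_cases hr : rho D i ≤ rho D j
    · exact hu.2 i j hij hr
    · rw [h, Matrix.mul_diagonal]
      have h3 : v i j = 0 := hv.2 j i (Ne.symm hij) (by omega)
      rw [h3, zero_mul]

theorem s1037_main (hG : addB D = true) (hT : ChevTab.goodB D = true)
    (hA : haBF D (ctrie D) 0 D.nroots = true) (hrc : rcB D = true) (hU : uniB D = true)
    (hUN : uniNB D = true) :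
    D.borelSubgroup F ⊓ D.negUnipotent F = ⊥ ∧
      D.borelSubgroup F ⊓ (D.negUnipotent F ⊔ D.diagonalSubgroup F) = D.diagonalSubgroup F := by
  have hnU : ∀ h ∈ D.diagonalSubgroup F, ∀ a ∈ D.posUnipotent F, h * a * h⁻¹ ∈ D.posUnipotent F :=
    fun h hh a ha => conj_U D hG hT h (H_CD D hA hrc h hh) a ha
  have hnV : ∀ h ∈ D.diagonalSubgroup F, ∀ a ∈ D.negUnipotent F, h * a * h⁻¹ ∈ D.negUnipotent F :=
    fun h hh a ha => conj_V D hG hT h (H_CD D hA hrc h hh) a ha
  have key : ∀ (u v k : GL D.Idx F), u ∈ D.posUnipotent F → v ∈ D.negUnipotent F →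
      k ∈ D.diagonalSubgroup F → u = v * k → u = 1 := by
    intro u v k hu hv hk huv
    obtain ⟨ψ, _, hkv⟩ := H_CD D hA hrc k hk
    apply Units.ext
    rw [Units.val_one]
    apply ut_diag D _ (v : Matrix D.Idx D.Idx F) ψ (UT_mem D hG hU u hu).1 (UTn_mem D hG hUN v hv).1
    rw [huv, Units.val_mul, hkv]
  constructor
  · rw [eq_bot_iff]
    intro g hg
    obtain ⟨hg1, hg2⟩ := hg
    obtain ⟨u, hu, h, hh, rfl⟩ := sup_decomp _ _ hnU g hg1
    have h1 : u = 1 := key u (u * h) h⁻¹ hu hg2 (Subgroup.inv_mem _ hh) (by group)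
    rw [h1, one_mul] at hg2 ⊢
    obtain ⟨χ, _, hv⟩ := H_CD D hA hrc h hh
    have hut := (UTn_mem D hG hUN h hg2).1
    rw [Subgroup.mem_bot]
    apply Units.ext
    rw [Units.val_one]
    ext i j
    by_cases hij : i = j
    · rw [hij, Matrix.one_apply_eq]
      exact hut.1 j
    · rw [hv]
      unfold ChevalleyDatum.charDiag
      rw [Matrix.diagonal_apply_ne _ hij, Matrix.one_apply_ne hij]
  · apply le_antisymm
    · intro g hg
      obtain ⟨hg1, hg2⟩ := hg
      obtain ⟨u, hu, h, hh, rfl⟩ := sup_decomp _ _ hnU g hg1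
      obtain ⟨v, hv, h', hh', huv⟩ := sup_decomp _ _ hnV _ hg2
      have h1 : u = 1 := key u v (h' * h⁻¹) hu hv
        (Subgroup.mul_mem _ hh' (Subgroup.inv_mem _ hh)) (by
          rw [← mul_assoc, ← huv]
          group)
      rw [h1, one_mul]
      exact hh
    · exact le_inf le_sup_right le_sup_right

end Cfsg.Agent.Lib.Helper2.ChevFast
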