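import Mathlib
import Cfsg.Agent.Lib.Helper2.ChevCj
import Cfsg.Agent.Lib.Helper2.ChevGL

set_option autoImplicit false

namespace Cfsg.Agent.Lib.Helper2.ChevFast

open Cfsg.Lie
open Cfsg.Agent.Lib.Helper2.ChevAdd
open Cfsg.Agent.Lib.Helper2.ChevSym
open scoped MatrixGroups

def permW (D : ChevalleyDatum) (ws : List ℕ) (s : ℕ) : ℕ :=
  ws.foldr (fun i acc => D.reflectRoot i acc) s

def permT (D : ChevalleyDatum) (ws : List ℕ) (s : ℕ) : ℕ :=
  ws.foldr (fun i acc => (build 8 (D.reflectRoot i)).get acc) s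

def w0B (D : ChevalleyDatum) (ws : List ℕ) : Bool :=
  ws.all (fun i => Nat.blt i D.rank) &&
  (D.posRoots.all (fun s => decide (D.IsNegRoot (permT D ws s))) &&
   D.negRoots.all (fun r => (D.posRoots.map (permT D ws)).contains r))

theorem permT_eq (D : ChevalleyDatum)
    (hb : ∀ i < D.rank, ∀ s < D.nroots, D.reflectRoot i s < D.nroots) (h256 : D.nroots ≤ 256)
    (ws : List ℕ) (hws : ∀ i ∈ ws, i < D.rank) (s : ℕ) (hs : s < D.nroots) :
    permT D ws s = permW D ws s ∧ permW D ws s < D.nroots := by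
  induction ws with
  | nil => exact ⟨rfl, hs⟩
  | cons i ws ih =>
    obtain ⟨h1, h2⟩ := ih (fun j hj => hws j (List.mem_cons_of_mem _ hj))
    have hi := hws i List.mem_cons_self
    show (build 8 (D.reflectRoot i)).get (permT D ws s) = D.reflectRoot i (permW D ws s) ∧
      D.reflectRoot i (permW D ws s) < D.nroots
    rw [h1, get_build 8 (D.reflectRoot i) (permW D ws s) (by norm_num; omega)]
    exact ⟨rfl, hb i hi _ h2⟩

variable {F : Type*} [Field F] (D : ChevalleyDatum)

def nW (hG : addB D = true) (ws : List ℕ) : GL D.Idx F :=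
  (ws.map (fun i => wGL D hG (D.nWord (D.simple i) (1 : F)))).prod

theorem nW_mem (hG : addB D = true) (hsimp : ∀ i < D.rank, D.simple i < D.nroots) (ws : List ℕ)
    (hws : ∀ i ∈ ws, i < D.rank) : nW (F := F) D hG ws ∈ D.monomialSubgroup F := by
  unfold nW
  apply Subgroup.list_prod_mem
  intro g hg
  rw [List.mem_map] at hg
  obtain ⟨i, hi, rfl⟩ := hg
  unfold ChevalleyDatum.monomialSubgroup
  apply Subgroup.mem_sup_right
  exact Subgroup.subset_closure ⟨D.simple i, hsimp i (hws i hi), wGL_coe D hG _⟩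

theorem conj_step (hG : addB D = true) (i : ℕ) (hi : i < D.rank) (hn : ncheckB D i = true)
    (hc : conjR D i 0 D.nroots = true) (s : ℕ) (hs : s < D.nroots) :
    ∃ ε : ℤ, (ε = 1 ∨ ε = -1) ∧ ∀ t : F,
      wGL D hG (D.nWord (D.simple i) (1 : F)) * xGL D hG s t *
        (wGL D hG (D.nWord (D.simple i) (1 : F)))⁻¹ = xGL D hG (D.reflectRoot i s) ((ε : F) * t) := by
  obtain ⟨hr, hnr⟩ := n_bounds D i hn
  refine ⟨etaF D i s, (n_props D i hn).1 s hs, fun t => ?_⟩
  rw [mul_inv_eq_iff_eq_mul]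
  apply Units.ext
  rw [Units.val_mul, Units.val_mul, wGL_coe, xGL_coe, xGL_coe]
  exact conj_sound D i s hs hr hnr (conjR_spec D i hc s hs) t

theorem refl_lt (i : ℕ) (hc : conjR D i 0 D.nroots = true) (s : ℕ) (hs : s < D.nroots) :
    D.reflectRoot i s < D.nroots := by
  have h := conjR_spec D i hc s hs
  unfold conjB at h
  simp only [Bool.and_eq_true, Nat.blt_eq] at h
  exact h.1

theorem conj_word (hG : addB D = true) (hn : ∀ i < D.rank, ncheckB D i = true)
    (hc : ∀ i < D.rank, conjR D i 0 D.nroots = true) (ws : List ℕ) (hws : ∀ i ∈ ws, i < D.rank)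
    (s : ℕ) (hs : s < D.nroots) :
    permW D ws s < D.nroots ∧ ∃ ε : ℤ, (ε = 1 ∨ ε = -1) ∧ ∀ t : F,
      nW D hG ws * xGL D hG s t * (nW D hG ws)⁻¹ = xGL D hG (permW D ws s) ((ε : F) * t) := by
  induction ws with
  | nil =>
    refine ⟨hs, 1, Or.inl rfl, fun t => ?_⟩
    show (1 : GL D.Idx F) * xGL D hG s t * 1⁻¹ = xGL D hG s (((1 : ℤ) : F) * t)
    rw [one_mul, inv_one, mul_one, Int.cast_one, one_mul]
  | cons i ws ih =>
    obtain ⟨h2, ε, hε, hconj⟩ := ih (fun j hj => hws j (List.mem_cons_of_mem _ hj))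
    have hi := hws i List.mem_cons_self
    obtain ⟨ε', hε', hstep⟩ := conj_step (F := F) D hG i hi (hn i hi) (hc i hi) _ h2
    refine ⟨refl_lt D i (hc i hi) _ h2, ε' * ε, ?_, fun t => ?_⟩
    · rcases hε with rfl | rfl <;> rcases hε' with rfl | rfl <;> simp
    · show (wGL D hG (D.nWord (D.simple i) (1 : F)) * nW D hG ws) * xGL D hG s t *
          (wGL D hG (D.nWord (D.simple i) (1 : F)) * nW D hG ws)⁻¹ =
          xGL D hG (D.reflectRoot i (permW D ws s)) (((ε' * ε : ℤ) : F) * t)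
      have e : (wGL D hG (D.nWord (D.simple i) (1 : F)) * nW D hG ws) * xGL D hG s t *
          (wGL D hG (D.nWord (D.simple i) (1 : F)) * nW D hG ws)⁻¹ =
          wGL D hG (D.nWord (D.simple i) (1 : F)) *
            (nW D hG ws * xGL D hG s t * (nW D hG ws)⁻¹) *
            (wGL D hG (D.nWord (D.simple i) (1 : F)))⁻¹ := by group
      rw [e, hconj t, hstep]
      congr 1
      push_cast
      ring

theorem s1053_main (hG : addB D = true) (hn : ∀ i < D.rank, ncheckB D i = true)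
    (hc : ∀ i < D.rank, conjR D i 0 D.nroots = true) (h256 : D.nroots ≤ 256) (ws : List ℕ)
    (hw0 : w0B D ws = true) :
    ∃ n ∈ D.monomialSubgroup F,
      (D.posUnipotent F).map (MulAut.conj n).toMonoidHom = D.negUnipotent F := by
  unfold w0B at hw0
  simp only [Bool.and_eq_true, List.all_eq_true, Nat.blt_eq, decide_eq_true_eq] at hw0
  obtain ⟨hws, hneg, hsurj⟩ := hw0
  have hb : ∀ i < D.rank, ∀ s < D.nroots, D.reflectRoot i s < D.nroots :=
    fun i hi s hs => refl_lt D i (hc i hi) s hs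
  have hsimp : ∀ i < D.rank, D.simple i < D.nroots := fun i hi => (n_bounds D i (hn i hi)).1
  have hpos : ∀ s, D.IsPosRoot s → s ∈ D.posRoots := fun s hs => by
    unfold ChevalleyDatum.posRoots
    rw [List.mem_filter, List.mem_range, decide_eq_true_eq]
    exact ⟨hs.1, hs⟩
  have hpos' : ∀ s, s ∈ D.posRoots → D.IsPosRoot s := fun s hs => by
    unfold ChevalleyDatum.posRoots at hs
    rw [List.mem_filter, decide_eq_true_eq] at hs
    exact hs.2
  have hnegm : ∀ r, D.IsNegRoot r → r ∈ D.negRoots := fun r hr => by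
    unfold ChevalleyDatum.negRoots
    rw [List.mem_filter, List.mem_range, decide_eq_true_eq]
    exact ⟨hr.1, hr⟩
  have hx : ∀ (g : GL D.Idx F) (s : ℕ) (t : F), (g : Matrix D.Idx D.Idx F) = D.x F s t →
      g = xGL D hG s t := fun g s t h => Units.ext (by rw [h, xGL_coe])
  refine ⟨nW D hG ws, nW_mem D hG hsimp ws hws, ?_⟩
  apply le_antisymm
  · unfold ChevalleyDatum.posUnipotent
    rw [MonoidHom.map_closure, Subgroup.closure_le]
    rintro _ ⟨g, ⟨s, t, hs, hg⟩, rfl⟩
    obtain ⟨hlt, ε, hε, hconj⟩ := conj_word (F := F) D hG hn hc ws hws s hs.1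
    have h1 := hneg s (hpos s hs)
    rw [(permT_eq D hb h256 ws hws s hs.1).1] at h1
    show nW D hG ws * g * (nW D hG ws)⁻¹ ∈ D.negUnipotent F
    rw [hx g s t hg, hconj t]
    exact Subgroup.subset_closure ⟨_, _, h1, xGL_coe D hG _ _⟩
  · unfold ChevalleyDatum.negUnipotent
    rw [Subgroup.closure_le]
    rintro g ⟨r, u, hr, hg⟩
    have h1 := hsurj r (hnegm r hr)
    rw [List.contains_iff_mem, List.mem_map] at h1
    obtain ⟨s, hs, hrs⟩ := h1
    have hsp := hpos' s hs
    rw [(permT_eq D hb h256 ws hws s hsp.1).1] at hrs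
    obtain ⟨hlt, ε, hε, hconj⟩ := conj_word (F := F) D hG hn hc ws hws s hsp.1
    refine ⟨xGL D hG s ((ε : F) * u), Subgroup.subset_closure ⟨s, _, hsp, xGL_coe D hG _ _⟩, ?_⟩
    show nW D hG ws * xGL D hG s ((ε : F) * u) * (nW D hG ws)⁻¹ = g
    rw [hconj, hx g r u hg, hrs]
    congr 1
    rcases hε with rfl | rfl <;> simp

end Cfsg.Agent.Lib.Helper2.ChevFast
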