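import Mathlib
import Cfsg.Agent.Lib.Helper2.ChevW0

set_option autoImplicit false

namespace Cfsg.Agent.Lib.Helper2.ChevFast

open Cfsg.Lie
open Cfsg.Agent.Lib.Helper2.ChevAdd
open Cfsg.Agent.Lib.Helper2.ChevSym
open scoped MatrixGroups

def cor (D : ChevalleyDatum) (r i : ℕ) : ℤ := (D.coroot.getD r #[]).getD i 0

def mH (D : ChevalleyDatum) (r : ℕ) : ℕ :=
  ((List.range D.rank).map (fun i => (cor D r i).natAbs)).sum

def pjB (D : ChevalleyDatum) : Bool :=
  (List.range D.nroots).all (fun r => decide (D.IsPosRoot r) || decide (D.IsNegRoot r)) &&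
  ((List.range D.rank).all (fun j => decide (D.IsPosRoot (D.simple j)) &&
      (List.range D.rank).all (fun i => i == j || cor D (D.neg (D.simple j)) i == 0)) &&
   D.negRoots.all (fun r => (List.range D.rank).any (fun j =>
      !(cor D r j == 0) && (r == D.neg (D.simple j) ||
        (decide (D.IsNegRoot (D.reflectRoot j r)) &&
          (decide (mH D (D.reflectRoot j r) < mH D r) &&
            (D.reflectRoot j (D.reflectRoot j r) == r &&
              (List.range D.rank).all
                (fun i => i == j || cor D (D.reflectRoot j r) i == cor D r i))))))))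

theorem pj_spec (D : ChevalleyDatum) (hP : pjB D = true) :
    (∀ r < D.nroots, D.IsPosRoot r ∨ D.IsNegRoot r) ∧
    (∀ j < D.rank, D.IsPosRoot (D.simple j) ∧
      ∀ i < D.rank, i ≠ j → cor D (D.neg (D.simple j)) i = 0) ∧
    (∀ r, D.IsNegRoot r → ∃ j < D.rank, cor D r j ≠ 0 ∧ (r = D.neg (D.simple j) ∨
      (D.IsNegRoot (D.reflectRoot j r) ∧ mH D (D.reflectRoot j r) < mH D r ∧
        D.reflectRoot j (D.reflectRoot j r) = r ∧
        ∀ i < D.rank, i ≠ j → cor D (D.reflectRoot j r) i = cor D r i))) := by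
  unfold pjB at hP
  simp only [Bool.and_eq_true, List.all_eq_true, List.mem_range, Bool.or_eq_true,
    decide_eq_true_eq, beq_iff_eq, List.any_eq_true, Bool.not_eq_true', beq_eq_false_iff_ne,
    ne_eq] at hP
  obtain ⟨h1, h2, h3⟩ := hP
  refine ⟨h1, fun j hj => ⟨(h2 j hj).1, fun i hi hij => ?_⟩, fun r hr => ?_⟩
  · rcases (h2 j hj).2 i hi with h | h
    · exact absurd h hij
    · exact h
  · have hmem : r ∈ D.negRoots := by
      unfold ChevalleyDatum.negRoots
      rw [List.mem_filter, List.mem_range, decide_eq_true_eq]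
      exact ⟨hr.1, hr⟩
    obtain ⟨j, hj, hne, h⟩ := h3 r hmem
    refine ⟨j, hj, hne, ?_⟩
    rcases h with h | ⟨ha, hb, hc, hd⟩
    · exact Or.inl h
    · refine Or.inr ⟨ha, hb, hc, fun i hi hij => ?_⟩
      rcases hd i hi with h | h
      · exact absurd h hij
      · exact h

theorem refl_simple (D : ChevalleyDatum) (j : ℕ) :
    D.reflectRoot j (D.simple j) = D.neg (D.simple j) := by
  unfold ChevalleyDatum.reflectRoot
  simp

variable {F : Type*} [Field F] (D : ChevalleyDatum)

theorem pm_cancel (ε : ℤ) (hε : ε = 1 ∨ ε = -1) (t : F) : (ε : F) * ((ε : F) * t) = t := by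
  rcases hε with rfl | rfl <;> simp

theorem U_le_PJ (J : Set ℕ) : D.posUnipotent F ≤ D.parabolicSubgroup F J := by
  unfold ChevalleyDatum.parabolicSubgroup ChevalleyDatum.borelSubgroup
  exact le_trans le_sup_left le_sup_left

theorem pj_neg (hG : addB D = true) (hn : ∀ i < D.rank, ncheckB D i = true)
    (hc : ∀ i < D.rank, conjR D i 0 D.nroots = true) (hP : pjB D = true) (J : Set ℕ) :
    ∀ n : ℕ, ∀ r, D.IsNegRoot r → D.InRootSub J r → mH D r < n →
      ∀ t : F, xGL D hG r t ∈ D.parabolicSubgroup F J := by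
  obtain ⟨-, hsim, hT⟩ := pj_spec D hP
  intro n
  induction n with
  | zero => intro r _ _ h; exact absurd h (Nat.not_lt_zero _)
  | succ n ih =>
    intro r hr hJ hm t
    obtain ⟨j, hj, hne, hcase⟩ := hT r hr
    have hjJ : j ∈ J := by
      by_contra hjJ
      exact hne (hJ.2 j hj hjJ)
    have hNj : wGL D hG (D.nWord (D.simple j) (1 : F)) ∈ D.parabolicSubgroup F J := by
      unfold ChevalleyDatum.parabolicSubgroup
      exact Subgroup.mem_sup_right (Subgroup.subset_closure ⟨j, hjJ, hj, wGL_coe D hG _⟩)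
    rcases hcase with h | ⟨ha, hb, hc', hd⟩
    · obtain ⟨ε, hε, hconj⟩ := conj_step (F := F) D hG j hj (hn j hj) (hc j hj) (D.simple j)
        (n_bounds D j (hn j hj)).1
      have h1 : xGL D hG (D.simple j) ((ε : F) * t) ∈ D.parabolicSubgroup F J :=
        U_le_PJ D J (Subgroup.subset_closure ⟨_, _, (hsim j hj).1, xGL_coe D hG _ _⟩)
      have h2 := Subgroup.mul_mem _ (Subgroup.mul_mem _ hNj h1) (Subgroup.inv_mem _ hNj)
      rw [hconj, refl_simple, pm_cancel ε hε, ← h] at h2
      exact h2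
    · have hJ' : D.InRootSub J (D.reflectRoot j r) := by
        refine ⟨ha.1, fun i hi hiJ => ?_⟩
        have hij : i ≠ j := fun h => hiJ (h ▸ hjJ)
        have := hd i hi hij
        unfold cor at this
        rw [this]
        exact hJ.2 i hi hiJ
      obtain ⟨ε, hε, hconj⟩ := conj_step (F := F) D hG j hj (hn j hj) (hc j hj)
        (D.reflectRoot j r) ha.1
      have h1 := ih (D.reflectRoot j r) ha hJ' (by omega) ((ε : F) * t)
      have h2 := Subgroup.mul_mem _ (Subgroup.mul_mem _ hNj h1) (Subgroup.inv_mem _ hNj)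
      rw [hconj, hc', pm_cancel ε hε] at h2
      exact h2

theorem s1047_main (hG : addB D = true) (hn : ∀ i < D.rank, ncheckB D i = true)
    (hc : ∀ i < D.rank, conjR D i 0 D.nroots = true) (hP : pjB D = true) (J : Set ℕ) :
    D.parabolicSubgroup F J = D.diagonalSubgroup F ⊔
      Subgroup.closure {g : GL D.Idx F | ∃ (r : ℕ) (t : F),
        (D.IsPosRoot r ∨ D.InRootSub J r) ∧ (g : Matrix D.Idx D.Idx F) = D.x F r t} := by
  obtain ⟨hpn, hsim, -⟩ := pj_spec D hP
  apply le_antisymm
  · have hU : D.posUnipotent F ≤ D.diagonalSubgroup F ⊔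
        Subgroup.closure {g : GL D.Idx F | ∃ (r : ℕ) (t : F),
          (D.IsPosRoot r ∨ D.InRootSub J r) ∧ (g : Matrix D.Idx D.Idx F) = D.x F r t} := by
      apply le_trans _ le_sup_right
      unfold ChevalleyDatum.posUnipotent
      apply Subgroup.closure_mono
      rintro g ⟨r, t, hr, hg⟩
      exact ⟨r, t, Or.inl hr, hg⟩
    unfold ChevalleyDatum.parabolicSubgroup ChevalleyDatum.borelSubgroup
    apply sup_le (sup_le hU le_sup_left)
    rw [Subgroup.closure_le]
    rintro g ⟨j, hjJ, hj, hg⟩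
    have hg' : g = wGL D hG (D.nWord (D.simple j) (1 : F)) := eq_wGL D hG g _ hg
    have h1 : ∀ t : F, xGL D hG (D.simple j) t ∈
        Subgroup.closure {g : GL D.Idx F | ∃ (r : ℕ) (t : F),
          (D.IsPosRoot r ∨ D.InRootSub J r) ∧ (g : Matrix D.Idx D.Idx F) = D.x F r t} :=
      fun t => Subgroup.subset_closure ⟨_, t, Or.inl (hsim j hj).1, xGL_coe D hG _ _⟩
    have h2 : ∀ t : F, xGL D hG (D.neg (D.simple j)) t ∈
        Subgroup.closure {g : GL D.Idx F | ∃ (r : ℕ) (t : F),
          (D.IsPosRoot r ∨ D.InRootSub J r) ∧ (g : Matrix D.Idx D.Idx F) = D.x F r t} :=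
      fun t => Subgroup.subset_closure ⟨_, t, Or.inr ⟨(n_bounds D j (hn j hj)).2,
        fun i hi hiJ => (hsim j hj).2 i hi (fun h => hiJ (h ▸ hjJ))⟩, xGL_coe D hG _ _⟩
    have h3 : wGL D hG (D.nWord (D.simple j) (1 : F)) ∈
        Subgroup.closure {g : GL D.Idx F | ∃ (r : ℕ) (t : F),
          (D.IsPosRoot r ∨ D.InRootSub J r) ∧ (g : Matrix D.Idx D.Idx F) = D.x F r t} := by
      unfold wGL ChevalleyDatum.nWord
      simp only [List.map_cons, List.map_nil, List.prod_cons, List.prod_nil, mul_one]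
      exact Subgroup.mul_mem _ (h1 _) (Subgroup.mul_mem _ (h2 _) (h1 _))
    rw [hg']
    exact Subgroup.mem_sup_right h3
  · apply sup_le
    · unfold ChevalleyDatum.parabolicSubgroup ChevalleyDatum.borelSubgroup
      exact le_trans le_sup_right le_sup_left
    · rw [Subgroup.closure_le]
      rintro g ⟨r, t, hr, hg⟩
      have hg' : g = xGL D hG r t := Units.ext (by rw [hg, xGL_coe])
      have hpos : D.IsPosRoot r → g ∈ D.parabolicSubgroup F J := fun h =>
        U_le_PJ D J (Subgroup.subset_closure ⟨r, t, h, hg⟩)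
      rcases hr with hr | hr
      · exact hpos hr
      · rcases hpn r hr.1 with h | h
        · exact hpos h
        · show g ∈ D.parabolicSubgroup F J
          rw [hg']
          exact pj_neg D hG hn hc hP J (mH D r + 1) r h hr (Nat.lt_succ_self _) t

end Cfsg.Agent.Lib.Helper2.ChevFast
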