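import Mathlib
import Cfsg.Agent.Lib.Helper2.ChevPJ
import Cfsg.Agent.Lib.Helper2.ChevH3

set_option autoImplicit false

namespace Cfsg.Agent.Lib.Helper2.ChevFast

open Cfsg.Lie
open Cfsg.Agent.Lib.Helper2.ChevAdd
open Cfsg.Agent.Lib.Helper2.ChevSym
open scoped MatrixGroups

def ngB (D : ChevalleyDatum) : Bool :=
  (List.range D.nroots).all (fun r => Nat.blt (D.neg r) D.nroots && !(D.neg r == r))

theorem ng_spec (D : ChevalleyDatum) (h : ngB D = true) (r : ℕ) (hr : r < D.nroots) :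
    D.neg r < D.nroots ∧ D.neg r ≠ r := by
  unfold ngB at h
  simp only [List.all_eq_true, List.mem_range, Bool.and_eq_true, Nat.blt_eq, Bool.not_eq_true',
    beq_eq_false_iff_ne, ne_eq] at h
  exact h r hr

variable {F : Type*} [Field F] (D : ChevalleyDatum)

theorem x_eq_one_imp (r : ℕ) (hr : r < D.nroots) (hneg : D.neg r < D.nroots) (hne : D.neg r ≠ r)
    (u : F) (h : D.x F r u = 1) : u = 0 := by
  have hcd : (1 : F) * 1 = 1 := mul_one 1
  have hrep := (xcolF_rep (1 : F) 1 u hcd D ⟨r, hr⟩ [(0, 0, 1, 1)]).1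
    (Sum.inr ⟨r, hr⟩) (Sum.inr ⟨D.neg r, hneg⟩)
  have hτ : ev (1 : F) 1 u [(0, 0, 1, 1)] = u := by simp [ev]
  have hx : D.xMat F ⟨r, hr⟩ u = 1 := by
    unfold ChevalleyDatum.x at h
    rw [dif_pos hr] at h
    exact h
  rw [hτ, hx, enc_inr, enc_inr] at hrep
  have hrow : (Sum.inr ⟨r, hr⟩ : D.Idx) ≠ Sum.inr ⟨D.neg r, hneg⟩ := by
    intro h'
    have := Sum.inr.inj h'
    exact hne (congrArg Fin.val this).symm
  rw [Matrix.one_apply_ne hrow] at hrep
  have hnr : (rd D r).nr = D.neg r := rfl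
  have hrr : (rd D r).r = r := rfl
  unfold xcolF at hrep
  simp only [] at hrep
  rw [blt_f (by omega), cond_false, blt_t (by omega), cond_true, Nat.add_sub_cancel_left, hrr, hnr,
    beq_f hne, cond_false, beq_t rfl, cond_true, cf_cons, cf_cons,
    if_neg (by omega), if_pos rfl, List.nil_append,
    cf_empty_of _ _ (by
      intro e he
      rw [List.mem_map] at he
      obtain ⟨i, hi, rfl⟩ := he
      rw [List.mem_range] at hi
      show i ≠ D.rank + r
      omega),
    List.append_nil, ev_lscale, ev_lmul (1 : F) 1 u hcd, hτ] at hrep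
  have h2 : u * u = 0 := by
    have := hrep
    push_cast at this
    linear_combination -this
  exact mul_self_eq_zero.1 h2

theorem w0_map (hG : addB D = true) (hn : ∀ i < D.rank, ncheckB D i = true)
    (hc : ∀ i < D.rank, conjR D i 0 D.nroots = true) (h256 : D.nroots ≤ 256) (ws : List ℕ)
    (hw0 : w0B D ws = true) :
    (∀ i ∈ ws, i < D.rank) ∧ ∀ a ∈ D.posUnipotent F,
      nW D hG ws * a * (nW D hG ws)⁻¹ ∈ D.negUnipotent F := by
  unfold w0B at hw0
  simp only [Bool.and_eq_true, List.all_eq_true, Nat.blt_eq, decide_eq_true_eq] at hw0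
  obtain ⟨hws, hneg, -⟩ := hw0
  refine ⟨hws, ?_⟩
  have hb : ∀ i < D.rank, ∀ s < D.nroots, D.reflectRoot i s < D.nroots :=
    fun i hi s hs => refl_lt D i (hc i hi) s hs
  have hpos : ∀ s, D.IsPosRoot s → s ∈ D.posRoots := fun s hs => by
    unfold ChevalleyDatum.posRoots
    rw [List.mem_filter, List.mem_range, decide_eq_true_eq]
    exact ⟨hs.1, hs⟩
  intro a ha
  unfold ChevalleyDatum.posUnipotent at ha
  induction ha using Subgroup.closure_induction with
  | mem g hg =>
    obtain ⟨s, t, hs, hg⟩ := hg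
    obtain ⟨hlt, ε, hε, hconj⟩ := conj_word (F := F) D hG hn hc ws hws s hs.1
    have h1 := hneg s (hpos s hs)
    rw [(permT_eq D hb h256 ws hws s hs.1).1] at h1
    have hgx : g = xGL D hG s t := Units.ext (by rw [hg, xGL_coe])
    rw [hgx, hconj t]
    exact Subgroup.subset_closure ⟨_, _, h1, xGL_coe D hG _ _⟩
  | one =>
    rw [mul_one, mul_inv_cancel]
    exact Subgroup.one_mem _
  | mul x y _ _ hx hy =>
    have e : nW D hG ws * (x * y) * (nW D hG ws)⁻¹ =
        (nW D hG ws * x * (nW D hG ws)⁻¹) * (nW D hG ws * y * (nW D hG ws)⁻¹) := by group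
    rw [e]
    exact Subgroup.mul_mem _ hx hy
  | inv x _ hx =>
    have e : nW D hG ws * x⁻¹ * (nW D hG ws)⁻¹ = (nW D hG ws * x * (nW D hG ws)⁻¹)⁻¹ := by group
    rw [e]
    exact Subgroup.inv_mem _ hx

theorem core_le_H (hG : addB D = true) (hT : ChevTab.goodB D = true)
    (hA : haBF D (ctrie D) 0 D.nroots = true) (hrc : rcB D = true) (hU : uniB D = true)
    (hUN : uniNB D = true) (hn : ∀ i < D.rank, ncheckB D i = true)
    (hc : ∀ i < D.rank, conjR D i 0 D.nroots = true) (h256 : D.nroots ≤ 256) (ws : List ℕ)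
    (hw0 : w0B D ws = true) (k : GL D.Idx F)
    (hk : ∀ g ∈ D.group F, g * k * g⁻¹ ∈ D.borelSubgroup F) : k ∈ D.diagonalSubgroup F := by
  obtain ⟨hws, hmap⟩ := w0_map (F := F) D hG hn hc h256 ws hw0
  have hsimp : ∀ i < D.rank, D.simple i < D.nroots := fun i hi => (n_bounds D i (hn i hi)).1
  have hnN : nW (F := F) D hG ws ∈ D.monomialSubgroup F := nW_mem D hG hsimp ws hws
  have hnG : nW (F := F) D hG ws ∈ D.group F := by
    unfold nW
    apply Subgroup.list_prod_mem
    intro g hg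
    rw [List.mem_map] at hg
    obtain ⟨i, _, rfl⟩ := hg
    exact wGL_mem D hG _
  have hkB : k ∈ D.borelSubgroup F := by
    have := hk 1 (Subgroup.one_mem _)
    rwa [one_mul, inv_one, mul_one] at this
  have h2 := hk (nW D hG ws)⁻¹ (Subgroup.inv_mem _ hnG)
  rw [inv_inv] at h2
  have hnU : ∀ h ∈ D.diagonalSubgroup F, ∀ a ∈ D.posUnipotent F,
      h * a * h⁻¹ ∈ D.posUnipotent F := fun h hh a ha => by
    have h1 := (s1036_main (F := F) D hG hT hA hrc hU).1 hh
    rw [Subgroup.mem_normalizer_iff] at h1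
    exact (h1 a).1 ha
  unfold ChevalleyDatum.borelSubgroup at h2
  obtain ⟨a, ha, h, hh, he⟩ := sup_decomp _ _ hnU _ h2
  have hle : D.diagonalSubgroup F ≤ D.monomialSubgroup F := le_sup_left
  have hnorm := (Subgroup.normal_subgroupOf_iff_le_normalizer hle).1
    (s1038_main (F := F) D hG hT hA hrc) hnN
  rw [Subgroup.mem_normalizer_iff] at hnorm
  have hk' : k = (nW D hG ws * a * (nW D hG ws)⁻¹) * (nW D hG ws * h * (nW D hG ws)⁻¹) := by
    have : k = nW D hG ws * ((nW D hG ws)⁻¹ * k * nW D hG ws) * (nW D hG ws)⁻¹ := by group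
    rw [this, he]
    group
  have hkVH : k ∈ D.negUnipotent F ⊔ D.diagonalSubgroup F := by
    rw [hk']
    exact Subgroup.mul_mem _ (Subgroup.mem_sup_left (hmap a ha))
      (Subgroup.mem_sup_right ((hnorm h).1 hh))
  have := (s1037_main (F := F) D hG hT hA hrc hU hUN).2
  rw [← this]
  exact ⟨hkB, hkVH⟩

theorem s1051_main (hG : addB D = true) (hT : ChevTab.goodB D = true)
    (hA : haBF D (ctrie D) 0 D.nroots = true) (hrc : rcB D = true) (hU : uniB D = true)
    (hUN : uniNB D = true) (hn : ∀ i < D.rank, ncheckB D i = true)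
    (hc : ∀ i < D.rank, conjR D i 0 D.nroots = true) (h256 : D.nroots ≤ 256) (ws : List ℕ)
    (hw0 : w0B D ws = true) (hP : pjB D = true) (hng : ngB D = true) :
    ((D.borelSubgroup F).subgroupOf (D.group F)).normalCore = ⊥ := by
  rw [eq_bot_iff]
  intro k hk
  rw [Subgroup.mem_bot]
  have hKH : ∀ k' ∈ ((D.borelSubgroup F).subgroupOf (D.group F)).normalCore,
      (k' : GL D.Idx F) ∈ D.diagonalSubgroup F := by
    intro k' hk'
    apply core_le_H D hG hT hA hrc hU hUN hn hc h256 ws hw0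
    intro g hg
    have := hk' ⟨g, hg⟩
    rw [Subgroup.mem_subgroupOf] at this
    exact this
  have hkH := hKH k hk
  obtain ⟨χ, hχ, hv⟩ := H_CD D hA hrc _ hkH
  have hone : ∀ r < D.nroots, χ r = 1 := by
    intro r hr
    have hxG : xGL D hG r (1 : F) ∈ D.group F := xGL_mem D hG r 1
    have h1 := hKH _ (((D.borelSubgroup F).subgroupOf (D.group F)).normalCore_normal.conj_mem k hk
      ⟨xGL D hG r (1 : F), hxG⟩)
    have h1' : xGL D hG r (1 : F) * (k : GL D.Idx F) * (xGL D hG r (1 : F))⁻¹ ∈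
        D.diagonalSubgroup F := h1
    have h2 := Subgroup.mul_mem _ h1' (Subgroup.inv_mem _ hkH)
    have hc1 := conj_xGL D hG hT (k : GL D.Idx F) χ hχ hv r (1 : F)
    have hinv : (xGL D hG r (1 : F))⁻¹ = xGL D hG r (-1 : F) :=
      inv_eq_of_mul_eq_one_right (xx_inv D hG r 1)
    have hy : xGL D hG r (1 : F) * (k : GL D.Idx F) * (xGL D hG r (1 : F))⁻¹ *
        (k : GL D.Idx F)⁻¹ = xGL D hG r (1 - (χ r : F)) := by
      have e1 : xGL D hG r (1 : F) * (k : GL D.Idx F) * (xGL D hG r (1 : F))⁻¹ *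
          (k : GL D.Idx F)⁻¹ = xGL D hG r (1 : F) *
          ((k : GL D.Idx F) * xGL D hG r (-1 : F) * (k : GL D.Idx F)⁻¹) := by
        rw [hinv]
        group
      rw [e1, conj_xGL D hG hT (k : GL D.Idx F) χ hχ hv r (-1 : F)]
      apply Units.ext
      rw [Units.val_mul, xGL_coe, xGL_coe, xGL_coe, x_add D hG r hr]
      congr 1
      ring
    rw [hy] at h2
    have hy1 : xGL D hG r (1 - (χ r : F)) = 1 := by
      rcases (pj_spec D hP).1 r hr with hp | hp
      · have hmem : xGL D hG r (1 - (χ r : F)) ∈ D.posUnipotent F ⊓ D.diagonalSubgroup F :=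
          ⟨Subgroup.subset_closure ⟨r, _, hp, xGL_coe D hG _ _⟩, h2⟩
        rw [(s1036_main (F := F) D hG hT hA hrc hU).2, Subgroup.mem_bot] at hmem
        exact hmem
      · have hmem : xGL D hG r (1 - (χ r : F)) ∈ D.borelSubgroup F ⊓ D.negUnipotent F :=
          ⟨Subgroup.mem_sup_right h2, Subgroup.subset_closure ⟨r, _, hp, xGL_coe D hG _ _⟩⟩
        rw [(s1037_main (F := F) D hG hT hA hrc hU hUN).1, Subgroup.mem_bot] at hmem
        exact hmem
    have hx1 : D.x F r (1 - (χ r : F)) = 1 := by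
      have := congrArg (fun g : GL D.Idx F => (g : Matrix D.Idx D.Idx F)) hy1
      simpa [xGL_coe] using this
    obtain ⟨hnl, hnn⟩ := ng_spec D hng r hr
    have h0 := x_eq_one_imp D r hr hnl hnn _ hx1
    apply Units.ext
    rw [Units.val_one]
    linear_combination -h0
  apply Subtype.ext
  apply Units.ext
  rw [hv]
  show D.charDiag F χ = 1
  unfold ChevalleyDatum.charDiag
  rw [← Matrix.diagonal_one]
  congr 1
  funext x
  rcases x with i | s
  · rfl
  · show ((χ s.val : Fˣ) : F) = 1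
    rw [hone s.val s.isLt, Units.val_one]

end Cfsg.Agent.Lib.Helper2.ChevFast
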