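import Mathlib
import Cfsg.Agent.Lib.Helper2.ChevH

set_option autoImplicit false

namespace Cfsg.Agent.Lib.Helper2.ChevFast

open Cfsg.Lie
open Cfsg.Agent.Lib.Helper2.ChevAdd
open Cfsg.Agent.Lib.Helper2.ChevSym
open scoped MatrixGroups

variable {F : Type*} [Field F] (D : ChevalleyDatum)

theorem art_range (a : List ℤ) : ∀ (b : List ℤ) (N : ℕ), b.length ≤ N →
    art a b = ((List.range N).map (fun i => a.getD i 0 * b.getD i 0)).sum := by
  induction a with
  | nil =>
    intro b N _
    have h1 : art [] b = 0 := by simp [art]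
    rw [h1]
    symm
    apply List.sum_eq_zero
    intro x hx
    rw [List.mem_map] at hx
    obtain ⟨i, _, rfl⟩ := hx
    simp
  | cons x a ih =>
    intro b N hN
    cases b with
    | nil =>
      have h1 : art (x :: a) [] = 0 := by simp [art]
      rw [h1]
      symm
      apply List.sum_eq_zero
      intro y hy
      rw [List.mem_map] at hy
      obtain ⟨i, _, rfl⟩ := hy
      simp
    | cons y b =>
      cases N with
      | zero => simp at hN
      | succ N =>
        have h1 : art (x :: a) (y :: b) = x * y + art a b := by simp [art]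
        rw [h1, ih b N (by simpa using hN), List.range_succ_eq_map, List.map_cons, List.sum_cons,
          List.map_map]
        rfl

def chiU (u : ℕ → Fˣ) (v : ℕ) : Fˣ :=
  ((List.range D.rank).map (fun i => (u i) ^ (D.cartan i v))).prod

theorem prod_mul_aux (k : ℕ → ℤ) (u w : ℕ → Fˣ) (l : List ℕ) :
    (l.map (fun i => (u i * w i) ^ (k i))).prod =
      (l.map (fun i => (u i) ^ (k i))).prod * (l.map (fun i => (w i) ^ (k i))).prod := by
  induction l with
  | nil => simp
  | cons a l ih =>
    rw [List.map_cons, List.map_cons, List.map_cons, List.prod_cons, List.prod_cons, List.prod_cons,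
      ih, mul_zpow]
    exact mul_mul_mul_comm _ _ _ _

theorem prod_inv_aux (k : ℕ → ℤ) (u : ℕ → Fˣ) (l : List ℕ) :
    (l.map (fun i => ((u i)⁻¹) ^ (k i))).prod = ((l.map (fun i => (u i) ^ (k i))).prod)⁻¹ := by
  induction l with
  | nil => simp
  | cons a l ih =>
    rw [List.map_cons, List.map_cons, List.prod_cons, List.prod_cons, ih, inv_zpow, mul_inv]

theorem prod_one_aux (k : ℕ → ℤ) (l : List ℕ) :
    (l.map (fun i => ((1 : Fˣ)) ^ (k i))).prod = 1 := by
  induction l with
  | nil => simp
  | cons a l ih => rw [List.map_cons, List.prod_cons, ih, one_zpow, one_mul]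

theorem zpow_sum_aux (c : Fˣ) (f g : ℕ → ℤ) (l : List ℕ) :
    c ^ ((l.map (fun i => f i * g i)).sum) = (l.map (fun i => (c ^ f i) ^ (g i))).prod := by
  induction l with
  | nil => simp
  | cons a l ih =>
    rw [List.map_cons, List.map_cons, List.sum_cons, List.prod_cons, zpow_add, ih, zpow_mul]

def IsK (g : GL D.Idx F) : Prop :=
  ∃ u : ℕ → Fˣ, (g : Matrix D.Idx D.Idx F) = D.charDiag F (chiU D u)

theorem H_K (hA : haBF D (ctrie D) 0 D.nroots = true) (hrc : rcB D = true)
    (hsz : D.cartanSR.size ≤ D.rank) (g : GL D.Idx F) (hg : g ∈ D.diagonalSubgroup F) :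
    IsK D g := by
  unfold ChevalleyDatum.diagonalSubgroup at hg
  induction hg using Subgroup.closure_induction with
  | mem x hx =>
    obtain ⟨r, t, hr, ht, hx⟩ := hx
    refine ⟨fun i => (Units.mk0 t ht) ^ ((D.coroot.getD r #[]).toList.getD i 0), ?_⟩
    rw [hx, ha_diagF D hA (rc_256 D hrc) r hr t ht]
    unfold ChevalleyDatum.charDiag
    congr 1
    funext y
    rcases y with j | v
    · rfl
    · show t ^ (Art D r v.val) = ((chiU D _ v.val : Fˣ) : F)
      unfold chiU
      rw [← zpow_sum_aux (Units.mk0 t ht) (fun i => (D.coroot.getD r #[]).toList.getD i 0)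
        (fun i => D.cartan i v.val) (List.range D.rank), Units.val_zpow_eq_zpow_val]
      have h1 : Art D r v.val = ((List.range D.rank).map
          (fun i => (D.coroot.getD r #[]).toList.getD i 0 * D.cartan i v.val)).sum := by
        unfold Art
        rw [art_range _ (cl D v.val) D.rank (by
          rw [cl_length]
          unfold crows
          rw [List.length_map, Array.length_toList]
          exact hsz)]
        apply congrArg List.sum
        apply List.map_congr_left
        intro i _
        rw [cl_getD]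
      rw [h1]
      rfl
  | one =>
    refine ⟨fun _ => 1, ?_⟩
    have h1 : chiU D (fun _ => (1 : Fˣ)) = fun _ => (1 : Fˣ) := by
      funext v
      exact prod_one_aux _ _
    rw [h1, charDiag_one]
    rfl
  | mul x y _ _ hx hy =>
    obtain ⟨u, hu⟩ := hx
    obtain ⟨w, hw⟩ := hy
    refine ⟨fun i => u i * w i, ?_⟩
    have h1 : chiU D (fun i => u i * w i) = fun v => chiU D u v * chiU D w v := by
      funext v
      exact prod_mul_aux _ u w _
    rw [Units.val_mul, hu, hw, charDiag_mul, h1]
  | inv x _ hx =>
    obtain ⟨u, hu⟩ := hx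
    refine ⟨fun i => (u i)⁻¹, ?_⟩
    have h1 : chiU D (fun i => (u i)⁻¹) = fun v => (chiU D u v)⁻¹ := by
      funext v
      exact prod_inv_aux _ u _
    rw [CD_inv_val D hu, h1]

theorem wordMat_append (w1 w2 : List (ℕ × F)) :
    D.wordMat F (w1 ++ w2) = D.wordMat F w1 * D.wordMat F w2 := by
  unfold ChevalleyDatum.wordMat
  rw [List.map_append, List.prod_append]

theorem wordMat_flatMap (f : ℕ → List (ℕ × F)) (l : List ℕ) :
    D.wordMat F (l.flatMap f) = (l.map (fun i => D.wordMat F (f i))).prod := by
  induction l with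
  | nil => rfl
  | cons a l ih => rw [List.flatMap_cons, wordMat_append, ih, List.map_cons, List.prod_cons]

theorem prod_charDiag (χ : ℕ → ℕ → Fˣ) (l : List ℕ) :
    (l.map (fun i => D.charDiag F (χ i))).prod =
      D.charDiag F (fun v => (l.map (fun i => χ i v)).prod) := by
  induction l with
  | nil =>
    show (1 : Matrix D.Idx D.Idx F) = _
    rw [← charDiag_one D]
    rfl
  | cons a l ih =>
    rw [List.map_cons, List.prod_cons, ih, charDiag_mul]
    rfl

theorem s1034_main (hA : haBF D (ctrie D) 0 D.nroots = true) (hrc : rcB D = true)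
    (hS : hsBF D (ctrie D) 0 D.rank = true) (hsz : D.cartanSR.size ≤ D.rank)
    (g : GL D.Idx F) (hg : g ∈ D.diagonalSubgroup F) :
    ∃ c : ℕ → F, (∀ i < D.rank, c i ≠ 0) ∧
      (g : Matrix D.Idx D.Idx F) =
        D.wordMat F ((List.range D.rank).flatMap fun i => D.hWord (D.simple i) (c i)) := by
  obtain ⟨u, hu⟩ := H_K D hA hrc hsz g hg
  refine ⟨fun i => ((u i : Fˣ) : F), fun i _ => Units.ne_zero _, ?_⟩
  rw [hu, wordMat_flatMap]
  have h1 : (List.range D.rank).map (fun i => D.wordMat F (D.hWord (D.simple i) ((u i : Fˣ) : F))) =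
      (List.range D.rank).map (fun i => D.charDiag F (fun v => (u i) ^ (D.cartan i v))) := by
    apply List.map_congr_left
    intro i hi
    rw [List.mem_range] at hi
    have h2 := hs_diagF D hS (rc_256 D hrc) i hi ((u i : Fˣ) : F) (Units.ne_zero _)
    show D.hMat F (D.simple i) ((u i : Fˣ) : F) = _
    rw [h2]
    unfold ChevalleyDatum.charDiag
    congr 1
    funext y
    rcases y with j | v
    · rfl
    · show ((u i : Fˣ) : F) ^ (D.cartan i v.val) = ((u i ^ D.cartan i v.val : Fˣ) : F)
      rw [Units.val_zpow_eq_zpow_val]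
  rw [h1, prod_charDiag]
  rfl

end Cfsg.Agent.Lib.Helper2.ChevFast
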