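import Mathlib
import Cfsg.Agent.Lib.Helper2.ChevFast3
import Cfsg.Prelude.Def_ChevG2
import Cfsg.Prelude.Def_ChevB2
import Cfsg.Prelude.Def_ChevD4
import Cfsg.Prelude.Def_ChevF4

set_option autoImplicit false

namespace Cfsg.Agent.Lib.Helper2.ChevFast

open Cfsg.Lie
open Cfsg.Agent.Lib.Helper2.ChevSym

set_option maxRecDepth 1000000 in
theorem ha_G2_0 : haBF chevG2 (ctrie chevG2) 0 12 = true := by decide +kernel

theorem ha_G2 : haBF chevG2 (ctrie chevG2) 0 12 = true := ha_G2_0

set_option maxRecDepth 1000000 in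
theorem ha_B2_0 : haBF chevB2 (ctrie chevB2) 0 8 = true := by decide +kernel

theorem ha_B2 : haBF chevB2 (ctrie chevB2) 0 8 = true := ha_B2_0

set_option maxRecDepth 1000000 in
theorem ha_D4_0 : haBF chevD4 (ctrie chevD4) 0 12 = true := by decide +kernel

set_option maxRecDepth 1000000 in
theorem ha_D4_1 : haBF chevD4 (ctrie chevD4) 12 12 = true := by decide +kernel

theorem ha_D4 : haBF chevD4 (ctrie chevD4) 0 24 = true := (ha_app chevD4 (ctrie chevD4) 0 12 12 ha_D4_0 ha_D4_1)

set_option maxRecDepth 1000000 in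
theorem ha_F4_0 : haBF chevF4 (ctrie chevF4) 0 12 = true := by decide +kernel

set_option maxRecDepth 1000000 in
theorem ha_F4_1 : haBF chevF4 (ctrie chevF4) 12 12 = true := by decide +kernel

set_option maxRecDepth 1000000 in
theorem ha_F4_2 : haBF chevF4 (ctrie chevF4) 24 12 = true := by decide +kernel

set_option maxRecDepth 1000000 in
theorem ha_F4_3 : haBF chevF4 (ctrie chevF4) 36 12 = true := by decide +kernel

theorem ha_F4 : haBF chevF4 (ctrie chevF4) 0 48 = true := (ha_app chevF4 (ctrie chevF4) 0 36 12 (ha_app chevF4 (ctrie chevF4) 0 24 12 (ha_app chevF4 (ctrie chevF4) 0 12 12 ha_F4_0 ha_F4_1) ha_F4_2) ha_F4_3)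


end Cfsg.Agent.Lib.Helper2.ChevFast
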