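import Mathlib
import Cfsg.Agent.Lib.Helper2.ChevFast3
import Cfsg.Prelude.Def_ChevE6

set_option autoImplicit false

namespace Cfsg.Agent.Lib.Helper2.ChevFast

open Cfsg.Lie
open Cfsg.Agent.Lib.Helper2.ChevSym

set_option maxRecDepth 1000000 in
theorem ha_E6_0 : haBF chevE6 (ctrie chevE6) 0 12 = true := by decide +kernel

set_option maxRecDepth 1000000 in
theorem ha_E6_1 : haBF chevE6 (ctrie chevE6) 12 12 = true := by decide +kernel

set_option maxRecDepth 1000000 in
theorem ha_E6_2 : haBF chevE6 (ctrie chevE6) 24 12 = true := by decide +kernel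

set_option maxRecDepth 1000000 in
theorem ha_E6_3 : haBF chevE6 (ctrie chevE6) 36 12 = true := by decide +kernel

set_option maxRecDepth 1000000 in
theorem ha_E6_4 : haBF chevE6 (ctrie chevE6) 48 12 = true := by decide +kernel

set_option maxRecDepth 1000000 in
theorem ha_E6_5 : haBF chevE6 (ctrie chevE6) 60 12 = true := by decide +kernel

theorem ha_E6 : haBF chevE6 (ctrie chevE6) 0 72 = true := (ha_app chevE6 (ctrie chevE6) 0 60 12 (ha_app chevE6 (ctrie chevE6) 0 48 12 (ha_app chevE6 (ctrie chevE6) 0 36 12 (ha_app chevE6 (ctrie chevE6) 0 24 12 (ha_app chevE6 (ctrie chevE6) 0 12 12 ha_E6_0 ha_E6_1) ha_E6_2) ha_E6_3) ha_E6_4) ha_E6_5)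


end Cfsg.Agent.Lib.Helper2.ChevFast
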