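import Mathlib
import Cfsg.Agent.Lib.Helper2.ChevFast3
import Cfsg.Prelude.Def_ChevE7

set_option autoImplicit false

namespace Cfsg.Agent.Lib.Helper2.ChevFast

open Cfsg.Lie
open Cfsg.Agent.Lib.Helper2.ChevSym

set_option maxRecDepth 1000000 in
theorem ha_E7_f0_0 : haBF chevE7 (ctrie chevE7) 0 6 = true := by decide +kernel

set_option maxRecDepth 1000000 in
theorem ha_E7_f0_1 : haBF chevE7 (ctrie chevE7) 6 6 = true := by decide +kernel

set_option maxRecDepth 1000000 in
theorem ha_E7_f0_2 : haBF chevE7 (ctrie chevE7) 12 6 = true := by decide +kernel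

set_option maxRecDepth 1000000 in
theorem ha_E7_f0_3 : haBF chevE7 (ctrie chevE7) 18 6 = true := by decide +kernel

set_option maxRecDepth 1000000 in
theorem ha_E7_f0_4 : haBF chevE7 (ctrie chevE7) 24 6 = true := by decide +kernel

set_option maxRecDepth 1000000 in
theorem ha_E7_f0_5 : haBF chevE7 (ctrie chevE7) 30 6 = true := by decide +kernel

set_option maxRecDepth 1000000 in
theorem ha_E7_f0_6 : haBF chevE7 (ctrie chevE7) 36 6 = true := by decide +kernel

theorem ha_E7_f0 : haBF chevE7 (ctrie chevE7) 0 42 = true := (ha_app chevE7 (ctrie chevE7) 0 36 6 (ha_app chevE7 (ctrie chevE7) 0 30 6 (ha_app chevE7 (ctrie chevE7) 0 24 6 (ha_app chevE7 (ctrie chevE7) 0 18 6 (ha_app chevE7 (ctrie chevE7) 0 12 6 (ha_app chevE7 (ctrie chevE7) 0 6 6 ha_E7_f0_0 ha_E7_f0_1) ha_E7_f0_2) ha_E7_f0_3) ha_E7_f0_4) ha_E7_f0_5) ha_E7_f0_6)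


end Cfsg.Agent.Lib.Helper2.ChevFast
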