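import Mathlib
import Cfsg.Agent.Lib.Helper2.ChevFast3
import Cfsg.Prelude.Def_ChevE7

set_option autoImplicit false

namespace Cfsg.Agent.Lib.Helper2.ChevFast

open Cfsg.Lie
open Cfsg.Agent.Lib.Helper2.ChevSym

set_option maxRecDepth 1000000 in
theorem ha_E7_f1_0 : haBF chevE7 (ctrie chevE7) 42 6 = true := by decide +kernel

set_option maxRecDepth 1000000 in
theorem ha_E7_f1_1 : haBF chevE7 (ctrie chevE7) 48 6 = true := by decide +kernel

set_option maxRecDepth 1000000 in
theorem ha_E7_f1_2 : haBF chevE7 (ctrie chevE7) 54 6 = true := by decide +kernel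

set_option maxRecDepth 1000000 in
theorem ha_E7_f1_3 : haBF chevE7 (ctrie chevE7) 60 6 = true := by decide +kernel

set_option maxRecDepth 1000000 in
theorem ha_E7_f1_4 : haBF chevE7 (ctrie chevE7) 66 6 = true := by decide +kernel

set_option maxRecDepth 1000000 in
theorem ha_E7_f1_5 : haBF chevE7 (ctrie chevE7) 72 6 = true := by decide +kernel

set_option maxRecDepth 1000000 in
theorem ha_E7_f1_6 : haBF chevE7 (ctrie chevE7) 78 6 = true := by decide +kernel

theorem ha_E7_f1 : haBF chevE7 (ctrie chevE7) 42 42 = true := (ha_app chevE7 (ctrie chevE7) 42 36 6 (ha_app chevE7 (ctrie chevE7) 42 30 6 (ha_app chevE7 (ctrie chevE7) 42 24 6 (ha_app chevE7 (ctrie chevE7) 42 18 6 (ha_app chevE7 (ctrie chevE7) 42 12 6 (ha_app chevE7 (ctrie chevE7) 42 6 6 ha_E7_f1_0 ha_E7_f1_1) ha_E7_f1_2) ha_E7_f1_3) ha_E7_f1_4) ha_E7_f1_5) ha_E7_f1_6)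


end Cfsg.Agent.Lib.Helper2.ChevFast
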