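import Mathlib
import Cfsg.Agent.Lib.Helper2.ChevFast3
import Cfsg.Prelude.Def_ChevE7

set_option autoImplicit false

namespace Cfsg.Agent.Lib.Helper2.ChevFast

open Cfsg.Lie
open Cfsg.Agent.Lib.Helper2.ChevSym

set_option maxRecDepth 1000000 in
theorem ha_E7_f2_0 : haBF chevE7 (ctrie chevE7) 84 6 = true := by decide +kernel

set_option maxRecDepth 1000000 in
theorem ha_E7_f2_1 : haBF chevE7 (ctrie chevE7) 90 6 = true := by decide +kernel

set_option maxRecDepth 1000000 in
theorem ha_E7_f2_2 : haBF chevE7 (ctrie chevE7) 96 6 = true := by decide +kernel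

set_option maxRecDepth 1000000 in
theorem ha_E7_f2_3 : haBF chevE7 (ctrie chevE7) 102 6 = true := by decide +kernel

set_option maxRecDepth 1000000 in
theorem ha_E7_f2_4 : haBF chevE7 (ctrie chevE7) 108 6 = true := by decide +kernel

set_option maxRecDepth 1000000 in
theorem ha_E7_f2_5 : haBF chevE7 (ctrie chevE7) 114 6 = true := by decide +kernel

set_option maxRecDepth 1000000 in
theorem ha_E7_f2_6 : haBF chevE7 (ctrie chevE7) 120 6 = true := by decide +kernel

theorem ha_E7_f2 : haBF chevE7 (ctrie chevE7) 84 42 = true := (ha_app chevE7 (ctrie chevE7) 84 36 6 (ha_app chevE7 (ctrie chevE7) 84 30 6 (ha_app chevE7 (ctrie chevE7) 84 24 6 (ha_app chevE7 (ctrie chevE7) 84 18 6 (ha_app chevE7 (ctrie chevE7) 84 12 6 (ha_app chevE7 (ctrie chevE7) 84 6 6 ha_E7_f2_0 ha_E7_f2_1) ha_E7_f2_2) ha_E7_f2_3) ha_E7_f2_4) ha_E7_f2_5) ha_E7_f2_6)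


end Cfsg.Agent.Lib.Helper2.ChevFast
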