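import Mathlib
import Cfsg.Agent.Lib.Helper2.ChevFast3
import Cfsg.Prelude.Def_ChevE8

set_option autoImplicit false

namespace Cfsg.Agent.Lib.Helper2.ChevFast

open Cfsg.Lie
open Cfsg.Agent.Lib.Helper2.ChevSym

set_option maxRecDepth 1000000 in
theorem ha_E8_f2_0 : haBF chevE8 (ctrie chevE8) 48 3 = true := by decide +kernel

set_option maxRecDepth 1000000 in
theorem ha_E8_f2_1 : haBF chevE8 (ctrie chevE8) 51 3 = true := by decide +kernel

set_option maxRecDepth 1000000 in
theorem ha_E8_f2_2 : haBF chevE8 (ctrie chevE8) 54 3 = true := by decide +kernel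

set_option maxRecDepth 1000000 in
theorem ha_E8_f2_3 : haBF chevE8 (ctrie chevE8) 57 3 = true := by decide +kernel

set_option maxRecDepth 1000000 in
theorem ha_E8_f2_4 : haBF chevE8 (ctrie chevE8) 60 3 = true := by decide +kernel

set_option maxRecDepth 1000000 in
theorem ha_E8_f2_5 : haBF chevE8 (ctrie chevE8) 63 3 = true := by decide +kernel

set_option maxRecDepth 1000000 in
theorem ha_E8_f2_6 : haBF chevE8 (ctrie chevE8) 66 3 = true := by decide +kernel

set_option maxRecDepth 1000000 in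
theorem ha_E8_f2_7 : haBF chevE8 (ctrie chevE8) 69 3 = true := by decide +kernel

theorem ha_E8_f2 : haBF chevE8 (ctrie chevE8) 48 24 = true := (ha_app chevE8 (ctrie chevE8) 48 21 3 (ha_app chevE8 (ctrie chevE8) 48 18 3 (ha_app chevE8 (ctrie chevE8) 48 15 3 (ha_app chevE8 (ctrie chevE8) 48 12 3 (ha_app chevE8 (ctrie chevE8) 48 9 3 (ha_app chevE8 (ctrie chevE8) 48 6 3 (ha_app chevE8 (ctrie chevE8) 48 3 3 ha_E8_f2_0 ha_E8_f2_1) ha_E8_f2_2) ha_E8_f2_3) ha_E8_f2_4) ha_E8_f2_5) ha_E8_f2_6) ha_E8_f2_7)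


end Cfsg.Agent.Lib.Helper2.ChevFast
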