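import Mathlib
import Cfsg.Agent.Lib.Helper2.ChevFast3
import Cfsg.Prelude.Def_ChevE8

set_option autoImplicit false

namespace Cfsg.Agent.Lib.Helper2.ChevFast

open Cfsg.Lie
open Cfsg.Agent.Lib.Helper2.ChevSym

set_option maxRecDepth 1000000 in
theorem ha_E8_f5_0 : haBF chevE8 (ctrie chevE8) 120 3 = true := by decide +kernel

set_option maxRecDepth 1000000 in
theorem ha_E8_f5_1 : haBF chevE8 (ctrie chevE8) 123 3 = true := by decide +kernel

set_option maxRecDepth 1000000 in
theorem ha_E8_f5_2 : haBF chevE8 (ctrie chevE8) 126 3 = true := by decide +kernel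

set_option maxRecDepth 1000000 in
theorem ha_E8_f5_3 : haBF chevE8 (ctrie chevE8) 129 3 = true := by decide +kernel

set_option maxRecDepth 1000000 in
theorem ha_E8_f5_4 : haBF chevE8 (ctrie chevE8) 132 3 = true := by decide +kernel

set_option maxRecDepth 1000000 in
theorem ha_E8_f5_5 : haBF chevE8 (ctrie chevE8) 135 3 = true := by decide +kernel

set_option maxRecDepth 1000000 in
theorem ha_E8_f5_6 : haBF chevE8 (ctrie chevE8) 138 3 = true := by decide +kernel

set_option maxRecDepth 1000000 in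
theorem ha_E8_f5_7 : haBF chevE8 (ctrie chevE8) 141 3 = true := by decide +kernel

theorem ha_E8_f5 : haBF chevE8 (ctrie chevE8) 120 24 = true := (ha_app chevE8 (ctrie chevE8) 120 21 3 (ha_app chevE8 (ctrie chevE8) 120 18 3 (ha_app chevE8 (ctrie chevE8) 120 15 3 (ha_app chevE8 (ctrie chevE8) 120 12 3 (ha_app chevE8 (ctrie chevE8) 120 9 3 (ha_app chevE8 (ctrie chevE8) 120 6 3 (ha_app chevE8 (ctrie chevE8) 120 3 3 ha_E8_f5_0 ha_E8_f5_1) ha_E8_f5_2) ha_E8_f5_3) ha_E8_f5_4) ha_E8_f5_5) ha_E8_f5_6) ha_E8_f5_7)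


end Cfsg.Agent.Lib.Helper2.ChevFast
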