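import Mathlib
import Cfsg.Agent.Lib.Helper2.ChevFast3
import Cfsg.Prelude.Def_ChevG2
import Cfsg.Prelude.Def_ChevB2
import Cfsg.Prelude.Def_ChevD4
import Cfsg.Prelude.Def_ChevF4
import Cfsg.Prelude.Def_ChevE6

set_option autoImplicit false

namespace Cfsg.Agent.Lib.Helper2.ChevFast

open Cfsg.Lie
open Cfsg.Agent.Lib.Helper2.ChevSym

set_option maxRecDepth 1000000 in
theorem hs_G2_0 : hsBF chevG2 (ctrie chevG2) 0 2 = true := by decide +kernel

theorem hs_G2 : hsBF chevG2 (ctrie chevG2) 0 2 = true := hs_G2_0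

set_option maxRecDepth 1000000 in
theorem rc_G2 : rcB chevG2 = true := by decide +kernel

set_option maxRecDepth 1000000 in
theorem hs_B2_0 : hsBF chevB2 (ctrie chevB2) 0 2 = true := by decide +kernel

theorem hs_B2 : hsBF chevB2 (ctrie chevB2) 0 2 = true := hs_B2_0

set_option maxRecDepth 1000000 in
theorem rc_B2 : rcB chevB2 = true := by decide +kernel

set_option maxRecDepth 1000000 in
theorem hs_D4_0 : hsBF chevD4 (ctrie chevD4) 0 3 = true := by decide +kernel

set_option maxRecDepth 1000000 in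
theorem hs_D4_1 : hsBF chevD4 (ctrie chevD4) 3 1 = true := by decide +kernel

theorem hs_D4 : hsBF chevD4 (ctrie chevD4) 0 4 = true := (hs_app chevD4 (ctrie chevD4) 0 3 1 hs_D4_0 hs_D4_1)

set_option maxRecDepth 1000000 in
theorem rc_D4 : rcB chevD4 = true := by decide +kernel

set_option maxRecDepth 1000000 in
theorem hs_F4_0 : hsBF chevF4 (ctrie chevF4) 0 3 = true := by decide +kernel

set_option maxRecDepth 1000000 in
theorem hs_F4_1 : hsBF chevF4 (ctrie chevF4) 3 1 = true := by decide +kernel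

theorem hs_F4 : hsBF chevF4 (ctrie chevF4) 0 4 = true := (hs_app chevF4 (ctrie chevF4) 0 3 1 hs_F4_0 hs_F4_1)

set_option maxRecDepth 1000000 in
theorem rc_F4 : rcB chevF4 = true := by decide +kernel

set_option maxRecDepth 1000000 in
theorem hs_E6_0 : hsBF chevE6 (ctrie chevE6) 0 3 = true := by decide +kernel

set_option maxRecDepth 1000000 in
theorem hs_E6_1 : hsBF chevE6 (ctrie chevE6) 3 3 = true := by decide +kernel

theorem hs_E6 : hsBF chevE6 (ctrie chevE6) 0 6 = true := (hs_app chevE6 (ctrie chevE6) 0 3 3 hs_E6_0 hs_E6_1)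

set_option maxRecDepth 1000000 in
theorem rc_E6 : rcB chevE6 = true := by decide +kernel


end Cfsg.Agent.Lib.Helper2.ChevFast
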