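import Mathlib
import Cfsg.Agent.Lib.Helper2.ChevFast3
import Cfsg.Prelude.Def_ChevE7

set_option autoImplicit false

namespace Cfsg.Agent.Lib.Helper2.ChevFast

open Cfsg.Lie
open Cfsg.Agent.Lib.Helper2.ChevSym

set_option maxRecDepth 1000000 in
theorem hs_E7_0 : hsBF chevE7 (ctrie chevE7) 0 3 = true := by decide +kernel

set_option maxRecDepth 1000000 in
theorem hs_E7_1 : hsBF chevE7 (ctrie chevE7) 3 3 = true := by decide +kernel

set_option maxRecDepth 1000000 in
theorem hs_E7_2 : hsBF chevE7 (ctrie chevE7) 6 1 = true := by decide +kernel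

theorem hs_E7 : hsBF chevE7 (ctrie chevE7) 0 7 = true := (hs_app chevE7 (ctrie chevE7) 0 6 1 (hs_app chevE7 (ctrie chevE7) 0 3 3 hs_E7_0 hs_E7_1) hs_E7_2)

set_option maxRecDepth 1000000 in
theorem rc_E7 : rcB chevE7 = true := by decide +kernel


end Cfsg.Agent.Lib.Helper2.ChevFast
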