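import Mathlib
import Cfsg.Agent.Lib.Helper2.ChevFast3
import Cfsg.Prelude.Def_ChevE8

set_option autoImplicit false

namespace Cfsg.Agent.Lib.Helper2.ChevFast

open Cfsg.Lie
open Cfsg.Agent.Lib.Helper2.ChevSym

set_option maxRecDepth 1000000 in
theorem hs_E8_0 : hsBF chevE8 (ctrie chevE8) 0 2 = true := by decide +kernel

set_option maxRecDepth 1000000 in
theorem hs_E8_1 : hsBF chevE8 (ctrie chevE8) 2 2 = true := by decide +kernel

set_option maxRecDepth 1000000 in
theorem hs_E8_2 : hsBF chevE8 (ctrie chevE8) 4 2 = true := by decide +kernel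

set_option maxRecDepth 1000000 in
theorem hs_E8_3 : hsBF chevE8 (ctrie chevE8) 6 2 = true := by decide +kernel

theorem hs_E8 : hsBF chevE8 (ctrie chevE8) 0 8 = true := (hs_app chevE8 (ctrie chevE8) 0 6 2 (hs_app chevE8 (ctrie chevE8) 0 4 2 (hs_app chevE8 (ctrie chevE8) 0 2 2 hs_E8_0 hs_E8_1) hs_E8_2) hs_E8_3)


end Cfsg.Agent.Lib.Helper2.ChevFast
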