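import Mathlib
import Cfsg.Agent.Lib.Helper2.ChevHS1
import Cfsg.Agent.Lib.Helper2.ChevHS2
import Cfsg.Agent.Lib.Helper2.ChevHS3
import Cfsg.Agent.Lib.Helper2.ChevRC8

set_option autoImplicit false

namespace Cfsg.Agent.Lib.Helper2.ChevFast

open Cfsg.Lie
open Cfsg.Agent.Lib.Helper2.ChevSym

theorem hs_of_mem (D : ChevalleyDatum)
    (hD : D ∈ [chevG2, chevB2, chevD4, chevF4, chevE6, chevE7, chevE8]) :
    hsBF D (ctrie D) 0 D.rank = true := by
  simp only [List.mem_cons, List.not_mem_nil, or_false] at hD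
  rcases hD with rfl | rfl | rfl | rfl | rfl | rfl | rfl
  · exact hs_G2
  · exact hs_B2
  · exact hs_D4
  · exact hs_F4
  · exact hs_E6
  · exact hs_E7
  · exact hs_E8

theorem rc_of_mem (D : ChevalleyDatum)
    (hD : D ∈ [chevG2, chevB2, chevD4, chevF4, chevE6, chevE7, chevE8]) : rcB D = true := by
  simp only [List.mem_cons, List.not_mem_nil, or_false] at hD
  rcases hD with rfl | rfl | rfl | rfl | rfl | rfl | rfl
  · exact rc_G2
  · exact rc_B2
  · exact rc_D4
  · exact rc_F4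
  · exact rc_E6
  · exact rc_E7
  · exact rc_E8

theorem s1033 {F : Type*} [Field F] (D : ChevalleyDatum)
    (hD : D ∈ [chevG2, chevB2, chevD4, chevF4, chevE6, chevE7, chevE8]) (i : ℕ)
    (hi : i < D.rank) (c : F) (hc : c ≠ 0) :
    D.hMat F (D.simple i) c =
      Matrix.diagonal (Sum.elim (fun _ => (1 : F)) (fun s : Fin D.nroots => c ^ (D.cartan i s))) :=
  hs_diagF D (hs_of_mem D hD) (rc_256 D (rc_of_mem D hD)) i hi c hc

theorem s1032 {F : Type*} [Field F] (D : ChevalleyDatum)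
    (hD : D ∈ [chevG2, chevB2, chevD4, chevF4, chevE6, chevE7, chevE8]) (i s : ℕ)
    (hi : i < D.rank) (hs : s < D.nroots) (c : F) (hc : c ≠ 0) (t : F) :
    D.hMat F (D.simple i) c * D.x F s t =
      D.x F s (c ^ (D.cartan i s) * t) * D.hMat F (D.simple i) c := by
  have hχ := char_simple D (rc_of_mem D hD) i (Units.mk0 c hc)
  have hcd : D.hMat F (D.simple i) c =
      D.charDiag F (fun v => (Units.mk0 c hc) ^ (D.cartan i v)) := by
    rw [s1033 D hD i hi c hc]
    unfold ChevalleyDatum.charDiag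
    congr 1
    funext x
    rcases x with j | v
    · rfl
    · show c ^ (D.cartan i v.val) = ((Units.mk0 c hc ^ D.cartan i v.val : Fˣ) : F)
      rw [Units.val_zpow_eq_zpow_val]
      rfl
  rw [hcd, comm_x D (ChevTab.good_of_mem D hD) _ hχ s hs t]
  congr 2
  show ((Units.mk0 c hc ^ D.cartan i s : Fˣ) : F) * t = c ^ D.cartan i s * t
  rw [Units.val_zpow_eq_zpow_val]
  rfl

end Cfsg.Agent.Lib.Helper2.ChevFast
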