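import Mathlib
import Cfsg.Agent.Lib.Helper2.ChevHS
import Cfsg.Agent.Lib.Helper2.ChevHA1
import Cfsg.Agent.Lib.Helper2.ChevHA6
import Cfsg.Agent.Lib.Helper2.ChevHA7a
import Cfsg.Agent.Lib.Helper2.ChevHA7b
import Cfsg.Agent.Lib.Helper2.ChevHA7c
import Cfsg.Agent.Lib.Helper2.ChevHA8a
import Cfsg.Agent.Lib.Helper2.ChevHA8b
import Cfsg.Agent.Lib.Helper2.ChevHA8c
import Cfsg.Agent.Lib.Helper2.ChevHA8d
import Cfsg.Agent.Lib.Helper2.ChevHA8e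
import Cfsg.Agent.Lib.Helper2.ChevHA8f
import Cfsg.Agent.Lib.Helper2.ChevHA8g
import Cfsg.Agent.Lib.Helper2.ChevHA8h
import Cfsg.Agent.Lib.Helper2.ChevHA8i
import Cfsg.Agent.Lib.Helper2.ChevHA8j

set_option autoImplicit false

namespace Cfsg.Agent.Lib.Helper2.ChevFast

open Cfsg.Lie
open Cfsg.Agent.Lib.Helper2.ChevSym

theorem ha_E7 : haBF chevE7 (ctrie chevE7) 0 126 = true := (ha_app chevE7 (ctrie chevE7) 0 84 42 (ha_app chevE7 (ctrie chevE7) 0 42 42 ha_E7_f0 ha_E7_f1) ha_E7_f2)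

theorem ha_E8 : haBF chevE8 (ctrie chevE8) 0 240 = true := (ha_app chevE8 (ctrie chevE8) 0 216 24 (ha_app chevE8 (ctrie chevE8) 0 192 24 (ha_app chevE8 (ctrie chevE8) 0 168 24 (ha_app chevE8 (ctrie chevE8) 0 144 24 (ha_app chevE8 (ctrie chevE8) 0 120 24 (ha_app chevE8 (ctrie chevE8) 0 96 24 (ha_app chevE8 (ctrie chevE8) 0 72 24 (ha_app chevE8 (ctrie chevE8) 0 48 24 (ha_app chevE8 (ctrie chevE8) 0 24 24 ha_E8_f0 ha_E8_f1) ha_E8_f2) ha_E8_f3) ha_E8_f4) ha_E8_f5) ha_E8_f6) ha_E8_f7) ha_E8_f8) ha_E8_f9)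

theorem ha_of_mem (D : ChevalleyDatum)
    (hD : D ∈ [chevG2, chevB2, chevD4, chevF4, chevE6, chevE7, chevE8]) :
    haBF D (ctrie D) 0 D.nroots = true := by
  simp only [List.mem_cons, List.not_mem_nil, or_false] at hD
  rcases hD with rfl | rfl | rfl | rfl | rfl | rfl | rfl
  · exact ha_G2
  · exact ha_B2
  · exact ha_D4
  · exact ha_F4
  · exact ha_E6
  · exact ha_E7
  · exact ha_E8

end Cfsg.Agent.Lib.Helper2.ChevFast
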