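import Mathlib
import Cfsg.Agent.Lib.Helper2.ChevH3
import Cfsg.Agent.Lib.Helper2.ChevNil

set_option autoImplicit false

namespace Cfsg.Agent.Lib.Helper2.ChevFast

open Cfsg.Lie
open Cfsg.Agent.Lib.Helper2.ChevAdd
open Cfsg.Agent.Lib.Helper2.ChevSym
open scoped MatrixGroups

theorem solv_of_decomp {G : Type*} [Group G] (A H : Subgroup G)
    (hn : ∀ h ∈ H, ∀ a ∈ A, h * a * h⁻¹ ∈ A) (hA : Group.IsSolvable A)
    (hH : ∀ x ∈ H, ∀ y ∈ H, x * y = y * x) : Group.IsSolvable ↥(A ⊔ H) := by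
  have hAB : A ≤ A ⊔ H := le_sup_left
  have hHB : H ≤ A ⊔ H := le_sup_right
  have hN : (A.subgroupOf (A ⊔ H)).Normal := by
    constructor
    intro n hn' b
    obtain ⟨a, ha, h, hh, hb⟩ := sup_decomp A H hn b.1 b.2
    rw [Subgroup.mem_subgroupOf] at hn' ⊢
    have h1 : ((b * n * b⁻¹ : ↥(A ⊔ H)) : G) = a * (h * (n : G) * h⁻¹) * a⁻¹ := by
      push_cast
      rw [hb]
      group
    rw [h1]
    exact A.mul_mem (A.mul_mem ha (hn h hh _ hn')) (A.inv_mem ha)
  have hS1 : Group.IsSolvable ↥(A.subgroupOf (A ⊔ H)) :=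
    Group.isSolvable_of_isSolvable_injective
      (f := (Subgroup.subgroupOfEquivOfLe hAB).toMonoidHom) (Subgroup.subgroupOfEquivOfLe hAB).injective
  have hrep : ∀ x : ↥(A ⊔ H) ⧸ A.subgroupOf (A ⊔ H), ∃ h : G, ∃ hh : h ∈ H,
      x = QuotientGroup.mk (⟨h, hHB hh⟩ : ↥(A ⊔ H)) := by
    intro x
    induction x using QuotientGroup.induction_on with
    | H b =>
      obtain ⟨a, ha, h, hh, hb⟩ := sup_decomp A H hn b.1 b.2
      refine ⟨h, hh, ?_⟩
      rw [QuotientGroup.eq]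
      rw [Subgroup.mem_subgroupOf]
      have h1 : ((b⁻¹ * (⟨h, hHB hh⟩ : ↥(A ⊔ H)) : ↥(A ⊔ H)) : G) = h⁻¹ * a⁻¹ * h⁻¹⁻¹ := by
        push_cast
        rw [hb]
        group
      rw [h1]
      exact hn h⁻¹ (H.inv_mem hh) a⁻¹ (A.inv_mem ha)
  have hS2 : Group.IsSolvable (↥(A ⊔ H) ⧸ A.subgroupOf (A ⊔ H)) := by
    apply Group.isSolvable_of_comm
    intro x y
    obtain ⟨h1, hh1, rfl⟩ := hrep x
    obtain ⟨h2, hh2, rfl⟩ := hrep y
    rw [← QuotientGroup.mk_mul, ← QuotientGroup.mk_mul]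
    congr 1
    apply Subtype.ext
    exact hH h1 hh1 h2 hh2
  exact Group.isSolvable_of_ker_le_range (A.subgroupOf (A ⊔ H)).subtype
    (QuotientGroup.mk' (A.subgroupOf (A ⊔ H))) (by
      rw [QuotientGroup.ker_mk', Subgroup.range_subtype])

variable {F : Type*} [Field F] (D : ChevalleyDatum)

theorem s1050_main (hG : addB D = true) (hT : ChevTab.goodB D = true)
    (hA : haBF D (ctrie D) 0 D.nroots = true) (hrc : rcB D = true) (hU : uniB D = true) :
    Group.IsSolvable ↥(D.borelSubgroup F) := by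
  unfold ChevalleyDatum.borelSubgroup
  have : Group.IsNilpotent (D.posUnipotent F) := nil_main D hG hU
  refine solv_of_decomp _ _ ?_ inferInstance ?_
  · intro h hh a ha
    have h1 := (s1036_main (F := F) D hG hT hA hrc hU).1 hh
    rw [Subgroup.mem_normalizer_iff] at h1
    exact (h1 a).1 ha
  · intro x hx y hy
    obtain ⟨χ, _, h1⟩ := H_CD D hA hrc x hx
    obtain ⟨ψ, _, h2⟩ := H_CD D hA hrc y hy
    apply Units.ext
    rw [Units.val_mul, Units.val_mul, h1, h2, charDiag_mul, charDiag_mul]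
    congr 1
    funext v
    exact mul_comm _ _

end Cfsg.Agent.Lib.Helper2.ChevFast
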