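import Mathlib
import Cfsg.Agent.Lib.Helper2.ChevHA
import Cfsg.Agent.Lib.Helper2.ChevH2
import Cfsg.Agent.Lib.Helper2.ChevH3
import Cfsg.Agent.Lib.Helper2.ChevSolv

set_option autoImplicit false

namespace Cfsg.Agent.Lib.Helper2.ChevFast

open Cfsg.Lie
open Cfsg.Agent.Lib.Helper2.ChevAdd
open Cfsg.Agent.Lib.Helper2.ChevSym
open scoped MatrixGroups

set_option maxRecDepth 100000 in
theorem uniN_G2 : uniNB chevG2 = true := by decide +kernel

set_option maxRecDepth 100000 in
theorem uniN_B2 : uniNB chevB2 = true := by decide +kernel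

set_option maxRecDepth 100000 in
theorem uniN_D4 : uniNB chevD4 = true := by decide +kernel

set_option maxRecDepth 100000 in
theorem uniN_F4 : uniNB chevF4 = true := by decide +kernel

set_option maxRecDepth 100000 in
theorem uniN_E6 : uniNB chevE6 = true := by decide +kernel

set_option maxRecDepth 100000 in
theorem uniN_E7 : uniNB chevE7 = true := by decide +kernel

set_option maxRecDepth 100000 in
theorem uniN_E8 : uniNB chevE8 = true := by decide +kernel

theorem uniN_of_mem (D : ChevalleyDatum)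
    (hD : D ∈ [chevG2, chevB2, chevD4, chevF4, chevE6, chevE7, chevE8]) : uniNB D = true := by
  simp only [List.mem_cons, List.not_mem_nil, or_false] at hD
  rcases hD with rfl | rfl | rfl | rfl | rfl | rfl | rfl
  · exact uniN_G2
  · exact uniN_B2
  · exact uniN_D4
  · exact uniN_F4
  · exact uniN_E6
  · exact uniN_E7
  · exact uniN_E8

theorem sz_of_mem (D : ChevalleyDatum)
    (hD : D ∈ [chevG2, chevB2, chevD4, chevF4, chevE6, chevE7, chevE8]) :
    D.cartanSR.size ≤ D.rank := by
  simp only [List.mem_cons, List.not_mem_nil, or_false] at hD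
  rcases hD with rfl | rfl | rfl | rfl | rfl | rfl | rfl <;> decide +kernel

theorem s1036 {F : Type*} [Field F] (D : ChevalleyDatum)
    (hD : D ∈ [chevG2, chevB2, chevD4, chevF4, chevE6, chevE7, chevE8]) :
    D.diagonalSubgroup F ≤ Subgroup.normalizer (D.posUnipotent F : Set (GL D.Idx F)) ∧
      D.posUnipotent F ⊓ D.diagonalSubgroup F = ⊥ :=
  s1036_main D (add_of_mem D hD) (ChevTab.good_of_mem D hD) (ha_of_mem D hD) (rc_of_mem D hD)
    (uni_of_mem D hD)

theorem s1038 {F : Type*} [Field F] (D : ChevalleyDatum)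
    (hD : D ∈ [chevG2, chevB2, chevD4, chevF4, chevE6, chevE7, chevE8]) :
    ((D.diagonalSubgroup F).subgroupOf (D.monomialSubgroup F)).Normal :=
  s1038_main D (add_of_mem D hD) (ChevTab.good_of_mem D hD) (ha_of_mem D hD) (rc_of_mem D hD)

theorem s1037 {F : Type*} [Field F] (D : ChevalleyDatum)
    (hD : D ∈ [chevG2, chevB2, chevD4, chevF4, chevE6, chevE7, chevE8]) :
    D.borelSubgroup F ⊓ D.negUnipotent F = ⊥ ∧
      D.borelSubgroup F ⊓ (D.negUnipotent F ⊔ D.diagonalSubgroup F) = D.diagonalSubgroup F :=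
  s1037_main D (add_of_mem D hD) (ChevTab.good_of_mem D hD) (ha_of_mem D hD) (rc_of_mem D hD)
    (uni_of_mem D hD) (uniN_of_mem D hD)

theorem s1034 {F : Type*} [Field F] (D : ChevalleyDatum)
    (hD : D ∈ [chevG2, chevB2, chevD4, chevF4, chevE6, chevE7, chevE8]) (g : GL D.Idx F)
    (hg : g ∈ D.diagonalSubgroup F) :
    ∃ c : ℕ → F, (∀ i < D.rank, c i ≠ 0) ∧
      (g : Matrix D.Idx D.Idx F) =
        D.wordMat F ((List.range D.rank).flatMap fun i => D.hWord (D.simple i) (c i)) :=
  s1034_main D (ha_of_mem D hD) (rc_of_mem D hD) (hs_of_mem D hD) (sz_of_mem D hD) g hg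

theorem s1050 {F : Type*} [Field F] (D : ChevalleyDatum)
    (hD : D ∈ [chevG2, chevB2, chevD4, chevF4, chevE6, chevE7, chevE8]) :
    Group.IsSolvable ↥(D.borelSubgroup F) :=
  s1050_main D (add_of_mem D hD) (ChevTab.good_of_mem D hD) (ha_of_mem D hD) (rc_of_mem D hD)
    (uni_of_mem D hD)

end Cfsg.Agent.Lib.Helper2.ChevFast
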