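import Mathlib
import Cfsg.Agent.Lib.Helper2.ChevW0

set_option autoImplicit false

namespace Cfsg.Agent.Lib.Helper2.ChevFast

open Cfsg.Lie
open Cfsg.Agent.Lib.Helper2.ChevAdd
open Cfsg.Agent.Lib.Helper2.ChevSym

def w0_G2 : List ℕ := [0, 1, 0, 1, 0, 1]

set_option maxRecDepth 100000 in
theorem w0chk_G2 : w0B chevG2 w0_G2 = true := by decide +kernel

def w0_B2 : List ℕ := [0, 1, 0, 1]

set_option maxRecDepth 100000 in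
theorem w0chk_B2 : w0B chevB2 w0_B2 = true := by decide +kernel

def w0_D4 : List ℕ := [1, 0, 2, 3, 1, 0, 2, 3, 1, 0, 2, 3]

set_option maxRecDepth 100000 in
theorem w0chk_D4 : w0B chevD4 w0_D4 = true := by decide +kernel

def w0_F4 : List ℕ := [0, 2, 1, 3, 0, 2, 1, 3, 0, 2, 1, 3, 0, 2, 1, 3, 0, 2, 1, 3, 0, 2, 1, 3]

set_option maxRecDepth 100000 in
theorem w0chk_F4 : w0B chevF4 w0_F4 = true := by decide +kernel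

def w0_E6 : List ℕ := [0, 3, 5, 1, 2, 4, 0, 3, 5, 1, 2, 4, 0, 3, 5, 1, 2, 4, 0, 3, 5, 1, 2, 4, 0, 3, 5, 1, 2, 4, 0, 3, 5, 1, 2, 4]

set_option maxRecDepth 100000 in
theorem w0chk_E6 : w0B chevE6 w0_E6 = true := by decide +kernel

def w0_E7 : List ℕ := [0, 3, 5, 1, 2, 4, 6, 0, 3, 5, 1, 2, 4, 6, 0, 3, 5, 1, 2, 4, 6, 0, 3, 5, 1, 2, 4, 6, 0, 3, 5, 1, 2, 4, 6, 0, 3, 5, 1, 2, 4, 6, 0, 3, 5, 1, 2, 4, 6, 0, 3, 5, 1, 2, 4, 6, 0, 3, 5, 1, 2, 4, 6]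

set_option maxRecDepth 100000 in
theorem w0chk_E7 : w0B chevE7 w0_E7 = true := by decide +kernel

def w0_E8 : List ℕ := [0, 3, 5, 7, 1, 2, 4, 6, 0, 3, 5, 7, 1, 2, 4, 6, 0, 3, 5, 7, 1, 2, 4, 6, 0, 3, 5, 7, 1, 2, 4, 6, 0, 3, 5, 7, 1, 2, 4, 6, 0, 3, 5, 7, 1, 2, 4, 6, 0, 3, 5, 7, 1, 2, 4, 6, 0, 3, 5, 7, 1, 2, 4, 6, 0, 3, 5, 7, 1, 2, 4, 6, 0, 3, 5, 7, 1, 2, 4, 6, 0, 3, 5, 7, 1, 2, 4, 6, 0, 3, 5, 7, 1, 2, 4, 6, 0, 3, 5, 7, 1, 2, 4, 6, 0, 3, 5, 7, 1, 2, 4, 6, 0, 3, 5, 7, 1, 2, 4, 6]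

set_option maxRecDepth 100000 in
theorem w0chk_E8 : w0B chevE8 w0_E8 = true := by decide +kernel

end Cfsg.Agent.Lib.Helper2.ChevFast
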