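import Mathlib
import Cfsg.Agent.Lib.Helper2.ChevW0T
import Cfsg.Agent.Lib.Helper2.ChevPJT
import Cfsg.Agent.Lib.Helper2.ChevCjfin
import Cfsg.Agent.Lib.Helper2.ChevAddTab

set_option autoImplicit false

namespace Cfsg.Agent.Lib.Helper2.ChevFast

open Cfsg.Lie
open Cfsg.Agent.Lib.Helper2.ChevAdd
open Cfsg.Agent.Lib.Helper2.ChevSym
open scoped MatrixGroups

theorem n256_of_mem (D : ChevalleyDatum)
    (hD : D ∈ [chevG2, chevB2, chevD4, chevF4, chevE6, chevE7, chevE8]) : D.nroots ≤ 256 := by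
  simp only [List.mem_cons, List.not_mem_nil, or_false] at hD
  rcases hD with rfl | rfl | rfl | rfl | rfl | rfl | rfl <;> decide +kernel

theorem w0_of_mem (D : ChevalleyDatum)
    (hD : D ∈ [chevG2, chevB2, chevD4, chevF4, chevE6, chevE7, chevE8]) :
    ∃ ws : List ℕ, w0B D ws = true := by
  simp only [List.mem_cons, List.not_mem_nil, or_false] at hD
  rcases hD with rfl | rfl | rfl | rfl | rfl | rfl | rfl
  · exact ⟨w0_G2, w0chk_G2⟩
  · exact ⟨w0_B2, w0chk_B2⟩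
  · exact ⟨w0_D4, w0chk_D4⟩
  · exact ⟨w0_F4, w0chk_F4⟩
  · exact ⟨w0_E6, w0chk_E6⟩
  · exact ⟨w0_E7, w0chk_E7⟩
  · exact ⟨w0_E8, w0chk_E8⟩

theorem s1053 {F : Type*} [Field F] (D : ChevalleyDatum)
    (hD : D ∈ [chevG2, chevB2, chevD4, chevF4, chevE6, chevE7, chevE8]) :
    ∃ n ∈ D.monomialSubgroup F,
      (D.posUnipotent F).map (MulAut.conj n).toMonoidHom = D.negUnipotent F := by
  obtain ⟨ws, hws⟩ := w0_of_mem D hD
  exact s1053_main D (add_of_mem D hD) (fun i hi => nchk_of_mem D hD i hi)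
    (fun i hi => cj_of_mem D hD i hi) (n256_of_mem D hD) ws hws

theorem s1047 {F : Type*} [Field F] (D : ChevalleyDatum)
    (hD : D ∈ [chevG2, chevB2, chevD4, chevF4, chevE6, chevE7, chevE8]) (J : Set ℕ) :
    D.parabolicSubgroup F J = D.diagonalSubgroup F ⊔
      Subgroup.closure {g : GL D.Idx F | ∃ (r : ℕ) (t : F),
        (D.IsPosRoot r ∨ D.InRootSub J r) ∧ (g : Matrix D.Idx D.Idx F) = D.x F r t} :=
  s1047_main D (add_of_mem D hD) (fun i hi => nchk_of_mem D hD i hi)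
    (fun i hi => cj_of_mem D hD i hi) (pj_of_mem D hD) J

end Cfsg.Agent.Lib.Helper2.ChevFast
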