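import Mathlib
import Cfsg.Agent.Lib.Helper2.ChevW0fin
import Cfsg.Agent.Lib.Helper2.ChevCoreT
import Cfsg.Agent.Lib.Helper2.ChevHfin

set_option autoImplicit false

namespace Cfsg.Agent.Lib.Helper2.ChevFast

open Cfsg.Lie
open Cfsg.Agent.Lib.Helper2.ChevAdd
open Cfsg.Agent.Lib.Helper2.ChevSym
open scoped MatrixGroups

theorem s1051 {F : Type*} [Field F] (D : ChevalleyDatum)
    (hD : D ∈ [chevG2, chevB2, chevD4, chevF4, chevE6, chevE7, chevE8]) :
    ((D.borelSubgroup F).subgroupOf (D.group F)).normalCore = ⊥ := by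
  obtain ⟨ws, hws⟩ := w0_of_mem D hD
  exact s1051_main D (add_of_mem D hD) (ChevTab.good_of_mem D hD) (ha_of_mem D hD) (rc_of_mem D hD)
    (uni_of_mem D hD) (uniN_of_mem D hD) (fun i hi => nchk_of_mem D hD i hi)
    (fun i hi => cj_of_mem D hD i hi) (n256_of_mem D hD) ws hws (pj_of_mem D hD) (ng_of_mem D hD)

end Cfsg.Agent.Lib.Helper2.ChevFast
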