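import Mathlib
import Cfsg.Prelude.Def_Chevalley
import Cfsg.Prelude.Def_ChevWords

set_option autoImplicit false

namespace Cfsg.Agent.Lib.Helper2.ChevField

open Cfsg.Lie Matrix
open scoped MatrixGroups

variable {F : Type*} [Field F] (D : ChevalleyDatum)

theorem xMat_map (f : F →+* F) (r : Fin D.nroots) (t : F) :
    (D.xMat F r t).map f = D.xMat F r (f t) := by
  ext row col
  simp only [Matrix.map_apply, ChevalleyDatum.xMat, Matrix.of_apply]
  rcases col with i | s
  · rcases row with i' | u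
    · simp only
      split_ifs <;> simp
    · simp only
      split_ifs <;> simp
  · rcases row with i' | u
    · simp only
      split_ifs <;> simp
    · simp only
      split_ifs <;> simp [map_list_sum, List.map_map, Function.comp_def]

def glEquiv (f : F ≃+* F) : GL D.Idx F ≃* GL D.Idx F :=
  Units.mapEquiv (RingEquiv.mapMatrix f).toMulEquiv

theorem glEquiv_coe (f : F ≃+* F) (g : GL D.Idx F) :
    ((glEquiv D f g : GL D.Idx F) : Matrix D.Idx D.Idx F) =
      (g : Matrix D.Idx D.Idx F).map (f : F →+* F) := rfl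

theorem glEquiv_symm_coe (f : F ≃+* F) (g : GL D.Idx F) :
    (((glEquiv D f).symm g : GL D.Idx F) : Matrix D.Idx D.Idx F) =
      (g : Matrix D.Idx D.Idx F).map (f.symm : F →+* F) := rfl

theorem map_group (f : F ≃+* F) :
    (D.group F).map (glEquiv D f).toMonoidHom = D.group F := by
  unfold ChevalleyDatum.group
  rw [MonoidHom.map_closure]
  congr 1
  ext g
  constructor
  · rintro ⟨g0, ⟨r, t, h⟩, rfl⟩
    refine ⟨r, f t, ?_⟩
    show ((glEquiv D f g0 : GL D.Idx F) : Matrix D.Idx D.Idx F) = _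
    rw [glEquiv_coe, h, xMat_map]
    rfl
  · rintro ⟨r, t, h⟩
    refine ⟨(glEquiv D f).symm g, ⟨r, f.symm t, ?_⟩, ?_⟩
    · rw [glEquiv_symm_coe, h, xMat_map]
      rfl
    · exact (glEquiv D f).apply_symm_apply g

theorem s1080 (f : F ≃+* F) :
    ∃ α : ↥(D.group F) ≃* ↥(D.group F), ∀ (g : ↥(D.group F)) (r : ℕ) (t : F), r < D.nroots →
      ((g : GL D.Idx F) : Matrix D.Idx D.Idx F) = D.x F r t →
        ((α g : GL D.Idx F) : Matrix D.Idx D.Idx F) = D.x F r (f t) := by
  refine ⟨((glEquiv D f).subgroupMap (D.group F)).trans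
    (MulEquiv.subgroupCongr (map_group D f)), ?_⟩
  intro g r t hr hg
  have h1 : (((((glEquiv D f).subgroupMap (D.group F)).trans
      (MulEquiv.subgroupCongr (map_group D f))) g : GL D.Idx F) : Matrix D.Idx D.Idx F) =
      ((g : GL D.Idx F) : Matrix D.Idx D.Idx F).map (f : F →+* F) := rfl
  rw [h1, hg]
  unfold ChevalleyDatum.x
  rw [dif_pos hr, dif_pos hr, xMat_map]
  rfl

end Cfsg.Agent.Lib.Helper2.ChevField
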