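import Mathlib
import Cfsg.Agent.Lib.Helper2.ChevPJ

set_option autoImplicit false

namespace Cfsg.Agent.Lib.Helper2.ChevFast

open Cfsg.Lie
open Cfsg.Agent.Lib.Helper2.ChevAdd
open Cfsg.Agent.Lib.Helper2.ChevSym
open scoped MatrixGroups

def genB (D : ChevalleyDatum) (gw : List (ℕ × List ℕ)) : Bool :=
  (List.range D.nroots).all (fun r =>
    Nat.blt (gw.getD r (0, [])).1 D.rank &&
      ((gw.getD r (0, [])).2.all (fun i => Nat.blt i D.rank) &&
        permT D (gw.getD r (0, [])).2 (D.simple (gw.getD r (0, [])).1) == r))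

theorem gen_spec (D : ChevalleyDatum) (gw : List (ℕ × List ℕ)) (h : genB D gw = true) (r : ℕ)
    (hr : r < D.nroots) :
    ∃ j < D.rank, ∃ w : List ℕ, (∀ i ∈ w, i < D.rank) ∧ permT D w (D.simple j) = r := by
  unfold genB at h
  simp only [List.all_eq_true, List.mem_range, Bool.and_eq_true, Nat.blt_eq, beq_iff_eq] at h
  obtain ⟨h1, h2, h3⟩ := h r hr
  exact ⟨_, h1, _, h2, h3⟩

variable {F : Type*} [Field F] (D : ChevalleyDatum)

theorem fund_gen (hG : addB D = true) (hn : ∀ i < D.rank, ncheckB D i = true)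
    (hc : ∀ i < D.rank, conjR D i 0 D.nroots = true) (h256 : D.nroots ≤ 256)
    (gw : List (ℕ × List ℕ)) (hgw : genB D gw = true) (K : Subgroup (GL D.Idx F))
    (hK : ∀ i < D.rank, ∀ t : F,
      xGL D hG (D.simple i) t ∈ K ∧ xGL D hG (D.neg (D.simple i)) t ∈ K) :
    D.group F ≤ K := by
  have hb : ∀ i < D.rank, ∀ s < D.nroots, D.reflectRoot i s < D.nroots :=
    fun i hi s hs => refl_lt D i (hc i hi) s hs
  have hsimp : ∀ i < D.rank, D.simple i < D.nroots := fun i hi => (n_bounds D i (hn i hi)).1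
  unfold ChevalleyDatum.group
  rw [Subgroup.closure_le]
  rintro g ⟨r, t, hg⟩
  have hgx : g = xGL D hG r.val t := by
    apply Units.ext
    rw [hg, xGL_coe]
    unfold ChevalleyDatum.x
    rw [dif_pos r.isLt]
  obtain ⟨j, hj, w, hw, hperm⟩ := gen_spec D gw hgw r.val r.isLt
  rw [(permT_eq D hb h256 w hw (D.simple j) (hsimp j hj)).1] at hperm
  obtain ⟨hlt, ε, hε, hconj⟩ := conj_word (F := F) D hG hn hc w hw (D.simple j) (hsimp j hj)
  have hnK : nW (F := F) D hG w ∈ K := by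
    unfold nW
    apply Subgroup.list_prod_mem
    intro x hx
    rw [List.mem_map] at hx
    obtain ⟨i, hi, rfl⟩ := hx
    unfold wGL ChevalleyDatum.nWord
    simp only [List.map_cons, List.map_nil, List.prod_cons, List.prod_nil, mul_one]
    exact K.mul_mem (hK i (hw i hi) _).1 (K.mul_mem (hK i (hw i hi) _).2 (hK i (hw i hi) _).1)
  have h1 := hconj ((ε : F) * t)
  rw [hperm, pm_cancel ε hε] at h1
  show g ∈ K
  rw [hgx, ← h1]
  exact K.mul_mem (K.mul_mem hnK (hK j hj _).1) (K.inv_mem hnK)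

theorem s2160_main (hG : addB D = true) (hn : ∀ i < D.rank, ncheckB D i = true)
    (hc : ∀ i < D.rank, conjR D i 0 D.nroots = true) (h256 : D.nroots ≤ 256)
    (gw : List (ℕ × List ℕ)) (hgw : genB D gw = true)
    (f g : ↥(D.group F) ≃* ↥(D.group F)) (hf : D.IsFieldAut f) (hg : D.IsGraphAut g)
    (y : ↥(D.group F)) : f (g y) = g (f y) := by
  obtain ⟨σ, hσ⟩ := hf
  obtain ⟨π, -, hπ⟩ := hg
  have hsimp : ∀ i < D.rank, D.simple i < D.nroots := fun i hi => (n_bounds D i (hn i hi)).1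
  have hnegs : ∀ i < D.rank, D.neg (D.simple i) < D.nroots :=
    fun i hi => (n_bounds D i (hn i hi)).2
  have hE := fund_gen (F := F) D hG hn hc h256 gw hgw
    ((MonoidHom.eqLocus (f.toMonoidHom.comp g.toMonoidHom)
      (g.toMonoidHom.comp f.toMonoidHom)).map (D.group F).subtype) (by
    intro i hi t
    constructor
    · refine ⟨⟨xGL D hG (D.simple i) t, xGL_mem D hG _ _⟩, ?_, rfl⟩
      show f (g ⟨xGL D hG (D.simple i) t, xGL_mem D hG _ _⟩) =
        g (f ⟨xGL D hG (D.simple i) t, xGL_mem D hG _ _⟩)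
      apply Subtype.ext
      apply Units.ext
      have a1 := (hπ ⟨xGL D hG (D.simple i) t, xGL_mem D hG _ _⟩ ⟨i, hi⟩ t).1 rfl
      have a2 := hσ _ _ _ (hsimp _ (π ⟨i, hi⟩).isLt) a1
      have b1 := hσ ⟨xGL D hG (D.simple i) t, xGL_mem D hG _ _⟩ (D.simple i) t (hsimp i hi) rfl
      have b2 := (hπ _ ⟨i, hi⟩ (σ t)).1 b1
      rw [a2, b2, map_pow]
    · refine ⟨⟨xGL D hG (D.neg (D.simple i)) t, xGL_mem D hG _ _⟩, ?_, rfl⟩
      show f (g ⟨xGL D hG (D.neg (D.simple i)) t, xGL_mem D hG _ _⟩) =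
        g (f ⟨xGL D hG (D.neg (D.simple i)) t, xGL_mem D hG _ _⟩)
      apply Subtype.ext
      apply Units.ext
      have a1 := (hπ ⟨xGL D hG (D.neg (D.simple i)) t, xGL_mem D hG _ _⟩ ⟨i, hi⟩ t).2 rfl
      have a2 := hσ _ _ _ (hnegs _ (π ⟨i, hi⟩).isLt) a1
      have b1 := hσ ⟨xGL D hG (D.neg (D.simple i)) t, xGL_mem D hG _ _⟩ (D.neg (D.simple i)) t
        (hnegs i hi) rfl
      have b2 := (hπ _ ⟨i, hi⟩ (σ t)).2 b1
      rw [a2, b2, map_pow])
  obtain ⟨y', hy', hyy⟩ := hE y.2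
  have : y' = y := Subtype.ext hyy
  rw [this] at hy'
  exact hy'

end Cfsg.Agent.Lib.Helper2.ChevFast
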