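import Mathlib
import Cfsg.Agent.Lib.Helper2.ChevGenT
import Cfsg.Agent.Lib.Helper2.ChevW0fin

set_option autoImplicit false

namespace Cfsg.Agent.Lib.Helper2.ChevFast

open Cfsg.Lie
open Cfsg.Agent.Lib.Helper2.ChevAdd
open Cfsg.Agent.Lib.Helper2.ChevSym
open scoped MatrixGroups

theorem s2160 {F : Type*} [Field F] (D : ChevalleyDatum)
    (hD : D ∈ [chevG2, chevB2, chevD4, chevF4, chevE6, chevE7, chevE8])
    (f g : ↥(D.group F) ≃* ↥(D.group F)) (hf : D.IsFieldAut f) (hg : D.IsGraphAut g)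
    (y : ↥(D.group F)) : f (g y) = g (f y) := by
  obtain ⟨gw, hgw⟩ := gen_of_mem D hD
  exact s2160_main D (add_of_mem D hD) (fun i hi => nchk_of_mem D hD i hi)
    (fun i hi => cj_of_mem D hD i hi) (n256_of_mem D hD) gw hgw f g hf hg y

end Cfsg.Agent.Lib.Helper2.ChevFast
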