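import Mathlib
import Cfsg.Agent.Lib.Helper2.ChevH

set_option autoImplicit false

namespace Cfsg.Agent.Lib.Helper2.ChevFast

open Cfsg.Lie
open Cfsg.Agent.Lib.Helper2.ChevAdd
open Cfsg.Agent.Lib.Helper2.ChevSym
open scoped MatrixGroups

theorem art_lin (k : ℤ) (a b c : List ℤ) (h : a.length = b.length) :
    art (List.zipWith (fun x y => x - k * y) a b) c = art a c - k * art b c := by
  unfold art
  induction c generalizing a b with
  | nil => simp
  | cons z c ih =>
    cases a with
    | nil =>
      cases b with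
      | nil => simp
      | cons y b => simp at h
    | cons x a =>
      cases b with
      | nil => simp at h
      | cons y b =>
        rw [List.zipWith_cons_cons, List.zipWith_cons_cons, List.zipWith_cons_cons,
          List.zipWith_cons_cons, List.sum_cons, List.sum_cons, List.sum_cons,
          ih a b (by simpa using h)]
        ring

def reflB (D : ChevalleyDatum) : Bool :=
  (List.range D.rank).all fun i => (List.range D.rank).all fun j =>
    decide (D.reflectRoot i (D.simple j) < D.nroots) &&
    (decide ((D.coroot.getD (D.simple j) #[]).toList.length =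
        (D.coroot.getD (D.simple i) #[]).toList.length) &&
      ((D.coroot.getD (D.reflectRoot i (D.simple j)) #[]).toList ==
        List.zipWith (fun x y => x - Art D (D.simple j) (D.simple i) * y)
          (D.coroot.getD (D.simple j) #[]).toList (D.coroot.getD (D.simple i) #[]).toList))

variable {F : Type*} [Field F] (D : ChevalleyDatum)

theorem refl_spec (hR : reflB D = true) (i j : ℕ) (hi : i < D.rank) (hj : j < D.rank) :
    D.reflectRoot i (D.simple j) < D.nroots ∧
      ∀ v, Art D (D.reflectRoot i (D.simple j)) v =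
        Art D (D.simple j) v - Art D (D.simple j) (D.simple i) * Art D (D.simple i) v := by
  unfold reflB at hR
  rw [List.all_eq_true] at hR
  have h1 := hR i (List.mem_range.2 hi)
  rw [List.all_eq_true] at h1
  have h2 := h1 j (List.mem_range.2 hj)
  rw [Bool.and_eq_true, Bool.and_eq_true, decide_eq_true_eq, decide_eq_true_eq, beq_iff_eq] at h2
  refine ⟨h2.1, fun v => ?_⟩
  show art _ _ = art _ _ - _ * art _ _
  rw [h2.2.2, art_lin _ _ _ _ h2.2.1]

theorem h_charDiag (hA : haBF D (ctrie D) 0 D.nroots = true) (hrc : rcB D = true)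
    (r : ℕ) (hr : r < D.nroots) (c : F) (hc : c ≠ 0) :
    D.hMat F r c = D.charDiag F (fun v => (Units.mk0 c hc) ^ (Art D r v)) := by
  rw [ha_diagF D hA (rc_256 D hrc) r hr c hc]
  unfold ChevalleyDatum.charDiag
  congr 1
  funext x
  rcases x with j | v
  · rfl
  · show c ^ (Art D r v.val) = ((Units.mk0 c hc ^ Art D r v.val : Fˣ) : F)
    rw [Units.val_zpow_eq_zpow_val]
    rfl

theorem s1096_main (hG : addB D = true) (hT : ChevTab.goodB D = true)
    (hA : haBF D (ctrie D) 0 D.nroots = true) (hrc : rcB D = true) (hR : reflB D = true)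
    (hsimp : ∀ i < D.rank, D.simple i < D.nroots)
    (i j : ℕ) (hi : i < D.rank) (hj : j < D.rank) (t : F) (ht : t ≠ 0) :
    D.nMat F (D.simple i) 1 * D.hMat F (D.simple j) t =
      D.hMat F (D.reflectRoot i (D.simple j)) t * D.nMat F (D.simple i) 1 := by
  obtain ⟨hr', hart⟩ := refl_spec D hR i j hi hj
  have hp := hsimp i hi
  have hq := hsimp j hj
  set p := D.simple i with hpdef
  set q := D.simple j with hqdef
  set r' := D.reflectRoot i q with hrdef
  set τ : Fˣ := Units.mk0 t ht with hτ
  set a : ℤ := Art D q p with hadef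
  have hc : ((τ ^ a : Fˣ) : F) ≠ 0 := Units.ne_zero _
  have hτc : Units.mk0 ((τ ^ a : Fˣ) : F) hc = τ ^ a := Units.ext rfl
  have e1 : ((wGL D hG (D.hWord q t) : GL D.Idx F) : Matrix D.Idx D.Idx F) =
      D.charDiag F (fun v => τ ^ (Art D q v)) := by
    rw [wGL_coe]
    exact h_charDiag D hA hrc q hq t ht
  have e2 : ((wGL D hG (D.hWord p ((τ ^ a : Fˣ) : F)) : GL D.Idx F) : Matrix D.Idx D.Idx F) =
      D.charDiag F (fun v => (τ ^ a) ^ (Art D p v)) := by
    rw [wGL_coe]
    have := h_charDiag D hA hrc p hp ((τ ^ a : Fˣ) : F) hc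
    rw [hτc] at this
    exact this
  have e3 : ((wGL D hG (D.hWord r' t) : GL D.Idx F) : Matrix D.Idx D.Idx F) =
      D.charDiag F (fun v => τ ^ (Art D r' v)) := by
    rw [wGL_coe]
    exact h_charDiag D hA hrc r' hr' t ht
  have hχ : D.IsRootCharacter (fun v => τ ^ (Art D q v)) := char_art D hrc q τ
  have c1 := conj_n D hG hT (wGL D hG (D.hWord q t)) _ hχ e1 p hp
  have c2 := h_as_nn D hG p ((τ ^ a : Fˣ) : F)
  have c3 := nn_inv (F := F) D hG p
  have c4 : wGL D hG (D.hWord q t) =
      wGL D hG (D.hWord p ((τ ^ a : Fˣ) : F)) * wGL D hG (D.hWord r' t) := by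
    apply Units.ext
    rw [Units.val_mul, e1, e2, e3, charDiag_mul]
    congr 1
    funext v
    rw [← zpow_mul, ← zpow_add, hart v]
    congr 1
    ring
  have c5 : wGL D hG (D.nWord p (-1 : F)) * wGL D hG (D.nWord p (1 : F)) = 1 :=
    mul_eq_one_comm.1 c3
  have key : wGL D hG (D.nWord p (1 : F)) * wGL D hG (D.hWord q t) =
      wGL D hG (D.hWord r' t) * wGL D hG (D.nWord p (1 : F)) := by
    have c6 : wGL D hG (D.hWord q t) * wGL D hG (D.nWord p (1 : F)) =
        wGL D hG (D.hWord p ((τ ^ a : Fˣ) : F)) * wGL D hG (D.nWord p (1 : F)) *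
          wGL D hG (D.hWord q t) := by
      rw [c2, ← c1]
      have : wGL D hG (D.hWord q t) * wGL D hG (D.nWord p (1 : F)) * (wGL D hG (D.hWord q t))⁻¹ *
          wGL D hG (D.nWord p (-1 : F)) * wGL D hG (D.nWord p (1 : F)) * wGL D hG (D.hWord q t) =
          wGL D hG (D.hWord q t) * wGL D hG (D.nWord p (1 : F)) * (wGL D hG (D.hWord q t))⁻¹ *
          (wGL D hG (D.nWord p (-1 : F)) * wGL D hG (D.nWord p (1 : F))) *
            wGL D hG (D.hWord q t) := by group
      rw [this, c5]
      group
    have c7 : wGL D hG (D.hWord q t) * wGL D hG (D.nWord p (1 : F)) =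
        wGL D hG (D.hWord p ((τ ^ a : Fˣ) : F)) * (wGL D hG (D.hWord r' t) *
          wGL D hG (D.nWord p (1 : F))) := by
      rw [← mul_assoc, ← c4]
    rw [c7, mul_assoc] at c6
    exact (mul_left_cancel c6).symm
  have := congrArg (fun g : GL D.Idx F => (g : Matrix D.Idx D.Idx F)) key
  simp only [Units.val_mul, wGL_coe] at this
  exact this

end Cfsg.Agent.Lib.Helper2.ChevFast
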