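import Mathlib
import Cfsg.Agent.Lib.Helper2.ChevRefl

set_option autoImplicit false

namespace Cfsg.Agent.Lib.Helper2.ChevFast

open Cfsg.Lie
open Cfsg.Agent.Lib.Helper2.ChevAdd
open Cfsg.Agent.Lib.Helper2.ChevSym

set_option maxRecDepth 100000 in
theorem refl_G2 : reflB chevG2 = true := by decide +kernel

set_option maxRecDepth 100000 in
theorem refl_B2 : reflB chevB2 = true := by decide +kernel

set_option maxRecDepth 100000 in
theorem refl_D4 : reflB chevD4 = true := by decide +kernel

set_option maxRecDepth 100000 in
theorem refl_F4 : reflB chevF4 = true := by decide +kernel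

set_option maxRecDepth 100000 in
theorem refl_E6 : reflB chevE6 = true := by decide +kernel

set_option maxRecDepth 100000 in
theorem refl_E7 : reflB chevE7 = true := by decide +kernel

set_option maxRecDepth 100000 in
theorem refl_E8 : reflB chevE8 = true := by decide +kernel

theorem refl_of_mem (D : ChevalleyDatum)
    (hD : D ∈ [chevG2, chevB2, chevD4, chevF4, chevE6, chevE7, chevE8]) : reflB D = true := by
  simp only [List.mem_cons, List.not_mem_nil, or_false] at hD
  rcases hD with rfl | rfl | rfl | rfl | rfl | rfl | rfl
  · exact refl_G2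
  · exact refl_B2
  · exact refl_D4
  · exact refl_F4
  · exact refl_E6
  · exact refl_E7
  · exact refl_E8

theorem simple_lt_of_mem (D : ChevalleyDatum)
    (hD : D ∈ [chevG2, chevB2, chevD4, chevF4, chevE6, chevE7, chevE8]) :
    ∀ i < D.rank, D.simple i < D.nroots := by
  simp only [List.mem_cons, List.not_mem_nil, or_false] at hD
  rcases hD with rfl | rfl | rfl | rfl | rfl | rfl | rfl <;> decide +kernel

end Cfsg.Agent.Lib.Helper2.ChevFast
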