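import Mathlib
import Cfsg.Agent.Lib.Helper2.ChevHfin
import Cfsg.Agent.Lib.Helper2.ChevReflT

set_option autoImplicit false

namespace Cfsg.Agent.Lib.Helper2.ChevFast

open Cfsg.Lie
open Cfsg.Agent.Lib.Helper2.ChevAdd
open Cfsg.Agent.Lib.Helper2.ChevSym
open scoped MatrixGroups

theorem s1076_main {F : Type*} [Field F] (D : ChevalleyDatum)
    (hA : haBF D (ctrie D) 0 D.nroots = true) (hrc : rcB D = true) (r : ℕ) (hr : r < D.nroots)
    (t₁ t₂ : F) (h₁ : t₁ ≠ 0) (h₂ : t₂ ≠ 0) :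
    D.hMat F r t₁ * D.hMat F r t₂ = D.hMat F r (t₁ * t₂) := by
  rw [ha_diagF D hA (rc_256 D hrc) r hr t₁ h₁, ha_diagF D hA (rc_256 D hrc) r hr t₂ h₂,
    ha_diagF D hA (rc_256 D hrc) r hr (t₁ * t₂) (mul_ne_zero h₁ h₂), Matrix.diagonal_mul_diagonal]
  congr 1
  funext x
  rcases x with j | s
  · simp
  · simp [mul_zpow]

theorem s1076 {F : Type*} [Field F] (D : ChevalleyDatum)
    (hD : D ∈ [chevG2, chevB2, chevD4, chevF4, chevE6, chevE7, chevE8]) (r : ℕ) (hr : r < D.nroots)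
    (t₁ t₂ : F) (h₁ : t₁ ≠ 0) (h₂ : t₂ ≠ 0) :
    D.hMat F r t₁ * D.hMat F r t₂ = D.hMat F r (t₁ * t₂) :=
  s1076_main D (ha_of_mem D hD) (rc_of_mem D hD) r hr t₁ t₂ h₁ h₂

theorem s1096 {F : Type*} [Field F] (D : ChevalleyDatum)
    (hD : D ∈ [chevG2, chevB2, chevD4, chevF4, chevE6, chevE7, chevE8]) (i j : ℕ) (hi : i < D.rank)
    (hj : j < D.rank) (t : F) (ht : t ≠ 0) :
    D.nMat F (D.simple i) 1 * D.hMat F (D.simple j) t =
      D.hMat F (D.reflectRoot i (D.simple j)) t * D.nMat F (D.simple i) 1 :=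
  s1096_main D (add_of_mem D hD) (ChevTab.good_of_mem D hD) (ha_of_mem D hD) (rc_of_mem D hD)
    (refl_of_mem D hD) (simple_lt_of_mem D hD) i j hi hj t ht

end Cfsg.Agent.Lib.Helper2.ChevFast
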