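import Mathlib
import Cfsg.Agent.Lib.Helper2.ChevPJ

set_option autoImplicit false

namespace Cfsg.Agent.Lib.Helper2.ChevFast

open Cfsg.Lie
open Cfsg.Agent.Lib.Helper2.ChevAdd
open Cfsg.Agent.Lib.Helper2.ChevSym

def mcolG (D : ChevalleyDatum) (r : ℕ) (idx : ℕ) : SV := wappF (ncols D r) (bv idx)

def mcolF (D : ChevalleyDatum) (r : ℕ) : ℕ → SV := colT (build 8 (mcolG D r)) (mcolG D r)

theorem mcolF_eq (D : ChevalleyDatum) (r : ℕ) : mcolF D r = mcolG D r := colT_eq _

def piF (D : ChevalleyDatum) (r s : ℕ) : ℕ :=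
  match mcolF D r (D.rank + s) with
  | [] => D.nroots
  | e :: _ => e.1 - D.rank

def cE (D : ChevalleyDatum) (r l j : ℕ) : ℤ := lsum (cf (mcolF D r j) l)

def corL (D : ChevalleyDatum) (r : ℕ) : List ℤ := (D.coroot.getD r #[]).toList

def corT (D : ChevalleyDatum) : Tr (List ℤ) := build 8 (corL D)

def monB (D : ChevalleyDatum) (r : ℕ) : Bool :=
  Nat.blt r D.nroots && (Nat.blt (D.negIdx.getD r 0) D.nroots &&
   ((List.range D.nroots).all (fun s =>
        Nat.blt (piF D r s) D.nroots &&
        veq (mcolF D r (D.rank + s)) [(D.rank + piF D r s,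
          [(0, 0, 0, lsum (cf (mcolF D r (D.rank + s)) (D.rank + piF D r s)))])]) &&
    ((List.range D.rank).all (fun j =>
        (List.range D.nroots).all (fun s' => lzero (cf (mcolF D r j) (D.rank + s')))) &&
     (List.range D.nroots).all (fun r' => (List.range D.rank).all (fun l =>
        ((List.range D.rank).map (fun j => cE D r l j * ((corT D).get r').getD j 0)).sum ==
          ((corT D).get (piF D r r')).getD l 0)))))

def monR (D : ChevalleyDatum) (lo n : ℕ) : Bool := (List.range' lo n).all (fun r => monB D r)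

theorem monR_app (D : ChevalleyDatum) (lo n m : ℕ) (h1 : monR D lo n = true)
    (h2 : monR D (lo + n) m = true) : monR D lo (n + m) = true := by
  unfold monR at h1 h2 ⊢
  rw [← List.range'_append_1, List.all_append, h1, h2]
  rfl

theorem monR_spec (D : ChevalleyDatum) (h : monR D 0 D.nroots = true) (r : ℕ)
    (hr : r < D.nroots) : monB D r = true := by
  unfold monR at h
  rw [List.all_eq_true] at h
  exact h r (List.mem_range'_1.2 ⟨Nat.zero_le r, by omega⟩)

end Cfsg.Agent.Lib.Helper2.ChevFast
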