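import Mathlib
import Cfsg.Agent.Lib.Helper2.ChevMon
import Cfsg.Agent.Lib.Helper2.ChevH3

set_option autoImplicit false

namespace Cfsg.Agent.Lib.Helper2.ChevFast

open Cfsg.Lie
open Cfsg.Agent.Lib.Helper2.ChevAdd
open Cfsg.Agent.Lib.Helper2.ChevSym
open scoped MatrixGroups

def csB (D : ChevalleyDatum) : Bool :=
  (List.range D.rank).all (fun j0 => Nat.blt (D.simple j0) D.nroots &&
    (List.range D.rank).all (fun j =>
      (corL D (D.simple j0)).getD j 0 == (if j = j0 then 1 else 0)))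

theorem cs_spec (D : ChevalleyDatum) (h : csB D = true) (j0 : ℕ) (hj0 : j0 < D.rank) :
    D.simple j0 < D.nroots ∧
      ∀ j < D.rank, (corL D (D.simple j0)).getD j 0 = (if j = j0 then 1 else 0) := by
  unfold csB at h
  simp only [List.all_eq_true, List.mem_range, Bool.and_eq_true, Nat.blt_eq, beq_iff_eq] at h
  exact h j0 hj0

theorem range_sum_fin {M : Type*} [AddCommMonoid M] (f : ℕ → M) (n : ℕ) :
    ((List.range n).map f).sum = ∑ i : Fin n, f i.val := by
  induction n with
  | zero => simp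
  | succ n ih =>
    rw [List.range_succ, List.map_append, List.sum_append, ih, Fin.sum_univ_castSucc]
    simp

variable {F : Type*} [Field F] (D : ChevalleyDatum)

theorem ev_one (p : LP) : ev (1 : F) 1 1 p = ((lsum p : ℤ) : F) := by
  induction p with
  | nil => simp [ev, lsum]
  | cons a p ih =>
    rw [ev_cons, ih]
    unfold lsum
    rw [List.map_cons, List.sum_cons]
    push_cast
    ring

theorem m_entry (r : ℕ) (hr : r < D.nroots) (hnr : D.negIdx.getD r 0 < D.nroots)
    (row col : D.Idx) :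
    D.nMat F r 1 row col = ev (1 : F) 1 1 (cf (mcolF D r (enc D col)) (enc D row)) := by
  have hcd : (1 : F) * 1 = 1 := mul_one 1
  have hM : D.nMat F r 1 = [D.xMat F ⟨r, hr⟩ (ev 1 1 1 [(0, 0, 0, 1)]),
      D.xMat F ⟨D.negIdx.getD r 0, hnr⟩ (ev 1 1 1 [(0, 0, 0, -1)]),
      D.xMat F ⟨r, hr⟩ (ev 1 1 1 [(0, 0, 0, 1)])].prod := by
    have hxr : ∀ u : F, D.x F r u = D.xMat F ⟨r, hr⟩ u := fun u => by
      unfold ChevalleyDatum.x
      rw [dif_pos hr]
    have hxn : ∀ u : F, D.x F (D.negIdx.getD r 0) u =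
        D.xMat F ⟨D.negIdx.getD r 0, hnr⟩ u :=
      fun u => by
        unfold ChevalleyDatum.x
        rw [dif_pos hnr]
    have e1 : ev (1 : F) 1 1 [(0, 0, 0, 1)] = 1 := by simp [ev]
    have e2 : ev (1 : F) 1 1 [(0, 0, 0, -1)] = -(1 : F)⁻¹ := by simp [ev]
    unfold ChevalleyDatum.nMat ChevalleyDatum.nWord ChevalleyDatum.wordMat ChevalleyDatum.neg
    rw [e1, e2, ← hxr, ← hxn]
    rfl
  have hR : List.Forall₂ (Rep (1 : F) 1 1 D) (ncols D r)
      [D.xMat F ⟨r, hr⟩ (ev 1 1 1 [(0, 0, 0, 1)]),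
      D.xMat F ⟨D.negIdx.getD r 0, hnr⟩ (ev 1 1 1 [(0, 0, 0, -1)]),
      D.xMat F ⟨r, hr⟩ (ev 1 1 1 [(0, 0, 0, 1)])] := by
    unfold ncols
    simp only [mkcol_eq]
    exact List.Forall₂.cons (xcolF_rep 1 1 1 hcd D ⟨r, hr⟩ _)
      (List.Forall₂.cons (xcolF_rep 1 1 1 hcd D ⟨D.negIdx.getD r 0, hnr⟩ _)
      (List.Forall₂.cons (xcolF_rep 1 1 1 hcd D ⟨r, hr⟩ _) List.Forall₂.nil))
  rw [hM, word_entryF 1 1 1 hcd D _ _ hR row col, mcolF_eq]
  rfl

def Inv (g : Matrix D.Idx D.Idx F) : Prop :=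
  ∃ π : ℕ → ℕ, (∀ s < D.nroots, π s < D.nroots) ∧
    (∀ (s p : Fin D.nroots), p.val = π s.val → ∀ row : D.Idx, row ≠ Sum.inr p →
      g row (Sum.inr s) = 0) ∧
    (∀ (j : Fin D.rank) (s' : Fin D.nroots), g (Sum.inr s') (Sum.inl j) = 0) ∧
    (∀ r' < D.nroots, ∀ l : Fin D.rank,
      ∑ j : Fin D.rank, g (Sum.inl l) (Sum.inl j) * (((corL D r').getD j.val 0 : ℤ) : F) =
        (((corL D (π r')).getD l.val 0 : ℤ) : F))

theorem Inv_n (h256 : D.nroots ≤ 256) (r : ℕ) (hm : monB D r = true) :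
    Inv D (D.nMat F r 1) := by
  unfold monB at hm
  simp only [Bool.and_eq_true, Nat.blt_eq, List.all_eq_true, List.mem_range, beq_iff_eq] at hm
  obtain ⟨hr, hnr, h1, h2, h3⟩ := hm
  refine ⟨piF D r, fun s hs => (h1 s hs).1, ?_, ?_, ?_⟩
  · intro s p hp row hrow
    rw [m_entry D r hr hnr, enc_inr,
      veq_sound (1 : F) 1 1 _ _ (h1 s.val s.isLt).2 (enc D row), cf_cons, cf_nil,
      List.append_nil, if_neg, ev_nil]
    intro h
    apply hrow
    apply enc_inj D
    rw [enc_inr, hp]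
    exact h.symm
  · intro j s'
    rw [m_entry D r hr hnr, enc_inl, enc_inr]
    exact lzero_sound (1 : F) 1 1 _ (h2 j.val j.isLt s'.val s'.isLt)
  · intro r' hr' l
    have hk := h3 r' hr' l.val l.isLt
    have hpi := (h1 r' hr').1
    rw [show (corT D).get r' = corL D r' from get_build 8 (corL D) r' (by norm_num; omega),
      show (corT D).get (piF D r r') = corL D (piF D r r') from
        get_build 8 (corL D) (piF D r r') (by norm_num; omega), range_sum_fin] at hk
    rw [← hk]
    push_cast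
    apply Finset.sum_congr rfl
    intro j _
    rw [m_entry D r hr hnr, enc_inl, enc_inl, ev_one]
    rfl

theorem Inv_diag (χ : ℕ → Fˣ) : Inv D (D.charDiag F χ) := by
  refine ⟨fun s => s, fun s hs => hs, ?_, ?_, ?_⟩
  · intro s p hp row hrow
    have : p = s := Fin.ext hp
    rw [this] at hrow
    unfold ChevalleyDatum.charDiag
    exact Matrix.diagonal_apply_ne _ hrow
  · intro j s'
    unfold ChevalleyDatum.charDiag
    exact Matrix.diagonal_apply_ne _ (by simp)
  · intro r' _ l
    rw [Finset.sum_eq_single l]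
    · unfold ChevalleyDatum.charDiag
      rw [Matrix.diagonal_apply_eq, Sum.elim_inl, one_mul]
    · intro j _ hj
      unfold ChevalleyDatum.charDiag
      rw [Matrix.diagonal_apply_ne _ (by simpa using hj.symm), zero_mul]
    · intro h
      exact absurd (Finset.mem_univ _) h

theorem Inv_mul {g g' : Matrix D.Idx D.Idx F} (hg : Inv D g) (hg' : Inv D g') :
    Inv D (g * g') := by
  obtain ⟨π, hπ, a1, a2, a3⟩ := hg
  obtain ⟨π', hπ', b1, b2, b3⟩ := hg'
  refine ⟨fun s => π (π' s), fun s hs => hπ _ (hπ' s hs), ?_, ?_, ?_⟩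
  · intro s p hp row hrow
    rw [Matrix.mul_apply]
    apply Finset.sum_eq_zero
    intro k _
    by_cases hk : k = Sum.inr ⟨π' s.val, hπ' s.val s.isLt⟩
    · rw [hk, a1 ⟨π' s.val, hπ' s.val s.isLt⟩ p hp row hrow, zero_mul]
    · rw [b1 s ⟨π' s.val, hπ' s.val s.isLt⟩ rfl k hk, mul_zero]
  · intro j s'
    rw [Matrix.mul_apply]
    apply Finset.sum_eq_zero
    intro k _
    rcases k with m | m
    · rw [a2 m s', zero_mul]
    · rw [b2 j m, mul_zero]
  · intro r' hr' l
    have e : ∀ j : Fin D.rank, (g * g') (Sum.inl l) (Sum.inl j) =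
        ∑ m : Fin D.rank, g (Sum.inl l) (Sum.inl m) * g' (Sum.inl m) (Sum.inl j) := by
      intro j
      rw [Matrix.mul_apply, Fintype.sum_sum_type]
      have : ∑ m : Fin D.nroots, g (Sum.inl l) (Sum.inr m) * g' (Sum.inr m) (Sum.inl j) = 0 := by
        apply Finset.sum_eq_zero
        intro m _
        rw [b2 j m, mul_zero]
      rw [this, add_zero]
    simp only [e, Finset.sum_mul]
    rw [Finset.sum_comm]
    have e2 : ∀ m : Fin D.rank,
        ∑ j : Fin D.rank, g (Sum.inl l) (Sum.inl m) * g' (Sum.inl m) (Sum.inl j) *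
          (((corL D r').getD j.val 0 : ℤ) : F) =
        g (Sum.inl l) (Sum.inl m) * (((corL D (π' r')).getD m.val 0 : ℤ) : F) := by
      intro m
      rw [← b3 r' hr' m, Finset.mul_sum]
      apply Finset.sum_congr rfl
      intro j _
      ring
    simp only [e2]
    exact a3 (π' r') (hπ' r' hr') l

theorem Inv_N (hG : addB D = true) (hA : haBF D (ctrie D) 0 D.nroots = true) (hrc : rcB D = true)
    (hmon : monR D 0 D.nroots = true) (g : GL D.Idx F) (hg : g ∈ D.monomialSubgroup F) :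
    Inv D (g : Matrix D.Idx D.Idx F) ∧ Inv D ((g⁻¹ : GL D.Idx F) : Matrix D.Idx D.Idx F) := by
  have h256 := rc_256 D hrc
  have hH : ∀ k ∈ D.diagonalSubgroup F, Inv D (k : Matrix D.Idx D.Idx F) := fun k hk => by
    obtain ⟨χ, _, hv⟩ := H_CD D hA hrc k hk
    rw [hv]
    exact Inv_diag D χ
  unfold ChevalleyDatum.monomialSubgroup at hg
  rw [← Subgroup.closure_eq (D.diagonalSubgroup F), ← Subgroup.closure_union] at hg
  induction hg using Subgroup.closure_induction with
  | mem x hx =>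
    rcases hx with hx | ⟨r, hr, hx⟩
    · exact ⟨hH x hx, hH _ (Subgroup.inv_mem _ hx)⟩
    · have hI : Inv D (x : Matrix D.Idx D.Idx F) := by
        rw [hx]
        exact Inv_n D h256 r (monR_spec D hmon r hr)
      refine ⟨hI, ?_⟩
      have hx' : x = wGL D hG (D.nWord r (1 : F)) := eq_wGL D hG x _ hx
      have hinv : x⁻¹ = wGL D hG (D.nWord r (-1 : F)) := by
        rw [hx']
        exact inv_eq_of_mul_eq_one_right (nn_inv D hG r)
      have hh := h_as_nn D hG r (-1 : F)
      have hmem : wGL D hG (D.hWord r (-1 : F)) ∈ D.diagonalSubgroup F :=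
        Subgroup.subset_closure ⟨r, _, hr, neg_ne_zero.2 one_ne_zero, wGL_coe D hG _⟩
      have e : x⁻¹ = wGL D hG (D.hWord r (-1 : F)) * x := by
        rw [hh, ← hinv]
        group
      rw [e, Units.val_mul]
      exact Inv_mul D (hH _ hmem) hI
  | one =>
    have := hH 1 (Subgroup.one_mem _)
    exact ⟨this, by rw [inv_one]; exact this⟩
  | mul x y _ _ hx hy =>
    refine ⟨by rw [Units.val_mul]; exact Inv_mul D hx.1 hy.1, ?_⟩
    rw [mul_inv_rev, Units.val_mul]
    exact Inv_mul D hy.2 hx.2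
  | inv x _ hx =>
    exact ⟨hx.2, by rw [inv_inv]; exact hx.1⟩

theorem s1040_main (hG : addB D = true) (hT : ChevTab.goodB D = true)
    (hA : haBF D (ctrie D) 0 D.nroots = true) (hrc : rcB D = true) (hU : uniB D = true)
    (hmon : monR D 0 D.nroots = true) (hcs : csB D = true) :
    D.posUnipotent F ⊓ D.monomialSubgroup F = ⊥ ∧
      D.borelSubgroup F ⊓ D.monomialSubgroup F = D.diagonalSubgroup F := by
  have key : D.posUnipotent F ⊓ D.monomialSubgroup F = ⊥ := by
    rw [eq_bot_iff]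
    rintro g ⟨hgU, hgN⟩
    rw [Subgroup.mem_bot]
    obtain ⟨hut, -⟩ := UT_mem D hG hU g hgU
    obtain ⟨⟨π, hπ, a1, a2, a3⟩, -⟩ := Inv_N D hG hA hrc hmon g hgN
    have hfix : ∀ s : Fin D.nroots, π s.val = s.val := by
      intro s
      by_contra hne
      have := a1 s ⟨π s.val, hπ s.val s.isLt⟩ rfl (Sum.inr s) (by
        intro h
        exact hne (congrArg Fin.val (Sum.inr.inj h)).symm)
      rw [hut.1] at this
      exact one_ne_zero this
    apply Units.ext
    ext row col
    rcases col with j0 | s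
    · rcases row with l | s'
      · have hc := cs_spec D hcs j0.val j0.isLt
        have h3 := a3 (D.simple j0.val) hc.1 l
        rw [hfix ⟨D.simple j0.val, hc.1⟩] at h3
        rw [Finset.sum_eq_single j0] at h3
        · rw [hc.2 j0.val j0.isLt, if_pos rfl, Int.cast_one, mul_one, hc.2 l.val l.isLt] at h3
          rw [h3, Units.val_one]
          by_cases hl : l = j0
          · rw [hl, if_pos rfl, Int.cast_one, Matrix.one_apply_eq]
          · rw [if_neg (fun h => hl (Fin.ext h)), Int.cast_zero,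
              Matrix.one_apply_ne (by simpa using hl)]
        · intro j _ hj
          rw [hc.2 j.val j.isLt, if_neg (fun h => hj (Fin.ext h)), Int.cast_zero, mul_zero]
        · intro h
          exact absurd (Finset.mem_univ _) h
      · rw [a2 j0 s', Units.val_one, Matrix.one_apply_ne (by simp)]
    · by_cases hrow : row = Sum.inr s
      · rw [hrow, hut.1, Units.val_one, Matrix.one_apply_eq]
      · rw [a1 s s (hfix s).symm row hrow, Units.val_one, Matrix.one_apply_ne hrow]
  refine ⟨key, ?_⟩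
  have hnU : ∀ h ∈ D.diagonalSubgroup F, ∀ a ∈ D.posUnipotent F,
      h * a * h⁻¹ ∈ D.posUnipotent F := fun h hh a ha =>
    conj_U D hG hT h (H_CD D hA hrc h hh) a ha
  have hHN : D.diagonalSubgroup F ≤ D.monomialSubgroup F := le_sup_left
  apply le_antisymm
  · rintro g ⟨hgB, hgN⟩
    unfold ChevalleyDatum.borelSubgroup at hgB
    obtain ⟨a, ha, h, hh, rfl⟩ := sup_decomp _ _ hnU g hgB
    have haN : a ∈ D.monomialSubgroup F := by
      have : a = a * h * h⁻¹ := by group
      rw [this]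
      exact Subgroup.mul_mem _ hgN (Subgroup.inv_mem _ (hHN hh))
    have ha1 : a ∈ D.posUnipotent F ⊓ D.monomialSubgroup F := ⟨ha, haN⟩
    rw [key, Subgroup.mem_bot] at ha1
    rw [ha1, one_mul]
    exact hh
  · intro g hg
    exact ⟨Subgroup.mem_sup_right hg, hHN hg⟩

end Cfsg.Agent.Lib.Helper2.ChevFast
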