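import Mathlib
import Cfsg.Agent.Lib.Helper2.ChevMon

set_option autoImplicit false

namespace Cfsg.Agent.Lib.Helper2.ChevFast

open Cfsg.Lie
open Cfsg.Agent.Lib.Helper2.ChevAdd
open Cfsg.Agent.Lib.Helper2.ChevSym

set_option maxRecDepth 100000 in
theorem mon_E6_0 : monR chevE6 0 12 = true := by decide +kernel

set_option maxRecDepth 100000 in
theorem mon_E6_1 : monR chevE6 12 12 = true := by decide +kernel

set_option maxRecDepth 100000 in
theorem mon_E6_2 : monR chevE6 24 12 = true := by decide +kernel

set_option maxRecDepth 100000 in
theorem mon_E6_3 : monR chevE6 36 12 = true := by decide +kernel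

set_option maxRecDepth 100000 in
theorem mon_E6_4 : monR chevE6 48 12 = true := by decide +kernel

set_option maxRecDepth 100000 in
theorem mon_E6_5 : monR chevE6 60 12 = true := by decide +kernel

end Cfsg.Agent.Lib.Helper2.ChevFast
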