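import Mathlib
import Cfsg.Agent.Lib.Helper2.ChevMon

set_option autoImplicit false

namespace Cfsg.Agent.Lib.Helper2.ChevFast

open Cfsg.Lie
open Cfsg.Agent.Lib.Helper2.ChevAdd
open Cfsg.Agent.Lib.Helper2.ChevSym

set_option maxRecDepth 100000 in
theorem mon_E7_0 : monR chevE7 0 6 = true := by decide +kernel

set_option maxRecDepth 100000 in
theorem mon_E7_1 : monR chevE7 6 6 = true := by decide +kernel

set_option maxRecDepth 100000 in
theorem mon_E7_2 : monR chevE7 12 6 = true := by decide +kernel

set_option maxRecDepth 100000 in
theorem mon_E7_3 : monR chevE7 18 6 = true := by decide +kernel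

set_option maxRecDepth 100000 in
theorem mon_E7_4 : monR chevE7 24 6 = true := by decide +kernel

set_option maxRecDepth 100000 in
theorem mon_E7_5 : monR chevE7 30 6 = true := by decide +kernel

set_option maxRecDepth 100000 in
theorem mon_E7_6 : monR chevE7 36 6 = true := by decide +kernel

end Cfsg.Agent.Lib.Helper2.ChevFast
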