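import Mathlib
import Cfsg.Agent.Lib.Helper2.ChevMon

set_option autoImplicit false

namespace Cfsg.Agent.Lib.Helper2.ChevFast

open Cfsg.Lie
open Cfsg.Agent.Lib.Helper2.ChevAdd
open Cfsg.Agent.Lib.Helper2.ChevSym

set_option maxRecDepth 100000 in
theorem mon_E8_0 : monR chevE8 0 2 = true := by decide +kernel

set_option maxRecDepth 100000 in
theorem mon_E8_1 : monR chevE8 2 2 = true := by decide +kernel

set_option maxRecDepth 100000 in
theorem mon_E8_2 : monR chevE8 4 2 = true := by decide +kernel

set_option maxRecDepth 100000 in
theorem mon_E8_3 : monR chevE8 6 2 = true := by decide +kernel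

set_option maxRecDepth 100000 in
theorem mon_E8_4 : monR chevE8 8 2 = true := by decide +kernel

set_option maxRecDepth 100000 in
theorem mon_E8_5 : monR chevE8 10 2 = true := by decide +kernel

set_option maxRecDepth 100000 in
theorem mon_E8_6 : monR chevE8 12 2 = true := by decide +kernel

set_option maxRecDepth 100000 in
theorem mon_E8_7 : monR chevE8 14 2 = true := by decide +kernel

end Cfsg.Agent.Lib.Helper2.ChevFast
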