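import Mathlib
import Cfsg.Agent.Lib.Helper2.ChevMon

set_option autoImplicit false

namespace Cfsg.Agent.Lib.Helper2.ChevFast

open Cfsg.Lie
open Cfsg.Agent.Lib.Helper2.ChevAdd
open Cfsg.Agent.Lib.Helper2.ChevSym

set_option maxRecDepth 100000 in
theorem mon_E8_8 : monR chevE8 16 2 = true := by decide +kernel

set_option maxRecDepth 100000 in
theorem mon_E8_9 : monR chevE8 18 2 = true := by decide +kernel

set_option maxRecDepth 100000 in
theorem mon_E8_10 : monR chevE8 20 2 = true := by decide +kernel

set_option maxRecDepth 100000 in
theorem mon_E8_11 : monR chevE8 22 2 = true := by decide +kernel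

set_option maxRecDepth 100000 in
theorem mon_E8_12 : monR chevE8 24 2 = true := by decide +kernel

set_option maxRecDepth 100000 in
theorem mon_E8_13 : monR chevE8 26 2 = true := by decide +kernel

set_option maxRecDepth 100000 in
theorem mon_E8_14 : monR chevE8 28 2 = true := by decide +kernel

set_option maxRecDepth 100000 in
theorem mon_E8_15 : monR chevE8 30 2 = true := by decide +kernel

end Cfsg.Agent.Lib.Helper2.ChevFast
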