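import Mathlib
import Cfsg.Agent.Lib.Helper2.ChevMon

set_option autoImplicit false

namespace Cfsg.Agent.Lib.Helper2.ChevFast

open Cfsg.Lie
open Cfsg.Agent.Lib.Helper2.ChevAdd
open Cfsg.Agent.Lib.Helper2.ChevSym

set_option maxRecDepth 100000 in
theorem mon_E8_16 : monR chevE8 32 2 = true := by decide +kernel

set_option maxRecDepth 100000 in
theorem mon_E8_17 : monR chevE8 34 2 = true := by decide +kernel

set_option maxRecDepth 100000 in
theorem mon_E8_18 : monR chevE8 36 2 = true := by decide +kernel

set_option maxRecDepth 100000 in
theorem mon_E8_19 : monR chevE8 38 2 = true := by decide +kernel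

set_option maxRecDepth 100000 in
theorem mon_E8_20 : monR chevE8 40 2 = true := by decide +kernel

set_option maxRecDepth 100000 in
theorem mon_E8_21 : monR chevE8 42 2 = true := by decide +kernel

set_option maxRecDepth 100000 in
theorem mon_E8_22 : monR chevE8 44 2 = true := by decide +kernel

set_option maxRecDepth 100000 in
theorem mon_E8_23 : monR chevE8 46 2 = true := by decide +kernel

end Cfsg.Agent.Lib.Helper2.ChevFast
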