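import Mathlib
import Cfsg.Agent.Lib.Helper2.ChevMon

set_option autoImplicit false

namespace Cfsg.Agent.Lib.Helper2.ChevFast

open Cfsg.Lie
open Cfsg.Agent.Lib.Helper2.ChevAdd
open Cfsg.Agent.Lib.Helper2.ChevSym

set_option maxRecDepth 100000 in
theorem mon_E8_24 : monR chevE8 48 2 = true := by decide +kernel

set_option maxRecDepth 100000 in
theorem mon_E8_25 : monR chevE8 50 2 = true := by decide +kernel

set_option maxRecDepth 100000 in
theorem mon_E8_26 : monR chevE8 52 2 = true := by decide +kernel

set_option maxRecDepth 100000 in
theorem mon_E8_27 : monR chevE8 54 2 = true := by decide +kernel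

set_option maxRecDepth 100000 in
theorem mon_E8_28 : monR chevE8 56 2 = true := by decide +kernel

set_option maxRecDepth 100000 in
theorem mon_E8_29 : monR chevE8 58 2 = true := by decide +kernel

set_option maxRecDepth 100000 in
theorem mon_E8_30 : monR chevE8 60 2 = true := by decide +kernel

set_option maxRecDepth 100000 in
theorem mon_E8_31 : monR chevE8 62 2 = true := by decide +kernel

end Cfsg.Agent.Lib.Helper2.ChevFast
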