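import Mathlib
import Cfsg.Agent.Lib.Helper2.ChevMon

set_option autoImplicit false

namespace Cfsg.Agent.Lib.Helper2.ChevFast

open Cfsg.Lie
open Cfsg.Agent.Lib.Helper2.ChevAdd
open Cfsg.Agent.Lib.Helper2.ChevSym

set_option maxRecDepth 100000 in
theorem mon_E8_32 : monR chevE8 64 2 = true := by decide +kernel

set_option maxRecDepth 100000 in
theorem mon_E8_33 : monR chevE8 66 2 = true := by decide +kernel

set_option maxRecDepth 100000 in
theorem mon_E8_34 : monR chevE8 68 2 = true := by decide +kernel

set_option maxRecDepth 100000 in
theorem mon_E8_35 : monR chevE8 70 2 = true := by decide +kernel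

set_option maxRecDepth 100000 in
theorem mon_E8_36 : monR chevE8 72 2 = true := by decide +kernel

set_option maxRecDepth 100000 in
theorem mon_E8_37 : monR chevE8 74 2 = true := by decide +kernel

set_option maxRecDepth 100000 in
theorem mon_E8_38 : monR chevE8 76 2 = true := by decide +kernel

set_option maxRecDepth 100000 in
theorem mon_E8_39 : monR chevE8 78 2 = true := by decide +kernel

end Cfsg.Agent.Lib.Helper2.ChevFast
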