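import Mathlib
import Cfsg.Agent.Lib.Helper2.ChevMon

set_option autoImplicit false

namespace Cfsg.Agent.Lib.Helper2.ChevFast

open Cfsg.Lie
open Cfsg.Agent.Lib.Helper2.ChevAdd
open Cfsg.Agent.Lib.Helper2.ChevSym

set_option maxRecDepth 100000 in
theorem mon_E8_40 : monR chevE8 80 2 = true := by decide +kernel

set_option maxRecDepth 100000 in
theorem mon_E8_41 : monR chevE8 82 2 = true := by decide +kernel

set_option maxRecDepth 100000 in
theorem mon_E8_42 : monR chevE8 84 2 = true := by decide +kernel

set_option maxRecDepth 100000 in
theorem mon_E8_43 : monR chevE8 86 2 = true := by decide +kernel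

set_option maxRecDepth 100000 in
theorem mon_E8_44 : monR chevE8 88 2 = true := by decide +kernel

set_option maxRecDepth 100000 in
theorem mon_E8_45 : monR chevE8 90 2 = true := by decide +kernel

set_option maxRecDepth 100000 in
theorem mon_E8_46 : monR chevE8 92 2 = true := by decide +kernel

set_option maxRecDepth 100000 in
theorem mon_E8_47 : monR chevE8 94 2 = true := by decide +kernel

end Cfsg.Agent.Lib.Helper2.ChevFast
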