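import Mathlib
import Cfsg.Agent.Lib.Helper2.ChevMon

set_option autoImplicit false

namespace Cfsg.Agent.Lib.Helper2.ChevFast

open Cfsg.Lie
open Cfsg.Agent.Lib.Helper2.ChevAdd
open Cfsg.Agent.Lib.Helper2.ChevSym

set_option maxRecDepth 100000 in
theorem mon_E8_48 : monR chevE8 96 2 = true := by decide +kernel

set_option maxRecDepth 100000 in
theorem mon_E8_49 : monR chevE8 98 2 = true := by decide +kernel

set_option maxRecDepth 100000 in
theorem mon_E8_50 : monR chevE8 100 2 = true := by decide +kernel

set_option maxRecDepth 100000 in
theorem mon_E8_51 : monR chevE8 102 2 = true := by decide +kernel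

set_option maxRecDepth 100000 in
theorem mon_E8_52 : monR chevE8 104 2 = true := by decide +kernel

set_option maxRecDepth 100000 in
theorem mon_E8_53 : monR chevE8 106 2 = true := by decide +kernel

set_option maxRecDepth 100000 in
theorem mon_E8_54 : monR chevE8 108 2 = true := by decide +kernel

set_option maxRecDepth 100000 in
theorem mon_E8_55 : monR chevE8 110 2 = true := by decide +kernel

end Cfsg.Agent.Lib.Helper2.ChevFast
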