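import Mathlib
import Cfsg.Agent.Lib.Helper2.ChevMon

set_option autoImplicit false

namespace Cfsg.Agent.Lib.Helper2.ChevFast

open Cfsg.Lie
open Cfsg.Agent.Lib.Helper2.ChevAdd
open Cfsg.Agent.Lib.Helper2.ChevSym

set_option maxRecDepth 100000 in
theorem mon_E8_56 : monR chevE8 112 2 = true := by decide +kernel

set_option maxRecDepth 100000 in
theorem mon_E8_57 : monR chevE8 114 2 = true := by decide +kernel

set_option maxRecDepth 100000 in
theorem mon_E8_58 : monR chevE8 116 2 = true := by decide +kernel

set_option maxRecDepth 100000 in
theorem mon_E8_59 : monR chevE8 118 2 = true := by decide +kernel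

set_option maxRecDepth 100000 in
theorem mon_E8_60 : monR chevE8 120 2 = true := by decide +kernel

set_option maxRecDepth 100000 in
theorem mon_E8_61 : monR chevE8 122 2 = true := by decide +kernel

set_option maxRecDepth 100000 in
theorem mon_E8_62 : monR chevE8 124 2 = true := by decide +kernel

set_option maxRecDepth 100000 in
theorem mon_E8_63 : monR chevE8 126 2 = true := by decide +kernel

end Cfsg.Agent.Lib.Helper2.ChevFast
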