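import Mathlib
import Cfsg.Agent.Lib.Helper2.ChevMon

set_option autoImplicit false

namespace Cfsg.Agent.Lib.Helper2.ChevFast

open Cfsg.Lie
open Cfsg.Agent.Lib.Helper2.ChevAdd
open Cfsg.Agent.Lib.Helper2.ChevSym

set_option maxRecDepth 100000 in
theorem mon_E8_64 : monR chevE8 128 2 = true := by decide +kernel

set_option maxRecDepth 100000 in
theorem mon_E8_65 : monR chevE8 130 2 = true := by decide +kernel

set_option maxRecDepth 100000 in
theorem mon_E8_66 : monR chevE8 132 2 = true := by decide +kernel

set_option maxRecDepth 100000 in
theorem mon_E8_67 : monR chevE8 134 2 = true := by decide +kernel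

set_option maxRecDepth 100000 in
theorem mon_E8_68 : monR chevE8 136 2 = true := by decide +kernel

set_option maxRecDepth 100000 in
theorem mon_E8_69 : monR chevE8 138 2 = true := by decide +kernel

set_option maxRecDepth 100000 in
theorem mon_E8_70 : monR chevE8 140 2 = true := by decide +kernel

set_option maxRecDepth 100000 in
theorem mon_E8_71 : monR chevE8 142 2 = true := by decide +kernel

end Cfsg.Agent.Lib.Helper2.ChevFast
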