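import Mathlib
import Cfsg.Agent.Lib.Helper2.ChevMon

set_option autoImplicit false

namespace Cfsg.Agent.Lib.Helper2.ChevFast

open Cfsg.Lie
open Cfsg.Agent.Lib.Helper2.ChevAdd
open Cfsg.Agent.Lib.Helper2.ChevSym

set_option maxRecDepth 100000 in
theorem mon_E8_72 : monR chevE8 144 2 = true := by decide +kernel

set_option maxRecDepth 100000 in
theorem mon_E8_73 : monR chevE8 146 2 = true := by decide +kernel

set_option maxRecDepth 100000 in
theorem mon_E8_74 : monR chevE8 148 2 = true := by decide +kernel

set_option maxRecDepth 100000 in
theorem mon_E8_75 : monR chevE8 150 2 = true := by decide +kernel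

set_option maxRecDepth 100000 in
theorem mon_E8_76 : monR chevE8 152 2 = true := by decide +kernel

set_option maxRecDepth 100000 in
theorem mon_E8_77 : monR chevE8 154 2 = true := by decide +kernel

set_option maxRecDepth 100000 in
theorem mon_E8_78 : monR chevE8 156 2 = true := by decide +kernel

set_option maxRecDepth 100000 in
theorem mon_E8_79 : monR chevE8 158 2 = true := by decide +kernel

end Cfsg.Agent.Lib.Helper2.ChevFast
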