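import Mathlib
import Cfsg.Agent.Lib.Helper2.ChevMon

set_option autoImplicit false

namespace Cfsg.Agent.Lib.Helper2.ChevFast

open Cfsg.Lie
open Cfsg.Agent.Lib.Helper2.ChevAdd
open Cfsg.Agent.Lib.Helper2.ChevSym

set_option maxRecDepth 100000 in
theorem mon_E8_80 : monR chevE8 160 2 = true := by decide +kernel

set_option maxRecDepth 100000 in
theorem mon_E8_81 : monR chevE8 162 2 = true := by decide +kernel

set_option maxRecDepth 100000 in
theorem mon_E8_82 : monR chevE8 164 2 = true := by decide +kernel

set_option maxRecDepth 100000 in
theorem mon_E8_83 : monR chevE8 166 2 = true := by decide +kernel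

set_option maxRecDepth 100000 in
theorem mon_E8_84 : monR chevE8 168 2 = true := by decide +kernel

set_option maxRecDepth 100000 in
theorem mon_E8_85 : monR chevE8 170 2 = true := by decide +kernel

set_option maxRecDepth 100000 in
theorem mon_E8_86 : monR chevE8 172 2 = true := by decide +kernel

set_option maxRecDepth 100000 in
theorem mon_E8_87 : monR chevE8 174 2 = true := by decide +kernel

end Cfsg.Agent.Lib.Helper2.ChevFast
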