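import Mathlib
import Cfsg.Agent.Lib.Helper2.ChevMon

set_option autoImplicit false

namespace Cfsg.Agent.Lib.Helper2.ChevFast

open Cfsg.Lie
open Cfsg.Agent.Lib.Helper2.ChevAdd
open Cfsg.Agent.Lib.Helper2.ChevSym

set_option maxRecDepth 100000 in
theorem mon_E8_88 : monR chevE8 176 2 = true := by decide +kernel

set_option maxRecDepth 100000 in
theorem mon_E8_89 : monR chevE8 178 2 = true := by decide +kernel

set_option maxRecDepth 100000 in
theorem mon_E8_90 : monR chevE8 180 2 = true := by decide +kernel

set_option maxRecDepth 100000 in
theorem mon_E8_91 : monR chevE8 182 2 = true := by decide +kernel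

set_option maxRecDepth 100000 in
theorem mon_E8_92 : monR chevE8 184 2 = true := by decide +kernel

set_option maxRecDepth 100000 in
theorem mon_E8_93 : monR chevE8 186 2 = true := by decide +kernel

set_option maxRecDepth 100000 in
theorem mon_E8_94 : monR chevE8 188 2 = true := by decide +kernel

set_option maxRecDepth 100000 in
theorem mon_E8_95 : monR chevE8 190 2 = true := by decide +kernel

end Cfsg.Agent.Lib.Helper2.ChevFast
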