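import Mathlib
import Cfsg.Agent.Lib.Helper2.ChevMon

set_option autoImplicit false

namespace Cfsg.Agent.Lib.Helper2.ChevFast

open Cfsg.Lie
open Cfsg.Agent.Lib.Helper2.ChevAdd
open Cfsg.Agent.Lib.Helper2.ChevSym

set_option maxRecDepth 100000 in
theorem mon_E8_96 : monR chevE8 192 2 = true := by decide +kernel

set_option maxRecDepth 100000 in
theorem mon_E8_97 : monR chevE8 194 2 = true := by decide +kernel

set_option maxRecDepth 100000 in
theorem mon_E8_98 : monR chevE8 196 2 = true := by decide +kernel

set_option maxRecDepth 100000 in
theorem mon_E8_99 : monR chevE8 198 2 = true := by decide +kernel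

set_option maxRecDepth 100000 in
theorem mon_E8_100 : monR chevE8 200 2 = true := by decide +kernel

set_option maxRecDepth 100000 in
theorem mon_E8_101 : monR chevE8 202 2 = true := by decide +kernel

set_option maxRecDepth 100000 in
theorem mon_E8_102 : monR chevE8 204 2 = true := by decide +kernel

set_option maxRecDepth 100000 in
theorem mon_E8_103 : monR chevE8 206 2 = true := by decide +kernel

end Cfsg.Agent.Lib.Helper2.ChevFast
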