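import Mathlib
import Cfsg.Agent.Lib.Helper2.ChevMon

set_option autoImplicit false

namespace Cfsg.Agent.Lib.Helper2.ChevFast

open Cfsg.Lie
open Cfsg.Agent.Lib.Helper2.ChevAdd
open Cfsg.Agent.Lib.Helper2.ChevSym

set_option maxRecDepth 100000 in
theorem mon_E8_104 : monR chevE8 208 2 = true := by decide +kernel

set_option maxRecDepth 100000 in
theorem mon_E8_105 : monR chevE8 210 2 = true := by decide +kernel

set_option maxRecDepth 100000 in
theorem mon_E8_106 : monR chevE8 212 2 = true := by decide +kernel

set_option maxRecDepth 100000 in
theorem mon_E8_107 : monR chevE8 214 2 = true := by decide +kernel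

set_option maxRecDepth 100000 in
theorem mon_E8_108 : monR chevE8 216 2 = true := by decide +kernel

set_option maxRecDepth 100000 in
theorem mon_E8_109 : monR chevE8 218 2 = true := by decide +kernel

set_option maxRecDepth 100000 in
theorem mon_E8_110 : monR chevE8 220 2 = true := by decide +kernel

set_option maxRecDepth 100000 in
theorem mon_E8_111 : monR chevE8 222 2 = true := by decide +kernel

end Cfsg.Agent.Lib.Helper2.ChevFast
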