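import Mathlib
import Cfsg.Agent.Lib.Helper2.ChevMon

set_option autoImplicit false

namespace Cfsg.Agent.Lib.Helper2.ChevFast

open Cfsg.Lie
open Cfsg.Agent.Lib.Helper2.ChevAdd
open Cfsg.Agent.Lib.Helper2.ChevSym

set_option maxRecDepth 100000 in
theorem mon_E8_112 : monR chevE8 224 2 = true := by decide +kernel

set_option maxRecDepth 100000 in
theorem mon_E8_113 : monR chevE8 226 2 = true := by decide +kernel

set_option maxRecDepth 100000 in
theorem mon_E8_114 : monR chevE8 228 2 = true := by decide +kernel

set_option maxRecDepth 100000 in
theorem mon_E8_115 : monR chevE8 230 2 = true := by decide +kernel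

set_option maxRecDepth 100000 in
theorem mon_E8_116 : monR chevE8 232 2 = true := by decide +kernel

set_option maxRecDepth 100000 in
theorem mon_E8_117 : monR chevE8 234 2 = true := by decide +kernel

set_option maxRecDepth 100000 in
theorem mon_E8_118 : monR chevE8 236 2 = true := by decide +kernel

set_option maxRecDepth 100000 in
theorem mon_E8_119 : monR chevE8 238 2 = true := by decide +kernel

end Cfsg.Agent.Lib.Helper2.ChevFast
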