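import Mathlib
import Cfsg.Agent.Lib.Helper2.ChevMon

set_option autoImplicit false

namespace Cfsg.Agent.Lib.Helper2.ChevFast

open Cfsg.Lie
open Cfsg.Agent.Lib.Helper2.ChevAdd
open Cfsg.Agent.Lib.Helper2.ChevSym

set_option maxRecDepth 100000 in
theorem mon_G2_0 : monR chevG2 0 12 = true := by decide +kernel

set_option maxRecDepth 100000 in
theorem mon_B2_0 : monR chevB2 0 8 = true := by decide +kernel

set_option maxRecDepth 100000 in
theorem mon_D4_0 : monR chevD4 0 24 = true := by decide +kernel

set_option maxRecDepth 100000 in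
theorem mon_F4_0 : monR chevF4 0 24 = true := by decide +kernel

set_option maxRecDepth 100000 in
theorem mon_F4_1 : monR chevF4 24 24 = true := by decide +kernel

end Cfsg.Agent.Lib.Helper2.ChevFast
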