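import Mathlib
import Cfsg.Agent.Lib.Helper2.ChevMonT
import Cfsg.Agent.Lib.Helper2.ChevMonC
import Cfsg.Agent.Lib.Helper2.ChevHfin

set_option autoImplicit false

namespace Cfsg.Agent.Lib.Helper2.ChevFast

open Cfsg.Lie
open Cfsg.Agent.Lib.Helper2.ChevAdd
open Cfsg.Agent.Lib.Helper2.ChevSym
open scoped MatrixGroups

theorem s1040 {F : Type*} [Field F] (D : ChevalleyDatum)
    (hD : D ∈ [chevG2, chevB2, chevD4, chevF4, chevE6, chevE7, chevE8]) :
    D.posUnipotent F ⊓ D.monomialSubgroup F = ⊥ ∧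
      D.borelSubgroup F ⊓ D.monomialSubgroup F = D.diagonalSubgroup F :=
  s1040_main D (add_of_mem D hD) (ChevTab.good_of_mem D hD) (ha_of_mem D hD) (rc_of_mem D hD)
    (uni_of_mem D hD) (mon_of_mem D hD) (cs_of_mem D hD)

end Cfsg.Agent.Lib.Helper2.ChevFast
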