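import Mathlib
import Cfsg.Agent.Lib.Helper2.ChevN

set_option autoImplicit false

namespace Cfsg.Agent.Lib.Helper2.ChevFast

open Cfsg.Lie
open Cfsg.Agent.Lib.Helper2.ChevAdd
open Cfsg.Agent.Lib.Helper2.ChevSym

set_option maxRecDepth 100000 in
theorem nchk_G2_0 : ncheckB chevG2 0 = true := by decide +kernel

set_option maxRecDepth 100000 in
theorem nchk_G2_1 : ncheckB chevG2 1 = true := by decide +kernel

set_option maxRecDepth 100000 in
theorem nchk_B2_0 : ncheckB chevB2 0 = true := by decide +kernel

set_option maxRecDepth 100000 in
theorem nchk_B2_1 : ncheckB chevB2 1 = true := by decide +kernel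

set_option maxRecDepth 100000 in
theorem nchk_D4_0 : ncheckB chevD4 0 = true := by decide +kernel

set_option maxRecDepth 100000 in
theorem nchk_D4_1 : ncheckB chevD4 1 = true := by decide +kernel

set_option maxRecDepth 100000 in
theorem nchk_D4_2 : ncheckB chevD4 2 = true := by decide +kernel

set_option maxRecDepth 100000 in
theorem nchk_D4_3 : ncheckB chevD4 3 = true := by decide +kernel

set_option maxRecDepth 100000 in
theorem nchk_F4_0 : ncheckB chevF4 0 = true := by decide +kernel

set_option maxRecDepth 100000 in
theorem nchk_F4_1 : ncheckB chevF4 1 = true := by decide +kernel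

set_option maxRecDepth 100000 in
theorem nchk_F4_2 : ncheckB chevF4 2 = true := by decide +kernel

set_option maxRecDepth 100000 in
theorem nchk_F4_3 : ncheckB chevF4 3 = true := by decide +kernel

set_option maxRecDepth 100000 in
theorem nchk_E6_0 : ncheckB chevE6 0 = true := by decide +kernel

set_option maxRecDepth 100000 in
theorem nchk_E6_1 : ncheckB chevE6 1 = true := by decide +kernel

set_option maxRecDepth 100000 in
theorem nchk_E6_2 : ncheckB chevE6 2 = true := by decide +kernel

set_option maxRecDepth 100000 in
theorem nchk_E6_3 : ncheckB chevE6 3 = true := by decide +kernel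

set_option maxRecDepth 100000 in
theorem nchk_E6_4 : ncheckB chevE6 4 = true := by decide +kernel

set_option maxRecDepth 100000 in
theorem nchk_E6_5 : ncheckB chevE6 5 = true := by decide +kernel

end Cfsg.Agent.Lib.Helper2.ChevFast
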