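import Mathlib
import Cfsg.Agent.Lib.Helper2.ChevNA
import Cfsg.Agent.Lib.Helper2.ChevNB
import Cfsg.Agent.Lib.Helper2.ChevNC
import Cfsg.Agent.Lib.Helper2.ChevND

set_option autoImplicit false

namespace Cfsg.Agent.Lib.Helper2.ChevFast

open Cfsg.Lie
open Cfsg.Agent.Lib.Helper2.ChevAdd
open Cfsg.Agent.Lib.Helper2.ChevSym

theorem nchk_G2 (i : ℕ) (hi : i < chevG2.rank) : ncheckB chevG2 i = true := by
  have hr : chevG2.rank = 2 := rfl
  rw [hr] at hi
  interval_cases i
  · exact nchk_G2_0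
  · exact nchk_G2_1

theorem nchk_B2 (i : ℕ) (hi : i < chevB2.rank) : ncheckB chevB2 i = true := by
  have hr : chevB2.rank = 2 := rfl
  rw [hr] at hi
  interval_cases i
  · exact nchk_B2_0
  · exact nchk_B2_1

theorem nchk_D4 (i : ℕ) (hi : i < chevD4.rank) : ncheckB chevD4 i = true := by
  have hr : chevD4.rank = 4 := rfl
  rw [hr] at hi
  interval_cases i
  · exact nchk_D4_0
  · exact nchk_D4_1
  · exact nchk_D4_2
  · exact nchk_D4_3

theorem nchk_F4 (i : ℕ) (hi : i < chevF4.rank) : ncheckB chevF4 i = true := by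
  have hr : chevF4.rank = 4 := rfl
  rw [hr] at hi
  interval_cases i
  · exact nchk_F4_0
  · exact nchk_F4_1
  · exact nchk_F4_2
  · exact nchk_F4_3

theorem nchk_E6 (i : ℕ) (hi : i < chevE6.rank) : ncheckB chevE6 i = true := by
  have hr : chevE6.rank = 6 := rfl
  rw [hr] at hi
  interval_cases i
  · exact nchk_E6_0
  · exact nchk_E6_1
  · exact nchk_E6_2
  · exact nchk_E6_3
  · exact nchk_E6_4
  · exact nchk_E6_5

theorem nchk_E7 (i : ℕ) (hi : i < chevE7.rank) : ncheckB chevE7 i = true := by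
  have hr : chevE7.rank = 7 := rfl
  rw [hr] at hi
  interval_cases i
  · exact nchk_E7_0
  · exact nchk_E7_1
  · exact nchk_E7_2
  · exact nchk_E7_3
  · exact nchk_E7_4
  · exact nchk_E7_5
  · exact nchk_E7_6

theorem nchk_E8 (i : ℕ) (hi : i < chevE8.rank) : ncheckB chevE8 i = true := by
  have hr : chevE8.rank = 8 := rfl
  rw [hr] at hi
  interval_cases i
  · exact nchk_E8_0
  · exact nchk_E8_1
  · exact nchk_E8_2
  · exact nchk_E8_3
  · exact nchk_E8_4
  · exact nchk_E8_5
  · exact nchk_E8_6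
  · exact nchk_E8_7

theorem nchk_of_mem (D : ChevalleyDatum)
    (hD : D ∈ [chevG2, chevB2, chevD4, chevF4, chevE6, chevE7, chevE8]) (i : ℕ) (hi : i < D.rank) :
    ncheckB D i = true := by
  simp only [List.mem_cons, List.not_mem_nil, or_false] at hD
  rcases hD with rfl | rfl | rfl | rfl | rfl | rfl | rfl
  · exact nchk_G2 i hi
  · exact nchk_B2 i hi
  · exact nchk_D4 i hi
  · exact nchk_F4 i hi
  · exact nchk_E6 i hi
  · exact nchk_E7 i hi
  · exact nchk_E8 i hi

theorem s1095 {F : Type*} [Field F] (D : ChevalleyDatum)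
    (hD : D ∈ [chevG2, chevB2, chevD4, chevF4, chevE6, chevE7, chevE8]) (i : ℕ) (hi : i < D.rank) :
    ∃ η : ℕ → ℤ, (∀ s < D.nroots, η s = 1 ∨ η s = -1) ∧ η (D.simple i) = -1 ∧
      η (D.neg (D.simple i)) = -1 ∧
      (∀ s < D.nroots, η s * η (D.reflectRoot i s) = (-1) ^ (D.cartan i s).natAbs ∧
        η s * η (D.neg s) = 1) ∧
      D.nMat F (D.simple i) 1 = Matrix.of (fun (row col : D.Idx) =>
        Sum.elim
          (fun j' : Fin D.rank => Sum.elim
            (fun j : Fin D.rank => (if j' = j then (1 : F) else 0) -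
              (if (j' : ℕ) = i then ((D.cartan j (D.simple i) : ℤ) : F) else 0))
            (fun _ => (0 : F)) col)
          (fun s' : Fin D.nroots => Sum.elim
            (fun _ => (0 : F))
            (fun s : Fin D.nroots =>
              if (s' : ℕ) = D.reflectRoot i s then ((η s : ℤ) : F) else 0) col)
          row) := by
  have hc := nchk_of_mem D hD i hi
  obtain ⟨h1, h2, h3, h4⟩ := n_props D i hc
  exact ⟨etaF D i, h1, h2, h3, h4, n_explicit D i hi hc⟩

end Cfsg.Agent.Lib.Helper2.ChevFast
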