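import Mathlib

set_option autoImplicit false

namespace Cfsg.Agent.Lib.Helper2.ConjCount

variable {G : Type*} [Group G]

theorem card_conj_fiber (x : G) (P : G → Prop) :
    Nat.card {g : G // P (g⁻¹ * x * g)} =
      Nat.card {y : G // IsConj x y ∧ P y} * Nat.card (Subgroup.centralizer ({x} : Set G)) := by
  classical
  have hc : ∀ y : {y : G // IsConj x y ∧ P y}, ∃ c : G, c⁻¹ * x * c = (y : G) := by
    rintro ⟨y, hy, -⟩
    obtain ⟨c, hc⟩ := isConj_iff.1 hy
    exact ⟨c⁻¹, by simpa using hc⟩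
  choose c hc using hc
  have key : ∀ (g : G) (y : {y : G // IsConj x y ∧ P y}), g⁻¹ * x * g = (y : G) →
      g * (c y)⁻¹ ∈ Subgroup.centralizer ({x} : Set G) := by
    intro g y h
    rw [Subgroup.mem_centralizer_singleton_iff]
    have h1 := hc y
    rw [← h] at h1
    have h2 : x = g * (c y)⁻¹ * x * (c y * g⁻¹) := by
      have : g * ((c y)⁻¹ * x * c y) * g⁻¹ = g * (g⁻¹ * x * g) * g⁻¹ := by rw [h1]
      calc x = g * (g⁻¹ * x * g) * g⁻¹ := by group
        _ = g * ((c y)⁻¹ * x * c y) * g⁻¹ := this.symm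
        _ = g * (c y)⁻¹ * x * (c y * g⁻¹) := by group
    calc g * (c y)⁻¹ * x = g * (c y)⁻¹ * x * (c y * g⁻¹) * (g * (c y)⁻¹) := by group
      _ = x * (g * (c y)⁻¹) := by rw [← h2]
  have key2 : ∀ (y : {y : G // IsConj x y ∧ P y}) (z : Subgroup.centralizer ({x} : Set G)),
      ((z : G) * c y)⁻¹ * x * ((z : G) * c y) = (y : G) := by
    intro y z
    have hz : (z : G) * x = x * (z : G) := Subgroup.mem_centralizer_singleton_iff.1 z.2
    calc ((z : G) * c y)⁻¹ * x * ((z : G) * c y) = (c y)⁻¹ * ((z : G)⁻¹ * (x * (z : G))) * c y := by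
          group
      _ = (c y)⁻¹ * ((z : G)⁻¹ * ((z : G) * x)) * c y := by rw [hz]
      _ = (c y)⁻¹ * x * c y := by group
      _ = (y : G) := hc y
  have hP : ∀ g : {g : G // P (g⁻¹ * x * g)}, IsConj x ((g : G)⁻¹ * x * (g : G)) ∧
      P ((g : G)⁻¹ * x * (g : G)) := fun g => ⟨isConj_iff.2 ⟨(g : G)⁻¹, by simp⟩, g.2⟩
  let e : {g : G // P (g⁻¹ * x * g)} ≃
      {y : G // IsConj x y ∧ P y} × Subgroup.centralizer ({x} : Set G) :=
    { toFun := fun g => (⟨(g : G)⁻¹ * x * (g : G), hP g⟩,
        ⟨(g : G) * (c ⟨(g : G)⁻¹ * x * (g : G), hP g⟩)⁻¹, key g _ rfl⟩)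
      invFun := fun yz => ⟨(yz.2 : G) * c yz.1, by rw [key2]; exact yz.1.2.2⟩
      left_inv := by
        intro g
        apply Subtype.ext
        simp
      right_inv := by
        rintro ⟨y, z⟩
        have h1 : (⟨((z : G) * c y)⁻¹ * x * ((z : G) * c y), hP ⟨(z : G) * c y,
            by rw [key2]; exact y.2.2⟩⟩ : {y : G // IsConj x y ∧ P y}) = y :=
          Subtype.ext (key2 y z)
        refine Prod.ext h1 ?_
        apply Subtype.ext
        show (z : G) * c y * (c ⟨((z : G) * c y)⁻¹ * x * ((z : G) * c y), _⟩)⁻¹ = (z : G)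
        rw [h1]
        group }
  rw [Nat.card_congr e, Nat.card_prod]

theorem card_conj_mul_card_centralizer [Finite G] (x : G) :
    Nat.card {y : G // IsConj x y} * Nat.card (Subgroup.centralizer ({x} : Set G)) =
      Nat.card G := by
  have h := card_conj_fiber x (fun _ => True)
  have e1 : Nat.card {g : G // (fun _ : G => True) (g⁻¹ * x * g)} = Nat.card G :=
    Nat.card_congr (Equiv.subtypeUnivEquiv (fun _ => trivial))
  have e2 : Nat.card {y : G // IsConj x y ∧ (fun _ : G => True) y} =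
      Nat.card {y : G // IsConj x y} :=
    Nat.card_congr (Equiv.subtypeEquivRight (fun y => by simp))
  rw [e1, e2] at h
  exact h.symm

theorem card_fixed_cosets [Finite G] (H : Subgroup G) (x : G) :
    Nat.card (MulAction.fixedBy (G ⧸ H) x) * Nat.card H =
      Nat.card {g : G // g⁻¹ * x * g ∈ H} := by
  have e := QuotientGroup.preimageMkEquivSubgroupProdSet H (MulAction.fixedBy (G ⧸ H) x)
  have h1 : Nat.card ↥((QuotientGroup.mk : G → G ⧸ H) ⁻¹' (MulAction.fixedBy (G ⧸ H) x)) =
      Nat.card H * Nat.card (MulAction.fixedBy (G ⧸ H) x) := by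
    rw [Nat.card_congr e, Nat.card_prod]
  rw [mul_comm, ← h1]
  apply Nat.card_congr
  apply Equiv.subtypeEquivRight
  intro g
  rw [Set.mem_preimage, MulAction.mem_fixedBy, MulAction.Quotient.smul_mk, smul_eq_mul,
    QuotientGroup.eq]
  constructor
  · intro h
    have := H.inv_mem h
    rw [mul_inv_rev, inv_inv] at this
    rwa [mul_assoc]
  · intro h
    have := H.inv_mem h
    rw [mul_inv_rev, mul_inv_rev, inv_inv, ← mul_assoc] at this
    have e2 : (x * g)⁻¹ * g = g⁻¹ * x⁻¹ * g := by group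
    rw [e2]
    exact this

theorem fixed_cosets_formula [Finite G] (H : Subgroup G) (x : G) :
    Nat.card (MulAction.fixedBy (G ⧸ H) x) * Nat.card {g : G // IsConj x g} =
      H.index * Nat.card {g : G // IsConj x g ∧ g ∈ H} := by
  have h1 := card_fixed_cosets H x
  have h2 := card_conj_fiber x (fun g => g ∈ H)
  have h3 := card_conj_mul_card_centralizer x
  have h4 : H.index * Nat.card H = Nat.card G := H.index_mul_card
  have hpos : 0 < Nat.card H := Nat.card_pos
  have hcpos : 0 < Nat.card (Subgroup.centralizer ({x} : Set G)) := Nat.card_pos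
  apply Nat.eq_of_mul_eq_mul_right (Nat.mul_pos hpos hcpos)
  calc Nat.card (MulAction.fixedBy (G ⧸ H) x) * Nat.card {g : G // IsConj x g} *
        (Nat.card H * Nat.card (Subgroup.centralizer ({x} : Set G)))
      = (Nat.card (MulAction.fixedBy (G ⧸ H) x) * Nat.card H) *
        (Nat.card {g : G // IsConj x g} * Nat.card (Subgroup.centralizer ({x} : Set G))) := by
        ring
    _ = Nat.card {g : G // g⁻¹ * x * g ∈ H} * Nat.card G := by rw [h1, h3]
    _ = (Nat.card {y : G // IsConj x y ∧ y ∈ H} *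
          Nat.card (Subgroup.centralizer ({x} : Set G))) * (H.index * Nat.card H) := by
        rw [h2, h4]
    _ = H.index * Nat.card {g : G // IsConj x g ∧ g ∈ H} *
        (Nat.card H * Nat.card (Subgroup.centralizer ({x} : Set G))) := by ring

end Cfsg.Agent.Lib.Helper2.ConjCount
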