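import Mathlib
import Cfsg.Agent.Lib.Helper2.SylowAux
import Cfsg.Agent.Lib.Helper2.Sub

set_option autoImplicit false

namespace Cfsg.Agent.Lib.Helper2.DefectCl

variable {G : Type*} [Group G] [Finite G] {p : ℕ} [Fact p.Prime]

theorem card_of_sylIn (H P : Subgroup G) (S : Sylow p H)
    (hS : (S : Subgroup H).map H.subtype = P) :
    P ≤ H ∧ Nat.card P = p ^ (Nat.card H).factorization p := by
  subst hS
  refine ⟨Subgroup.map_subtype_le _, ?_⟩
  rw [Subgroup.card_map_of_injective H.subtype_injective]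
  exact S.card_eq_multiplicity

theorem sylIn_of_card (H P : Subgroup G) (hPH : P ≤ H)
    (hcard : Nat.card P = p ^ (Nat.card H).factorization p) :
    ∃ S : Sylow p H, (S : Subgroup H).map H.subtype = P := by
  have h1 : Nat.card (P.subgroupOf H) = p ^ (Nat.card H).factorization p := by
    rw [← hcard]
    exact Nat.card_congr (Subgroup.subgroupOfEquivOfLe hPH).toEquiv
  refine ⟨Sylow.ofCard (P.subgroupOf H) h1, ?_⟩
  show (P.subgroupOf H).map H.subtype = P
  exact Subgroup.map_subgroupOf_eq_of_le hPH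

theorem conj_in (H A B : Subgroup G) (hA : A ≤ H) (hB : B ≤ H)
    (hcA : Nat.card A = p ^ (Nat.card H).factorization p)
    (hcB : Nat.card B = p ^ (Nat.card H).factorization p) :
    ∃ z ∈ H, ∀ x, x ∈ B ↔ z⁻¹ * x * z ∈ A := by
  obtain ⟨SA, hSA⟩ := sylIn_of_card H A hA hcA
  obtain ⟨SB, hSB⟩ := sylIn_of_card H B hB hcB
  obtain ⟨z, hz⟩ := MulAction.exists_smul_eq H SA SB
  refine ⟨z, z.2, ?_⟩
  intro x
  constructor
  · intro hx
    rw [← hSB] at hx
    obtain ⟨y, hy, rfl⟩ := Subgroup.mem_map.1 hx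
    rw [← hSA]
    have h1 : y ∈ ((z • SA : Sylow p H) : Subgroup H) := by rw [hz]; exact hy
    rw [SylowAux.mem_smul_sylow] at h1
    exact Subgroup.mem_map.2 ⟨_, h1, rfl⟩
  · intro hx
    rw [← hSA] at hx
    obtain ⟨y, hy, hyx⟩ := Subgroup.mem_map.1 hx
    rw [← hSB]
    have h1 : z * y * z⁻¹ ∈ ((z • SA : Sylow p H) : Subgroup H) := by
      rw [SylowAux.mem_smul_sylow]
      have e : z⁻¹ * (z * y * z⁻¹) * z = y := by group
      rw [e]
      exact hy
    rw [hz] at h1
    refine Subgroup.mem_map.2 ⟨_, h1, ?_⟩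
    show (z : G) * (y : G) * (z : G)⁻¹ = x
    have hyx' : (y : G) = (z : G)⁻¹ * x * (z : G) := hyx
    rw [hyx']
    group

theorem card_centralizer_conj (a g : G) :
    Nat.card (Subgroup.centralizer ({a * g * a⁻¹} : Set G))
      = Nat.card (Subgroup.centralizer ({g} : Set G)) := by
  have key : ∀ (a g x : G), x ∈ Subgroup.centralizer ({g} : Set G) →
      a * x * a⁻¹ ∈ Subgroup.centralizer ({a * g * a⁻¹} : Set G) := by
    intro a g x hx
    rw [Subgroup.mem_centralizer_iff] at hx ⊢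
    intro h hh
    rw [Set.mem_singleton_iff] at hh
    have h1 := hx g (Set.mem_singleton g)
    rw [hh]
    calc a * g * a⁻¹ * (a * x * a⁻¹) = a * (g * x) * a⁻¹ := by group
      _ = a * (x * g) * a⁻¹ := by rw [h1]
      _ = _ := by group
  apply Nat.card_congr
  refine ⟨fun x => ⟨a⁻¹ * (x : G) * a, ?_⟩, fun x => ⟨a * (x : G) * a⁻¹, key a g x x.2⟩, ?_, ?_⟩
  · have := key a⁻¹ (a * g * a⁻¹) x x.2
    rw [inv_inv] at this
    have e : a⁻¹ * (a * g * a⁻¹) * a = g := by group
    rw [e] at this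
    exact this
  · intro x
    apply Subtype.ext
    show a * (a⁻¹ * (x : G) * a) * a⁻¹ = x
    group
  · intro x
    apply Subtype.ext
    show a⁻¹ * (a * (x : G) * a⁻¹) * a = x
    group

theorem main (P : Subgroup G) (hP : IsPGroup p P) :
    (∀ g : G, (∃ S : Sylow p (Subgroup.centralizer ({g} : Set G)),
        (S : Subgroup (Subgroup.centralizer ({g} : Set G))).map
          (Subgroup.centralizer ({g} : Set G)).subtype = P) →
      (∃ c : G, IsConj g c ∧ c ∈ Subgroup.centralizer (P : Set G)) ∧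
      (∀ c₁ c₂ : G, IsConj g c₁ → IsConj g c₂ → c₁ ∈ Subgroup.centralizer (P : Set G) →
        c₂ ∈ Subgroup.centralizer (P : Set G) →
        ∃ n ∈ Subgroup.normalizer (P : Set G), n * c₁ * n⁻¹ = c₂)) ∧
    (∀ c : G, c ∈ Subgroup.centralizer (P : Set G) →
      (∃ S : Sylow p (Subgroup.centralizer ({c} : Set G) ⊓ Subgroup.normalizer (P : Set G) :
          Subgroup G),
        (S : Subgroup ↥(Subgroup.centralizer ({c} : Set G) ⊓
          Subgroup.normalizer (P : Set G))).map
          (Subgroup.centralizer ({c} : Set G) ⊓ Subgroup.normalizer (P : Set G)).subtype = P) →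
      ∃ S : Sylow p (Subgroup.centralizer ({c} : Set G)),
        (S : Subgroup (Subgroup.centralizer ({c} : Set G))).map
          (Subgroup.centralizer ({c} : Set G)).subtype = P) := by
  have hp : p.Prime := Fact.out
  have hle_of : ∀ c : G, c ∈ Subgroup.centralizer (P : Set G) →
      P ≤ Subgroup.centralizer ({c} : Set G) := by
    intro c hc x hx
    rw [Subgroup.mem_centralizer_iff]
    intro h hh
    rw [Set.mem_singleton_iff] at hh
    rw [hh]
    exact ((Subgroup.mem_centralizer_iff.1 hc) x hx).symm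
  constructor
  · rintro g ⟨S, hS⟩
    obtain ⟨hPg, hcard⟩ := card_of_sylIn _ P S hS
    have hgP : g ∈ Subgroup.centralizer (P : Set G) := by
      rw [Subgroup.mem_centralizer_iff]
      intro h hh
      exact ((Subgroup.mem_centralizer_iff.1 (hPg hh)) g (Set.mem_singleton g)).symm
    refine ⟨⟨g, IsConj.refl g, hgP⟩, ?_⟩
    intro c₁ c₂ hc₁ hc₂ hc₁P hc₂P
    obtain ⟨a, ha⟩ := isConj_iff.1 hc₁
    obtain ⟨b, hb⟩ := isConj_iff.1 hc₂
    have hcard2 : Nat.card P = p ^ (Nat.card (Subgroup.centralizer ({c₂} : Set G))).factorization p := by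
      rw [← hb, card_centralizer_conj]
      exact hcard
    have hh : (b * a⁻¹) * c₁ * (b * a⁻¹)⁻¹ = c₂ := by
      rw [← ha, ← hb]
      group
    have hA : P.map (MulAut.conj (b * a⁻¹)).toMonoidHom ≤ Subgroup.centralizer ({c₂} : Set G) := by
      rintro _ ⟨x, hx, rfl⟩
      rw [Subgroup.mem_centralizer_iff]
      intro h hh2
      rw [Set.mem_singleton_iff] at hh2
      have h1 : x * c₁ = c₁ * x := (Subgroup.mem_centralizer_iff.1 hc₁P) x hx
      rw [hh2, ← hh]
      show (b * a⁻¹) * c₁ * (b * a⁻¹)⁻¹ * ((b * a⁻¹) * x * (b * a⁻¹)⁻¹)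
        = (b * a⁻¹) * x * (b * a⁻¹)⁻¹ * ((b * a⁻¹) * c₁ * (b * a⁻¹)⁻¹)
      calc (b * a⁻¹) * c₁ * (b * a⁻¹)⁻¹ * ((b * a⁻¹) * x * (b * a⁻¹)⁻¹)
          = (b * a⁻¹) * (c₁ * x) * (b * a⁻¹)⁻¹ := by group
        _ = (b * a⁻¹) * (x * c₁) * (b * a⁻¹)⁻¹ := by rw [h1]
        _ = _ := by group
    have hcA : Nat.card (P.map (MulAut.conj (b * a⁻¹)).toMonoidHom)
        = p ^ (Nat.card (Subgroup.centralizer ({c₂} : Set G))).factorization p := by
      rw [Subgroup.card_map_of_injective (MulEquiv.injective _)]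
      exact hcard2
    obtain ⟨z, hz, hzP⟩ := conj_in _ _ P hA (hle_of c₂ hc₂P) hcA hcard2
    refine ⟨z * (b * a⁻¹), ?_, ?_⟩
    · rw [Subgroup.mem_normalizer_iff]
      intro x
      rw [hzP (z * (b * a⁻¹) * x * (z * (b * a⁻¹))⁻¹), SylowAux.mem_map_conj]
      have e : (b * a⁻¹)⁻¹ * (z⁻¹ * (z * (b * a⁻¹) * x * (z * (b * a⁻¹))⁻¹) * z) * (b * a⁻¹) = x := by
        group
      rw [e]
    · have h1 : z * c₂ = c₂ * z :=
        ((Subgroup.mem_centralizer_iff.1 hz) c₂ (Set.mem_singleton c₂)).symm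
      calc z * (b * a⁻¹) * c₁ * (z * (b * a⁻¹))⁻¹
          = z * ((b * a⁻¹) * c₁ * (b * a⁻¹)⁻¹) * z⁻¹ := by group
        _ = z * c₂ * z⁻¹ := by rw [hh]
        _ = c₂ := by rw [h1, mul_inv_cancel_right]
  · rintro c hc ⟨S, hS⟩
    obtain ⟨hPM, hcard⟩ := card_of_sylIn _ P S hS
    have hPc := hle_of c hc
    obtain ⟨Q, hQ⟩ := (hP.comap_subtype (K := Subgroup.centralizer ({c} : Set G))).exists_le_sylow
    refine ⟨Q, ?_⟩
    have hPQ : P ≤ (Q : Subgroup (Subgroup.centralizer ({c} : Set G))).map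
        (Subgroup.centralizer ({c} : Set G)).subtype := by
      intro x hx
      exact Subgroup.mem_map.2 ⟨⟨x, hPc hx⟩, hQ (show x ∈ P from hx), rfl⟩
    have hQp : IsPGroup p ((Q : Subgroup (Subgroup.centralizer ({c} : Set G))).map
        (Subgroup.centralizer ({c} : Set G)).subtype) := Q.2.map _
    by_contra hne
    obtain ⟨x, hxQ, hxP, hxn⟩ := SylowAux.exists_normalizing_not_mem hQp hPQ (fun h => hne h.symm)
    have hR : IsPGroup p ((Q : Subgroup (Subgroup.centralizer ({c} : Set G))).map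
        (Subgroup.centralizer ({c} : Set G)).subtype ⊓ Subgroup.normalizer (P : Set G) :
          Subgroup G) := hQp.to_le inf_le_left
    have hPR : P ≤ (Q : Subgroup (Subgroup.centralizer ({c} : Set G))).map
        (Subgroup.centralizer ({c} : Set G)).subtype ⊓ Subgroup.normalizer (P : Set G) :=
      le_inf hPQ Subgroup.le_normalizer
    have hxR : x ∈ (Q : Subgroup (Subgroup.centralizer ({c} : Set G))).map
        (Subgroup.centralizer ({c} : Set G)).subtype ⊓ Subgroup.normalizer (P : Set G) :=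
      ⟨hxQ, Subgroup.mem_normalizer_iff.2 hxn⟩
    have hRM : (Q : Subgroup (Subgroup.centralizer ({c} : Set G))).map
        (Subgroup.centralizer ({c} : Set G)).subtype ⊓ Subgroup.normalizer (P : Set G)
        ≤ Subgroup.centralizer ({c} : Set G) ⊓ Subgroup.normalizer (P : Set G) :=
      inf_le_inf_right _ (Subgroup.map_subtype_le _)
    generalize (Q : Subgroup (Subgroup.centralizer ({c} : Set G))).map
        (Subgroup.centralizer ({c} : Set G)).subtype ⊓ Subgroup.normalizer (P : Set G) = R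
        at hR hPR hxR hRM
    obtain ⟨k, hk⟩ := hR.exists_card_eq
    have h1 : p ^ k ∣ Nat.card (Subgroup.centralizer ({c} : Set G) ⊓
        Subgroup.normalizer (P : Set G) : Subgroup G) := by
      rw [← hk]
      exact Subgroup.card_dvd_of_le hRM
    have h2 : k ≤ (Nat.card (Subgroup.centralizer ({c} : Set G) ⊓
        Subgroup.normalizer (P : Set G) : Subgroup G)).factorization p :=
      (hp.pow_dvd_iff_le_factorization Nat.card_pos.ne').1 h1
    have h3 : Nat.card R ≤ Nat.card P := by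
      rw [hk, hcard]
      exact Nat.pow_le_pow_right hp.pos h2
    have h4 : Nat.card P < Nat.card R :=
      Sub.card_lt_of_ne hPR (fun h => hxP (h ▸ hxR))
    omega

end Cfsg.Agent.Lib.Helper2.DefectCl
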