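import Mathlib

set_option autoImplicit false

namespace Cfsg.Agent.Lib.Helper2.Deg13

open Subgroup

theorem main {α : Type*} [Fintype α] [DecidableEq α] (hα : Fintype.card α = 13)
    (G : Subgroup (Equiv.Perm α)) :
    Nat.card G ≠ 13 * 12 * 11 * 10 * 9 * 8 := by
  intro hG
  haveI : Fact (Nat.Prime 13) := ⟨by norm_num⟩
  obtain ⟨P⟩ : Nonempty (Sylow 13 G) := inferInstance
  have hPcard : Nat.card P = 13 := by
    rw [Sylow.card_eq_multiplicity, hG]
    have h1 : (13 * 12 * 11 * 10 * 9 * 8 : ℕ).factorization 13 = 1 := by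
      have e : (13 * 12 * 11 * 10 * 9 * 8 : ℕ) = 13 ^ 1 * 95040 := by norm_num
      rw [e, Nat.factorization_mul (by norm_num) (by norm_num), Nat.Prime.factorization_pow
        (by norm_num)]
      simp
      rw [Nat.factorization_eq_zero_of_not_dvd (by norm_num)]
    rw [h1, pow_one]
  have hcyc : IsCyclic P := isCyclic_of_prime_card hPcard
  obtain ⟨s, hs⟩ := hcyc.exists_generator
  have hos : orderOf s = 13 := by
    rw [orderOf_eq_card_of_forall_mem_zpowers hs, hPcard]
  set σ : Equiv.Perm α := ((s : G) : Equiv.Perm α) with hσ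
  have hoσ : orderOf σ = 13 := by
    rw [hσ, Subgroup.orderOf_coe, Subgroup.orderOf_coe, hos]
  have hcycle : σ.IsCycle := by
    apply Equiv.Perm.isCycle_of_prime_order (by rw [hoσ]; norm_num)
    rw [hoσ]
    calc σ.support.card ≤ Fintype.card α := Finset.card_le_univ _
      _ < 2 * 13 := by rw [hα]; norm_num
  have hsupp : σ.support = Finset.univ := by
    apply Finset.eq_univ_of_card
    rw [← hcycle.orderOf, hoσ, hα]
  have htrans : ∀ x y : α, ∃ i : ℤ, (σ ^ i) x = y := by
    intro x y
    exact hcycle.sameCycle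
      (by rw [← Equiv.Perm.mem_support, hsupp]; exact Finset.mem_univ _)
      (by rw [← Equiv.Perm.mem_support, hsupp]; exact Finset.mem_univ _)
  have hαne : Nonempty α := by
    rw [← Fintype.card_pos_iff, hα]; norm_num
  obtain ⟨a⟩ := hαne
  set C := Subgroup.centralizer (P : Set G) with hC
  have hcomm : ∀ c : C, Commute ((c : G) : Equiv.Perm α) σ := by
    intro c
    have h1 := (Subgroup.mem_centralizer_iff.1 c.2) (s : G) s.2
    have h2 : ((s : G) : Equiv.Perm α) * ((c : G) : Equiv.Perm α)
        = ((c : G) : Equiv.Perm α) * ((s : G) : Equiv.Perm α) := by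
      rw [← Subgroup.coe_mul, ← Subgroup.coe_mul, h1]
    exact h2.symm
  have hinj : Function.Injective (fun c : C => ((c : G) : Equiv.Perm α) a) := by
    intro c c' h
    have h' : ((c : G) : Equiv.Perm α) a = ((c' : G) : Equiv.Perm α) a := h
    apply Subtype.ext
    apply Subtype.ext
    ext x
    obtain ⟨i, rfl⟩ := htrans a x
    have e1 := ((hcomm c).zpow_right i).eq
    have e2 := ((hcomm c').zpow_right i).eq
    have e1' := congrArg (fun τ : Equiv.Perm α => τ a) e1
    have e2' := congrArg (fun τ : Equiv.Perm α => τ a) e2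
    simp only [Equiv.Perm.mul_apply] at e1' e2'
    rw [e1', e2', h']
  have hCle : Nat.card C ≤ 13 := by
    have := Nat.card_le_card_of_injective _ hinj
    rwa [Nat.card_eq_fintype_card (α := α), hα] at this
  have hPC : (P : Subgroup G) ≤ C := by
    intro x hx
    rw [hC, Subgroup.mem_centralizer_iff]
    intro y hy
    letI := hcyc.commGroup
    have := mul_comm (⟨y, hy⟩ : P) ⟨x, hx⟩
    exact congrArg Subtype.val this
  have hCcard : Nat.card C = 13 := by
    have h1 : Nat.card P ∣ Nat.card C := Subgroup.card_dvd_of_le hPC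
    rw [hPcard] at h1
    have hpos : 0 < Nat.card C := Nat.card_pos
    exact le_antisymm hCle (Nat.le_of_dvd hpos h1)
  have hn1 : Nat.card (Sylow 13 G) ≡ 1 [MOD 13] := card_sylow_modEq_one 13 G
  have hn3 : Nat.card (Sylow 13 G) = (Subgroup.normalizer (P : Set G)).index :=
    Sylow.card_eq_index_normalizer P
  have key := Subgroup.card_dvd_of_injective _
    (QuotientGroup.kerLift_injective (P : Subgroup G).normalizerMonoidHom)
  rw [Subgroup.normalizerMonoidHom_ker, ← Subgroup.index, ← Subgroup.relIndex] at key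
  rw [hcyc.card_mulAut, hPcard, Nat.totient_prime (by norm_num)] at key
  replace key : C.relIndex (Subgroup.normalizer (P : Set G)) ∣ 12 := key
  have hCN : C ≤ Subgroup.normalizer (P : Set G) :=
    Subgroup.centralizer_le_normalizer _
  have hN : Nat.card (Subgroup.normalizer (P : Set G))
      = C.relIndex (Subgroup.normalizer (P : Set G)) * 13 := by
    have h := Subgroup.card_mul_index (C.subgroupOf (Subgroup.normalizer (P : Set G)))
    rw [Nat.card_congr (Subgroup.subgroupOfEquivOfLe hCN).toEquiv, hCcard] at h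
    rw [Subgroup.relIndex, ← h, mul_comm]
  have h := Subgroup.card_mul_index (Subgroup.normalizer (P : Set G))
  rw [← hn3, hN, hG] at h
  unfold Nat.ModEq at hn1
  have hdle : C.relIndex (Subgroup.normalizer (P : Set G)) ≤ 12 :=
    Nat.le_of_dvd (by norm_num) key
  have hdpos : 0 < C.relIndex (Subgroup.normalizer (P : Set G)) := by
    rcases Nat.eq_zero_or_pos (C.relIndex (Subgroup.normalizer (P : Set G))) with h0 | h0
    · rw [h0] at key
      omega
    · exact h0
  generalize C.relIndex (Subgroup.normalizer (P : Set G)) = d at key h hdle hdpos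
  generalize Nat.card (Sylow 13 G) = n at hn1 h
  interval_cases d <;> omega

end Cfsg.Agent.Lib.Helper2.Deg13
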