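import Mathlib

set_option autoImplicit false

namespace Cfsg.Agent.Lib.Helper2.DiagForm

variable {F : Type*} [Field F] {ι : Type*} [Fintype ι] [DecidableEq ι]

theorem polar_single (w : ι → F) (i j : ι) :
    QuadraticMap.polar (QuadraticMap.weightedSumSquares F w) (Pi.single i 1) (Pi.single j 1) =
      if i = j then 2 * w i else 0 := by
  have hQ : ∀ v : ι → F, QuadraticMap.weightedSumSquares F w v = ∑ k, w k * (v k * v k) := by
    intro v
    rw [QuadraticMap.weightedSumSquares_apply]
    rfl
  rw [QuadraticMap.polar, hQ, hQ, hQ, ← Finset.sum_sub_distrib, ← Finset.sum_sub_distrib]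
  have h1 : ∀ k, w k * ((Pi.single i 1 + Pi.single j 1 : ι → F) k *
      (Pi.single i 1 + Pi.single j 1 : ι → F) k) -
      w k * ((Pi.single i 1 : ι → F) k * (Pi.single i 1 : ι → F) k) -
      w k * ((Pi.single j 1 : ι → F) k * (Pi.single j 1 : ι → F) k) =
      2 * w k * ((Pi.single i 1 : ι → F) k * (Pi.single j 1 : ι → F) k) := by
    intro k
    rw [Pi.add_apply]
    ring
  rw [Finset.sum_congr rfl (fun k _ => h1 k)]
  by_cases hij : i = j
  · subst hij
    rw [if_pos rfl, Finset.sum_eq_single i]
    · simp
    · intro k _ hk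
      simp [Pi.single_apply, hk]
    · intro h
      exact absurd (Finset.mem_univ i) h
  · rw [if_neg hij]
    apply Finset.sum_eq_zero
    intro k _
    by_cases hk : k = i
    · have hkj : k ≠ j := fun h => hij (hk.symm.trans h)
      simp [Pi.single_apply, hkj]
    · simp [Pi.single_apply, hk]

theorem toMatrix_eq (w : ι → F) :
    LinearMap.BilinForm.toMatrix' (QuadraticMap.polarBilin (QuadraticMap.weightedSumSquares F w)) =
      Matrix.diagonal (fun i => 2 * w i) := by
  ext i j
  rw [LinearMap.BilinForm.toMatrix'_apply, Matrix.diagonal_apply]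
  exact polar_single w i j

theorem det_rel (w₁ w₂ : ι → F) (e : (ι → F) ≃ₗ[F] (ι → F))
    (he : ∀ v, QuadraticMap.weightedSumSquares F w₂ (e v) =
      QuadraticMap.weightedSumSquares F w₁ v) :
    (LinearMap.toMatrix' e.toLinearMap).det ^ 2 * ∏ i, (2 * w₂ i) = ∏ i, (2 * w₁ i) := by
  have hcomp : LinearMap.BilinForm.comp
      (QuadraticMap.polarBilin (QuadraticMap.weightedSumSquares F w₂))
      e.toLinearMap e.toLinearMap =
      QuadraticMap.polarBilin (QuadraticMap.weightedSumSquares F w₁) := by
    apply LinearMap.ext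
    intro x
    apply LinearMap.ext
    intro y
    show QuadraticMap.polar (QuadraticMap.weightedSumSquares F w₂) (e x) (e y) =
      QuadraticMap.polar (QuadraticMap.weightedSumSquares F w₁) x y
    rw [QuadraticMap.polar, QuadraticMap.polar, ← map_add, he, he, he]
  have h1 := LinearMap.BilinForm.toMatrix'_comp
    (QuadraticMap.polarBilin (QuadraticMap.weightedSumSquares F w₂)) e.toLinearMap e.toLinearMap
  rw [hcomp, toMatrix_eq, toMatrix_eq] at h1
  have h2 := congrArg Matrix.det h1
  rw [Matrix.det_mul, Matrix.det_mul, Matrix.det_transpose, Matrix.det_diagonal,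
    Matrix.det_diagonal] at h2
  rw [h2]
  ring

end Cfsg.Agent.Lib.Helper2.DiagForm
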