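import Mathlib

set_option autoImplicit false

namespace Cfsg.Agent.Lib.Helper2.GL2Reg

abbrev N4 := ℕ × ℕ × ℕ × ℕ

def matN (p : ℕ) (s : N4) : Matrix (Fin 2) (Fin 2) (ZMod p) :=
  !![(s.1 : ZMod p), (s.2.1 : ZMod p); (s.2.2.1 : ZMod p), (s.2.2.2 : ZMod p)]

def mulN (p : ℕ) (s t : N4) : N4 :=
  ((s.1 * t.1 + s.2.1 * t.2.2.1) % p, (s.1 * t.2.1 + s.2.1 * t.2.2.2) % p,
   (s.2.2.1 * t.1 + s.2.2.2 * t.2.2.1) % p, (s.2.2.1 * t.2.1 + s.2.2.2 * t.2.2.2) % p)

def oneN : N4 := (1, 0, 0, 1)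

def red (p : ℕ) (s : N4) : Prop := s.1 < p ∧ s.2.1 < p ∧ s.2.2.1 < p ∧ s.2.2.2 < p

instance (p : ℕ) (s : N4) : Decidable (red p s) := by
  unfold red
  infer_instance

def detN (p : ℕ) (s : N4) : ℕ :=
  (s.1 + (p - 1)) * (s.2.2.2 + (p - 1)) + (p - 1) * (s.2.1 * s.2.2.1)

variable {p : ℕ}

theorem matN_one : matN p oneN = 1 := by
  unfold matN oneN
  rw [Matrix.one_fin_two]
  simp

theorem matN_mulN (s t : N4) : matN p (mulN p s t) = matN p s * matN p t := by
  unfold matN mulN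
  rw [Matrix.mul_fin_two]
  simp only [ZMod.natCast_mod]
  push_cast
  rfl

theorem cast_inj_of_lt {a b : ℕ} (ha : a < p) (hb : b < p) (h : (a : ZMod p) = (b : ZMod p)) :
    a = b := by
  rw [ZMod.natCast_eq_natCast_iff'] at h
  rwa [Nat.mod_eq_of_lt ha, Nat.mod_eq_of_lt hb] at h

theorem matN_inj {s t : N4} (hs : red p s) (ht : red p t) (h : matN p s = matN p t) : s = t := by
  have h00 := congrFun (congrFun h 0) 0
  have h01 := congrFun (congrFun h 0) 1
  have h10 := congrFun (congrFun h 1) 0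
  have h11 := congrFun (congrFun h 1) 1
  simp [matN] at h00 h01 h10 h11
  exact Prod.ext (cast_inj_of_lt hs.1 ht.1 h00) (Prod.ext (cast_inj_of_lt hs.2.1 ht.2.1 h01)
    (Prod.ext (cast_inj_of_lt hs.2.2.1 ht.2.2.1 h10) (cast_inj_of_lt hs.2.2.2 ht.2.2.2 h11)))

def chain (p : ℕ) (gens : List N4) : List N4 → List N4 → Bool
  | [], _ => true
  | s :: rest, seen =>
    (decide (s = oneN) || gens.any (fun g => seen.any (fun t => decide (s = mulN p g t)))) &&
      chain p gens rest (s :: seen)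

theorem chain_sound (P : N4 → Prop) (gens : List N4) (h1 : P oneN)
    (hstep : ∀ g ∈ gens, ∀ t, P t → P (mulN p g t)) :
    ∀ (L seen : List N4), chain p gens L seen = true → (∀ t ∈ seen, P t) → ∀ s ∈ L, P s := by
  intro L
  induction L with
  | nil => intro seen _ _ s hs; simp at hs
  | cons a rest ih =>
    intro seen hc hseen s hs
    unfold chain at hc
    rw [Bool.and_eq_true, Bool.or_eq_true] at hc
    obtain ⟨hc1, hc2⟩ := hc
    have ha : P a := by
      rcases hc1 with h | h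
      · rw [decide_eq_true_eq] at h
        rw [h]; exact h1
      · rw [List.any_eq_true] at h
        obtain ⟨g, hg, h⟩ := h
        rw [List.any_eq_true] at h
        obtain ⟨t, ht, h⟩ := h
        rw [decide_eq_true_eq] at h
        rw [h]
        exact hstep g hg t (hseen t ht)
    rcases List.mem_cons.1 hs with rfl | hs'
    · exact ha
    · apply ih (a :: seen) hc2 _ s hs'
      intro t ht
      rcases List.mem_cons.1 ht with rfl | ht'
      · exact ha
      · exact hseen t ht'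

theorem upper {n : Type*} [Fintype n] [DecidableEq n] {R : Type*} [CommRing R]
    (S : Set (Matrix.GeneralLinearGroup n R)) (T : Set (Matrix n n R)) (hfin : T.Finite)
    (h1 : 1 ∈ T) (hleft : ∀ g ∈ S, ∀ t ∈ T, (g : Matrix n n R) * t ∈ T) :
    ∀ h ∈ Subgroup.closure S, (h : Matrix n n R) ∈ T := by
  let K : Subgroup (Matrix.GeneralLinearGroup n R) :=
    { carrier := {g | ∀ t ∈ T, (g : Matrix n n R) * t ∈ T}
      mul_mem' := by
        intro a b ha hb t ht
        rw [Units.val_mul, mul_assoc]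
        exact ha _ (hb t ht)
      one_mem' := by
        intro t ht
        rw [Units.val_one, one_mul]
        exact ht
      inv_mem' := by
        intro g hg t ht
        haveI : Finite T := hfin.to_subtype
        let f : T → T := fun t => ⟨(g : Matrix n n R) * t.1, hg t.1 t.2⟩
        have hinj : Function.Injective f := by
          intro a b hab
          have h2 : (g : Matrix n n R) * a.1 = (g : Matrix n n R) * b.1 := congrArg Subtype.val hab
          exact Subtype.ext ((Units.mul_right_inj g).1 h2)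
        obtain ⟨t', ht'⟩ := (Finite.injective_iff_surjective.1 hinj) ⟨t, ht⟩
        have h3 : (g : Matrix n n R) * t'.1 = t := congrArg Subtype.val ht'
        rw [← h3, Units.inv_mul_cancel_left]
        exact t'.2 }
  intro h hh
  have hK : Subgroup.closure S ≤ K := (Subgroup.closure_le K).2 (fun g hg => hleft g hg)
  have := hK hh 1 h1
  rwa [mul_one] at this

theorem card_eq_of_image {n : Type*} [Fintype n] [DecidableEq n] {R : Type*} [CommRing R]
    (H : Subgroup (Matrix.GeneralLinearGroup n R)) (T : Finset (Matrix n n R))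
    (hT : ∀ M : Matrix n n R, M ∈ T ↔ ∃ h ∈ H, (h : Matrix n n R) = M) :
    Nat.card H = T.card := by
  have e : H ≃ {M // M ∈ T} := Equiv.ofBijective
    (fun h => ⟨((h : Matrix.GeneralLinearGroup n R) : Matrix n n R), (hT _).2 ⟨h.1, h.2, rfl⟩⟩)
    ⟨fun a b hab => Subtype.ext (Units.ext (congrArg Subtype.val hab)),
      fun M => by
        obtain ⟨h, hh, hM⟩ := (hT M.1).1 M.2
        exact ⟨⟨h, hh⟩, Subtype.ext hM⟩⟩
  rw [Nat.card_congr e, Nat.card_eq_fintype_card, Fintype.card_coe]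

theorem free_of_det' [Fact p.Prime] (a b c d : ZMod p)
    (hdet : (a - 1) * (d - 1) - b * c ≠ 0) (v : Fin 2 → ZMod p)
    (hv : Matrix.mulVec !![a, b; c, d] v = v) : v = 0 := by
  have h0 := congrFun hv 0
  have h1 := congrFun hv 1
  simp [Matrix.mulVec, dotProduct, Fin.sum_univ_two] at h0 h1
  have e0 : ((a - 1) * (d - 1) - b * c) * v 0 = 0 := by
    linear_combination (d - 1) * h0 - b * h1
  have e1 : ((a - 1) * (d - 1) - b * c) * v 1 = 0 := by
    linear_combination (a - 1) * h1 - c * h0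
  funext i
  fin_cases i
  · exact (mul_eq_zero.1 e0).resolve_left hdet
  · exact (mul_eq_zero.1 e1).resolve_left hdet

theorem free_of_det [Fact p.Prime] (s : N4) (hdet : detN p s % p ≠ 0) (v : Fin 2 → ZMod p)
    (hv : Matrix.mulVec (matN p s) v = v) : v = 0 := by
  have hp : 1 ≤ p := (Fact.out : p.Prime).one_lt.le
  apply free_of_det' _ _ _ _ _ v hv
  intro h0
  apply hdet
  apply Nat.mod_eq_zero_of_dvd
  rw [← ZMod.natCast_eq_zero_iff]
  unfold detN
  push_cast [Nat.cast_sub hp]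
  rw [ZMod.natCast_self]
  linear_combination h0

theorem card_nonzero [Fact p.Prime] : Nat.card {w : Fin 2 → ZMod p // w ≠ 0} = p ^ 2 - 1 := by
  haveI : NeZero p := ⟨(Fact.out : p.Prime).ne_zero⟩
  have h1 : Nat.card (Fin 2 → ZMod p) = p ^ 2 := by
    rw [Nat.card_eq_fintype_card, Fintype.card_fun, ZMod.card, Fintype.card_fin]
  have h2 : ({w : Fin 2 → ZMod p | w ≠ 0} : Set (Fin 2 → ZMod p)) = Set.univ \ {0} := by
    ext w; simp
  show Nat.card ({w : Fin 2 → ZMod p | w ≠ 0} : Set (Fin 2 → ZMod p)) = p ^ 2 - 1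
  rw [Nat.card_coe_set_eq, h2, Set.ncard_sdiff_singleton_of_mem (Set.mem_univ _), Set.ncard_univ, h1]

theorem regular [Fact p.Prime] (H : Subgroup (Matrix.GeneralLinearGroup (Fin 2) (ZMod p)))
    (hcard : Nat.card H = p ^ 2 - 1)
    (hfree : ∀ h ∈ H, h ≠ 1 → ∀ v : Fin 2 → ZMod p,
      Matrix.mulVec (h : Matrix (Fin 2) (Fin 2) (ZMod p)) v = v → v = 0) :
    ∀ v w : Fin 2 → ZMod p, v ≠ 0 → w ≠ 0 →
      ∃! h : H, Matrix.mulVec ((h : Matrix.GeneralLinearGroup (Fin 2) (ZMod p)) :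
        Matrix (Fin 2) (Fin 2) (ZMod p)) v = w := by
  haveI : NeZero p := ⟨(Fact.out : p.Prime).ne_zero⟩
  intro v w hv hw
  have hnz : ∀ h : H, Matrix.mulVec ((h : Matrix.GeneralLinearGroup (Fin 2) (ZMod p)) :
      Matrix (Fin 2) (Fin 2) (ZMod p)) v ≠ 0 := by
    intro h h0
    apply hv
    have h2 : Matrix.mulVec (((h : Matrix.GeneralLinearGroup (Fin 2) (ZMod p))⁻¹ :
        Matrix.GeneralLinearGroup (Fin 2) (ZMod p)) : Matrix (Fin 2) (Fin 2) (ZMod p))
        (Matrix.mulVec ((h : Matrix.GeneralLinearGroup (Fin 2) (ZMod p)) :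
          Matrix (Fin 2) (Fin 2) (ZMod p)) v) = v := by
      rw [Matrix.mulVec_mulVec, Units.inv_mul, Matrix.one_mulVec]
    rw [h0, Matrix.mulVec_zero] at h2
    exact h2.symm
  let f : H → {w : Fin 2 → ZMod p // w ≠ 0} := fun h => ⟨_, hnz h⟩
  have hinj : Function.Injective f := by
    intro a b hab
    have h1 : Matrix.mulVec ((a : Matrix.GeneralLinearGroup (Fin 2) (ZMod p)) :
        Matrix (Fin 2) (Fin 2) (ZMod p)) v = Matrix.mulVec
        ((b : Matrix.GeneralLinearGroup (Fin 2) (ZMod p)) : Matrix (Fin 2) (Fin 2) (ZMod p)) v :=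
      congrArg Subtype.val hab
    have h2 : Matrix.mulVec (((b⁻¹ * a : H) : Matrix.GeneralLinearGroup (Fin 2) (ZMod p)) :
        Matrix (Fin 2) (Fin 2) (ZMod p)) v = v := by
      rw [Subgroup.coe_mul, Units.val_mul, ← Matrix.mulVec_mulVec, h1, Matrix.mulVec_mulVec,
        Subgroup.coe_inv, Units.inv_mul, Matrix.one_mulVec]
    by_contra hne
    apply hv
    apply hfree _ (b⁻¹ * a).2 _ v h2
    intro h3
    apply hne
    have h4 : b⁻¹ * a = 1 := Subtype.ext h3
    exact (inv_mul_eq_one.1 h4).symm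
  have hbij : Function.Bijective f :=
    hinj.bijective_of_nat_card_le (by rw [card_nonzero, hcard])
  obtain ⟨h, hh⟩ := hbij.2 ⟨w, hw⟩
  refine ⟨h, congrArg Subtype.val hh, ?_⟩
  intro h' hh'
  apply hinj
  rw [hh]
  exact Subtype.ext hh'

theorem main_list [Fact p.Prime] (S : Set (Matrix.GeneralLinearGroup (Fin 2) (ZMod p)))
    (gens L : List N4)
    (hS : ∀ g ∈ S, ∃ s ∈ gens, (g : Matrix (Fin 2) (Fin 2) (ZMod p)) = matN p s)
    (hS' : ∀ s ∈ gens, ∃ g ∈ S, (g : Matrix (Fin 2) (Fin 2) (ZMod p)) = matN p s)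
    (hone : oneN ∈ L) (hleft : ∀ g ∈ gens, ∀ t ∈ L, mulN p g t ∈ L)
    (hchain : chain p gens L [] = true) (hnodup : L.Nodup) (hred : ∀ s ∈ L, red p s)
    (hlen : L.length = p ^ 2 - 1)
    (hfree : ∀ s ∈ L, s ≠ oneN → detN p s % p ≠ 0) :
    Nat.card (Subgroup.closure S) = p ^ 2 - 1 ∧
    ∀ v w : Fin 2 → ZMod p, v ≠ 0 → w ≠ 0 →
      ∃! h : Subgroup.closure S, Matrix.mulVec ((h : Matrix.GeneralLinearGroup (Fin 2) (ZMod p)) :
        Matrix (Fin 2) (Fin 2) (ZMod p)) v = w := by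
  classical
  have hup : ∀ h ∈ Subgroup.closure S, ∃ s ∈ L,
      (h : Matrix (Fin 2) (Fin 2) (ZMod p)) = matN p s := by
    have := upper S (matN p '' {s | s ∈ L}) ((List.finite_toSet L).image _)
      ⟨oneN, hone, matN_one⟩ (by
        rintro g hg _ ⟨u, hu, rfl⟩
        obtain ⟨s, hs, hgs⟩ := hS g hg
        exact ⟨mulN p s u, hleft s hs u hu, by rw [matN_mulN, hgs]⟩)
    intro h hh
    obtain ⟨s, hs, hsm⟩ := this h hh
    exact ⟨s, hs, hsm.symm⟩
  have hlow : ∀ s ∈ L, ∃ h ∈ Subgroup.closure S,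
      (h : Matrix (Fin 2) (Fin 2) (ZMod p)) = matN p s := by
    apply chain_sound (fun s => ∃ h ∈ Subgroup.closure S,
      (h : Matrix (Fin 2) (Fin 2) (ZMod p)) = matN p s) gens ⟨1, Subgroup.one_mem _, by
        rw [matN_one]; rfl⟩ _ L [] hchain (by intro t ht; simp at ht)
    rintro g hg t ⟨h, hh, hht⟩
    obtain ⟨G, hG, hGg⟩ := hS' g hg
    exact ⟨G * h, Subgroup.mul_mem _ (Subgroup.subset_closure hG) hh, by
      rw [Units.val_mul, hGg, hht, matN_mulN]⟩
  have hcard : Nat.card (Subgroup.closure S) = p ^ 2 - 1 := by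
    rw [card_eq_of_image (Subgroup.closure S) (L.toFinset.image (matN p)),
      Finset.card_image_of_injOn, List.toFinset_card_of_nodup hnodup, hlen]
    · intro s hs t ht hst
      exact matN_inj (hred s (List.mem_toFinset.1 hs)) (hred t (List.mem_toFinset.1 ht)) hst
    · intro M
      rw [Finset.mem_image]
      constructor
      · rintro ⟨s, hs, rfl⟩
        exact hlow s (List.mem_toFinset.1 hs)
      · rintro ⟨h, hh, rfl⟩
        obtain ⟨s, hs, hsm⟩ := hup h hh
        exact ⟨s, List.mem_toFinset.2 hs, hsm.symm⟩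
  refine ⟨hcard, regular _ hcard ?_⟩
  intro h hh hne v hv
  obtain ⟨s, hs, hsm⟩ := hup h hh
  rw [hsm] at hv
  apply free_of_det s (hfree s hs _) v hv
  intro hs1
  apply hne
  apply Units.ext
  rw [hsm, hs1, matN_one]
  rfl

end Cfsg.Agent.Lib.Helper2.GL2Reg
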