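import Mathlib
import Cfsg.Agent.Lib.Helper2.GL2Reg

set_option autoImplicit false

namespace Cfsg.Agent.Lib.Helper2.GL2Data11

open Cfsg.Agent.Lib.Helper2.GL2Reg

def gens : List N4 := [(0, 10, 1, 0), (2, 4, 1, 8)]

def L : List N4 := [
  (1, 0, 0, 1), (0, 10, 1, 0), (2, 4, 1, 8), (10, 0, 0, 10), (4, 9, 8, 10), (10, 3, 2, 4),
  (8, 7, 10, 2), (0, 1, 10, 0), (9, 7, 10, 3), (3, 1, 4, 9), (7, 3, 2, 1), (6, 0, 4, 2),
  (1, 9, 8, 7), (7, 2, 3, 1), (1, 8, 9, 7), (3, 4, 1, 9), (0, 5, 2, 7), (9, 10, 7, 3),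
  (7, 9, 6, 0), (6, 8, 5, 5), (1, 2, 10, 10), (8, 10, 7, 2), (4, 8, 9, 10), (5, 0, 7, 9),
  (10, 2, 3, 4), (9, 4, 0, 5), (8, 5, 5, 6), (2, 10, 10, 1), (5, 7, 0, 9), (6, 6, 6, 8),
  (1, 1, 1, 2), (9, 0, 4, 5), (0, 6, 9, 4), (2, 1, 4, 8), (4, 2, 5, 0), (5, 3, 6, 6),
  (10, 9, 1, 1), (7, 6, 9, 0), (6, 5, 8, 5), (1, 10, 2, 10), (0, 2, 5, 7), (10, 6, 5, 2),
  (3, 0, 10, 4), (6, 10, 9, 6), (2, 7, 0, 6), (3, 6, 6, 5), (9, 1, 1, 10), (6, 4, 0, 2),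
  (5, 5, 5, 3), (10, 10, 10, 9), (2, 0, 7, 6), (6, 1, 2, 6), (0, 8, 4, 1), (10, 5, 6, 2),
  (6, 9, 10, 6), (1, 7, 3, 0), (2, 5, 6, 10), (4, 0, 1, 3), (4, 5, 2, 0), (5, 6, 3, 6),
  (10, 1, 9, 1), (0, 9, 6, 4), (1, 5, 6, 9), (8, 0, 1, 7), (5, 1, 2, 5), (9, 5, 6, 1),
  (7, 10, 0, 8), (5, 9, 10, 5), (0, 7, 3, 10), (8, 9, 9, 2), (3, 3, 3, 7), (10, 8, 4, 0),
  (5, 10, 9, 5), (0, 3, 7, 10), (1, 6, 5, 9), (5, 2, 1, 5), (10, 4, 8, 0), (9, 6, 5, 1),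
  (7, 0, 10, 8), (9, 3, 2, 2), (3, 8, 7, 8), (8, 1, 0, 7), (2, 9, 8, 9), (8, 4, 3, 3),
  (7, 1, 5, 4), (3, 5, 9, 8), (2, 6, 5, 10), (4, 1, 0, 3), (6, 2, 1, 6), (0, 4, 8, 1),
  (3, 2, 2, 9), (8, 8, 8, 4), (1, 3, 7, 0), (9, 9, 9, 3), (4, 3, 3, 8), (1, 4, 4, 6),
  (5, 8, 8, 2), (3, 10, 0, 4), (6, 7, 7, 1), (2, 3, 3, 5), (2, 8, 9, 9), (8, 3, 4, 3),
  (9, 2, 3, 2), (3, 7, 8, 8), (4, 10, 6, 7), (8, 6, 2, 3), (7, 5, 1, 4), (3, 9, 5, 8),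
  (6, 3, 3, 9), (7, 7, 7, 4), (5, 4, 4, 10), (2, 2, 2, 8), (7, 8, 8, 3), (10, 7, 7, 5),
  (9, 8, 8, 6), (7, 4, 4, 4), (4, 6, 10, 7), (8, 2, 6, 3), (4, 7, 7, 7), (4, 4, 4, 7)]

set_option maxRecDepth 1000000 in
set_option maxHeartbeats 4000000 in
theorem hone : oneN ∈ L := by decide +kernel

set_option maxRecDepth 1000000 in
set_option maxHeartbeats 4000000 in
theorem hleft : ∀ g ∈ gens, ∀ t ∈ L, mulN 11 g t ∈ L := by decide +kernel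

set_option maxRecDepth 1000000 in
set_option maxHeartbeats 4000000 in
theorem hchain : chain 11 gens L [] = true := by decide +kernel

set_option maxRecDepth 1000000 in
set_option maxHeartbeats 4000000 in
theorem hnodup : L.Nodup := by decide +kernel

set_option maxRecDepth 1000000 in
set_option maxHeartbeats 4000000 in
theorem hred : ∀ s ∈ L, red 11 s := by decide +kernel

set_option maxRecDepth 1000000 in
set_option maxHeartbeats 4000000 in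
theorem hlen : L.length = 11 ^ 2 - 1 := by decide +kernel

set_option maxRecDepth 1000000 in
set_option maxHeartbeats 4000000 in
theorem hfree : ∀ s ∈ L, s ≠ oneN → detN 11 s % 11 ≠ 0 := by decide +kernel

instance : Fact (Nat.Prime 11) := ⟨by norm_num⟩

theorem eA : (!![0, -1; 1, 0] : Matrix (Fin 2) (Fin 2) (ZMod 11)) = matN 11 (0, 10, 1, 0) := by
  unfold matN
  decide

theorem eB : (!![2, 4; 1, -3] : Matrix (Fin 2) (Fin 2) (ZMod 11)) = matN 11 (2, 4, 1, 8) := by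
  unfold matN
  decide

theorem main (A : Matrix.GeneralLinearGroup (Fin 2) (ZMod 11)) (B : Matrix.GeneralLinearGroup (Fin 2) (ZMod 11))
    (hA : (A : Matrix (Fin 2) (Fin 2) (ZMod 11)) = !![0, -1; 1, 0]) (hB : (B : Matrix (Fin 2) (Fin 2) (ZMod 11)) = !![2, 4; 1, -3]) :
    Nat.card (Subgroup.closure ({A, B} : Set (Matrix.GeneralLinearGroup (Fin 2) (ZMod 11)))) = 120 ∧
    ∀ v w : Fin 2 → ZMod 11, v ≠ 0 → w ≠ 0 →
      ∃! h : Subgroup.closure ({A, B} : Set (Matrix.GeneralLinearGroup (Fin 2) (ZMod 11))),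
        Matrix.mulVec ((h : Matrix.GeneralLinearGroup (Fin 2) (ZMod 11)) : Matrix (Fin 2) (Fin 2) (ZMod 11)) v = w := by
  have key := main_list ({A, B} : Set (Matrix.GeneralLinearGroup (Fin 2) (ZMod 11))) gens L ?_ ?_ hone hleft hchain hnodup hred hlen hfree
  · exact ⟨key.1.trans (by norm_num), key.2⟩
  · intro g hg
    simp only [Set.mem_insert_iff, Set.mem_singleton_iff] at hg
    rcases hg with rfl | rfl
    · exact ⟨(0, 10, 1, 0), by simp [gens], hA.trans eA⟩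
    · exact ⟨(2, 4, 1, 8), by simp [gens], hB.trans eB⟩
  · intro s hs
    simp only [gens, List.mem_cons, List.not_mem_nil, or_false] at hs
    rcases hs with rfl | rfl
    · exact ⟨A, by simp, hA.trans eA⟩
    · exact ⟨B, by simp, hB.trans eB⟩

end Cfsg.Agent.Lib.Helper2.GL2Data11
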