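import Mathlib
import Cfsg.Agent.Lib.Helper2.GL2Reg

set_option autoImplicit false

namespace Cfsg.Agent.Lib.Helper2.GL2Data5

open Cfsg.Agent.Lib.Helper2.GL2Reg

def gens : List N4 := [(2, 0, 0, 3), (0, 4, 1, 0), (1, 2, 1, 3)]

def L : List N4 := [
  (1, 0, 0, 1), (2, 0, 0, 3), (0, 4, 1, 0), (1, 2, 1, 3), (4, 0, 0, 4), (0, 2, 2, 0),
  (2, 1, 2, 4), (0, 3, 3, 0), (2, 4, 3, 4), (4, 2, 1, 2), (3, 3, 4, 1), (3, 0, 0, 2),
  (0, 1, 4, 0), (4, 3, 4, 2), (3, 1, 2, 1), (1, 4, 3, 3), (1, 3, 4, 3), (3, 2, 1, 1),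
  (3, 4, 3, 1), (1, 1, 2, 3), (2, 2, 1, 4), (2, 3, 4, 4), (4, 4, 3, 2), (4, 1, 2, 2)]

set_option maxRecDepth 1000000 in
set_option maxHeartbeats 4000000 in
theorem hone : oneN ∈ L := by decide +kernel

set_option maxRecDepth 1000000 in
set_option maxHeartbeats 4000000 in
theorem hleft : ∀ g ∈ gens, ∀ t ∈ L, mulN 5 g t ∈ L := by decide +kernel

set_option maxRecDepth 1000000 in
set_option maxHeartbeats 4000000 in
theorem hchain : chain 5 gens L [] = true := by decide +kernel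

set_option maxRecDepth 1000000 in
set_option maxHeartbeats 4000000 in
theorem hnodup : L.Nodup := by decide +kernel

set_option maxRecDepth 1000000 in
set_option maxHeartbeats 4000000 in
theorem hred : ∀ s ∈ L, red 5 s := by decide +kernel

set_option maxRecDepth 1000000 in
set_option maxHeartbeats 4000000 in
theorem hlen : L.length = 5 ^ 2 - 1 := by decide +kernel

set_option maxRecDepth 1000000 in
set_option maxHeartbeats 4000000 in
theorem hfree : ∀ s ∈ L, s ≠ oneN → detN 5 s % 5 ≠ 0 := by decide +kernel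

instance : Fact (Nat.Prime 5) := ⟨by norm_num⟩

theorem eA : (!![2, 0; 0, -2] : Matrix (Fin 2) (Fin 2) (ZMod 5)) = matN 5 (2, 0, 0, 3) := by
  unfold matN
  decide

theorem eB : (!![0, -1; 1, 0] : Matrix (Fin 2) (Fin 2) (ZMod 5)) = matN 5 (0, 4, 1, 0) := by
  unfold matN
  decide

theorem eC : (!![1, 2; 1, -2] : Matrix (Fin 2) (Fin 2) (ZMod 5)) = matN 5 (1, 2, 1, 3) := by
  unfold matN
  decide

theorem main (A : Matrix.GeneralLinearGroup (Fin 2) (ZMod 5)) (B : Matrix.GeneralLinearGroup (Fin 2) (ZMod 5)) (C : Matrix.GeneralLinearGroup (Fin 2) (ZMod 5))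
    (hA : (A : Matrix (Fin 2) (Fin 2) (ZMod 5)) = !![2, 0; 0, -2]) (hB : (B : Matrix (Fin 2) (Fin 2) (ZMod 5)) = !![0, -1; 1, 0]) (hC : (C : Matrix (Fin 2) (Fin 2) (ZMod 5)) = !![1, 2; 1, -2]) :
    Nat.card (Subgroup.closure ({A, B, C} : Set (Matrix.GeneralLinearGroup (Fin 2) (ZMod 5)))) = 24 ∧
    ∀ v w : Fin 2 → ZMod 5, v ≠ 0 → w ≠ 0 →
      ∃! h : Subgroup.closure ({A, B, C} : Set (Matrix.GeneralLinearGroup (Fin 2) (ZMod 5))),
        Matrix.mulVec ((h : Matrix.GeneralLinearGroup (Fin 2) (ZMod 5)) : Matrix (Fin 2) (Fin 2) (ZMod 5)) v = w := by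
  have key := main_list ({A, B, C} : Set (Matrix.GeneralLinearGroup (Fin 2) (ZMod 5))) gens L ?_ ?_ hone hleft hchain hnodup hred hlen hfree
  · exact ⟨key.1.trans (by norm_num), key.2⟩
  · intro g hg
    simp only [Set.mem_insert_iff, Set.mem_singleton_iff] at hg
    rcases hg with rfl | rfl | rfl
    · exact ⟨(2, 0, 0, 3), by simp [gens], hA.trans eA⟩
    · exact ⟨(0, 4, 1, 0), by simp [gens], hB.trans eB⟩
    · exact ⟨(1, 2, 1, 3), by simp [gens], hC.trans eC⟩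
  · intro s hs
    simp only [gens, List.mem_cons, List.not_mem_nil, or_false] at hs
    rcases hs with rfl | rfl | rfl
    · exact ⟨A, by simp, hA.trans eA⟩
    · exact ⟨B, by simp, hB.trans eB⟩
    · exact ⟨C, by simp, hC.trans eC⟩

end Cfsg.Agent.Lib.Helper2.GL2Data5
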