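import Mathlib
import Cfsg.Agent.Lib.Helper2.GL2Reg

set_option autoImplicit false

namespace Cfsg.Agent.Lib.Helper2.GL2Reg2

open Cfsg.Agent.Lib.Helper2.GL2Reg

def scaleN (p e : ℕ) (s : N4) : N4 :=
  ((e * s.1) % p, (e * s.2.1) % p, (e * s.2.2.1) % p, (e * s.2.2.2) % p)

variable {p : ℕ}

theorem matN_scaleN (e : ℕ) (s : N4) : matN p (scaleN p e s) = (e : ZMod p) • matN p s := by
  unfold matN scaleN
  simp only [ZMod.natCast_mod]
  push_cast
  ext i j
  fin_cases i <;> fin_cases j <;> simp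

theorem det_matN [Fact p.Prime] (s : N4)
    (h : (s.1 * s.2.2.2 + (p - 1) * (s.2.1 * s.2.2.1)) % p = 1) : (matN p s).det = 1 := by
  have hp : 1 ≤ p := (Fact.out : p.Prime).one_lt.le
  have hp1 : 1 < p := (Fact.out : p.Prime).one_lt
  unfold matN
  rw [Matrix.det_fin_two_of]
  have h2 : (((s.1 * s.2.2.2 + (p - 1) * (s.2.1 * s.2.2.1)) % p : ℕ) : ZMod p) = ((1 : ℕ) : ZMod p) := by
    rw [h]
  rw [ZMod.natCast_mod] at h2
  push_cast [Nat.cast_sub hp] at h2
  rw [ZMod.natCast_self] at h2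
  linear_combination h2

theorem main_scalar [Fact p.Prime] (S : Set (Matrix.GeneralLinearGroup (Fin 2) (ZMod p)))
    (C : Matrix.GeneralLinearGroup (Fin 2) (ZMod p)) (c m : ℕ) (gens L : List N4)
    (hC : (C : Matrix (Fin 2) (Fin 2) (ZMod p)) = (c : ZMod p) • (1 : Matrix (Fin 2) (Fin 2) (ZMod p)))
    (hcm : c ^ m % p = 1) (hm : 0 < m)
    (hS : ∀ g ∈ S, ∃ s ∈ gens, (g : Matrix (Fin 2) (Fin 2) (ZMod p)) = matN p s)
    (hS' : ∀ s ∈ gens, ∃ g ∈ S, (g : Matrix (Fin 2) (Fin 2) (ZMod p)) = matN p s)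
    (hone : oneN ∈ L) (hleft : ∀ g ∈ gens, ∀ t ∈ L, mulN p g t ∈ L)
    (hchain : chain p gens L [] = true) (hnodup : L.Nodup) (hred : ∀ s ∈ L, red p s)
    (hdet1 : ∀ s ∈ L, (s.1 * s.2.2.2 + (p - 1) * (s.2.1 * s.2.2.1)) % p = 1)
    (hpow : ∀ k < m, ∀ k' < m, (c ^ 2) ^ k % p = (c ^ 2) ^ k' % p → k = k')
    (hlen : L.length * m = p ^ 2 - 1)
    (hfree : ∀ s ∈ L, ∀ k < m, (s ≠ oneN ∨ k ≠ 0) → detN p (scaleN p (c ^ k % p) s) % p ≠ 0) :
    Nat.card (Subgroup.closure (insert C S)) = p ^ 2 - 1 ∧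
    ∀ v w : Fin 2 → ZMod p, v ≠ 0 → w ≠ 0 →
      ∃! h : Subgroup.closure (insert C S),
        Matrix.mulVec ((h : Matrix.GeneralLinearGroup (Fin 2) (ZMod p)) :
          Matrix (Fin 2) (Fin 2) (ZMod p)) v = w := by
  classical
  have hp1 : 1 < p := (Fact.out : p.Prime).one_lt
  have hcm' : (c : ZMod p) ^ m = 1 := by
    have h2 : ((c ^ m % p : ℕ) : ZMod p) = ((1 : ℕ) : ZMod p) := by rw [hcm]
    rw [ZMod.natCast_mod] at h2
    push_cast at h2
    exact h2
  have hc0 : (c : ZMod p) ≠ 0 := by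
    intro h0
    rw [h0, zero_pow hm.ne'] at hcm'
    exact zero_ne_one hcm'
  let F : Finset (Matrix (Fin 2) (Fin 2) (ZMod p)) :=
    (L.toFinset ×ˢ Finset.range m).image (fun x => ((c : ZMod p) ^ x.2) • matN p x.1)
  have hF : ∀ M, M ∈ F ↔ ∃ s ∈ L, ∃ k < m, ((c : ZMod p) ^ k) • matN p s = M := by
    intro M
    constructor
    · intro hM
      obtain ⟨x, hx, hxM⟩ := Finset.mem_image.1 hM
      rw [Finset.mem_product, List.mem_toFinset, Finset.mem_range] at hx
      exact ⟨x.1, hx.1, x.2, hx.2, hxM⟩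
    · rintro ⟨s, hs, k, hk, rfl⟩
      apply Finset.mem_image.2
      refine ⟨(s, k), ?_, rfl⟩
      rw [Finset.mem_product, List.mem_toFinset, Finset.mem_range]
      exact ⟨hs, hk⟩
  have hup : ∀ h ∈ Subgroup.closure (insert C S), ∃ s ∈ L, ∃ k < m,
      ((c : ZMod p) ^ k) • matN p s = (h : Matrix (Fin 2) (Fin 2) (ZMod p)) := by
    have := upper (insert C S) (F : Set (Matrix (Fin 2) (Fin 2) (ZMod p))) F.finite_toSet
      (by
        rw [Finset.mem_coe, hF]
        exact ⟨oneN, hone, 0, hm, by rw [pow_zero, one_smul, matN_one]⟩)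
      (by
        intro g hg t ht
        rw [Finset.mem_coe, hF] at ht ⊢
        obtain ⟨u, hu, k, hk, rfl⟩ := ht
        rcases hg with rfl | hg
        · rw [hC, smul_mul_assoc, one_mul, smul_smul, ← pow_succ']
          by_cases hk1 : k + 1 < m
          · exact ⟨u, hu, k + 1, hk1, rfl⟩
          · have hkm : k + 1 = m := by omega
            refine ⟨u, hu, 0, hm, ?_⟩
            rw [hkm, hcm', pow_zero]
        · obtain ⟨s, hs, hgs⟩ := hS g hg
          refine ⟨mulN p s u, hleft s hs u hu, k, hk, ?_⟩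
          rw [matN_mulN, hgs, mul_smul_comm])
    intro h hh
    exact (hF _).1 (this h hh)
  have hlow0 : ∀ s ∈ L, ∃ h ∈ Subgroup.closure (insert C S),
      (h : Matrix (Fin 2) (Fin 2) (ZMod p)) = matN p s := by
    apply chain_sound (fun s => ∃ h ∈ Subgroup.closure (insert C S),
      (h : Matrix (Fin 2) (Fin 2) (ZMod p)) = matN p s) gens ⟨1, Subgroup.one_mem _, by
        rw [matN_one]; rfl⟩ _ L [] hchain (by intro t ht; simp at ht)
    rintro g hg t ⟨h, hh, hht⟩
    obtain ⟨G, hG, hGg⟩ := hS' g hg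
    exact ⟨G * h, Subgroup.mul_mem _ (Subgroup.subset_closure (Set.mem_insert_of_mem _ hG)) hh, by
      rw [Units.val_mul, hGg, hht, matN_mulN]⟩
  have hlow : ∀ s ∈ L, ∀ k < m, ∃ h ∈ Subgroup.closure (insert C S),
      (h : Matrix (Fin 2) (Fin 2) (ZMod p)) = ((c : ZMod p) ^ k) • matN p s := by
    intro s hs k _
    obtain ⟨h, hh, hhs⟩ := hlow0 s hs
    refine ⟨C ^ k * h, Subgroup.mul_mem _ (Subgroup.pow_mem _
      (Subgroup.subset_closure (Set.mem_insert _ _)) k) hh, ?_⟩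
    rw [Units.val_mul, Units.val_pow_eq_pow_val, hC, hhs, smul_pow, one_pow, smul_mul_assoc, one_mul]
  have hcard : Nat.card (Subgroup.closure (insert C S)) = p ^ 2 - 1 := by
    rw [card_eq_of_image (Subgroup.closure (insert C S)) F]
    · show ((L.toFinset ×ˢ Finset.range m).image
        (fun x => ((c : ZMod p) ^ x.2) • matN p x.1)).card = p ^ 2 - 1
      rw [Finset.card_image_of_injOn, Finset.card_product, List.toFinset_card_of_nodup hnodup,
        Finset.card_range, hlen]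
      intro x hx y hy hxy
      rw [Finset.mem_coe, Finset.mem_product, List.mem_toFinset, Finset.mem_range] at hx hy
      have hxy' : ((c : ZMod p) ^ x.2) • matN p x.1 = ((c : ZMod p) ^ y.2) • matN p y.1 := hxy
      have hd := congrArg Matrix.det hxy'
      rw [Matrix.det_smul, Matrix.det_smul, det_matN x.1 (hdet1 x.1 hx.1),
        det_matN y.1 (hdet1 y.1 hy.1), Fintype.card_fin, mul_one, mul_one, ← pow_mul, ← pow_mul,
        mul_comm x.2 2, mul_comm y.2 2, pow_mul, pow_mul] at hd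
      have hd2 : (((c ^ 2) ^ x.2 : ℕ) : ZMod p) = (((c ^ 2) ^ y.2 : ℕ) : ZMod p) := by
        push_cast
        exact hd
      rw [ZMod.natCast_eq_natCast_iff'] at hd2
      have hk := hpow x.2 hx.2 y.2 hy.2 hd2
      rw [hk] at hxy'
      have h3 := smul_right_injective (Matrix (Fin 2) (Fin 2) (ZMod p)) (pow_ne_zero y.2 hc0) hxy'
      exact Prod.ext (matN_inj (hred _ hx.1) (hred _ hy.1) h3) hk
    · intro M
      rw [hF]
      constructor
      · rintro ⟨s, hs, k, hk, rfl⟩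
        exact hlow s hs k hk
      · rintro ⟨h, hh, rfl⟩
        obtain ⟨s, hs, k, hk, hsm⟩ := hup h hh
        exact ⟨s, hs, k, hk, hsm⟩
  refine ⟨hcard, regular _ hcard ?_⟩
  intro h hh hne v hv
  obtain ⟨s, hs, k, hk, hsm⟩ := hup h hh
  have hsm2 : (h : Matrix (Fin 2) (Fin 2) (ZMod p)) = matN p (scaleN p (c ^ k % p) s) := by
    rw [matN_scaleN, ZMod.natCast_mod, ← hsm]
    push_cast
    rfl
  rw [hsm2] at hv
  apply free_of_det _ (hfree s hs k hk _) v hv
  by_contra hcon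
  push Not at hcon
  apply hne
  apply Units.ext
  rw [← hsm, hcon.1, hcon.2, pow_zero, one_smul, matN_one]
  rfl

end Cfsg.Agent.Lib.Helper2.GL2Reg2
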