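import Mathlib
import Cfsg.Agent.Lib.Helper2.GL2Reg2

set_option autoImplicit false

namespace Cfsg.Agent.Lib.Helper2.GL2Data59

open Cfsg.Agent.Lib.Helper2.GL2Reg Cfsg.Agent.Lib.Helper2.GL2Reg2

def gens : List N4 := [(0, 58, 1, 0), (9, 15, 49, 49)]

def L : List N4 := [
  (1, 0, 0, 1), (0, 58, 1, 0), (9, 15, 49, 49), (58, 0, 0, 58), (15, 50, 49, 10), (10, 10, 9, 15),
  (49, 44, 10, 9), (0, 1, 58, 0), (50, 44, 10, 10), (10, 49, 15, 50), (44, 10, 9, 49), (48, 20, 46, 45),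
  (49, 50, 49, 44), (44, 9, 10, 49), (49, 49, 50, 44), (10, 15, 49, 50), (20, 11, 45, 13), (50, 10, 44, 10),
  (13, 14, 48, 20), (1, 29, 4, 58), (55, 48, 23, 4), (49, 10, 44, 9), (15, 49, 50, 10), (11, 39, 13, 14),
  (10, 9, 10, 15), (14, 46, 20, 11), (29, 58, 58, 55), (48, 4, 4, 36), (11, 13, 39, 14), (55, 1, 1, 29),
  (36, 55, 55, 48), (14, 20, 46, 11), (39, 48, 14, 46), (9, 49, 15, 49), (46, 45, 11, 39), (58, 30, 55, 1),
  (4, 11, 36, 55), (13, 48, 14, 20), (1, 4, 29, 58), (55, 23, 48, 4), (20, 45, 11, 13), (35, 32, 31, 25),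
  (38, 31, 30, 54), (28, 35, 34, 32), (45, 13, 39, 48), (30, 1, 1, 4), (11, 55, 55, 23), (48, 46, 20, 45),
  (4, 58, 58, 30), (23, 4, 4, 11), (45, 39, 13, 48), (32, 24, 25, 28), (31, 21, 54, 29), (35, 31, 32, 25),
  (28, 34, 35, 32), (29, 5, 38, 31), (25, 27, 28, 35), (54, 28, 29, 38), (46, 11, 45, 39), (58, 55, 30, 1),
  (4, 36, 11, 55), (39, 14, 48, 46), (24, 27, 28, 34), (21, 28, 29, 5), (31, 24, 25, 27), (34, 31, 32, 24),
  (5, 30, 31, 21), (27, 34, 35, 31), (28, 5, 38, 30), (10, 19, 19, 48), (5, 38, 38, 53), (30, 21, 54, 28),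
  (27, 35, 34, 31), (28, 38, 5, 30), (24, 28, 27, 34), (31, 25, 24, 27), (30, 54, 21, 28), (34, 32, 31, 24),
  (5, 31, 30, 21), (19, 49, 48, 40), (38, 54, 53, 21), (21, 29, 28, 5), (40, 11, 10, 19), (21, 6, 5, 38),
  (25, 16, 42, 34), (18, 19, 45, 41), (25, 28, 27, 35), (54, 29, 28, 38), (32, 25, 24, 28), (31, 54, 21, 29),
  (49, 40, 40, 11), (54, 21, 21, 6), (29, 38, 5, 31), (11, 19, 19, 49), (6, 38, 38, 54), (16, 34, 34, 17),
  (19, 41, 41, 14), (38, 30, 31, 54), (17, 25, 25, 16), (14, 18, 18, 19), (40, 10, 11, 19), (21, 5, 6, 38),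
  (19, 48, 49, 40), (38, 53, 54, 21), (34, 43, 17, 25), (41, 40, 14, 18), (25, 42, 16, 34), (18, 45, 19, 41),
  (40, 18, 18, 45), (56, 52, 52, 3), (42, 34, 34, 43), (48, 40, 40, 10), (53, 21, 21, 5), (43, 25, 25, 42),
  (45, 41, 41, 40), (52, 3, 3, 7), (34, 17, 43, 25), (41, 14, 40, 18), (7, 56, 56, 52), (3, 7, 7, 56)]

set_option maxRecDepth 1000000 in
set_option maxHeartbeats 4000000 in
theorem hone : oneN ∈ L := by decide +kernel

set_option maxRecDepth 1000000 in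
set_option maxHeartbeats 4000000 in
theorem hleft : ∀ g ∈ gens, ∀ t ∈ L, mulN 59 g t ∈ L := by decide +kernel

set_option maxRecDepth 1000000 in
set_option maxHeartbeats 4000000 in
theorem hchain : chain 59 gens L [] = true := by decide +kernel

set_option maxRecDepth 1000000 in
set_option maxHeartbeats 4000000 in
theorem hnodup : L.Nodup := by decide +kernel

set_option maxRecDepth 1000000 in
set_option maxHeartbeats 4000000 in
theorem hred : ∀ s ∈ L, red 59 s := by decide +kernel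

set_option maxRecDepth 1000000 in
set_option maxHeartbeats 4000000 in
theorem hdet1 : ∀ s ∈ L, (s.1 * s.2.2.2 + (59 - 1) * (s.2.1 * s.2.2.1)) % 59 = 1 := by
  decide +kernel

set_option maxRecDepth 1000000 in
set_option maxHeartbeats 4000000 in
theorem hpow : ∀ k < 29, ∀ k' < 29, (4 ^ 2) ^ k % 59 = (4 ^ 2) ^ k' % 59 → k = k' := by
  decide +kernel

set_option maxRecDepth 1000000 in
set_option maxHeartbeats 4000000 in
theorem hlen : L.length * 29 = 59 ^ 2 - 1 := by decide +kernel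

set_option maxRecDepth 1000000 in
set_option maxHeartbeats 4000000 in
theorem hfree : ∀ s ∈ L, ∀ k < 29, (s ≠ oneN ∨ k ≠ 0) →
    detN 59 (scaleN 59 (4 ^ k % 59) s) % 59 ≠ 0 := by decide +kernel

instance : Fact (Nat.Prime 59) := ⟨by norm_num⟩

theorem eA : (!![0, -1; 1, 0] : Matrix (Fin 2) (Fin 2) (ZMod 59)) = matN 59 (0, 58, 1, 0) := by
  unfold matN
  decide

theorem eB : (!![9, 15; -10, -10] : Matrix (Fin 2) (Fin 2) (ZMod 59)) = matN 59 (9, 15, 49, 49) := by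
  unfold matN
  decide

theorem eC : (!![4, 0; 0, 4] : Matrix (Fin 2) (Fin 2) (ZMod 59)) = ((4 : ℕ) : ZMod 59) • (1 : Matrix (Fin 2) (Fin 2) (ZMod 59)) := by
  decide

theorem main (A : Matrix.GeneralLinearGroup (Fin 2) (ZMod 59)) (B : Matrix.GeneralLinearGroup (Fin 2) (ZMod 59)) (C : Matrix.GeneralLinearGroup (Fin 2) (ZMod 59))
    (hA : (A : Matrix (Fin 2) (Fin 2) (ZMod 59)) = !![0, -1; 1, 0]) (hB : (B : Matrix (Fin 2) (Fin 2) (ZMod 59)) = !![9, 15; -10, -10])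
    (hC : (C : Matrix (Fin 2) (Fin 2) (ZMod 59)) = !![4, 0; 0, 4]) :
    Nat.card (Subgroup.closure ({A, B, C} : Set (Matrix.GeneralLinearGroup (Fin 2) (ZMod 59)))) = 3480 ∧
    ∀ v w : Fin 2 → ZMod 59, v ≠ 0 → w ≠ 0 →
      ∃! h : Subgroup.closure ({A, B, C} : Set (Matrix.GeneralLinearGroup (Fin 2) (ZMod 59))),
        Matrix.mulVec ((h : Matrix.GeneralLinearGroup (Fin 2) (ZMod 59)) : Matrix (Fin 2) (Fin 2) (ZMod 59)) v = w := by
  have hset : ({A, B, C} : Set (Matrix.GeneralLinearGroup (Fin 2) (ZMod 59))) = insert C {A, B} := by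
    ext g
    simp only [Set.mem_insert_iff, Set.mem_singleton_iff]
    tauto
  rw [hset]
  have key := main_scalar ({A, B} : Set (Matrix.GeneralLinearGroup (Fin 2) (ZMod 59))) C 4 29 gens L (hC.trans eC)
    (by decide +kernel) (by norm_num) ?_ ?_ hone hleft hchain hnodup hred hdet1 hpow hlen hfree
  · exact ⟨key.1.trans (by norm_num), key.2⟩
  · intro g hg
    simp only [Set.mem_insert_iff, Set.mem_singleton_iff] at hg
    rcases hg with rfl | rfl
    · exact ⟨(0, 58, 1, 0), by simp [gens], hA.trans eA⟩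
    · exact ⟨(9, 15, 49, 49), by simp [gens], hB.trans eB⟩
  · intro s hs
    simp only [gens, List.mem_cons, List.not_mem_nil, or_false] at hs
    rcases hs with rfl | rfl
    · exact ⟨A, by simp, hA.trans eA⟩
    · exact ⟨B, by simp, hB.trans eB⟩

end Cfsg.Agent.Lib.Helper2.GL2Data59
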