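import Mathlib
import Cfsg.Prelude.Def_Transfer
import Cfsg.Agent.S0058
import Cfsg.Agent.Lib.Helper2.CoprimeAct2
import Cfsg.Agent.Lib.Helper2.Lift

set_option autoImplicit false

namespace Cfsg.Agent.Lib.Helper2.Gen

open Cfsg.Agent.Lib.Helper2

variable {G : Type*} [Group G]

theorem mem_sup_zpowers (B : Subgroup G) (c : G) (hc : ∀ b ∈ B, c * b = b * c) {g : G}
    (hg : g ∈ B ⊔ Subgroup.zpowers c) : ∃ b ∈ B, ∃ k : ℤ, g = b * c ^ k := by
  have hn : Subgroup.zpowers c ≤ Subgroup.normalizer (B : Set G) := by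
    rw [Subgroup.zpowers_le]
    apply CoprimeAct.mem_normalizer_of_forall
    · intro h hh
      rw [hc h hh, mul_inv_cancel_right]
      exact hh
    · intro h hh
      have e : c⁻¹ * h * c = h := by
        rw [mul_assoc, ← hc h hh, inv_mul_cancel_left]
      rw [e]
      exact hh
  obtain ⟨x, hx, y, hy, rfl⟩ := CoprimeAct.mem_sup_of_le_normalizer B _ hn hg
  obtain ⟨k, rfl⟩ := Subgroup.mem_zpowers_iff.1 hy
  exact ⟨x, hx, k, rfl⟩

theorem exists_hyperplane [Finite G] (p : ℕ) [Fact p.Prime] (A : Subgroup G)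
    (hAc : ∀ x ∈ A, ∀ y ∈ A, x * y = y * x) (hAe : ∀ x ∈ A, x ^ p = 1) (a : G) (ha : a ∈ A)
    (ha1 : a ≠ 1) :
    ∃ A₁ : Subgroup G, A₁ ≤ A ∧ a ∉ A₁ ∧ A ≤ A₁ ⊔ Subgroup.zpowers a := by
  have hp : p.Prime := Fact.out
  obtain ⟨A₁, -, ⟨hA₁A, haA₁⟩, hmax⟩ :=
    (Set.toFinite {K : Subgroup G | K ≤ A ∧ a ∉ K}).exists_le_maximal (a := ⊥)
      ⟨bot_le, fun h => ha1 (Subgroup.mem_bot.1 h)⟩
  refine ⟨A₁, hA₁A, haA₁, ?_⟩
  intro x hx
  by_contra hcon
  have hxA₁ : x ∉ A₁ := fun h => hcon (Subgroup.mem_sup_left h)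
  have h1 : a ∈ A₁ ⊔ Subgroup.zpowers x := by
    by_contra h2
    have h3 : A₁ ⊔ Subgroup.zpowers x ≤ A₁ :=
      hmax ⟨sup_le hA₁A (by rw [Subgroup.zpowers_le]; exact hx), h2⟩ le_sup_left
    apply hxA₁
    apply h3
    exact Subgroup.mem_sup_right (Subgroup.mem_zpowers x)
  obtain ⟨b, hb, k, hk⟩ := mem_sup_zpowers A₁ x (fun b hb => hAc x hx b (hA₁A hb)) h1
  have hxk : x ^ k = b⁻¹ * a := by rw [hk, inv_mul_cancel_left]
  by_cases hpk : (p : ℤ) ∣ k
  · obtain ⟨m, rfl⟩ := hpk
    apply haA₁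
    have e : x ^ ((p : ℤ) * m) = 1 := by
      rw [zpow_mul, zpow_natCast, hAe x hx, one_zpow]
    rw [e] at hk
    rw [hk, mul_one]
    exact hb
  · have hcop : IsCoprime k (p : ℤ) := by
      rw [isCoprime_comm]
      exact (Int.prime_iff_natAbs_prime.2 (by simpa using hp)).coprime_iff_not_dvd.2 hpk
    obtain ⟨u, v, huv⟩ := hcop
    apply hcon
    have e : x = (b⁻¹ * a) ^ u := by
      rw [← hxk, ← zpow_mul]
      have e2 : x ^ (v * (p : ℤ)) = 1 := by
        rw [mul_comm, zpow_mul, zpow_natCast, hAe x hx, one_zpow]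
      have e3 : x ^ (u * k + v * (p : ℤ)) = x := by rw [huv, zpow_one]
      rw [zpow_add, e2, mul_one] at e3
      rw [mul_comm k u]
      exact e3.symm
    rw [e]
    apply Subgroup.zpow_mem
    exact Subgroup.mul_mem _ (Subgroup.mem_sup_left (A₁.inv_mem hb))
      (Subgroup.mem_sup_right (Subgroup.mem_zpowers a))

theorem gen_aux [Finite G] (p : ℕ) [Fact p.Prime] : ∀ n : ℕ, ∀ A X : Subgroup G,
    Nat.card A ≤ n → (∀ x ∈ A, ∀ y ∈ A, x * y = y * x) → (∀ x ∈ A, x ^ p = 1) →
    ¬ p ∣ Nat.card X → A ≤ Subgroup.normalizer (X : Set G) →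
    X ≤ ⨆ B : {B : Subgroup G // B ≤ A ∧ ∃ c ∈ A, A ≤ B ⊔ Subgroup.zpowers c},
      X ⊓ Subgroup.centralizer ((B : Subgroup G) : Set G) := by
  have hp : p.Prime := Fact.out
  intro n
  induction n with
  | zero =>
    intro A X hn
    have := Nat.card_pos (α := A)
    omega
  | succ n ih =>
    intro A X hn hAc hAe hX hAX
    by_cases hcyc : IsCyclic A
    · obtain ⟨g, hg⟩ := hcyc.exists_generator
      refine le_iSup_of_le ⟨⊥, bot_le, g.1, g.2, ?_⟩ ?_
      · intro x hx
        apply Subgroup.mem_sup_right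
        obtain ⟨k, hk⟩ := Subgroup.mem_zpowers_iff.1 (hg ⟨x, hx⟩)
        rw [Subgroup.mem_zpowers_iff]
        refine ⟨k, ?_⟩
        have := congrArg Subtype.val hk
        simpa using this
      · intro x hx
        refine ⟨hx, ?_⟩
        apply Subgroup.mem_centralizer_iff.2
        intro h hh
        have h1 : h = 1 := Subgroup.mem_bot.1 hh
        rw [h1, one_mul, mul_one]
    · haveI : IsMulCommutative A := ⟨⟨fun x y => Subtype.ext (hAc x.1 x.2 y.1 y.2)⟩⟩
      have hPG : IsPGroup p A := fun u => ⟨1, by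
        rw [pow_one]
        exact Subtype.ext (by rw [Subgroup.coe_pow]; exact hAe u.1 u.2)⟩
      obtain ⟨k, hk⟩ := IsPGroup.iff_card.1 hPG
      have hcop : (Nat.card A).Coprime (Nat.card X) := by
        rw [hk]
        exact Nat.Coprime.pow_left k ((Nat.Prime.coprime_iff_not_dvd hp).2 hX)
      have h58 := Cfsg.Agent.S0058.result A X hcyc hAX hcop
      calc X = ⨆ a ∈ {a : G | a ∈ A ∧ a ≠ 1}, X ⊓ Subgroup.centralizer {a} := h58.symm
        _ ≤ _ := by
          apply iSup₂_le
          rintro a ⟨haA, ha1⟩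
          obtain ⟨A₁, hA₁A, haA₁, hsup⟩ := exists_hyperplane p A hAc hAe a haA ha1
          have hcard : Nat.card A₁ ≤ n := by
            by_contra hlt
            have h1 : A₁ = A := Subgroup.eq_of_le_of_card_ge hA₁A (by omega)
            rw [h1] at haA₁
            exact haA₁ haA
          have hY : A₁ ≤ Subgroup.normalizer
              ((X ⊓ Subgroup.centralizer {a} : Subgroup G) : Set G) := by
            intro b hb
            apply Lift.conj_le_mem_normalizer
            intro y hy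
            refine ⟨?_, ?_⟩
            · exact (Subgroup.mem_normalizer_iff.1 (hAX (hA₁A hb)) y).1 hy.1
            · apply Subgroup.mem_centralizer_singleton_iff.2
              have h1 := Subgroup.mem_centralizer_singleton_iff.1
                (show y ∈ Subgroup.centralizer ({a} : Set G) from hy.2)
              have h2 := hAc a haA b (hA₁A hb)
              have h3 : a * b⁻¹ = b⁻¹ * a := by
                rw [eq_inv_mul_iff_mul_eq, ← mul_assoc, ← h2, mul_inv_cancel_right]
              symm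
              calc a * (b * y * b⁻¹) = b * (a * y) * b⁻¹ := by
                    rw [← mul_assoc, ← mul_assoc, h2, mul_assoc b a y]
                _ = b * (y * a) * b⁻¹ := by rw [h1]
                _ = b * y * b⁻¹ * a := by
                    rw [mul_assoc b (y * a), mul_assoc y a, h3]
                    simp only [mul_assoc]
          have hYp : ¬ p ∣ Nat.card ↥(X ⊓ Subgroup.centralizer {a} : Subgroup G) := by
            intro h
            exact hX (h.trans (Subgroup.card_dvd_of_le inf_le_left))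
          have hIH := ih A₁ (X ⊓ Subgroup.centralizer {a}) hcard
            (fun x hx y hy => hAc x (hA₁A hx) y (hA₁A hy)) (fun x hx => hAe x (hA₁A hx)) hYp hY
          refine le_trans hIH (iSup_le ?_)
          rintro ⟨B₁, hB₁, c, hc, hcs⟩
          refine le_iSup_of_le ⟨B₁ ⊔ Subgroup.zpowers a,
            sup_le (hB₁.trans hA₁A) (by rw [Subgroup.zpowers_le]; exact haA), c, hA₁A hc, ?_⟩ ?_
          · exact hsup.trans (sup_le (hcs.trans (sup_le (le_sup_left.trans le_sup_left)
              le_sup_right)) (le_sup_right.trans le_sup_left))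
          · intro x hx
            refine ⟨hx.1.1, ?_⟩
            have h1 := Subgroup.mem_centralizer_singleton_iff.1
              (show x ∈ Subgroup.centralizer ({a} : Set G) from hx.1.2)
            have h2 := Subgroup.mem_centralizer_iff.1
              (show x ∈ Subgroup.centralizer (B₁ : Set G) from hx.2)
            have h3 : B₁ ⊔ Subgroup.zpowers a ≤ Subgroup.centralizer ({x} : Set G) := by
              apply sup_le
              · intro b hb
                apply Subgroup.mem_centralizer_singleton_iff.2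
                exact h2 b hb
              · rw [Subgroup.zpowers_le]
                apply Subgroup.mem_centralizer_singleton_iff.2
                exact h1.symm
            apply Subgroup.mem_centralizer_iff.2
            intro h hh
            exact (Subgroup.mem_centralizer_singleton_iff.1 (h3 hh))

theorem relIndex_le [Finite G] (p : ℕ) [Fact p.Prime] (A B : Subgroup G)
    (hAc : ∀ x ∈ A, ∀ y ∈ A, x * y = y * x) (hBA : B ≤ A) (c : G) (hc : c ∈ A) (hcp : c ^ p = 1)
    (hs : A ≤ B ⊔ Subgroup.zpowers c) : B.relIndex A ≤ p := by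
  have hp : p.Prime := Fact.out
  have h1 : Nat.card A ≤ Nat.card (B × Fin p) := by
    have : NeZero p := ⟨hp.ne_zero⟩
    have hsurj : ∀ x : A, ∃ bi : B × Fin p, (x : G) = bi.1 * c ^ (bi.2 : ℕ) := by
      intro x
      obtain ⟨b, hb, k, hk⟩ := mem_sup_zpowers B c (fun b hb => hAc c hc b (hBA hb)) (hs x.2)
      refine ⟨⟨⟨b, hb⟩, ⟨(k % (p : ℤ)).toNat, ?_⟩⟩, ?_⟩
      · have h2 : 0 ≤ k % (p : ℤ) := Int.emod_nonneg _ (by exact_mod_cast hp.ne_zero)
        have h3 : k % (p : ℤ) < p := Int.emod_lt_of_pos _ (by exact_mod_cast hp.pos)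
        omega
      · have h2 : 0 ≤ k % (p : ℤ) := Int.emod_nonneg _ (by exact_mod_cast hp.ne_zero)
        show (x : G) = b * c ^ (k % (p : ℤ)).toNat
        rw [hk, ← zpow_natCast, Int.toNat_of_nonneg h2]
        congr 1
        conv_lhs => rw [← Int.emod_add_mul_ediv k p]
        rw [zpow_add, zpow_mul, zpow_natCast, hcp, one_zpow, mul_one]
    choose f hf using hsurj
    apply Nat.card_le_card_of_injective f
    intro x y hxy
    apply Subtype.ext
    rw [hf x, hf y, hxy]
  rw [Nat.card_prod, Nat.card_fin] at h1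
  have h2 := Subgroup.relIndex_mul_relIndex (⊥ : Subgroup G) B A bot_le hBA
  rw [Subgroup.relIndex_bot_left, Subgroup.relIndex_bot_left] at h2
  have hBpos : 0 < Nat.card B := Nat.card_pos
  by_contra hlt
  push Not at hlt
  have h3 : Nat.card B * p < Nat.card B * B.relIndex A := Nat.mul_lt_mul_of_pos_left hlt hBpos
  omega

theorem gen_index [Finite G] (p : ℕ) [Fact p.Prime] (A X : Subgroup G)
    (hAc : ∀ x ∈ A, ∀ y ∈ A, x * y = y * x) (hAe : ∀ x ∈ A, x ^ p = 1)
    (hX : ¬ p ∣ Nat.card X) (hAX : A ≤ Subgroup.normalizer (X : Set G)) :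
    X = ⨆ B : {B : Subgroup G // B ≤ A ∧ B.relIndex A ≤ p},
      X ⊓ Subgroup.centralizer ((B : Subgroup G) : Set G) := by
  apply le_antisymm
  · refine le_trans (gen_aux p _ A X le_rfl hAc hAe hX hAX) (iSup_le ?_)
    rintro ⟨B, hB, c, hc, hcs⟩
    exact le_iSup_of_le ⟨B, hB, relIndex_le p A B hAc hB c hc (hAe c hc) hcs⟩ le_rfl
  · exact iSup_le (fun B => inf_le_left)

end Cfsg.Agent.Lib.Helper2.Gen
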