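import Mathlib
import Cfsg.Prelude.Def_Transfer
import Cfsg.Agent.Lib.Helper2.Gen

set_option autoImplicit false

namespace Cfsg.Agent.Lib.Helper2.Gen

open Cfsg.Agent.Lib.Helper2

variable {G : Type*} [Group G]

theorem relIndex_one_or [Finite G] (p : ℕ) [Fact p.Prime] (B D : Subgroup G)
    (hBe : ∀ x ∈ B, x ^ p = 1) (hri : D.relIndex B ≤ p) :
    D.relIndex B = 1 ∨ D.relIndex B = p := by
  have hp : p.Prime := Fact.out
  have hPG : IsPGroup p B := fun u => ⟨1, by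
    rw [pow_one]
    exact Subtype.ext (by rw [Subgroup.coe_pow]; exact hBe u.1 u.2)⟩
  obtain ⟨k, hk⟩ := IsPGroup.iff_card.1 hPG
  have h1 : D.relIndex B ∣ p ^ k := by
    rw [← hk]
    exact Subgroup.relIndex_dvd_card D B
  obtain ⟨j, -, hj⟩ := (Nat.dvd_prime_pow hp).1 h1
  rcases Nat.eq_zero_or_pos j with h0 | hpos
  · left
    rw [hj, h0, pow_zero]
  · right
    have h2 : p ^ 1 ≤ p ^ j := Nat.pow_le_pow_right hp.pos hpos
    rw [pow_one] at h2
    omega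

theorem exists_index_p [Finite G] (p : ℕ) [Fact p.Prime] (B : Subgroup G)
    (hBc : ∀ x ∈ B, ∀ y ∈ B, x * y = y * x) (hBe : ∀ x ∈ B, x ^ p = 1) (hB : B ≠ ⊥) :
    ∃ D : Subgroup G, D ≤ B ∧ D.relIndex B = p := by
  obtain ⟨a, ha1⟩ := (Subgroup.ne_bot_iff_exists_ne_one).1 hB
  have ha1' : (a : G) ≠ 1 := fun h => ha1 (Subtype.ext h)
  obtain ⟨D, hDB, haD, hsup⟩ := exists_hyperplane p B hBc hBe a a.2 ha1'
  refine ⟨D, hDB, ?_⟩
  have hri := relIndex_le p B D hBc hDB a a.2 (hBe a a.2) hsup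
  rcases relIndex_one_or p B D hBe hri with h | h
  · exfalso
    exact haD (Subgroup.relIndex_eq_one.1 h a.2)
  · exact h

theorem gen_exact [Finite G] (p : ℕ) [Fact p.Prime] (B X : Subgroup G)
    (hBc : ∀ x ∈ B, ∀ y ∈ B, x * y = y * x) (hBe : ∀ x ∈ B, x ^ p = 1) (hB : B ≠ ⊥)
    (hX : ¬ p ∣ Nat.card X) (hBX : B ≤ Subgroup.normalizer (X : Set G)) :
    X = ⨆ D : {D : Subgroup G // D ≤ B ∧ D.relIndex B = p},
      X ⊓ Subgroup.centralizer ((D : Subgroup G) : Set G) := by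
  apply le_antisymm
  · refine le_trans (gen_aux p _ B X le_rfl hBc hBe hX hBX) (iSup_le ?_)
    rintro ⟨D, hDB, c, hc, hcs⟩
    have hri := relIndex_le p B D hBc hDB c hc (hBe c hc) hcs
    rcases relIndex_one_or p B D hBe hri with h | h
    · obtain ⟨D', hD'B, hD'⟩ := exists_index_p p B hBc hBe hB
      have hD'D : D' ≤ D := hD'B.trans (Subgroup.relIndex_eq_one.1 h)
      exact le_iSup_of_le ⟨D', hD'B, hD'⟩
        (inf_le_inf_left X (Subgroup.centralizer_le hD'D))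
    · exact le_iSup_of_le ⟨D, hDB, h⟩ le_rfl
  · exact iSup_le (fun D => inf_le_left)

end Cfsg.Agent.Lib.Helper2.Gen
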