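import Mathlib
import Cfsg.Prelude.Def_Transfer
import Cfsg.Agent.Lib.Helper2.Gen2

set_option autoImplicit false

namespace Cfsg.Agent.Lib.Helper2.Gen

open Cfsg.Agent.Lib.Helper2

variable {G : Type*} [Group G]

theorem normalizer_grows [Finite G] (q : ℕ) [Fact q.Prime] (Q D : Subgroup G)
    (hQ : IsPGroup q Q) (hDQ : D ≤ Q) (hne : D ≠ Q) :
    ¬ (Subgroup.normalizer (D : Set G) ⊓ Q ≤ D) := by
  intro hcon
  haveI : Group.IsNilpotent Q := hQ.isNilpotent
  have hlt : D.subgroupOf Q < ⊤ := by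
    rw [lt_top_iff_ne_top]
    intro h
    apply hne
    exact le_antisymm hDQ (Subgroup.subgroupOf_eq_top.1 h)
  have h1 := Group.normalizerCondition_of_isNilpotent (G := Q) (D.subgroupOf Q) hlt
  obtain ⟨x, hx, hxD⟩ := SetLike.exists_of_lt h1
  apply hxD
  rw [Subgroup.mem_subgroupOf]
  apply hcon
  refine ⟨?_, x.2⟩
  apply Lift.conj_le_mem_normalizer
  intro d hd
  have h2 := (Subgroup.mem_normalizer_iff.1 hx ⟨d, hDQ hd⟩).1 (Subgroup.mem_subgroupOf.2 hd)
  exact Subgroup.mem_subgroupOf.1 h2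

theorem exists_hyp [Finite G] (p q : ℕ) [Fact p.Prime] [Fact q.Prime] (hqp : q ≠ p)
    (A Q D : Subgroup G) (hAc : ∀ x ∈ A, ∀ y ∈ A, x * y = y * x) (hAe : ∀ x ∈ A, x ^ p = 1)
    (hA : A ≠ ⊥) (hQ : IsPGroup q Q) (hDQ : D ≤ Q) (hne : D ≠ Q)
    (hAQ : A ≤ Subgroup.normalizer (Q : Set G)) (hAD : A ≤ Subgroup.normalizer (D : Set G)) :
    ∃ B : Subgroup G, B ≤ A ∧ B.relIndex A = p ∧
      ¬ (Subgroup.normalizer (D : Set G) ⊓ Q ⊓ Subgroup.centralizer (B : Set G) ≤ D) := by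
  have hp : p.Prime := Fact.out
  have hq : q.Prime := Fact.out
  have hgrow := normalizer_grows q Q D hQ hDQ hne
  have hNp : ¬ p ∣ Nat.card ↥(Subgroup.normalizer (D : Set G) ⊓ Q : Subgroup G) := by
    intro h
    obtain ⟨k, hk⟩ := IsPGroup.iff_card.1 (hQ.to_le (inf_le_right :
      Subgroup.normalizer (D : Set G) ⊓ Q ≤ Q))
    rw [hk] at h
    have := (Nat.prime_dvd_prime_iff_eq hp hq).1 (hp.dvd_of_dvd_pow h)
    exact hqp this.symm
  have hAN : A ≤ Subgroup.normalizer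
      ((Subgroup.normalizer (D : Set G) ⊓ Q : Subgroup G) : Set G) := by
    intro b hb
    apply Lift.conj_le_mem_normalizer
    intro x hx
    refine ⟨?_, ?_⟩
    · exact Subgroup.mul_mem _ (Subgroup.mul_mem _ (hAD hb) hx.1) (Subgroup.inv_mem _ (hAD hb))
    · exact (Subgroup.mem_normalizer_iff.1 (hAQ hb) x).1 hx.2
  have hgen := gen_exact p A (Subgroup.normalizer (D : Set G) ⊓ Q) hAc hAe hA hNp hAN
  by_contra hcon
  push Not at hcon
  apply hgrow
  rw [hgen]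
  apply iSup_le
  rintro ⟨B, hBA, hB⟩
  exact hcon B hBA hB

theorem inf_ne_bot [Finite G] (p : ℕ) [Fact p.Prime] (A B₁ B₂ : Subgroup G)
    (hA3 : p ^ 3 ≤ Nat.card A) (h1 : B₁ ≤ A) (h2 : B₂ ≤ A) (hr1 : B₁.relIndex A = p)
    (hr2 : B₂.relIndex A = p) : B₁ ⊓ B₂ ≠ ⊥ := by
  have hp : p.Prime := Fact.out
  intro hbot
  have e1 := Subgroup.relIndex_mul_relIndex (⊥ : Subgroup G) B₁ A bot_le h1
  have e2 := Subgroup.relIndex_mul_relIndex (⊥ : Subgroup G) B₂ A bot_le h2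
  rw [Subgroup.relIndex_bot_left, Subgroup.relIndex_bot_left, hr1] at e1
  rw [Subgroup.relIndex_bot_left, Subgroup.relIndex_bot_left, hr2] at e2
  have hinj : Function.Injective (fun xy : B₁ × B₂ =>
      (⟨(xy.1 : G) * (xy.2 : G), A.mul_mem (h1 xy.1.2) (h2 xy.2.2)⟩ : A)) := by
    rintro ⟨x, y⟩ ⟨x', y'⟩ hxy
    have e : (x : G) * (y : G) = (x' : G) * (y' : G) := congrArg Subtype.val hxy
    have e3 : (x' : G)⁻¹ * (x : G) = (y' : G) * (y : G)⁻¹ := by
      rw [inv_mul_eq_iff_eq_mul, ← mul_assoc, ← e, mul_inv_cancel_right]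
    have hmem : (x' : G)⁻¹ * (x : G) ∈ B₁ ⊓ B₂ := by
      refine ⟨B₁.mul_mem (B₁.inv_mem x'.2) x.2, ?_⟩
      rw [e3]
      exact B₂.mul_mem y'.2 (B₂.inv_mem y.2)
    rw [hbot, Subgroup.mem_bot] at hmem
    have hx : (x : G) = x' := by
      rw [inv_mul_eq_one] at hmem
      exact hmem.symm
    have hy : (y : G) = y' := by
      rw [hx] at e
      exact mul_left_cancel e
    exact Prod.ext (Subtype.ext hx) (Subtype.ext hy)
  have hle := Nat.card_le_card_of_injective _ hinj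
  rw [Nat.card_prod] at hle
  have hpos : 0 < Nat.card A := Nat.card_pos
  have h3 : Nat.card A * Nat.card A = (Nat.card B₁ * Nat.card B₂) * (p * p) := by
    calc Nat.card A * Nat.card A = (Nat.card B₁ * p) * (Nat.card B₂ * p) := by rw [e1, e2]
      _ = _ := by ring
  have h4 : Nat.card A * Nat.card A ≤ Nat.card A * (p * p) := by
    rw [h3]
    exact Nat.mul_le_mul_right _ hle
  have h5 : Nat.card A ≤ p * p := Nat.le_of_mul_le_mul_left h4 hpos
  have h6 : p * p < p ^ 3 := by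
    have : p ^ 3 = p * p * p := by ring
    rw [this]
    have h7 : 0 < p * p := Nat.mul_pos hp.pos hp.pos
    have := hp.one_lt
    nlinarith
  omega

end Cfsg.Agent.Lib.Helper2.Gen
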