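import Mathlib

set_option autoImplicit false

namespace Cfsg.Agent.Lib.Helper2.Generous

variable {α : Type*} [Fintype α] [DecidableEq α]

def Gen (G : Subgroup (Equiv.Perm α)) (k : ℕ) : Prop :=
  ∀ s : Finset α, s.card = k + 1 → ∀ σ : Equiv.Perm ↥s, ∃ g ∈ G, ∀ x : ↥s, g (x : α) = σ x

theorem gen_perm {G : Subgroup (Equiv.Perm α)} {k : ℕ} (hgen : Gen G k) (s : Finset α)
    (hs : s.card = k + 1) (τ : Equiv.Perm α) (hτ : ∀ c, τ c ∈ s ↔ c ∈ s) :
    ∃ g ∈ G, ∀ c ∈ s, g c = τ c := by
  obtain ⟨g, hg, h⟩ := hgen s hs (τ.subtypePerm hτ)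
  exact ⟨g, hg, fun c hc => by rw [h ⟨c, hc⟩]; rfl⟩

theorem gen_swap {G : Subgroup (Equiv.Perm α)} {k : ℕ} (hgen : Gen G k) (s : Finset α)
    (hs : s.card = k + 1) {a b : α} (ha : a ∈ s) (hb : b ∈ s) :
    ∃ g ∈ G, g a = b ∧ g b = a ∧ ∀ c ∈ s, c ≠ a → c ≠ b → g c = c := by
  obtain ⟨g, hg, h⟩ := gen_perm hgen s hs (Equiv.swap a b) (by
    intro c
    by_cases hca : c = a
    · subst hca
      simp [ha, hb]
    · by_cases hcb : c = b
      · subst hcb
        simp [ha, hb]
      · rw [Equiv.swap_apply_of_ne_of_ne hca hcb])
  refine ⟨g, hg, ?_, ?_, ?_⟩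
  · rw [h a ha, Equiv.swap_apply_left]
  · rw [h b hb, Equiv.swap_apply_right]
  · intro c hc hca hcb
    rw [h c hc, Equiv.swap_apply_of_ne_of_ne hca hcb]

theorem multi {G : Subgroup (Equiv.Perm α)} {k : ℕ} (hk : k < Fintype.card α)
    (hgen : Gen G k) : MulAction.IsMultiplyPretransitive G α k := by
  rw [MulAction.isMultiplyPretransitive_iff]
  intro u v
  have key : ∀ n : ℕ, ∀ u : Fin k ↪ α,
      (Finset.univ.filter (fun i => u i ≠ v i)).card = n → ∃ g : G, g • u = v := by
    intro n
    induction n using Nat.strong_induction_on with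
    | _ n ih =>
      intro u hn
      rcases Nat.eq_zero_or_pos n with h0 | hpos
      · refine ⟨1, ?_⟩
        ext i
        rw [Function.Embedding.smul_apply, one_smul]
        by_contra hne
        have hmem : i ∈ Finset.univ.filter (fun i => u i ≠ v i) := by simp [hne]
        rw [h0, Finset.card_eq_zero] at hn
        rw [hn] at hmem
        simp at hmem
      · obtain ⟨i, hi⟩ : ∃ i, u i ≠ v i := by
          have hne : (Finset.univ.filter (fun i => u i ≠ v i)).Nonempty := by
            rw [← Finset.card_pos, hn]
            exact hpos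
          obtain ⟨i, hi⟩ := hne
          exact ⟨i, (Finset.mem_filter.1 hi).2⟩
        have hcardu : (Finset.univ.map u).card = k := by simp
        have step : ∃ g₁ : G, (g₁ • u) i = v i ∧ ∀ j, u j = v j → (g₁ • u) j = v j := by
          by_cases hv : v i ∈ Set.range u
          · obtain ⟨j, hj⟩ := hv
            obtain ⟨c, hc⟩ : ∃ c, c ∉ Finset.univ.map u := by
              by_contra hcon
              push Not at hcon
              have : Finset.univ.map u = Finset.univ := Finset.eq_univ_iff_forall.2 hcon
              rw [this, Finset.card_univ] at hcardu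
              omega
            have hs : (insert c (Finset.univ.map u)).card = k + 1 := by
              rw [Finset.card_insert_of_notMem hc, hcardu]
            have hmem : ∀ l, u l ∈ insert c (Finset.univ.map u) := fun l =>
              Finset.mem_insert_of_mem (Finset.mem_map_of_mem u (Finset.mem_univ l))
            obtain ⟨g, hg, h1, h2, h3⟩ := gen_swap hgen _ hs (hmem i) (hmem j)
            refine ⟨⟨g, hg⟩, ?_, ?_⟩
            · show g (u i) = v i
              rw [h1, hj]
            · intro l hl
              show g (u l) = v l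
              have hli : l ≠ i := by
                rintro rfl
                exact hi hl
              have hlj : l ≠ j := by
                rintro rfl
                have : v l = v i := by rw [← hl, hj]
                exact hli (v.injective this)
              rw [h3 (u l) (hmem l) (u.injective.ne hli) (u.injective.ne hlj), hl]
          · have hvi : v i ∉ Finset.univ.map u := by
              intro h
              obtain ⟨l, -, hl⟩ := Finset.mem_map.1 h
              exact hv ⟨l, hl⟩
            have hs : (insert (v i) (Finset.univ.map u)).card = k + 1 := by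
              rw [Finset.card_insert_of_notMem hvi, hcardu]
            have hmem : ∀ l, u l ∈ insert (v i) (Finset.univ.map u) := fun l =>
              Finset.mem_insert_of_mem (Finset.mem_map_of_mem u (Finset.mem_univ l))
            obtain ⟨g, hg, h1, h2, h3⟩ := gen_swap hgen _ hs (hmem i)
              (Finset.mem_insert_self _ _)
            refine ⟨⟨g, hg⟩, ?_, ?_⟩
            · show g (u i) = v i
              exact h1
            · intro l hl
              show g (u l) = v l
              have hli : l ≠ i := by
                rintro rfl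
                exact hi hl
              rw [h3 (u l) (hmem l) (u.injective.ne hli) (fun h => hv ⟨l, h⟩), hl]
        obtain ⟨g₁, hg1, hg2⟩ := step
        have hlt : (Finset.univ.filter (fun l => (g₁ • u) l ≠ v l)).card < n := by
          rw [← hn]
          apply Finset.card_lt_card
          rw [Finset.ssubset_iff_of_subset]
          · exact ⟨i, by simp [hi], fun h => (Finset.mem_filter.1 h).2 hg1⟩
          · intro l hl
            simp only [Finset.mem_filter, Finset.mem_univ, true_and] at hl ⊢
            intro h
            exact hl (hg2 l h)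
        obtain ⟨g₂, hg₂⟩ := ih _ hlt (g₁ • u) rfl
        refine ⟨g₂ * g₁, ?_⟩
        ext l
        rw [Function.Embedding.smul_apply, mul_smul, ← Function.Embedding.smul_apply,
          ← Function.Embedding.smul_apply, hg₂]
  exact key _ u rfl

theorem setwise_orbit {G : Subgroup (Equiv.Perm α)} {k : ℕ} (hgen : Gen G k) (s : Finset α)
    (hs : s.card = k) (a : α) (ha : a ∉ s) (g : Equiv.Perm α) (hg : g ∈ G)
    (hgs : ∀ c, g c ∈ s ↔ c ∈ s) :
    ∃ h ∈ G, (∀ c ∈ s, h c = c) ∧ h a = g a := by
  classical
  have hga : g a ∉ s := fun h => ha ((hgs a).1 h)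
  have hτ : ∀ c, (Equiv.Perm.ofSubtype (g.subtypePerm hgs)) c ∈ insert (g a) s
      ↔ c ∈ insert (g a) s := by
    intro c
    by_cases hc : c ∈ s
    · have e : (Equiv.Perm.ofSubtype (g.subtypePerm hgs)) c = g c :=
        Equiv.Perm.ofSubtype_apply_of_mem (g.subtypePerm hgs) hc
      rw [e]
      constructor
      · intro _
        exact Finset.mem_insert_of_mem hc
      · intro _
        exact Finset.mem_insert_of_mem ((hgs c).2 hc)
    · rw [Equiv.Perm.ofSubtype_apply_of_not_mem (g.subtypePerm hgs) hc]
  obtain ⟨y, hy, hyc⟩ := gen_perm hgen (insert (g a) s)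
    (by rw [Finset.card_insert_of_notMem hga, hs]) _ hτ
  have hyb : y (g a) = g a := by
    rw [hyc _ (Finset.mem_insert_self _ _),
      Equiv.Perm.ofSubtype_apply_of_not_mem (g.subtypePerm hgs) hga]
  have hys : ∀ c ∈ s, y c = g c := by
    intro c hc
    rw [hyc c (Finset.mem_insert_of_mem hc)]
    exact Equiv.Perm.ofSubtype_apply_of_mem (g.subtypePerm hgs) hc
  refine ⟨y⁻¹ * g, G.mul_mem (G.inv_mem hy) hg, ?_, ?_⟩
  · intro c hc
    rw [Equiv.Perm.mul_apply, ← hys c hc, Equiv.Perm.inv_eq_iff_eq]
  · rw [Equiv.Perm.mul_apply, Equiv.Perm.inv_eq_iff_eq, hyb]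

end Cfsg.Agent.Lib.Helper2.Generous
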