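import Mathlib

set_option autoImplicit false

namespace Cfsg.Agent.Lib.Helper2.OrbitCount

theorem card_modEq_one_of_orbits {G α : Type*} [Group G] [MulAction G α] [Finite α] (m : ℕ)
    (x₀ : α) (hfix : ∀ g : G, g • x₀ = x₀)
    (hdiv : ∀ x : α, x ≠ x₀ → m ∣ Nat.card (MulAction.orbit G x)) :
    Nat.card α ≡ 1 [MOD m] := by
  classical
  haveI : Fintype (MulAction.orbitRel.Quotient G α) := Fintype.ofFinite _
  rw [Nat.card_congr (MulAction.selfEquivSigmaOrbits G α), Nat.card_sigma]
  rw [← ZMod.natCast_eq_natCast_iff, Nat.cast_sum, Nat.cast_one]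
  have horb : MulAction.orbit G x₀ = {x₀} := by
    ext y
    constructor
    · rintro ⟨g, rfl⟩
      exact hfix g
    · rintro rfl
      exact MulAction.mem_orbit_self _
  have hterm : ∀ ω : MulAction.orbitRel.Quotient G α,
      ((Nat.card (MulAction.orbit G (Quotient.out ω)) : ℕ) : ZMod m) =
        if ω = (Quotient.mk'' x₀ : MulAction.orbitRel.Quotient G α) then 1 else 0 := by
    intro ω
    split_ifs with hω
    · have h1 : Quotient.out ω = x₀ := by
        have h2 : (Quotient.mk'' (Quotient.out ω) : MulAction.orbitRel.Quotient G α) =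
            Quotient.mk'' x₀ := by
          rw [Quotient.out_eq']; exact hω
        have h3 := (MulAction.orbitRel_apply).1 (Quotient.eq''.1 h2)
        rw [horb] at h3
        exact h3
      rw [h1, horb]
      simp
    · have h1 : Quotient.out ω ≠ x₀ := by
        intro h
        apply hω
        rw [← h, Quotient.out_eq']
      exact (ZMod.natCast_eq_zero_iff _ _).2 (hdiv _ h1)
  rw [Finset.sum_congr rfl (fun ω _ => hterm ω)]
  simp

end Cfsg.Agent.Lib.Helper2.OrbitCount
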