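import Mathlib
import Cfsg.Agent.Lib.Helper2.OrbitCount

set_option autoImplicit false

namespace Cfsg.Agent.Lib.Helper2.Gleason

variable {G X : Type*} [Group G] [MulAction G X]

theorem dvd_card_type {H α : Type*} [Group H] [MulAction H α] [Finite α] (r : ℕ)
    (hdiv : ∀ x : α, r ∣ Nat.card (MulAction.orbit H x)) : r ∣ Nat.card α := by
  classical
  haveI : Fintype (MulAction.orbitRel.Quotient H α) := Fintype.ofFinite _
  rw [Nat.card_congr (MulAction.selfEquivSigmaOrbits H α), Nat.card_sigma]
  exact Finset.dvd_sum fun ω _ => hdiv _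

def subAct (H : Subgroup G) (S : Set X) (hS : ∀ g ∈ H, ∀ x ∈ S, g • x ∈ S) :
    SubMulAction H X where
  carrier := S
  smul_mem' := fun g x hx => hS g.1 g.2 x hx

theorem card_orbit_sub (H : Subgroup G) (S : Set X) (hS : ∀ g ∈ H, ∀ x ∈ S, g • x ∈ S)
    (w : subAct H S hS) :
    Nat.card (MulAction.orbit H w) = Nat.card (MulAction.orbit H (w : X)) := by
  rw [← SubMulAction.val_image_orbit w]
  exact (Nat.card_image_of_injective Subtype.val_injective _).symm

theorem dvd_card_of_orbits [Finite X] (H : Subgroup G) (S : Set X)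
    (hS : ∀ g ∈ H, ∀ x ∈ S, g • x ∈ S) (r : ℕ)
    (hdiv : ∀ x ∈ S, r ∣ Nat.card (MulAction.orbit H x)) : r ∣ Nat.card S := by
  have h := dvd_card_type (H := H) (α := subAct H S hS) r (fun w => by
    rw [card_orbit_sub]
    exact hdiv _ w.2)
  exact h

theorem card_modEq_one [Finite X] (H : Subgroup G) (S : Set X)
    (hS : ∀ g ∈ H, ∀ x ∈ S, g • x ∈ S) (r : ℕ) (z : X) (hz : z ∈ S)
    (hfix : ∀ g ∈ H, g • z = z)
    (hdiv : ∀ x ∈ S, x ≠ z → r ∣ Nat.card (MulAction.orbit H x)) :
    Nat.card S ≡ 1 [MOD r] := by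
  have h := OrbitCount.card_modEq_one_of_orbits (G := H) (α := subAct H S hS) r ⟨z, hz⟩
    (fun g => Subtype.ext (hfix g.1 g.2)) (fun w hw => by
      rw [card_orbit_sub]
      exact hdiv _ w.2 (fun e => hw (Subtype.ext e)))
  exact h

theorem basic [Finite X] (Y : Set X) (K : Subgroup G) (r : ℕ) (hr : 1 < r)
    (h : ∀ z ∈ Y, ∃ H : Subgroup G, H ≤ K ∧ (∀ g ∈ H, g • z = z) ∧
      ∀ w ∈ Y, w ≠ z → r ∣ Nat.card (MulAction.orbit H w))
    (hY : ∀ g ∈ K, ∀ y ∈ Y, g • y ∈ Y) :
    ∀ y ∈ Y, ∀ y' ∈ Y, ∃ g ∈ K, g • y = y' := by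
  intro y hy y' hy'
  by_contra hcon
  push Not at hcon
  obtain ⟨O', hO'⟩ : ∃ O' : Set X, O' = {x | ∃ g ∈ K, g • y' = x} := ⟨_, rfl⟩
  have hO'Y : O' ⊆ Y := by
    rw [hO']
    rintro x ⟨g, hg, rfl⟩
    exact hY g hg y' hy'
  have hy'O' : y' ∈ O' := by
    rw [hO']
    exact ⟨1, K.one_mem, one_smul _ _⟩
  have hyO' : y ∉ O' := by
    rw [hO']
    rintro ⟨g, hg, e⟩
    exact hcon g⁻¹ (K.inv_mem hg) (by rw [← e, inv_smul_smul])
  have hinv : ∀ g ∈ K, ∀ x ∈ O', g • x ∈ O' := by
    intro g hg x hx
    rw [hO'] at hx ⊢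
    obtain ⟨k, hk, rfl⟩ := hx
    exact ⟨g * k, K.mul_mem hg hk, mul_smul _ _ _⟩
  obtain ⟨H, hHK, hHfix, hHdiv⟩ := h y hy
  obtain ⟨H', hH'K, hH'fix, hH'div⟩ := h y' hy'
  have h1 : r ∣ Nat.card O' :=
    dvd_card_of_orbits H O' (fun g hg => hinv g (hHK hg)) r
      (fun x hx => hHdiv x (hO'Y hx) (fun e => hyO' (e ▸ hx)))
  have h2 : Nat.card O' ≡ 1 [MOD r] :=
    card_modEq_one H' O' (fun g hg => hinv g (hH'K hg)) r y' hy'O' hH'fix
      (fun x hx hne => hH'div x (hO'Y hx) hne)
  have h3 : r ∣ 1 := by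
    have h4 := (Nat.modEq_zero_iff_dvd.2 h1).symm.trans h2
    exact (Nat.modEq_zero_iff_dvd.1 h4.symm)
  have h5 := Nat.le_of_dvd one_pos h3
  omega

theorem multi [Fintype X] [DecidableEq X] (j : ℕ) (hj : j < Fintype.card X) (r : ℕ)
    (hr : 1 < r)
    (h : ∀ s : Finset X, s.card = j → ∃ H : Subgroup G, (∀ g ∈ H, ∀ x ∈ s, g • x = x) ∧
      ∀ w, w ∉ s → r ∣ Nat.card (MulAction.orbit H w)) :
    MulAction.IsMultiplyPretransitive G X j := by
  rw [MulAction.isMultiplyPretransitive_iff]
  intro x y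
  have key : ∀ i : ℕ, i ≤ j → ∃ g : G, ∀ t : Fin j, t.val < i → g • x t = y t := by
    intro i
    induction i with
    | zero => exact fun _ => ⟨1, fun t ht => absurd ht (Nat.not_lt_zero _)⟩
    | succ i ih =>
      intro hi
      obtain ⟨g, hg⟩ := ih (by omega)
      obtain ⟨T, hT⟩ : ∃ T : Finset X, T = (Finset.univ.filter (fun t : Fin j => t.val < i)).image y :=
        ⟨_, rfl⟩
      have hTmem : ∀ z, z ∈ T ↔ ∃ t : Fin j, t.val < i ∧ y t = z := by
        intro z
        rw [hT, Finset.mem_image]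
        constructor
        · rintro ⟨t, ht, rfl⟩
          exact ⟨t, (Finset.mem_filter.1 ht).2, rfl⟩
        · rintro ⟨t, ht, rfl⟩
          exact ⟨t, Finset.mem_filter.2 ⟨Finset.mem_univ _, ht⟩, rfl⟩
      have hTcard : T.card ≤ i := by
        rw [hT]
        refine le_trans Finset.card_image_le ?_
        have h1 : (Finset.univ.filter (fun t : Fin j => t.val < i)).card ≤
            (Finset.range i).card := by
          refine Finset.card_le_card_of_injOn (fun t => t.val) ?_ ?_
          · intro t ht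
            exact Finset.mem_range.2 (Finset.mem_filter.1 ht).2
          · intro a _ b _ hab
            exact Fin.ext hab
        rw [Finset.card_range] at h1
        exact h1
      obtain ⟨x', hx'⟩ : ∃ x' : X, x' = g • x ⟨i, by omega⟩ := ⟨_, rfl⟩
      obtain ⟨y', hy'⟩ : ∃ y' : X, y' = y ⟨i, by omega⟩ := ⟨_, rfl⟩
      have hx'T : x' ∉ T := by
        rw [hTmem]
        rintro ⟨t, ht, e⟩
        rw [← hg t ht, hx'] at e
        have e2 := x.injective (smul_left_cancel g e)
        rw [Fin.ext_iff] at e2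
        simp only at e2
        omega
      have hy'T : y' ∉ T := by
        rw [hTmem]
        rintro ⟨t, ht, e⟩
        rw [hy'] at e
        have e2 := y.injective e
        rw [Fin.ext_iff] at e2
        simp only at e2
        omega
      have hsub : T ⊆ (Finset.univ.erase x').erase y' := by
        intro z hz
        rw [Finset.mem_erase, Finset.mem_erase]
        exact ⟨fun e => hy'T (e ▸ hz), fun e => hx'T (e ▸ hz), Finset.mem_univ _⟩
      have hbig : j - 1 ≤ ((Finset.univ.erase x').erase y').card := by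
        have h1 := Finset.pred_card_le_card_erase (s := Finset.univ.erase x') (a := y')
        have h2 := Finset.pred_card_le_card_erase (s := (Finset.univ : Finset X)) (a := x')
        rw [Finset.card_univ] at h2
        omega
      obtain ⟨s', hTs', hs'sub, hs'card⟩ :=
        Finset.exists_subsuperset_card_eq hsub (by omega : T.card ≤ j - 1) hbig
      have hx's' : x' ∉ s' := by
        intro hmem
        have h1 := hs'sub hmem
        rw [Finset.mem_erase, Finset.mem_erase] at h1
        exact h1.2.1 rfl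
      have hy's' : y' ∉ s' := by
        intro hmem
        have h1 := hs'sub hmem
        rw [Finset.mem_erase] at h1
        exact h1.1 rfl
      obtain ⟨K, hK⟩ : ∃ K : Subgroup G, K = fixingSubgroup G (s' : Set X) := ⟨_, rfl⟩
      have hKmem : ∀ k : G, k ∈ K ↔ ∀ z ∈ s', k • z = z := by
        intro k
        rw [hK, mem_fixingSubgroup_iff]
        rfl
      have htrans := basic (G := G) (X := X) (fun z => z ∉ s') K r hr (by
        intro z hz
        have hcard : (insert z s').card = j := by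
          rw [Finset.card_insert_of_notMem hz, hs'card]
          omega
        obtain ⟨H, hHfix, hHdiv⟩ := h (insert z s') hcard
        refine ⟨H, ?_, ?_, ?_⟩
        · intro k hk
          rw [hKmem]
          intro u hu
          exact hHfix k hk u (Finset.mem_insert_of_mem hu)
        · intro k hk
          exact hHfix k hk z (Finset.mem_insert_self _ _)
        · intro w hw hwz
          apply hHdiv
          rw [Finset.mem_insert]
          rintro (e | e)
          · exact hwz e
          · exact hw e) (by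
        intro k hk u hu hku
        have h1 := (hKmem k⁻¹).1 (K.inv_mem hk) (k • u) hku
        rw [inv_smul_smul] at h1
        exact hu (h1 ▸ hku))
      obtain ⟨k, hk, hkx⟩ := htrans x' hx's' y' hy's'
      refine ⟨k * g, ?_⟩
      intro t ht
      rw [mul_smul]
      by_cases hti : t.val < i
      · rw [hg t hti]
        exact (hKmem k).1 hk _ (hTs' ((hTmem _).2 ⟨t, hti, rfl⟩))
      · have hti' : t = ⟨i, by omega⟩ := Fin.ext (by simp only; omega)
        rw [hti', ← hx', hkx, hy']
  obtain ⟨g, hg⟩ := key j le_rfl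
  exact ⟨g, DFunLike.ext _ _ fun t => hg t t.2⟩

end Cfsg.Agent.Lib.Helper2.Gleason
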