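import Mathlib
import Cfsg.Agent.Lib.Helper2.Generous
import Cfsg.Agent.Lib.Helper2.Gleason
import Cfsg.Agent.Lib.Helper2.SylowAux
import Cfsg.Agent.Lib.Helper2.Lift

set_option autoImplicit false

namespace Cfsg.Agent.Lib.Helper2.Generous

open Cfsg.Agent.Lib.Helper2

theorem app_inv {β : Type*} (f : Equiv.Perm β) (x : β) : f (f⁻¹ x) = x := f.apply_symm_apply x

theorem inv_app {β : Type*} (f : Equiv.Perm β) (x : β) : f⁻¹ (f x) = x := f.symm_apply_apply x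

variable {α : Type*} [Fintype α] [DecidableEq α]

def Fx (G : Subgroup (Equiv.Perm α)) (s : Finset α) : Subgroup (Equiv.Perm α) where
  carrier := {g | g ∈ G ∧ ∀ x ∈ s, g x = x}
  one_mem' := ⟨G.one_mem, fun x _ => rfl⟩
  mul_mem' := by
    rintro a b ⟨ha, ha'⟩ ⟨hb, hb'⟩
    exact ⟨G.mul_mem ha hb, fun x hx => by rw [Equiv.Perm.mul_apply, hb' x hx, ha' x hx]⟩
  inv_mem' := by
    rintro a ⟨ha, ha'⟩
    exact ⟨G.inv_mem ha, fun x hx => by rw [Equiv.Perm.inv_eq_iff_eq, ha' x hx]⟩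

theorem mem_Fx {G : Subgroup (Equiv.Perm α)} {s : Finset α} {g : Equiv.Perm α} :
    g ∈ Fx G s ↔ g ∈ G ∧ ∀ x ∈ s, g x = x := Iff.rfl

def Sw (G : Subgroup (Equiv.Perm α)) (s : Finset α) : Subgroup (Equiv.Perm α) where
  carrier := {g | g ∈ G ∧ ∀ c, g c ∈ s ↔ c ∈ s}
  one_mem' := ⟨G.one_mem, fun c => Iff.rfl⟩
  mul_mem' := by
    rintro a b ⟨ha, ha'⟩ ⟨hb, hb'⟩
    exact ⟨G.mul_mem ha hb, fun c => by rw [Equiv.Perm.mul_apply, ha', hb']⟩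
  inv_mem' := by
    rintro a ⟨ha, ha'⟩
    refine ⟨G.inv_mem ha, fun c => ?_⟩
    rw [← ha' (a⁻¹ c), app_inv]

theorem mem_Sw {G : Subgroup (Equiv.Perm α)} {s : Finset α} {g : Equiv.Perm α} :
    g ∈ Sw G s ↔ g ∈ G ∧ ∀ c, g c ∈ s ↔ c ∈ s := Iff.rfl

theorem Fx_le_Sw (G : Subgroup (Equiv.Perm α)) (s : Finset α) : Fx G s ≤ Sw G s := by
  rintro g ⟨hg, hfix⟩
  refine ⟨hg, fun c => ?_⟩
  constructor
  · intro h
    have h1 := hfix _ h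
    have h2 : g c = c := g.injective h1
    rwa [h2] at h
  · intro h
    rw [hfix c h]
    exact h

theorem orbit_eq (G : Subgroup (Equiv.Perm α)) (Γ : Finset α) (a : α) :
    MulAction.orbit (fixingSubgroup G (Γ : Set α)) a = {b | ∃ h ∈ Fx G Γ, h a = b} := by
  ext b
  constructor
  · rintro ⟨h, rfl⟩
    refine ⟨((h : G) : Equiv.Perm α), ⟨(h : G).2, fun x hx => ?_⟩, rfl⟩
    exact (mem_fixingSubgroup_iff G).1 h.2 x (Finset.mem_coe.2 hx)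
  · rintro ⟨h, ⟨hG, hfix⟩, rfl⟩
    exact ⟨⟨⟨h, hG⟩, (mem_fixingSubgroup_iff G).2 (fun y hy => hfix y (Finset.mem_coe.1 hy))⟩,
      rfl⟩

theorem exists_fixed {X β : Type*} [Group X] [MulAction X β] [Finite β] {p : ℕ} [Fact p.Prime]
    (Q : Subgroup X) (hQ : IsPGroup p Q) (S : Set β) (hS : ∀ g ∈ Q, ∀ x ∈ S, g • x ∈ S)
    (hcard : ¬ p ∣ Nat.card S) : ∃ x ∈ S, ∀ g ∈ Q, g • x = x := by
  by_contra hcon
  push Not at hcon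
  apply hcard
  apply Gleason.dvd_card_of_orbits Q S hS p
  intro x hx
  obtain ⟨n, hn⟩ := hQ.card_orbit x
  rcases Nat.eq_zero_or_pos n with h0 | h0
  · exfalso
    rw [h0, pow_zero] at hn
    have hsub : Subsingleton (MulAction.orbit Q x) := (Nat.card_eq_one_iff_unique.1 hn).1
    obtain ⟨g, hg, hgx⟩ := hcon x hx
    have h1 := hsub.elim ⟨(⟨g, hg⟩ : Q) • x, MulAction.mem_orbit _ _⟩
      ⟨x, MulAction.mem_orbit_self _⟩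
    exact hgx (congrArg Subtype.val h1)
  · rw [hn]
    exact dvd_pow_self p (by omega)

theorem relSylow_conj {X : Type*} [Group X] [Finite X] {p : ℕ} [Fact p.Prime]
    (Y P P' : Subgroup X) (hP' : P' ≤ Y) (hPp : IsPGroup p P) (hP'p : IsPGroup p P')
    (hidx : ¬ p ∣ P.relIndex Y) : ∃ y ∈ Y, ∀ x ∈ P', y⁻¹ * x * y ∈ P := by
  have h1 : IsPGroup p (P.subgroupOf Y) := hPp.comap_subtype
  have h2 : IsPGroup p (P'.subgroupOf Y) := hP'p.comap_subtype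
  obtain ⟨y, hy⟩ := SylowAux.exists_conj_le_sylow (h1.toSylow hidx) h2
  refine ⟨y, y.2, fun x hx => ?_⟩
  have h3 := hy ⟨x, hP' hx⟩ (Subgroup.mem_subgroupOf.2 hx)
  have h4 : y⁻¹ * ⟨x, hP' hx⟩ * y ∈ P.subgroupOf Y := h3
  exact Subgroup.mem_subgroupOf.1 h4

theorem witt {G : Subgroup (Equiv.Perm α)} {k : ℕ} (hgen : Gen G k) {p : ℕ} [Fact p.Prime]
    (Γ : Finset α) (P : Subgroup (Equiv.Perm α)) (hPH : P ≤ Fx G Γ) (hPp : IsPGroup p P)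
    (hidx : ¬ p ∣ P.relIndex (Fx G Γ))
    (s : Finset α) (hs : s.card = k + 1) (hΓs : Γ ⊆ s) (hsF : ∀ c ∈ s, ∀ x ∈ P, x c = c)
    (τ : Equiv.Perm α) (hτ : ∀ c, τ c ∈ s ↔ c ∈ s) :
    ∃ g ∈ G, g ∈ Subgroup.normalizer (P : Set (Equiv.Perm α)) ∧ ∀ c ∈ s, g c = τ c := by
  obtain ⟨g₀, hg₀, hg₀s⟩ := gen_perm hgen s hs τ hτ
  have hinv : ∀ c ∈ s, g₀⁻¹ c ∈ s := by
    intro c hc
    have h1 : τ⁻¹ c ∈ s := (hτ (τ⁻¹ c)).1 (by rw [app_inv]; exact hc)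
    have h2 : g₀⁻¹ c = τ⁻¹ c := by
      rw [Equiv.Perm.inv_eq_iff_eq, hg₀s _ h1, app_inv]
    rw [h2]
    exact h1
  have hPG : P ≤ G := fun x hx => (hPH hx).1
  have hPY : P ≤ Fx G s := fun x hx => ⟨hPG hx, fun c hc => hsF c hc x hx⟩
  have hYH : Fx G s ≤ Fx G Γ := fun x hx => ⟨hx.1, fun c hc => hx.2 c (hΓs hc)⟩
  have hidxY : ¬ p ∣ P.relIndex (Fx G s) := by
    intro h
    apply hidx
    rw [← Subgroup.relIndex_mul_relIndex P (Fx G s) (Fx G Γ) hPY hYH]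
    exact dvd_mul_of_dvd_left h _
  have hP₀Y : P.map (MulAut.conj g₀).toMonoidHom ≤ Fx G s := by
    rintro _ ⟨x, hx, rfl⟩
    refine ⟨G.mul_mem (G.mul_mem hg₀ (hPG hx)) (G.inv_mem hg₀), fun c hc => ?_⟩
    show (g₀ * x * g₀⁻¹) c = c
    rw [Equiv.Perm.mul_apply, Equiv.Perm.mul_apply, hsF _ (hinv c hc) x hx,
      app_inv]
  obtain ⟨y, hy, hyP⟩ := relSylow_conj (Fx G s) P (P.map (MulAut.conj g₀).toMonoidHom) hP₀Y
    hPp (hPp.map _) hidxY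
  refine ⟨y⁻¹ * g₀, G.mul_mem (G.inv_mem hy.1) hg₀, ?_, ?_⟩
  · apply Lift.conj_le_mem_normalizer
    intro a ha
    have h1 := hyP _ ⟨a, ha, rfl⟩
    have e : y⁻¹ * g₀ * a * (y⁻¹ * g₀)⁻¹ = y⁻¹ * ((MulAut.conj g₀).toMonoidHom a) * y := by
      show y⁻¹ * g₀ * a * (y⁻¹ * g₀)⁻¹ = y⁻¹ * (g₀ * a * g₀⁻¹) * y
      group
    rw [e]
    exact h1
  · intro c hc
    rw [Equiv.Perm.mul_apply, hg₀s c hc, Equiv.Perm.inv_eq_iff_eq, hy.2 _ ((hτ c).2 hc)]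

theorem sw_orbit {G : Subgroup (Equiv.Perm α)} {k : ℕ} (hgen : Gen G k) (Γ : Finset α)
    (hΓ : Γ.card = k) (a : α) (ha : a ∉ Γ) (g : Equiv.Perm α) (hg : g ∈ Sw G Γ)
    (h : Equiv.Perm α) (hh : h ∈ Fx G Γ) : ∃ h' ∈ Fx G Γ, h' a = g (h a) := by
  obtain ⟨h₁, hh₁, hh₁fix, hh₁a⟩ := setwise_orbit hgen Γ hΓ a ha g hg.1 hg.2
  refine ⟨g * h * g⁻¹ * h₁, ⟨G.mul_mem (G.mul_mem (G.mul_mem hg.1 hh.1) (G.inv_mem hg.1)) hh₁,
    fun c hc => ?_⟩, ?_⟩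
  · have hc' : g⁻¹ c ∈ Γ := by
      rw [← hg.2 (g⁻¹ c), app_inv]
      exact hc
    rw [Equiv.Perm.mul_apply, hh₁fix c hc, Equiv.Perm.mul_apply, Equiv.Perm.mul_apply,
      hh.2 _ hc', app_inv]
  · rw [Equiv.Perm.mul_apply, hh₁a, Equiv.Perm.mul_apply, Equiv.Perm.mul_apply,
      inv_app]

end Cfsg.Agent.Lib.Helper2.Generous
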