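import Mathlib
import Cfsg.Agent.Lib.Helper2.Generous2

set_option autoImplicit false

namespace Cfsg.Agent.Lib.Helper2.Generous

open Cfsg.Agent.Lib.Helper2

variable {α : Type*} [Fintype α] [DecidableEq α]

theorem main706 (G : Subgroup (Equiv.Perm α)) {k : ℕ} (hk : k < Fintype.card α) (hgen : Gen G k)
    {p : ℕ} (hp : p.Prime) (hpk : p ≤ k) (Γ : Finset α) (hΓ : Γ.card = k) (f : Fin p → α)
    (hf : ∀ i, f i ∉ Γ)
    (hdist : ∀ i j, i ≠ j → ¬ ∃ h ∈ Fx G Γ, h (f i) = f j) :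
    ∃ i, p ∣ Nat.card {b : α | ∃ h ∈ Fx G Γ, h (f i) = b} := by
  classical
  haveI : Fact p.Prime := ⟨hp⟩
  haveI : NeZero p := ⟨hp.ne_zero⟩
  by_contra hcon
  push Not at hcon
  obtain ⟨S⟩ : Nonempty (Sylow p (Fx G Γ)) := inferInstance
  obtain ⟨P, hPdef⟩ : ∃ P : Subgroup (Equiv.Perm α),
      P = (S : Subgroup (Fx G Γ)).map (Fx G Γ).subtype := ⟨_, rfl⟩
  have hPH : P ≤ Fx G Γ := by
    rw [hPdef]
    rintro _ ⟨x, -, rfl⟩
    exact x.2
  have hPp : IsPGroup p P := by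
    rw [hPdef]
    exact S.isPGroup'.map _
  have hidx : ¬ p ∣ P.relIndex (Fx G Γ) := by
    have e : P.subgroupOf (Fx G Γ) = (S : Subgroup (Fx G Γ)) := by
      rw [hPdef, Subgroup.subgroupOf,
        Subgroup.comap_map_eq_self_of_injective (Fx G Γ).subtype_injective]
    rw [Subgroup.relIndex, e]
    exact S.not_dvd_index
  have hPfix : ∀ x ∈ P, ∀ c ∈ Γ, x c = c := fun x hx => (hPH hx).2
  have hΔinv : ∀ (Q : Subgroup (Equiv.Perm α)), Q ≤ Sw G Γ → ∀ i, ∀ g ∈ Q,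
      ∀ x ∈ {b : α | ∃ h ∈ Fx G Γ, h (f i) = b},
      g • x ∈ {b : α | ∃ h ∈ Fx G Γ, h (f i) = b} := by
    rintro Q hQ i g hg x ⟨h, hh, rfl⟩
    obtain ⟨h', hh', e⟩ := sw_orbit hgen Γ hΓ (f i) (hf i) g (hQ hg) h hh
    exact ⟨h', hh', e⟩
  have hΔΓ : ∀ i, ∀ x ∈ {b : α | ∃ h ∈ Fx G Γ, h (f i) = b}, x ∉ Γ := by
    rintro i x ⟨h, hh, rfl⟩ hx
    apply hf i
    have h1 := hh.2 _ hx
    have h2 := h.injective h1
    rw [h2] at hx
    exact hx
  have hp0 : 0 < p := hp.pos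
  obtain ⟨ε₀, hε₀Δ, hε₀fix⟩ := exists_fixed P hPp _
    (hΔinv P (hPH.trans (Fx_le_Sw G Γ)) ⟨0, hp0⟩) (hcon ⟨0, hp0⟩)
  have hε₀Γ : ε₀ ∉ Γ := hΔΓ _ ε₀ hε₀Δ
  obtain ⟨e₀⟩ : Nonempty (ZMod p ↪ ↥Γ) := Function.Embedding.nonempty_of_card_le (by
    rw [ZMod.card, Fintype.card_coe, hΓ]
    exact hpk)
  obtain ⟨e, he⟩ : ∃ e : ZMod p ↪ α, ∀ a, e a ∈ Γ :=
    ⟨e₀.trans (Function.Embedding.subtype _), fun a => (e₀ a).2⟩
  obtain ⟨τ, hτe, hτn⟩ : ∃ τ : Equiv.Perm α, (∀ a, τ (e a) = e (a + 1)) ∧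
      ∀ c, c ∉ Set.range e → τ c = c := by
    refine ⟨(Equiv.addRight (1 : ZMod p)).extendDomain (Equiv.ofInjective e e.injective), ?_, ?_⟩
    · intro a
      have := Equiv.Perm.extendDomain_apply_image (Equiv.addRight (1 : ZMod p))
        (Equiv.ofInjective e e.injective) a
      simpa using this
    · intro c hc
      exact Equiv.Perm.extendDomain_apply_not_subtype _ _ hc
  have hτs : ∀ s : Finset α, (∀ a, e a ∈ s) → ∀ c, τ c ∈ s ↔ c ∈ s := by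
    intro s hs c
    by_cases hc : c ∈ Set.range e
    · obtain ⟨a, rfl⟩ := hc
      rw [hτe]
      exact ⟨fun _ => hs a, fun _ => hs _⟩
    · rw [hτn c hc]
  have hτpow : ∀ j : ℕ, ∀ a, (τ ^ j) (e a) = e (a + j) := by
    intro j
    induction j with
    | zero => intro a; simp
    | succ j ih =>
      intro a
      rw [pow_succ, Equiv.Perm.mul_apply, hτe, ih]
      congr 1
      push_cast
      ring
  have hs₀ : (insert ε₀ Γ).card = k + 1 := by rw [Finset.card_insert_of_notMem hε₀Γ, hΓ]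
  have hes₀ : ∀ a, e a ∈ insert ε₀ Γ := fun a => Finset.mem_insert_of_mem (he a)
  obtain ⟨t, htG, htN, ht⟩ := witt hgen Γ P hPH hPp hidx (insert ε₀ Γ) hs₀
    (Finset.subset_insert _ _)
    (by
      intro c hc x hx
      rcases Finset.mem_insert.1 hc with rfl | hc
      · exact hε₀fix x hx
      · exact hPfix x hx c hc) τ (hτs _ hes₀)
  have htSw : t ∈ Sw G Γ := by
    refine ⟨htG, fun c => ?_⟩
    constructor
    · intro h
      have h1 : τ⁻¹ (t c) ∈ Γ := (hτs Γ he _).1 (by rw [app_inv]; exact h)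
      have h2 : t (τ⁻¹ (t c)) = t c := by
        rw [ht _ (Finset.mem_insert_of_mem h1), app_inv]
      rw [← t.injective h2]
      exact h1
    · intro h
      rw [ht c (Finset.mem_insert_of_mem h)]
      exact (hτs Γ he c).2 h
  have hpow : ∀ j : ℕ, ∀ c ∈ insert ε₀ Γ, (t ^ j) c = (τ ^ j) c := by
    intro j
    induction j with
    | zero => intro c _; simp
    | succ j ih =>
      intro c hc
      rw [pow_succ, pow_succ, Equiv.Perm.mul_apply, Equiv.Perm.mul_apply, ht c hc]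
      exact ih _ ((hτs _ hes₀ c).2 hc)
  obtain ⟨a, m, hm, horder⟩ :=
    Nat.exists_eq_pow_mul_and_not_dvd (orderOf_pos t).ne' p hp.ne_one
  have ht₁pow : (t ^ m) ^ (p ^ a) = 1 := by
    rw [← pow_mul, mul_comm, ← horder, pow_orderOf_eq_one]
  have hTp : IsPGroup p (Subgroup.zpowers (t ^ m)) := by
    rintro ⟨g, hg⟩
    obtain ⟨j, rfl⟩ := Subgroup.mem_zpowers_iff.1 hg
    refine ⟨a, Subtype.ext ?_⟩
    show ((t ^ m) ^ j) ^ (p ^ a) = 1
    rw [← zpow_natCast, ← zpow_mul, mul_comm, zpow_mul, zpow_natCast, ht₁pow, one_zpow]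
  have ht₁move : (t ^ m) (e 0) ≠ e 0 := by
    rw [hpow m _ (hes₀ 0), hτpow, zero_add]
    intro h
    have h1 := e.injective h
    rw [ZMod.natCast_eq_zero_iff] at h1
    exact hm h1
  have ht₁fix : ∀ c ∈ Γ, c ∉ Set.range e → (t ^ m) c = c := by
    intro c hc hce
    rw [hpow m c (Finset.mem_insert_of_mem hc)]
    exact Equiv.Perm.pow_apply_eq_self_of_apply_eq_self (hτn c hce) m
  have hTN : Subgroup.zpowers (t ^ m) ≤ Subgroup.normalizer (P : Set (Equiv.Perm α)) := by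
    rw [Subgroup.zpowers_le]
    exact Subgroup.pow_mem _ htN m
  have hP₁p : IsPGroup p (Subgroup.zpowers (t ^ m) ⊔ P : Subgroup (Equiv.Perm α)) :=
    IsPGroup.to_sup_of_normal_right' hTp hPp hTN
  have hP₁Sw : Subgroup.zpowers (t ^ m) ⊔ P ≤ Sw G Γ := by
    apply sup_le
    · rw [Subgroup.zpowers_le]
      exact Subgroup.pow_mem _ htSw m
    · exact hPH.trans (Fx_le_Sw G Γ)
  have hex : ∀ i, ∃ x ∈ {b : α | ∃ h ∈ Fx G Γ, h (f i) = b},
      ∀ g ∈ (Subgroup.zpowers (t ^ m) ⊔ P : Subgroup (Equiv.Perm α)), g • x = x :=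
    fun i => exists_fixed _ hP₁p _ (hΔinv _ hP₁Sw i) (hcon i)
  choose ε' hε'Δ hε'fix using hex
  have hε'Γ : ∀ i, ε' i ∉ Γ := fun i => hΔΓ i _ (hε'Δ i)
  have hε'inj : Function.Injective ε' := by
    intro i j hij
    by_contra hne
    obtain ⟨h, hh, e1⟩ := hε'Δ i
    obtain ⟨h', hh', e2⟩ := hε'Δ j
    apply hdist i j hne
    refine ⟨h'⁻¹ * h, (Fx G Γ).mul_mem ((Fx G Γ).inv_mem hh') hh, ?_⟩
    rw [Equiv.Perm.mul_apply, e1, hij, ← e2, inv_app]
  obtain ⟨Λ, hΛ⟩ : ∃ Λ : Finset α,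
      Λ = (Γ.filter (fun c => c ∉ Set.range e)) ∪ Finset.univ.image ε' := ⟨_, rfl⟩
  have hΛcard : Λ.card = k := by
    rw [hΛ, Finset.card_union_of_disjoint, Finset.card_image_of_injective _ hε'inj,
      Finset.card_univ, Fintype.card_fin]
    · have h1 := Finset.card_filter_add_card_filter_not (s := Γ)
        (fun c => c ∈ Set.range e)
      have h2 : (Γ.filter (fun c => c ∈ Set.range e)) = Finset.univ.map e := by
        ext c
        simp only [Finset.mem_filter, Finset.mem_map, Finset.mem_univ, true_and, Set.mem_range]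
        constructor
        · rintro ⟨-, a, rfl⟩
          exact ⟨a, rfl⟩
        · rintro ⟨a, rfl⟩
          exact ⟨he a, a, rfl⟩
      rw [h2, Finset.card_map, Finset.card_univ, ZMod.card, hΓ] at h1
      omega
    · rw [Finset.disjoint_left]
      intro c hc hc'
      obtain ⟨i, -, rfl⟩ := Finset.mem_image.1 hc'
      exact hε'Γ i (Finset.mem_filter.1 hc).1
  have hP₁Λ : Subgroup.zpowers (t ^ m) ⊔ P ≤ Fx G Λ := by
    apply sup_le
    · rw [Subgroup.zpowers_le]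
      refine ⟨G.pow_mem htG m, fun c hc => ?_⟩
      rw [hΛ] at hc
      rcases Finset.mem_union.1 hc with hc | hc
      · exact ht₁fix c (Finset.mem_filter.1 hc).1 (Finset.mem_filter.1 hc).2
      · obtain ⟨i, -, rfl⟩ := Finset.mem_image.1 hc
        exact hε'fix i _ (Subgroup.mem_sup_left (Subgroup.mem_zpowers _))
    · intro x hx
      refine ⟨(hPH hx).1, fun c hc => ?_⟩
      rw [hΛ] at hc
      rcases Finset.mem_union.1 hc with hc | hc
      · exact hPfix x hx c (Finset.mem_filter.1 hc).1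
      · obtain ⟨i, -, rfl⟩ := Finset.mem_image.1 hc
        exact hε'fix i _ (Subgroup.mem_sup_right hx)
  have henum : ∀ s : Finset α, s.card = k →
      ∃ u : Fin k ↪ α, (∀ i, u i ∈ s) ∧ ∀ c ∈ s, ∃ i, u i = c := by
    intro s hs
    obtain ⟨eq⟩ : Nonempty (↥s ≃ Fin k) :=
      ⟨Fintype.equivFinOfCardEq (by rw [Fintype.card_coe, hs])⟩
    refine ⟨eq.symm.toEmbedding.trans (Function.Embedding.subtype _),
      fun i => (eq.symm i).2, fun c hc => ⟨eq ⟨c, hc⟩, ?_⟩⟩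
    simp
  obtain ⟨uΓ, huΓ1, huΓ2⟩ := henum Γ hΓ
  obtain ⟨uΛ, huΛ1, huΛ2⟩ := henum Λ hΛcard
  have hmt := multi hk hgen
  rw [MulAction.isMultiplyPretransitive_iff] at hmt
  obtain ⟨g, hg⟩ := hmt uΓ uΛ
  have hgu : ∀ i, (g : Equiv.Perm α) (uΓ i) = uΛ i := fun i => DFunLike.congr_fun hg i
  have hgΓΛ : ∀ c ∈ Γ, (g : Equiv.Perm α) c ∈ Λ := by
    intro c hc
    obtain ⟨i, rfl⟩ := huΓ2 c hc
    rw [hgu]
    exact huΛ1 i
  have hP₂p : IsPGroup p ((Subgroup.zpowers (t ^ m) ⊔ P).map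
      (MulAut.conj (g : Equiv.Perm α)⁻¹).toMonoidHom) := hP₁p.map _
  have hP₂H : (Subgroup.zpowers (t ^ m) ⊔ P).map
      (MulAut.conj (g : Equiv.Perm α)⁻¹).toMonoidHom ≤ Fx G Γ := by
    rintro _ ⟨x, hx, rfl⟩
    show (g : Equiv.Perm α)⁻¹ * x * ((g : Equiv.Perm α)⁻¹)⁻¹ ∈ Fx G Γ
    rw [inv_inv]
    refine ⟨G.mul_mem (G.mul_mem (G.inv_mem g.2) (hP₁Λ hx).1) g.2, fun c hc => ?_⟩
    rw [Equiv.Perm.mul_apply, Equiv.Perm.mul_apply, (hP₁Λ hx).2 _ (hgΓΛ c hc), inv_app]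
  obtain ⟨y, hy, hyP⟩ := relSylow_conj (Fx G Γ) P _ hP₂H hPp hP₂p hidx
  have hcard : Nat.card (Subgroup.zpowers (t ^ m) ⊔ P : Subgroup (Equiv.Perm α))
      ≤ Nat.card P := by
    apply Nat.card_le_card_of_injective
      (fun x : (Subgroup.zpowers (t ^ m) ⊔ P : Subgroup (Equiv.Perm α)) =>
        (⟨y⁻¹ * ((MulAut.conj (g : Equiv.Perm α)⁻¹).toMonoidHom x.1) * y,
          hyP _ ⟨x.1, x.2, rfl⟩⟩ : P))
    intro x x' hxx
    have h1 : y⁻¹ * ((MulAut.conj (g : Equiv.Perm α)⁻¹).toMonoidHom x.1) * y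
        = y⁻¹ * ((MulAut.conj (g : Equiv.Perm α)⁻¹).toMonoidHom x'.1) * y :=
      congrArg Subtype.val hxx
    have h2 := mul_left_cancel (mul_right_cancel h1)
    exact Subtype.ext ((MulAut.conj (g : Equiv.Perm α)⁻¹).injective h2)
  have hEq : P = Subgroup.zpowers (t ^ m) ⊔ P := Subgroup.eq_of_le_of_card_ge le_sup_right hcard
  have ht₁P : t ^ m ∈ P := by
    rw [hEq]
    exact Subgroup.mem_sup_left (Subgroup.mem_zpowers _)
  exact ht₁move (hPfix _ ht₁P _ (he 0))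

theorem result706 (G : Subgroup (Equiv.Perm α)) {k : ℕ} (hk : k < Fintype.card α)
    (hgen : Gen G k) {p : ℕ} (hp : p.Prime) (hpk : p ≤ k) (Γ : Finset α) (hΓ : Γ.card = k)
    (f : Fin p → α) (hf : ∀ i, f i ∉ Γ)
    (hdist : ∀ i j, i ≠ j → f j ∉ MulAction.orbit (fixingSubgroup G (Γ : Set α)) (f i)) :
    ∃ i, p ∣ Nat.card (MulAction.orbit (fixingSubgroup G (Γ : Set α)) (f i)) := by
  obtain ⟨i, hi⟩ := main706 G hk hgen hp hpk Γ hΓ f hf (by
    rintro i j hij ⟨h, hh, hh'⟩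
    apply hdist i j hij
    rw [orbit_eq]
    exact ⟨h, hh, hh'⟩)
  refine ⟨i, ?_⟩
  rw [orbit_eq]
  exact hi

end Cfsg.Agent.Lib.Helper2.Generous
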