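import Mathlib
import Cfsg.Agent.Lib.Helper2.Gleason

set_option autoImplicit false

namespace Cfsg.Agent.Lib.Helper2.Gleason

theorem gleason {α : Type*} [Fintype α] [DecidableEq α] (G : Subgroup (Equiv.Perm α))
    {p k : ℕ} (hp : p.Prime) (hkn : k < Fintype.card α)
    (h : ∀ s : Finset α, s.card = k → ∃ P : Subgroup G, IsPGroup p P ∧
      MulAction.fixedPoints P α = (s : Set α)) :
    MulAction.IsMultiplyPretransitive G α k := by
  refine multi (G := G) (X := α) k hkn p hp.one_lt ?_
  intro s hs
  obtain ⟨P, hP, hfix⟩ := h s hs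
  haveI : Fact p.Prime := ⟨hp⟩
  refine ⟨P, ?_, ?_⟩
  · intro g hg x hx
    have hx' : x ∈ MulAction.fixedPoints P α := by
      rw [hfix]
      exact hx
    exact hx' ⟨g, hg⟩
  · intro w hw
    obtain ⟨n, hn⟩ := hP.card_orbit w
    rcases Nat.eq_zero_or_pos n with h0 | h0
    · exfalso
      rw [h0, pow_zero] at hn
      have hsub : Subsingleton (MulAction.orbit P w) := (Nat.card_eq_one_iff_unique.1 hn).1
      have hmem : w ∈ MulAction.fixedPoints P α := by
        intro g
        have h1 := hsub.elim ⟨g • w, MulAction.mem_orbit _ _⟩ ⟨w, MulAction.mem_orbit_self _⟩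
        exact congrArg Subtype.val h1
      rw [hfix] at hmem
      exact hw hmem
    · rw [hn]
      exact dvd_pow_self p (by omega)

theorem card_stab {α : Type*} [Fintype α] [DecidableEq α] (G : Subgroup (Equiv.Perm α))
    (s : Finset α) (w : α) :
    Nat.card (MulAction.stabilizer (fixingSubgroup G (s : Set α)) w) =
      Nat.card (fixingSubgroup G ((insert w s : Finset α) : Set α)) := by
  refine Nat.card_congr
    { toFun := fun g => ⟨g.1.1, ?_⟩
      invFun := fun g => ⟨⟨g.1, ?_⟩, ?_⟩
      left_inv := fun g => rfl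
      right_inv := fun g => rfl }
  · rw [mem_fixingSubgroup_iff]
    intro y hy
    rw [Finset.mem_coe, Finset.mem_insert] at hy
    rcases hy with rfl | hy
    · exact MulAction.mem_stabilizer_iff.1 g.2
    · exact (mem_fixingSubgroup_iff G).1 g.1.2 y hy
  · rw [mem_fixingSubgroup_iff]
    intro y hy
    exact (mem_fixingSubgroup_iff G).1 g.2 y (by
      rw [Finset.mem_coe, Finset.mem_insert]
      exact Or.inr hy)
  · rw [MulAction.mem_stabilizer_iff]
    exact (mem_fixingSubgroup_iff G).1 g.2 w (by
      rw [Finset.mem_coe, Finset.mem_insert]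
      exact Or.inl rfl)

theorem stab_orders {α : Type*} [Fintype α] [DecidableEq α] (G : Subgroup (Equiv.Perm α))
    {k : ℕ} (hk : 1 < k) (hkn : k ≤ Fintype.card α) (l m : ℕ) (hl : 1 < l)
    (hkm1 : ∀ s : Finset α, s.card = k - 1 → Nat.card (fixingSubgroup G (s : Set α)) = l)
    (hkm : ∀ s : Finset α, s.card = k → Nat.card (fixingSubgroup G (s : Set α)) = m) :
    MulAction.IsMultiplyPretransitive G α (k - 1) := by
  have horb : ∀ s : Finset α, s.card = k - 1 → ∀ w, w ∉ s →
      Nat.card (MulAction.orbit (fixingSubgroup G (s : Set α)) w) * m = l := by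
    intro s hs w hw
    have h1 : Nat.card (MulAction.orbit (fixingSubgroup G (s : Set α)) w) *
        Nat.card (MulAction.stabilizer (fixingSubgroup G (s : Set α)) w) =
        Nat.card (fixingSubgroup G (s : Set α)) := by
      rw [Nat.card_coe_set_eq, ← MulAction.index_stabilizer, mul_comm]
      exact Subgroup.card_mul_index _
    rw [card_stab, hkm _ (by rw [Finset.card_insert_of_notMem hw, hs]; omega), hkm1 s hs] at h1
    exact h1
  have hm0 : m ≠ 0 := by
    obtain ⟨s, -, hs⟩ := Finset.exists_subset_card_eq
      (s := (Finset.univ : Finset α)) (n := k - 1) (by rw [Finset.card_univ]; omega)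
    obtain ⟨w, hw⟩ : ∃ w, w ∉ s := by
      by_contra hcon
      push Not at hcon
      have h1 : s = Finset.univ := Finset.eq_univ_iff_forall.2 hcon
      rw [h1, Finset.card_univ] at hs
      omega
    have h1 := horb s hs w hw
    rintro rfl
    omega
  have horb' : ∀ s : Finset α, s.card = k - 1 → ∀ w, w ∉ s →
      Nat.card (MulAction.orbit (fixingSubgroup G (s : Set α)) w) = l / m := by
    intro s hs w hw
    exact (Nat.div_eq_of_eq_mul_left (Nat.pos_of_ne_zero hm0) (horb s hs w hw).symm).symm
  have hr : 1 < l / m := by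
    obtain ⟨s, -, hs⟩ := Finset.exists_subset_card_eq
      (s := (Finset.univ : Finset α)) (n := k - 1) (by rw [Finset.card_univ]; omega)
    by_contra hcon
    have hall : ∀ g ∈ fixingSubgroup G (s : Set α), g = 1 := by
      intro g hg
      apply Subtype.ext
      apply Equiv.ext
      intro x
      by_cases hx : x ∈ s
      · exact (mem_fixingSubgroup_iff G).1 hg x hx
      · have h1 := horb' s hs x hx
        haveI : Nonempty (MulAction.orbit (fixingSubgroup G (s : Set α)) x) :=
          ⟨⟨x, MulAction.mem_orbit_self _⟩⟩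
        have hpos : 0 < Nat.card (MulAction.orbit (fixingSubgroup G (s : Set α)) x) :=
          Nat.card_pos
        have h2 : Nat.card (MulAction.orbit (fixingSubgroup G (s : Set α)) x) = 1 := by omega
        have hsub : Subsingleton (MulAction.orbit (fixingSubgroup G (s : Set α)) x) :=
          (Nat.card_eq_one_iff_unique.1 h2).1
        have h3 := hsub.elim ⟨(⟨g, hg⟩ : fixingSubgroup G (s : Set α)) • x,
          MulAction.mem_orbit _ _⟩ ⟨x, MulAction.mem_orbit_self _⟩
        exact congrArg Subtype.val h3
    have hbot : fixingSubgroup G (s : Set α) = ⊥ := (Subgroup.eq_bot_iff_forall _).2 hall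
    have h1 := hkm1 s hs
    rw [hbot, Subgroup.card_bot] at h1
    omega
  refine multi (G := G) (X := α) (k - 1) (by omega) (l / m) hr ?_
  intro s hs
  refine ⟨fixingSubgroup G (s : Set α), ?_, ?_⟩
  · intro g hg x hx
    exact (mem_fixingSubgroup_iff G).1 hg x hx
  · intro w hw
    rw [horb' s hs w hw]

end Cfsg.Agent.Lib.Helper2.Gleason
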