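import Mathlib

set_option autoImplicit false

namespace Cfsg.Agent.Lib.Helper2.Herm

theorem norm_surj {F : Type*} [Field F] [Finite F] (σ : F →+* F) (hσ : σ ≠ RingHom.id F)
    (hσ2 : ∀ a : F, σ (σ a) = a) (a : F) (ha : a ≠ 0) (hfix : σ a = a) :
    ∃ c : F, c * σ c = a := by
  classical
  let N : Fˣ →* Fˣ :=
    { toFun := fun u => u * Units.map σ.toMonoidHom u
      map_one' := by simp
      map_mul' := fun x y => by
        rw [map_mul]
        exact mul_mul_mul_comm _ _ _ _ }
  let M : Fˣ →* Fˣ :=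
    { toFun := fun u => u * (Units.map σ.toMonoidHom u)⁻¹
      map_one' := by simp
      map_mul' := fun x y => by
        rw [map_mul, mul_inv]
        exact mul_mul_mul_comm _ _ _ _ }
  have hN : ∀ u : Fˣ, ((N u : Fˣ) : F) = (u : F) * σ (u : F) := fun u => rfl
  have hM : ∀ u : Fˣ, ((M u : Fˣ) : F) = (u : F) * (σ (u : F))⁻¹ := by
    intro u
    show (u : F) * (((Units.map σ.toMonoidHom u)⁻¹ : Fˣ) : F) = (u : F) * (σ (u : F))⁻¹
    rw [Units.val_inv_eq_inv_val]
    rfl
  have hσ0 : ∀ u : Fˣ, σ (u : F) ≠ 0 := fun u => (Units.map σ.toMonoidHom u).ne_zero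
  have h1 : N.ker = M.range := by
    ext u
    rw [MonoidHom.mem_ker, MonoidHom.mem_range]
    constructor
    · intro hu
      have hu1 : (u : F) * σ (u : F) = 1 := by
        rw [← hN, hu]
        rfl
      have hu0 : (u : F) ≠ 0 := u.ne_zero
      have hσu : σ (u : F) = (u : F)⁻¹ := eq_inv_of_mul_eq_one_right hu1
      by_cases hneg : (u : F) = -1
      · have hex : ∃ e : F, σ e ≠ e := by
          by_contra hcon
          push Not at hcon
          exact hσ (RingHom.ext hcon)
        obtain ⟨e, he⟩ := hex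
        have hd : e - σ e ≠ 0 := sub_ne_zero.2 (Ne.symm he)
        refine ⟨Units.mk0 (e - σ e) hd, ?_⟩
        apply Units.ext
        rw [hM, Units.val_mk0, map_sub, hσ2, hneg]
        have h3 : σ e - e = -(e - σ e) := by ring
        rw [h3]
        field_simp
      · have hd : (1 : F) + u ≠ 0 := fun h => hneg (by linear_combination h)
        refine ⟨Units.mk0 (1 + (u : F)) hd, ?_⟩
        apply Units.ext
        rw [hM, Units.val_mk0, map_add, map_one, hσu]
        have h5 : (1 : F) + (u : F)⁻¹ = (1 + (u : F)) * (u : F)⁻¹ := by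
          rw [add_mul, one_mul, mul_inv_cancel₀ hu0, add_comm]
        rw [h5, mul_inv, inv_inv, ← mul_assoc, mul_inv_cancel₀ hd, one_mul]
    · rintro ⟨d, rfl⟩
      apply Units.ext
      rw [hN, hM, map_mul, map_inv₀, hσ2]
      have hd0 : (d : F) ≠ 0 := d.ne_zero
      have hd1 := hσ0 d
      show (d : F) * (σ (d : F))⁻¹ * (σ (d : F) * (d : F)⁻¹) = 1
      field_simp
  have h2 : N.range ≤ M.ker := by
    rintro _ ⟨c, rfl⟩
    rw [MonoidHom.mem_ker]
    apply Units.ext
    rw [hM, hN, map_mul, hσ2, mul_comm (σ (c : F)) (c : F)]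
    exact mul_inv_cancel₀ (mul_ne_zero c.ne_zero (hσ0 c))
  have c1 : Nat.card N.ker * Nat.card N.range = Nat.card Fˣ := by
    rw [← Subgroup.index_ker, Subgroup.card_mul_index]
  have c2 : Nat.card M.ker * Nat.card M.range = Nat.card Fˣ := by
    rw [← Subgroup.index_ker, Subgroup.card_mul_index]
  rw [h1] at c1
  have c3 : Nat.card N.range = Nat.card M.ker := by
    have hpos : 0 < Nat.card M.range := Nat.card_pos
    apply Nat.eq_of_mul_eq_mul_left hpos
    rw [c1, mul_comm, c2]
  have h3 : N.range = M.ker := Subgroup.eq_of_le_of_card_ge h2 (by rw [c3])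
  have ha' : Units.mk0 a ha ∈ M.ker := by
    rw [MonoidHom.mem_ker]
    apply Units.ext
    rw [hM, Units.val_mk0, hfix]
    exact mul_inv_cancel₀ ha
  rw [← h3] at ha'
  obtain ⟨c, hc⟩ := ha'
  refine ⟨c, ?_⟩
  have h4 := congrArg Units.val hc
  rw [hN] at h4
  exact h4

end Cfsg.Agent.Lib.Helper2.Herm
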