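import Mathlib
import Cfsg.Agent.Lib.Helper2.Herm

set_option autoImplicit false

namespace Cfsg.Agent.Lib.Helper2.Herm

universe u

theorem exists_nonisotropic {F V : Type*} [Field F] [AddCommGroup V] [Module F V]
    (σ : F →+* F) (hσ : σ ≠ RingHom.id F)
    (B : V →ₛₗ[σ] V →ₗ[F] F) (hne : B ≠ 0) : ∃ v, B v v ≠ 0 := by
  by_contra hcon
  push Not at hcon
  have h1 : ∀ x y, B x y + B y x = 0 := by
    intro x y
    have h := hcon (x + y)
    simp only [map_add, LinearMap.add_apply, hcon] at h
    linear_combination h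
  have hex : ∃ x y, B x y ≠ 0 := by
    by_contra h
    push Not at h
    exact hne (LinearMap.ext fun x => LinearMap.ext fun y => h x y)
  obtain ⟨x, y, hxy⟩ := hex
  apply hσ
  ext t
  have h2 := h1 x (t • y)
  rw [map_smul, map_smulₛₗ, LinearMap.smul_apply, smul_eq_mul, smul_eq_mul] at h2
  have h3 := h1 x y
  have h4 : B y x = - B x y := by linear_combination h3
  rw [h4] at h2
  have h5 : (t - σ t) * B x y = 0 := by linear_combination h2
  rcases mul_eq_zero.1 h5 with h | h
  · rw [RingHom.id_apply]
    linear_combination -h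
  · exact absurd h hxy

theorem orthonormal_family {F : Type*} [Field F] [Finite F] (σ : F →+* F)
    (hσ : σ ≠ RingHom.id F) (hσ2 : ∀ a : F, σ (σ a) = a) :
    ∀ (n : ℕ) (V : Type u) [AddCommGroup V] [Module F V] [FiniteDimensional F V]
      (B : V →ₛₗ[σ] V →ₗ[F] F), B.IsSymm → B.Nondegenerate → Module.finrank F V = n →
      ∃ f : Fin n → V, ∀ i j, B (f i) (f j) = if i = j then 1 else 0 := by
  intro n
  induction n with
  | zero =>
    intro V _ _ _ B hS hB hn
    exact ⟨Fin.elim0, fun i => i.elim0⟩
  | succ n ih =>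
    intro V _ _ _ B hS hB hn
    have hne : B ≠ 0 := by
      intro h0
      have hnt : Nontrivial V := Module.nontrivial_of_finrank_pos (R := F) (by omega)
      obtain ⟨x, hx⟩ := exists_ne (0 : V)
      exact hx (hB.1 x (fun y => by rw [h0]; rfl))
    obtain ⟨v, hv⟩ := exists_nonisotropic σ hσ B hne
    have hfix : σ (B v v) = B v v := hS.eq v v
    obtain ⟨c, hc⟩ := norm_surj σ hσ hσ2 (B v v)⁻¹ (inv_ne_zero hv) (by rw [map_inv₀, hfix])
    have hv1 : B (c • v) (c • v) = 1 := by
      have e1 : B (c • v) (c • v) = σ c * (c * B v v) := by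
        rw [LinearMap.map_smulₛₗ₂, LinearMap.map_smul, smul_eq_mul, smul_eq_mul]
      rw [e1, ← mul_assoc, mul_comm (σ c) c, hc]
      exact inv_mul_cancel₀ hv
    generalize c • v = v' at hv1
    let W : Submodule F V := LinearMap.ker (B v')
    have hWmem : ∀ w : V, w ∈ W ↔ B v' w = 0 := fun w => LinearMap.mem_ker
    have hWrank : Module.finrank F W = n := by
      have hr : LinearMap.range (B v') = ⊤ := by
        rw [eq_top_iff]
        intro t _
        exact ⟨t • v', by rw [map_smul, hv1, smul_eq_mul, mul_one]⟩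
      have h := LinearMap.finrank_range_add_finrank_ker (B v')
      rw [hr, finrank_top, Module.finrank_self, hn] at h
      show Module.finrank F (LinearMap.ker (B v')) = n
      omega
    let BW : W →ₛₗ[σ] W →ₗ[F] F := B.domRestrict₁₂ W W
    have hBW : ∀ x y : W, BW x y = B x y := fun x y => rfl
    have hSW : BW.IsSymm := ⟨fun x y => hS.eq x y⟩
    have hdec : ∀ z : V, z - (B v' z) • v' ∈ W := by
      intro z
      rw [hWmem, map_sub, map_smul, hv1, smul_eq_mul, mul_one, sub_self]
    have hW' : ∀ w : V, w ∈ W → B w v' = 0 := by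
      intro w hw
      rw [← hS.eq v' w, (hWmem w).1 hw, map_zero]
    have hnd : BW.Nondegenerate := by
      constructor
      · intro x hx
        have hx0 : (x : V) = 0 := by
          apply hB.1
          intro z
          have h1 : z = (z - (B v' z) • v') + (B v' z) • v' := by abel
          rw [h1, map_add, map_smul, hW' x x.2, smul_zero, add_zero]
          exact hx ⟨_, hdec z⟩
        exact Subtype.ext hx0
      · intro y hy
        have hy0 : (y : V) = 0 := by
          apply hB.2
          intro z
          have h1 : z = (z - (B v' z) • v') + (B v' z) • v' := by abel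
          rw [h1, map_add, LinearMap.add_apply, map_smulₛₗ, LinearMap.smul_apply,
            (hWmem y).1 y.2, smul_zero, add_zero]
          exact hy ⟨_, hdec z⟩
        exact Subtype.ext hy0
    obtain ⟨f', hf'⟩ := ih W BW hSW hnd hWrank
    refine ⟨Fin.cons v' (fun i => (f' i : V)), ?_⟩
    intro i j
    refine Fin.cases ?_ (fun i' => ?_) i <;> refine Fin.cases ?_ (fun j' => ?_) j
    · simp [hv1]
    · simp only [Fin.cons_zero, Fin.cons_succ]
      rw [if_neg (Fin.succ_ne_zero j').symm]
      exact (hWmem _).1 (f' j').2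
    · simp only [Fin.cons_zero, Fin.cons_succ]
      rw [if_neg (Fin.succ_ne_zero i')]
      exact hW' _ (f' i').2
    · simp only [Fin.cons_succ, Fin.succ_inj]
      exact hf' i' j'

theorem orthonormal_basis {F : Type*} {V : Type u} [Field F] [Finite F] [AddCommGroup V]
    [Module F V] [FiniteDimensional F V] (σ : F →+* F) (hσ : σ ≠ RingHom.id F)
    (hσ2 : ∀ a : F, σ (σ a) = a) (B : V →ₛₗ[σ] V →ₗ[F] F) (hS : B.IsSymm)
    (hB : B.Nondegenerate) :
    ∃ b : Module.Basis (Fin (Module.finrank F V)) F V,
      ∀ i j, B (b i) (b j) = if i = j then 1 else 0 := by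
  classical
  obtain ⟨f, hf⟩ := orthonormal_family σ hσ hσ2 _ V B hS hB rfl
  have hli : LinearIndependent F f := by
    rw [Fintype.linearIndependent_iff]
    intro g hg j
    have h := congrArg (fun z => B (f j) z) hg
    simp only [map_sum, map_smul, map_zero, hf, smul_eq_mul] at h
    simpa using h
  have hspan : Submodule.span F (Set.range f) = ⊤ :=
    hli.span_eq_top_of_card_eq_finrank' (by simp)
  refine ⟨basisOfTopLeSpanOfCardEqFinrank f (le_of_eq hspan.symm) (by simp), ?_⟩
  intro i j
  rw [coe_basisOfTopLeSpanOfCardEqFinrank]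
  exact hf i j

end Cfsg.Agent.Lib.Helper2.Herm
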