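import Mathlib
import Cfsg.Agent.Lib.Helper2.SylowAux

set_option autoImplicit false

namespace Cfsg.Agent.Lib.Helper2.HomoCyc

open Cfsg.Agent.Lib.Helper2

variable {G : Type*} [Group G]

theorem conj_pow_eq {h x y : G} (hy : h * y * h⁻¹ = y) (hx : h * x * h⁻¹ = y * x) (n : ℕ) :
    h ^ n * x * (h ^ n)⁻¹ = y ^ n * x := by
  induction n with
  | zero => simp
  | succ k ih =>
    have e1 : h ^ (k + 1) * x * (h ^ (k + 1))⁻¹ = h * (h ^ k * x * (h ^ k)⁻¹) * h⁻¹ := by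
      rw [pow_succ']
      group
    have e2 : h * (y ^ k * x) * h⁻¹ = (h * y * h⁻¹) ^ k * (h * x * h⁻¹) := by
      rw [conj_pow]
      group
    rw [e1, ih, e2, hy, hx, pow_succ, mul_assoc]

theorem centralizes_of_omega (P : Subgroup G) (hab : ∀ a ∈ P, ∀ b ∈ P, a * b = b * a)
    (h2 : ∀ x ∈ P, ∃ k : ℕ, x ^ (2 ^ k) = 1) (h : G) (hodd : Odd (orderOf h))
    (hn : ∀ x ∈ P, h * x * h⁻¹ ∈ P) (hinv : ∀ t ∈ P, t * t = 1 → h * t * h⁻¹ = t) :
    ∀ x ∈ P, h * x * h⁻¹ = x := by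
  have key : ∀ k : ℕ, ∀ x ∈ P, x ^ (2 ^ k) = 1 → h * x * h⁻¹ = x := by
    intro k
    induction k with
    | zero =>
      intro x hx hx1
      rw [pow_zero, pow_one] at hx1
      rw [hx1]
      group
    | succ k ih =>
      intro x hx hx1
      have hx2 : (x * x) ^ (2 ^ k) = 1 := by
        rw [← pow_two, ← pow_mul, ← pow_succ']
        exact hx1
      have h1 : h * (x * x) * h⁻¹ = x * x := ih (x * x) (P.mul_mem hx hx) hx2
      have hyP : h * x * h⁻¹ * x⁻¹ ∈ P := P.mul_mem (hn x hx) (P.inv_mem hx)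
      have hc : x⁻¹ * (h * x * h⁻¹) = (h * x * h⁻¹) * x⁻¹ := hab _ (P.inv_mem hx) _ (hn x hx)
      have hyy : (h * x * h⁻¹ * x⁻¹) * (h * x * h⁻¹ * x⁻¹) = 1 := by
        have e1 : (h * x * h⁻¹ * x⁻¹) * (h * x * h⁻¹ * x⁻¹) =
            (h * x * h⁻¹) * (x⁻¹ * (h * x * h⁻¹)) * x⁻¹ := by group
        have e2 : (h * x * h⁻¹) * ((h * x * h⁻¹) * x⁻¹) * x⁻¹ = h * (x * x) * h⁻¹ * (x * x)⁻¹ := by
          group
        rw [e1, hc, e2, h1, mul_inv_cancel]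
      have hy : h * (h * x * h⁻¹ * x⁻¹) * h⁻¹ = h * x * h⁻¹ * x⁻¹ := hinv _ hyP hyy
      have hxe : h * x * h⁻¹ = (h * x * h⁻¹ * x⁻¹) * x := by group
      have h3 := conj_pow_eq hy hxe (orderOf h)
      rw [pow_orderOf_eq_one, one_mul, inv_one, mul_one] at h3
      have h4 : (h * x * h⁻¹ * x⁻¹) ^ orderOf h = 1 := by
        have := h3.symm
        exact mul_eq_right.1 this
      have h5 : (h * x * h⁻¹ * x⁻¹) ^ 2 = 1 := by rw [pow_two]; exact hyy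
      have h6 : orderOf (h * x * h⁻¹ * x⁻¹) ∣ Nat.gcd (orderOf h) 2 :=
        Nat.dvd_gcd (orderOf_dvd_of_pow_eq_one h4) (orderOf_dvd_of_pow_eq_one h5)
      have h7 : Nat.gcd (orderOf h) 2 = 1 := Nat.coprime_two_right.2 hodd
      rw [h7, Nat.dvd_one, orderOf_eq_one_iff] at h6
      rw [hxe, h6, one_mul]
  intro x hx
  obtain ⟨k, hk⟩ := h2 x hx
  exact key k x hx hk

theorem zmod_double (m : ℕ) (hm : 1 ≤ m) (a : ZMod (2 ^ m)) (ha : a + a = 0) :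
    a = 0 ∨ a = ((2 ^ (m - 1) : ℕ) : ZMod (2 ^ m)) := by
  have : NeZero (2 ^ m) := ⟨by positivity⟩
  have h1 : ((a.val + a.val : ℕ) : ZMod (2 ^ m)) = 0 := by
    rw [Nat.cast_add, ZMod.natCast_zmod_val]
    exact ha
  rw [ZMod.natCast_eq_zero_iff] at h1
  have hlt0 : a.val < 2 ^ m := ZMod.val_lt a
  have hpow : 2 ^ m = 2 * 2 ^ (m - 1) := by
    rw [← pow_succ']
    congr 1
    omega
  have hlt : a.val < 2 * 2 ^ (m - 1) := by rw [← hpow]; exact hlt0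
  have h2 : 2 ^ (m - 1) ∣ a.val := by
    have : 2 * 2 ^ (m - 1) ∣ 2 * a.val := by rw [two_mul a.val, ← hpow]; exact h1
    exact (Nat.mul_dvd_mul_iff_left (by norm_num)).1 this
  obtain ⟨k, hk⟩ := h2
  have hk2 : k < 2 := by
    by_contra hcon
    push Not at hcon
    have : 2 ^ (m - 1) * 2 ≤ 2 ^ (m - 1) * k := Nat.mul_le_mul_left _ hcon
    omega
  interval_cases k
  · left
    rw [mul_zero] at hk
    rw [← ZMod.natCast_zmod_val a, hk, Nat.cast_zero]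
  · right
    rw [mul_one] at hk
    rw [← ZMod.natCast_zmod_val a, hk]

theorem bool_pigeon : ∀ c₁ c₂ c₃ c : Bool × Bool, c₁ ≠ (true, true) → c₂ ≠ (true, true) →
    c₃ ≠ (true, true) → c ≠ (true, true) → c₁ ≠ c₂ → c₁ ≠ c₃ → c₂ ≠ c₃ →
    c = c₁ ∨ c = c₂ ∨ c = c₃ := by
  rintro ⟨a₁, b₁⟩ ⟨a₂, b₂⟩ ⟨a₃, b₃⟩ ⟨a, b⟩
  cases a₁ <;> cases b₁ <;> cases a₂ <;> cases b₂ <;> cases a₃ <;> cases b₃ <;> cases a <;>
    cases b <;> simp

theorem inv_count (P : Subgroup G) (m : ℕ) (hm : 1 ≤ m)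
    (e : ↥P ≃* Multiplicative (ZMod (2 ^ m) × ZMod (2 ^ m)))
    (t₁ t₂ t₃ t : G) (h1 : t₁ ∈ P) (h2 : t₂ ∈ P) (h3 : t₃ ∈ P) (h : t ∈ P)
    (i1 : t₁ * t₁ = 1) (i2 : t₂ * t₂ = 1) (i3 : t₃ * t₃ = 1) (i : t * t = 1)
    (n1 : t₁ ≠ 1) (n2 : t₂ ≠ 1) (n3 : t₃ ≠ 1) (n : t ≠ 1)
    (d12 : t₁ ≠ t₂) (d13 : t₁ ≠ t₃) (d23 : t₂ ≠ t₃) : t = t₁ ∨ t = t₂ ∨ t = t₃ := by
  classical
  let code : ↥P → Bool × Bool := fun x =>
    (decide ((Multiplicative.toAdd (e x)).1 = 0), decide ((Multiplicative.toAdd (e x)).2 = 0))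
  have hcode : ∀ x y : ↥P, x * x = 1 → y * y = 1 → code x = code y → x = y := by
    intro x y hx hy hxy
    have hx' : Multiplicative.toAdd (e x) + Multiplicative.toAdd (e x) = 0 := by
      have := congrArg (fun u => Multiplicative.toAdd (e u)) hx
      simpa using this
    have hy' : Multiplicative.toAdd (e y) + Multiplicative.toAdd (e y) = 0 := by
      have := congrArg (fun u => Multiplicative.toAdd (e u)) hy
      simpa using this
    have hx1 := zmod_double m hm _ (congrArg Prod.fst hx')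
    have hx2 := zmod_double m hm _ (congrArg Prod.snd hx')
    have hy1 := zmod_double m hm _ (congrArg Prod.fst hy')
    have hy2 := zmod_double m hm _ (congrArg Prod.snd hy')
    have hc1 : decide ((Multiplicative.toAdd (e x)).1 = 0) =
        decide ((Multiplicative.toAdd (e y)).1 = 0) := congrArg Prod.fst hxy
    have hc2 : decide ((Multiplicative.toAdd (e x)).2 = 0) =
        decide ((Multiplicative.toAdd (e y)).2 = 0) := congrArg Prod.snd hxy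
    have hc1' : (Multiplicative.toAdd (e x)).1 = 0 ↔ (Multiplicative.toAdd (e y)).1 = 0 := by
      simpa using hc1
    have hc2' : (Multiplicative.toAdd (e x)).2 = 0 ↔ (Multiplicative.toAdd (e y)).2 = 0 := by
      simpa using hc2
    have e1 : (Multiplicative.toAdd (e x)).1 = (Multiplicative.toAdd (e y)).1 := by
      rcases hx1 with hx1 | hx1
      · rw [hx1, hc1'.1 hx1]
      · rcases hy1 with hy1 | hy1
        · rw [hc1'.2 hy1, hy1]
        · rw [hx1, hy1]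
    have e2 : (Multiplicative.toAdd (e x)).2 = (Multiplicative.toAdd (e y)).2 := by
      rcases hx2 with hx2 | hx2
      · rw [hx2, hc2'.1 hx2]
      · rcases hy2 with hy2 | hy2
        · rw [hc2'.2 hy2, hy2]
        · rw [hx2, hy2]
    apply e.injective
    apply Multiplicative.toAdd.injective
    exact Prod.ext e1 e2
  have hone : code 1 = (true, true) := by
    simp [code]
  have hP : ∀ (x : G) (hx : x ∈ P), x * x = 1 → (⟨x, hx⟩ : ↥P) * ⟨x, hx⟩ = 1 := by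
    intro x hx hxx
    exact Subtype.ext hxx
  have hne : ∀ (x : G) (hx : x ∈ P), x * x = 1 → x ≠ 1 → code ⟨x, hx⟩ ≠ (true, true) := by
    intro x hx hxx hx1 hc
    apply hx1
    have := hcode ⟨x, hx⟩ 1 (hP x hx hxx) (one_mul 1) (hc.trans hone.symm)
    exact congrArg Subtype.val this
  have hd : ∀ (x y : G) (hx : x ∈ P) (hy : y ∈ P), x * x = 1 → y * y = 1 → x ≠ y →
      code ⟨x, hx⟩ ≠ code ⟨y, hy⟩ := by
    intro x y hx hy hxx hyy hxy hc
    apply hxy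
    exact congrArg Subtype.val (hcode ⟨x, hx⟩ ⟨y, hy⟩ (hP x hx hxx) (hP y hy hyy) hc)
  have hfin := bool_pigeon (code ⟨t₁, h1⟩) (code ⟨t₂, h2⟩) (code ⟨t₃, h3⟩) (code ⟨t, h⟩)
    (hne t₁ h1 i1 n1) (hne t₂ h2 i2 n2) (hne t₃ h3 i3 n3) (hne t h i n)
    (hd t₁ t₂ h1 h2 i1 i2 d12) (hd t₁ t₃ h1 h3 i1 i3 d13) (hd t₂ t₃ h2 h3 i2 i3 d23)
  rcases hfin with hf | hf | hf
  · left
    exact congrArg Subtype.val (hcode ⟨t, h⟩ ⟨t₁, h1⟩ (hP t h i) (hP t₁ h1 i1) hf)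
  · right; left
    exact congrArg Subtype.val (hcode ⟨t, h⟩ ⟨t₂, h2⟩ (hP t h i) (hP t₂ h2 i2) hf)
  · right; right
    exact congrArg Subtype.val (hcode ⟨t, h⟩ ⟨t₃, h3⟩ (hP t h i) (hP t₃ h3 i3) hf)

end Cfsg.Agent.Lib.Helper2.HomoCyc
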