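import Mathlib
import Cfsg.Agent.Lib.Helper2.HomoCyc

set_option autoImplicit false

namespace Cfsg.Agent.Lib.Helper2.HomoCyc

open Cfsg.Agent.Lib.Helper2

variable {G : Type*} [Group G]

theorem conj_sq_one {t : G} (ht : t * t = 1) (h : G) : (h * t * h⁻¹) * (h * t * h⁻¹) = 1 := by
  have e : (h * t * h⁻¹) * (h * t * h⁻¹) = h * (t * t) * h⁻¹ := by group
  rw [e, ht]
  group

theorem conj_ne_one {t : G} (ht : t ≠ 1) (h : G) : h * t * h⁻¹ ≠ 1 := by
  intro hc
  apply ht
  have e : t = h⁻¹ * (h * t * h⁻¹) * h := by group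
  rw [e, hc]
  group

theorem conj_inj' {a b h : G} (hc : h * a * h⁻¹ = h * b * h⁻¹) : a = b := by
  have e : a = h⁻¹ * (h * a * h⁻¹) * h := by group
  rw [e, hc]
  group

theorem main [Finite G] (P : Sylow 2 G) (m : ℕ) (hm : 1 ≤ m)
    (e : (P : Subgroup G) ≃* Multiplicative (ZMod (2 ^ m) × ZMod (2 ^ m))) :
    (∃ N : Subgroup G, N.Normal ∧ Subgroup.IsComplement' N (P : Subgroup G)) ∨
      ∀ s t : G, orderOf s = 2 → orderOf t = 2 → IsConj s t := by
  classical
  have hab : ∀ a ∈ (P : Subgroup G), ∀ b ∈ (P : Subgroup G), a * b = b * a := by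
    intro a ha b hb
    have h1 : e ⟨a, ha⟩ * e ⟨b, hb⟩ = e ⟨b, hb⟩ * e ⟨a, ha⟩ := mul_comm _ _
    rw [← map_mul, ← map_mul] at h1
    exact congrArg Subtype.val (e.injective h1)
  have h2 : ∀ x ∈ (P : Subgroup G), ∃ k : ℕ, x ^ (2 ^ k) = 1 := by
    intro x hx
    obtain ⟨k, hk⟩ := P.isPGroup' ⟨x, hx⟩
    exact ⟨k, by simpa using congrArg Subtype.val hk⟩
  have hnorm : ∀ h ∈ Subgroup.normalizer ((P : Subgroup G) : Set G), ∀ x ∈ (P : Subgroup G),
      h * x * h⁻¹ ∈ (P : Subgroup G) := fun h hh x hx => (Subgroup.mem_normalizer_iff.1 hh x).1 hx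
  by_cases hA : ∀ h ∈ Subgroup.normalizer ((P : Subgroup G) : Set G), Odd (orderOf h) →
      ∀ t ∈ (P : Subgroup G), t * t = 1 → h * t * h⁻¹ = t
  · left
    have hNC : Subgroup.normalizer ((P : Subgroup G) : Set G) ≤
        Subgroup.centralizer ((P : Subgroup G) : Set G) := by
      intro g hg
      obtain ⟨a, b, hb, hn⟩ := Nat.exists_eq_two_pow_mul_odd (orderOf_pos g).ne'
      have hgb1 : (g ^ b) ^ (2 ^ a) = 1 := by
        rw [← pow_mul, mul_comm, ← hn, pow_orderOf_eq_one]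
      have hPG : IsPGroup 2 (Subgroup.zpowers (g ^ b)) := by
        have hd : orderOf (g ^ b) ∣ 2 ^ a := orderOf_dvd_of_pow_eq_one hgb1
        obtain ⟨k, -, hk⟩ := (Nat.dvd_prime_pow Nat.prime_two).1 hd
        exact IsPGroup.of_card (n := k) (by rw [Nat.card_zpowers, hk])
      have hgbP : g ^ b ∈ (P : Subgroup G) := by
        have h3 : g ^ b ∈ Subgroup.zpowers (g ^ b) ⊓
            Subgroup.normalizer ((P : Subgroup G) : Set G) :=
          ⟨Subgroup.mem_zpowers _, Subgroup.pow_mem _ hg b⟩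
        have h4 := hPG.inf_normalizer_sylow P
        have h5 : g ^ b ∈ Subgroup.zpowers (g ^ b) ⊓ (P : Subgroup G) := by
          rw [← h4]
          exact h3
        exact h5.2
      have hg2odd : Odd (orderOf (g ^ (2 ^ a))) := by
        have hd : orderOf (g ^ (2 ^ a)) ∣ b := by
          apply orderOf_dvd_of_pow_eq_one
          rw [← pow_mul, ← hn, pow_orderOf_eq_one]
        exact Odd.of_dvd_nat hb hd
      have hg2N : g ^ (2 ^ a) ∈ Subgroup.normalizer ((P : Subgroup G) : Set G) :=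
        Subgroup.pow_mem _ hg _
      have hcent2 := centralizes_of_omega (P : Subgroup G) hab h2 (g ^ (2 ^ a)) hg2odd
        (hnorm _ hg2N) (hA _ hg2N hg2odd)
      have hc1 : g ^ b ∈ Subgroup.centralizer ((P : Subgroup G) : Set G) := by
        apply Subgroup.mem_centralizer_iff.2
        intro x hx
        exact hab x hx _ hgbP
      have hc2 : g ^ (2 ^ a) ∈ Subgroup.centralizer ((P : Subgroup G) : Set G) := by
        apply Subgroup.mem_centralizer_iff.2
        intro x hx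
        have h4 := hcent2 x hx
        have h5 : g ^ (2 ^ a) * x = x * g ^ (2 ^ a) := by
          calc g ^ (2 ^ a) * x = g ^ (2 ^ a) * x * (g ^ (2 ^ a))⁻¹ * g ^ (2 ^ a) := by group
            _ = x * g ^ (2 ^ a) := by rw [h4]
        exact h5.symm
      have hcop : Nat.Coprime b (2 ^ a) := by
        apply Nat.Coprime.pow_right
        exact Nat.coprime_two_right.2 hb
      have hbez := Int.gcd_eq_gcd_ab (b : ℤ) ((2 ^ a : ℕ) : ℤ)
      have hgcd : Int.gcd (b : ℤ) ((2 ^ a : ℕ) : ℤ) = 1 := by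
        rw [Int.gcd_natCast_natCast]
        exact hcop
      rw [hgcd] at hbez
      have hgz : g = (g ^ b) ^ (Int.gcdA (b : ℤ) ((2 ^ a : ℕ) : ℤ)) *
          (g ^ (2 ^ a)) ^ (Int.gcdB (b : ℤ) ((2 ^ a : ℕ) : ℤ)) := by
        rw [← zpow_natCast g b, ← zpow_natCast g (2 ^ a), ← zpow_mul, ← zpow_mul, ← zpow_add,
          ← hbez]
        simp
      rw [hgz]
      exact Subgroup.mul_mem _ (Subgroup.zpow_mem _ hc1 _) (Subgroup.zpow_mem _ hc2 _)
    exact ⟨_, inferInstance, MonoidHom.ker_transferSylow_isComplement' P hNC⟩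
  · right
    push Not at hA
    obtain ⟨h, hh, hodd, t₁, ht₁, ht₁2, hmove⟩ := hA
    have ht₁1 : t₁ ≠ 1 := by
      intro hc
      apply hmove
      rw [hc]
      group
    have ht₂ : h * t₁ * h⁻¹ ∈ (P : Subgroup G) := hnorm h hh t₁ ht₁
    have ht₃ : h * (h * t₁ * h⁻¹) * h⁻¹ ∈ (P : Subgroup G) := hnorm h hh _ ht₂
    have d12 : t₁ ≠ h * t₁ * h⁻¹ := fun hc => hmove hc.symm
    have d23 : h * t₁ * h⁻¹ ≠ h * (h * t₁ * h⁻¹) * h⁻¹ := fun hc => d12 (conj_inj' hc)
    have d13 : t₁ ≠ h * (h * t₁ * h⁻¹) * h⁻¹ := by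
      intro hc
      have hcomm : Commute (h ^ 2) t₁ := by
        show h ^ 2 * t₁ = t₁ * h ^ 2
        have e1 : h ^ 2 * t₁ = (h * (h * t₁ * h⁻¹) * h⁻¹) * h ^ 2 := by
          rw [pow_two]
          group
        rw [e1, ← hc]
      obtain ⟨j, hj⟩ := hodd
      have hpow : (h ^ 2) ^ (j + 1) = h := by
        rw [← pow_mul]
        have : 2 * (j + 1) = orderOf h + 1 := by omega
        rw [this, pow_succ, pow_orderOf_eq_one, one_mul]
      have hcomm2 : Commute h t₁ := by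
        have := hcomm.pow_left (j + 1)
        rwa [hpow] at this
      apply hmove
      rw [hcomm2.eq]
      group
    have hall : ∀ s : G, orderOf s = 2 → IsConj s t₁ := by
      intro s hs
      have hss : s * s = 1 := by
        rw [← pow_two, ← hs, pow_orderOf_eq_one]
      have hs1 : s ≠ 1 := by
        intro hc
        rw [hc, orderOf_one] at hs
        omega
      have hB : IsPGroup 2 (Subgroup.zpowers s) :=
        IsPGroup.of_card (n := 1) (by rw [Nat.card_zpowers, hs, pow_one])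
      obtain ⟨g, hg⟩ := SylowAux.exists_conj_le_sylow P hB
      have hs' : g⁻¹ * s * g ∈ (P : Subgroup G) := hg s (Subgroup.mem_zpowers s)
      have hs'2 : (g⁻¹ * s * g) * (g⁻¹ * s * g) = 1 := by
        have := conj_sq_one hss g⁻¹
        rwa [inv_inv] at this
      have hs'1 : g⁻¹ * s * g ≠ 1 := by
        have := conj_ne_one hs1 g⁻¹
        rwa [inv_inv] at this
      have hcase := inv_count (P : Subgroup G) m hm e t₁ (h * t₁ * h⁻¹)
        (h * (h * t₁ * h⁻¹) * h⁻¹) (g⁻¹ * s * g) ht₁ ht₂ ht₃ hs' ht₁2 (conj_sq_one ht₁2 h)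
        (conj_sq_one (conj_sq_one ht₁2 h) h) hs'2 ht₁1 (conj_ne_one ht₁1 h)
        (conj_ne_one (conj_ne_one ht₁1 h) h) hs'1 d12 d13 d23
      have hconj1 : IsConj s (g⁻¹ * s * g) := isConj_iff.2 ⟨g⁻¹, by rw [inv_inv]⟩
      have hc2 : IsConj t₁ (h * t₁ * h⁻¹) := isConj_iff.2 ⟨h, rfl⟩
      have hc3 : IsConj t₁ (h * (h * t₁ * h⁻¹) * h⁻¹) :=
        hc2.trans (isConj_iff.2 ⟨h, rfl⟩)
      rcases hcase with hc | hc | hc
      · rw [hc] at hconj1
        exact hconj1
      · rw [hc] at hconj1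
        exact hconj1.trans hc2.symm
      · rw [hc] at hconj1
        exact hconj1.trans hc3.symm
    intro s t hs ht
    exact (hall s hs).trans (hall t ht).symm

end Cfsg.Agent.Lib.Helper2.HomoCyc
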