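import Mathlib

set_option autoImplicit false

namespace Cfsg.Agent.Lib.Helper2.HypPair

variable {F V : Type*} [Field F] [AddCommGroup V] [Module F V]

theorem partner [FiniteDimensional F V] (B : LinearMap.BilinForm F V) (hB : B.Nondegenerate)
    (hform : B.IsAlt ∨ (B.IsSymm ∧ (2 : F) ≠ 0)) (x : V) (Z : Submodule F V) (hxZ : x ∉ Z)
    (hx : B x x = 0) (hxz : ∀ z ∈ Z, B x z = 0) :
    ∃ y : V, B y y = 0 ∧ B x y = 1 ∧ ∀ z ∈ Z, B z y = 0 := by
  have hrefl : B.IsRefl := by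
    rcases hform with h | ⟨h, _⟩
    · exact h.isRefl
    · exact h.isRefl
  have hex : ∃ y₀ ∈ B.orthogonal Z, B x y₀ ≠ 0 := by
    by_contra hcon
    push Not at hcon
    apply hxZ
    rw [← LinearMap.BilinForm.orthogonal_orthogonal hB hrefl Z,
      LinearMap.BilinForm.mem_orthogonal_iff]
    intro n hn
    exact hrefl x n (hcon n hn)
  obtain ⟨y₀, hy₀, hxy₀⟩ := hex
  have hy₁ : (B x y₀)⁻¹ • y₀ ∈ B.orthogonal Z := Submodule.smul_mem _ _ hy₀
  have hxy₁ : B x ((B x y₀)⁻¹ • y₀) = 1 := by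
    rw [map_smul, smul_eq_mul, inv_mul_cancel₀ hxy₀]
  obtain ⟨y₁, hy₁d⟩ : ∃ y₁, y₁ = (B x y₀)⁻¹ • y₀ := ⟨_, rfl⟩
  rw [← hy₁d] at hy₁ hxy₁
  have hzy₁ : ∀ z ∈ Z, B z y₁ = 0 := fun z hz =>
    (LinearMap.BilinForm.mem_orthogonal_iff.1 hy₁) z hz
  rcases hform with hA | ⟨hS, h2⟩
  · exact ⟨y₁, hA.self_eq_zero y₁, hxy₁, hzy₁⟩
  · refine ⟨y₁ - (B y₁ y₁ / 2) • x, ?_, ?_, ?_⟩
    · simp only [map_sub, map_smul, LinearMap.sub_apply, LinearMap.smul_apply, smul_eq_mul]
      rw [hS.eq y₁ x, hxy₁, hx]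
      field_simp
      ring
    · simp only [map_sub, map_smul, smul_eq_mul]
      rw [hxy₁, hx]
      ring
    · intro z hz
      simp only [map_sub, map_smul, smul_eq_mul]
      rw [hzy₁ z hz, hS.eq z x, hxz z hz]
      ring

theorem singular [Finite F] [CharP F 2] [FiniteDimensional F V] (Q : QuadraticForm F V)
    (h3 : 3 ≤ Module.finrank F V) : ∃ v : V, v ≠ 0 ∧ Q v = 0 := by
  have hnt : Nontrivial V := Module.nontrivial_of_finrank_pos (R := F) (by omega)
  obtain ⟨u, hu0⟩ := exists_ne (0 : V)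
  by_cases hu : Q u = 0
  · exact ⟨u, hu0, hu⟩
  have h1 := LinearMap.finrank_range_add_finrank_ker (QuadraticMap.polarBilin Q u)
  have h2 : Module.finrank F (LinearMap.range (QuadraticMap.polarBilin Q u)) ≤ 1 := by
    have h := Submodule.finrank_le (LinearMap.range (QuadraticMap.polarBilin Q u))
    rwa [Module.finrank_self] at h
  have h4 : ¬ (LinearMap.ker (QuadraticMap.polarBilin Q u) ≤ Submodule.span F {u}) := by
    intro hle
    have h5 := Submodule.finrank_mono hle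
    have h6 : Module.finrank F (Submodule.span F {u}) ≤ 1 := by
      rw [finrank_span_singleton hu0]
    omega
  obtain ⟨v, hv, hvu⟩ := SetLike.not_le_iff_exists.1 h4
  have hp : QuadraticMap.polar Q u v = 0 := hv
  have := Fintype.ofFinite F
  obtain ⟨s, hs⟩ := FiniteField.isSquare_of_char_two (ringChar.eq F 2) (Q v / Q u)
  refine ⟨s • u + v, ?_, ?_⟩
  · intro h0
    apply hvu
    have h7 : v = (-s) • u := by
      rw [neg_smul]
      exact eq_neg_of_add_eq_zero_right h0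
    rw [h7]
    exact Submodule.smul_mem _ _ (Submodule.mem_span_singleton_self u)
  · rw [QuadraticMap.map_add Q, QuadraticMap.map_smul, QuadraticMap.polar_smul_left, hp,
      smul_eq_mul, smul_eq_mul, mul_zero, add_zero, ← hs]
    field_simp
    rw [CharTwo.add_self_eq_zero, mul_zero]

end Cfsg.Agent.Lib.Helper2.HypPair
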