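import Mathlib
import Cfsg.Prelude.Def_LieRecognition
import Cfsg.Agent.Lib.Helper2.Isolated

set_option autoImplicit false

namespace Cfsg.Agent.Lib.Helper2.InvDecomp

open Cfsg.Agent.Lib.Helper2.Isolated

variable {M : Type*} [Group M]

theorem odd_orderOf_of_mem {X : Subgroup M} (hodd : Odd (Nat.card X)) {x : M} (hx : x ∈ X) :
    Odd (orderOf x) :=
  Odd.of_dvd_nat hodd (Subgroup.orderOf_dvd_natCard X hx)

theorem sq_of_decomp {t y z : M} (ht : t * t = 1) (hy : y * t = t * y) (hz : t * z * t⁻¹ = z⁻¹) :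
    (t * (y * z)⁻¹ * t⁻¹) * (y * z) = z * z := by
  have hti : t⁻¹ = t := inv_eq_self_of_mul_self ht
  have h1 : t * z⁻¹ * t⁻¹ = z := by
    have : t * z⁻¹ * t⁻¹ = (t * z * t⁻¹)⁻¹ := by group
    rw [this, hz, inv_inv]
  have h2 : t * y⁻¹ * t⁻¹ = y⁻¹ := by
    have e : t * y⁻¹ = y⁻¹ * t := by
      have e0 : t * y⁻¹ = y⁻¹ * (y * t) * y⁻¹ := by group
      rw [e0, hy]; group
    rw [e]; group
  have h3 : t * (y * z)⁻¹ * t⁻¹ * (y * z) = (t * z⁻¹ * t⁻¹) * (t * y⁻¹ * t⁻¹) * y * z := by group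
  rw [h3, h1, h2]; group

theorem decomp_exists [Finite M] {t : M} (ht : t * t = 1) {X : Subgroup M} (hodd : Odd (Nat.card X))
    (hnorm : ∀ x ∈ X, t * x * t⁻¹ ∈ X) {x : M} (hx : x ∈ X) :
    ∃ y z : M, y ∈ X ∧ y * t = t * y ∧ z ∈ X ∧ t * z * t⁻¹ = z⁻¹ ∧ x = y * z := by
  have hti : t⁻¹ = t := inv_eq_self_of_mul_self ht
  have hc : (t * x⁻¹ * t⁻¹) * x ∈ X := X.mul_mem (hnorm _ (X.inv_mem hx)) hx
  have hcinv : t * ((t * x⁻¹ * t⁻¹) * x) * t⁻¹ = ((t * x⁻¹ * t⁻¹) * x)⁻¹ := by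
    have e1 : t * ((t * x⁻¹ * t⁻¹) * x) * t⁻¹ = (t * t) * x⁻¹ * t⁻¹ * x * t⁻¹ := by group
    have e2 : ((t * x⁻¹ * t⁻¹) * x)⁻¹ = x⁻¹ * t * x * t⁻¹ := by group
    rw [e1, e2, ht, one_mul, hti]
  obtain ⟨j, hj⟩ := odd_orderOf_of_mem hodd hc
  generalize hcdef : (t * x⁻¹ * t⁻¹) * x = c at hc hcinv hj
  have hzz : c ^ (j + 1) * c ^ (j + 1) = c := by
    rw [← pow_add]
    have : j + 1 + (j + 1) = orderOf c + 1 := by omega
    rw [this, pow_succ, pow_orderOf_eq_one, one_mul]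
  have hzinv : t * c ^ (j + 1) * t⁻¹ = (c ^ (j + 1))⁻¹ := inverts_pow hcinv _
  have hzX : c ^ (j + 1) ∈ X := X.pow_mem hc _
  refine ⟨x * (c ^ (j + 1))⁻¹, c ^ (j + 1), X.mul_mem hx (X.inv_mem hzX), ?_, hzX, hzinv, by group⟩
  have h1 : t * (c ^ (j + 1))⁻¹ * t⁻¹ = c ^ (j + 1) := by
    have : t * (c ^ (j + 1))⁻¹ * t⁻¹ = (t * c ^ (j + 1) * t⁻¹)⁻¹ := by group
    rw [this, hzinv, inv_inv]
  have h2 : t * x * t⁻¹ * c = x := by
    rw [← hcdef]; group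
  have h3 : t * (x * (c ^ (j + 1))⁻¹) = (t * x * t⁻¹) * (t * (c ^ (j + 1))⁻¹ * t⁻¹) * t := by group
  rw [h3, h1]
  have h4 : t * x * t⁻¹ * c ^ (j + 1) * t = (t * x * t⁻¹ * (c ^ (j + 1) * c ^ (j + 1))) * (c ^ (j + 1))⁻¹ * t := by
    group
  rw [h4, hzz, h2]

theorem decomp_unique {t : M} (ht : t * t = 1) {X : Subgroup M} (hodd : Odd (Nat.card X))
    {y z y' z' : M} (hy : y * t = t * y) (hz : z ∈ X) (hzi : t * z * t⁻¹ = z⁻¹)
    (hy' : y' * t = t * y') (hz' : z' ∈ X) (hzi' : t * z' * t⁻¹ = z'⁻¹) (h : y * z = y' * z') :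
    y = y' ∧ z = z' := by
  have h1 := sq_of_decomp ht hy hzi
  have h2 := sq_of_decomp ht hy' hzi'
  rw [h] at h1
  have h3 : z * z = z' * z' := h1.symm.trans h2
  have h4 : z = z' := eq_of_sq_eq_of_odd (odd_orderOf_of_mem hodd hz) (odd_orderOf_of_mem hodd hz') h3
  subst h4
  exact ⟨mul_right_cancel h, rfl⟩

theorem card_decomp [Finite M] {t : M} (ht : t * t = 1) {X : Subgroup M} (hodd : Odd (Nat.card X))
    (hnorm : ∀ x ∈ X, t * x * t⁻¹ ∈ X) :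
    Nat.card X = Nat.card ↥(X ⊓ Subgroup.centralizer {t}) * Nat.card (Cfsg.invertedBy X t) := by
  let φ : ↥(X ⊓ Subgroup.centralizer {t}) × ↥(Cfsg.invertedBy X t) → X :=
    fun p => ⟨(p.1 : M) * (p.2 : M), X.mul_mem (Subgroup.mem_inf.1 p.1.2).1 p.2.2.1⟩
  have hcomm : ∀ y : ↥(X ⊓ Subgroup.centralizer {t}), (y : M) * t = t * (y : M) := by
    intro y
    have := (Subgroup.mem_inf.1 y.2).2
    rw [Subgroup.mem_centralizer_singleton_iff] at this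
    exact this
  have hinj : Function.Injective φ := by
    rintro ⟨y, z⟩ ⟨y', z'⟩ h
    have h' : (y : M) * (z : M) = (y' : M) * (z' : M) := congrArg Subtype.val h
    have h2 := decomp_unique ht hodd (hcomm y) z.2.1 z.2.2 (hcomm y') z'.2.1 z'.2.2 h'
    exact Prod.ext (Subtype.ext h2.1) (Subtype.ext h2.2)
  have hsurj : Function.Surjective φ := by
    rintro ⟨x, hx⟩
    obtain ⟨y, z, hyX, hyt, hzX, hzi, rfl⟩ := decomp_exists ht hodd hnorm hx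
    refine ⟨(⟨y, Subgroup.mem_inf.2 ⟨hyX, ?_⟩⟩, ⟨z, hzX, hzi⟩), rfl⟩
    rw [Subgroup.mem_centralizer_singleton_iff]
    exact hyt
  rw [← Nat.card_congr (Equiv.ofBijective φ ⟨hinj, hsurj⟩), Nat.card_prod]

end Cfsg.Agent.Lib.Helper2.InvDecomp
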