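import Mathlib
import Cfsg.Prelude.Def_TwoFusion
import Cfsg.Agent.Lib.Helper2.Isolated

set_option autoImplicit false

namespace Cfsg.Agent.Lib.Helper2.Iso2

open Cfsg Cfsg.Agent.Lib.Helper2.Isolated

variable {G : Type*} [Group G]

theorem isolated_conj (z : G) (hz : IsIsolatedInvolution z) (g : G) :
    IsIsolatedInvolution (g * z * g⁻¹) := by
  refine ⟨?_, ?_⟩
  · have h6 : g * z * g⁻¹ = (MulAut.conj g) z := by simp
    rw [h6, MulEquiv.orderOf_eq, hz.1]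
  · intro h hc
    have hc' : (g * z * g⁻¹) * (h * (g * z * g⁻¹) * h⁻¹) =
        (h * (g * z * g⁻¹) * h⁻¹) * (g * z * g⁻¹) := hc
    have h1 := hz.2 (g⁻¹ * h * g) (by
      show z * ((g⁻¹ * h * g) * z * (g⁻¹ * h * g)⁻¹) = ((g⁻¹ * h * g) * z * (g⁻¹ * h * g)⁻¹) * z
      calc z * ((g⁻¹ * h * g) * z * (g⁻¹ * h * g)⁻¹)
          = g⁻¹ * ((g * z * g⁻¹) * (h * (g * z * g⁻¹) * h⁻¹)) * g := by group
        _ = g⁻¹ * ((h * (g * z * g⁻¹) * h⁻¹) * (g * z * g⁻¹)) * g := by rw [hc']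
        _ = ((g⁻¹ * h * g) * z * (g⁻¹ * h * g)⁻¹) * z := by group)
    have e : h * (g * z * g⁻¹) * h⁻¹ = g * ((g⁻¹ * h * g) * z * (g⁻¹ * h * g)⁻¹) * g⁻¹ := by group
    rw [e, h1]

theorem K_unique {z k k' : G} (hk : Odd (orderOf k)) (hkinv : z * k * z⁻¹ = k⁻¹)
    (hk' : Odd (orderOf k')) (hk'inv : z * k' * z⁻¹ = k'⁻¹)
    (h : k * z * k⁻¹ = k' * z * k'⁻¹) : k = k' := by
  rw [conj_by_inverted hkinv, conj_by_inverted hk'inv] at h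
  exact eq_of_sq_eq_of_odd hk hk' (mul_right_cancel h)

theorem card_eq_mul [Finite G] (z : G) (hz : IsIsolatedInvolution z) :
    Nat.card G = Nat.card (Subgroup.centralizer ({z} : Set G)) *
      Nat.card {k : G // Odd (orderOf k) ∧ z * k * z⁻¹ = k⁻¹} := by
  rw [mul_comm, ← Nat.card_prod]
  symm
  apply Nat.card_eq_of_bijective
    (fun p : {k : G // Odd (orderOf k) ∧ z * k * z⁻¹ = k⁻¹} × Subgroup.centralizer ({z} : Set G) =>
      (p.1 : G) * (p.2 : G))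
  constructor
  · rintro ⟨⟨k, hk⟩, ⟨c, hc⟩⟩ ⟨⟨k', hk'⟩, ⟨c', hc'⟩⟩ h
    have h' : k * c = k' * c' := h
    rw [Subgroup.mem_centralizer_singleton_iff] at hc hc'
    have a1 : (k * c) * z * (k * c)⁻¹ = k * z * k⁻¹ := by
      have e : (k * c) * z * (k * c)⁻¹ = k * (c * z) * c⁻¹ * k⁻¹ := by group
      rw [e, hc]
      group
    have a2 : (k' * c') * z * (k' * c')⁻¹ = k' * z * k'⁻¹ := by
      have e : (k' * c') * z * (k' * c')⁻¹ = k' * (c' * z) * c'⁻¹ * k'⁻¹ := by group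
      rw [e, hc']
      group
    have e1 : k * z * k⁻¹ = k' * z * k'⁻¹ := by rw [← a1, ← a2, h']
    have e2 := K_unique hk.1 hk.2 hk'.1 hk'.2 e1
    subst e2
    have e3 : c = c' := mul_left_cancel h'
    subst e3
    rfl
  · intro g
    obtain ⟨k, -, hkodd, hkinv, hconj⟩ := exists_conj z hz g
    refine ⟨⟨⟨k, hkodd, hkinv⟩, ⟨k⁻¹ * g, ?_⟩⟩, by simp⟩
    rw [Subgroup.mem_centralizer_singleton_iff]
    have e : k⁻¹ * g * z = k⁻¹ * (g * z * g⁻¹) * g := by group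
    rw [e, ← hconj]
    group

theorem card_K_eq [Finite G] (z : G) (hz : IsIsolatedInvolution z) :
    Nat.card {k : G // Odd (orderOf k) ∧ z * k * z⁻¹ = k⁻¹} =
      Nat.card {x : G // ∃ g : G, x = g * z * g⁻¹} := by
  apply Nat.card_eq_of_bijective
    (fun k : {k : G // Odd (orderOf k) ∧ z * k * z⁻¹ = k⁻¹} =>
      (⟨(k : G) * z * (k : G)⁻¹, (k : G), rfl⟩ : {x : G // ∃ g : G, x = g * z * g⁻¹}))
  constructor
  · rintro ⟨k, hk⟩ ⟨k', hk'⟩ h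
    have h' : k * z * k⁻¹ = k' * z * k'⁻¹ := congrArg Subtype.val h
    exact Subtype.ext (K_unique hk.1 hk.2 hk'.1 hk'.2 h')
  · rintro ⟨x, g, rfl⟩
    obtain ⟨k, -, hkodd, hkinv, hconj⟩ := exists_conj z hz g
    exact ⟨⟨k, hkodd, hkinv⟩, Subtype.ext hconj⟩

theorem commute_sz_iff {z s b : G} (hzz : z * z = 1) (hss : s * s = 1)
    (hb : z * b * z⁻¹ = b⁻¹) : Commute b (s * z) ↔ s * b * s⁻¹ = b⁻¹ := by
  have hzi := inv_eq_self_of_mul_self hzz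
  have hsi := inv_eq_self_of_mul_self hss
  constructor
  · intro h
    have h' : b * (s * z) = (s * z) * b := h
    have e1 : s * b * s⁻¹ = s * (b * (s * z)) * z⁻¹ * s⁻¹ * s⁻¹ := by group
    rw [e1, h']
    have e2 : s * (s * z * b) * z⁻¹ * s⁻¹ * s⁻¹ = (s * s) * (z * b * z⁻¹) * (s * s)⁻¹ := by group
    rw [e2, hss, hb]
    group
  · intro h
    show b * (s * z) = (s * z) * b
    have e1 : s * z * b = s * (z * b * z⁻¹) * z := by group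
    rw [e1, hb]
    have e2 : b = s⁻¹ * (s * b * s⁻¹)⁻¹⁻¹ * s := by group
    have e3 : s * b⁻¹ * z = (s * b * s⁻¹)⁻¹ * s * z := by group
    rw [e3, h, inv_inv]
    group

theorem odd_conj {x : G} (hx : Odd (orderOf x)) (a : G) : Odd (orderOf (a * x * a⁻¹)) := by
  have h6 : a * x * a⁻¹ = (MulAut.conj a) x := by simp
  rw [h6, MulEquiv.orderOf_eq]
  exact hx

theorem mid_calc {z s a b : G} (hzz : z * z = 1) (hsz : s * z * s⁻¹ = z)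
    (ha : s * a * s⁻¹ = a) (hb : s * b * s⁻¹ = b⁻¹) (hbz : z * b * z⁻¹ = b⁻¹) :
    ((a * b) * z * (a * b)⁻¹) * (s * ((a * b) * z * (a * b)⁻¹) * s⁻¹) =
      (a * b * a⁻¹) * (a * b * a⁻¹) * ((a * b * a⁻¹) * (a * b * a⁻¹)) := by
  have hzi := inv_eq_self_of_mul_self hzz
  have e1 : s * ((a * b) * z * (a * b)⁻¹) * s⁻¹ =
      (s * a * s⁻¹) * (s * b * s⁻¹) * (s * z * s⁻¹) * (s * b * s⁻¹)⁻¹ * (s * a * s⁻¹)⁻¹ := by group
  rw [e1, ha, hb, hsz, inv_inv]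
  have hbz' : z * b⁻¹ * z⁻¹ = b := by
    have : z * b⁻¹ * z⁻¹ = (z * b * z⁻¹)⁻¹ := by group
    rw [this, hbz, inv_inv]
  have e2 : a * b * z * (a * b)⁻¹ * (a * b⁻¹ * z * b * a⁻¹) =
      a * b * (z * b⁻¹ * z⁻¹) * (z * b⁻¹ * z⁻¹) * (z * z) * b * a⁻¹ := by group
  rw [e2, hbz', hzz]
  group

theorem psi_injective {z s a b a' b' : G} (hzz : z * z = 1) (hsz : s * z * s⁻¹ = z)
    (hao : Odd (orderOf a)) (haz : z * a * z⁻¹ = a⁻¹) (ha : s * a * s⁻¹ = a)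
    (hbo : Odd (orderOf b)) (hbz : z * b * z⁻¹ = b⁻¹) (hb : s * b * s⁻¹ = b⁻¹)
    (hao' : Odd (orderOf a')) (haz' : z * a' * z⁻¹ = a'⁻¹) (ha' : s * a' * s⁻¹ = a')
    (hbo' : Odd (orderOf b')) (hbz' : z * b' * z⁻¹ = b'⁻¹) (hb' : s * b' * s⁻¹ = b'⁻¹)
    (h : (a * b) * z * (a * b)⁻¹ = (a' * b') * z * (a' * b')⁻¹) : a = a' ∧ b = b' := by
  have m1 := mid_calc hzz hsz ha hb hbz
  have m2 := mid_calc hzz hsz ha' hb' hbz'
  rw [h, m2] at m1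
  have ox : Odd (orderOf (a * b * a⁻¹)) := odd_conj hbo a
  have ox' : Odd (orderOf (a' * b' * a'⁻¹)) := odd_conj hbo' a'
  have ox2 : Odd (orderOf ((a * b * a⁻¹) * (a * b * a⁻¹))) := by
    rw [← pow_two]
    exact Odd.of_dvd_nat ox (orderOf_pow_dvd 2)
  have ox2' : Odd (orderOf ((a' * b' * a'⁻¹) * (a' * b' * a'⁻¹))) := by
    rw [← pow_two]
    exact Odd.of_dvd_nat ox' (orderOf_pow_dvd 2)
  have q1 := eq_of_sq_eq_of_odd ox2' ox2 m1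
  have q2 := eq_of_sq_eq_of_odd ox' ox q1
  have e1 : (a * b) * z * (a * b)⁻¹ = (a * b * a⁻¹) * (a * z * a⁻¹) * (a * b * a⁻¹)⁻¹ := by group
  have e2 : (a' * b') * z * (a' * b')⁻¹ =
      (a' * b' * a'⁻¹) * (a' * z * a'⁻¹) * (a' * b' * a'⁻¹)⁻¹ := by group
  rw [e1, e2, q2] at h
  have h2 : a * z * a⁻¹ = a' * z * a'⁻¹ := by
    have := congrArg (fun t => (a * b * a⁻¹)⁻¹ * t * (a * b * a⁻¹)) h
    simpa [mul_assoc] using this
  have haa := K_unique hao haz hao' haz' h2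
  subst haa
  refine ⟨rfl, ?_⟩
  have := congrArg (fun t => a⁻¹ * t * a) q2
  simpa [mul_assoc] using this.symm

theorem psi_surjective [Finite G] {z s : G} (hz : IsIsolatedInvolution z) (hss : s * s = 1)
    (hsz : s * z * s⁻¹ = z) (g : G) :
    ∃ a b : G, Odd (orderOf a) ∧ z * a * z⁻¹ = a⁻¹ ∧ s * a * s⁻¹ = a ∧ Odd (orderOf b) ∧
      z * b * z⁻¹ = b⁻¹ ∧ s * b * s⁻¹ = b⁻¹ ∧ (a * b) * z * (a * b)⁻¹ = g * z * g⁻¹ := by
  have hzz := mul_self_of_orderOf_two hz.1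
  have hsi := inv_eq_self_of_mul_self hss
  have hz₁iso := isolated_conj z hz g
  have hz₁z₁ : (g * z * g⁻¹) * (g * z * g⁻¹) = 1 := conj_mul_self hzz g
  obtain ⟨z₁, hz₁⟩ : ∃ z₁ : G, z₁ = g * z * g⁻¹ := ⟨_, rfl⟩
  rw [← hz₁] at hz₁iso hz₁z₁ ⊢
  have hz₁i := inv_eq_self_of_mul_self hz₁z₁
  obtain ⟨y, hymem, hyodd, hyinv, hyconj⟩ := exists_conj z₁ hz₁iso s
  have hsw : s * (s * z₁ * s⁻¹ * z₁) * s⁻¹ = (s * z₁ * s⁻¹ * z₁)⁻¹ := by
    have e1 : s * (s * z₁ * s⁻¹ * z₁) * s⁻¹ = (s * s) * z₁ * s⁻¹ * z₁ * s⁻¹ := by group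
    have e2 : (s * z₁ * s⁻¹ * z₁)⁻¹ = z₁⁻¹ * (s * s) * s⁻¹ * z₁⁻¹ * s⁻¹ := by group
    rw [e1, e2, hss, hz₁i]
    group
  have hsy : s * y * s⁻¹ = y⁻¹ := by
    obtain ⟨n, rfl⟩ := Subgroup.mem_zpowers_iff.1 hymem
    rw [← conj_zpow, hsw, inv_zpow]
  obtain ⟨j, hj⟩ := hyodd
  obtain ⟨x, hx⟩ : ∃ x : G, x = y ^ (j + 1) := ⟨_, rfl⟩
  have hxx : x * x = y := by
    rw [hx, ← pow_add]
    have e : j + 1 + (j + 1) = orderOf y + 1 := by omega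
    rw [e, pow_succ, pow_orderOf_eq_one, one_mul]
  have hxodd : Odd (orderOf x) := by
    rw [hx]
    exact Odd.of_dvd_nat ⟨j, hj⟩ (orderOf_pow_dvd _)
  have hxz₁ : z₁ * x * z₁⁻¹ = x⁻¹ := by
    rw [hx]
    exact inverts_pow hyinv _
  have hxs : s * x * s⁻¹ = x⁻¹ := by
    rw [hx]
    exact inverts_pow hsy _
  have hms : s * (x * z₁ * x⁻¹) * s⁻¹ = x * z₁ * x⁻¹ := by
    have e1 : s * (x * z₁ * x⁻¹) * s⁻¹ = (s * x * s⁻¹) * (s * z₁ * s⁻¹) * (s * x * s⁻¹)⁻¹ := by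
      group
    rw [e1, hxs, ← hyconj, ← hxx]
    group
  obtain ⟨a, -, haodd, hainv, haconj⟩ := exists_conj z hz (x * g)
  have ham : a * z * a⁻¹ = x * z₁ * x⁻¹ := by
    rw [haconj, hz₁]
    group
  have hsz' : s⁻¹ * z * s = z := by
    have e : s⁻¹ * z * s = s⁻¹ * (s * z * s⁻¹) * s := by rw [hsz]
    rw [e]
    group
  have has : s * a * s⁻¹ = a := by
    apply K_unique (odd_conj haodd s) ?_ haodd hainv ?_
    · have e : z * (s * a * s⁻¹) * z⁻¹ = s * ((s⁻¹ * z * s) * a * (s⁻¹ * z * s)⁻¹) * s⁻¹ := by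
        group
      rw [e, hsz', hainv]
      group
    · have e : (s * a * s⁻¹) * z * (s * a * s⁻¹)⁻¹ = s * (a * (s⁻¹ * z * s) * a⁻¹) * s⁻¹ := by
        group
      rw [e, hsz', ham, hms]
  refine ⟨a, a⁻¹ * x⁻¹ * a, haodd, hainv, has, ?_, ?_, ?_, ?_⟩
  · have e : a⁻¹ * x⁻¹ * a = a⁻¹ * x⁻¹ * a⁻¹⁻¹ := by rw [inv_inv]
    rw [e]
    apply odd_conj
    rw [orderOf_inv]
    exact hxodd
  · have hmx : (x * z₁ * x⁻¹) * x * (x * z₁ * x⁻¹)⁻¹ = x⁻¹ := by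
      have e : (x * z₁ * x⁻¹) * x * (x * z₁ * x⁻¹)⁻¹ = x * (z₁ * x * z₁⁻¹) * x⁻¹ := by group
      rw [e, hxz₁]
      group
    rw [← ham] at hmx
    have e : z * (a⁻¹ * x⁻¹ * a) * z⁻¹ =
        a⁻¹ * ((a * z * a⁻¹) * x * (a * z * a⁻¹)⁻¹)⁻¹ * a := by group
    rw [e, hmx]
    group
  · have e : s * (a⁻¹ * x⁻¹ * a) * s⁻¹ =
        (s * a * s⁻¹)⁻¹ * (s * x * s⁻¹)⁻¹ * (s * a * s⁻¹) := by group
    rw [e, has, hxs]
    group
  · have e : (a * (a⁻¹ * x⁻¹ * a)) * z * (a * (a⁻¹ * x⁻¹ * a))⁻¹ = x⁻¹ * (a * z * a⁻¹) * x := by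
      group
    rw [e, ham]
    group

theorem card_formula [Finite G] (z : G) (hz : IsIsolatedInvolution z) (s : G)
    (hs : orderOf s = 2) (hsz : Commute s z) :
    Nat.card G = Nat.card (Subgroup.centralizer ({z} : Set G)) *
      Nat.card {k : G // Odd (orderOf k) ∧ z * k * z⁻¹ = k⁻¹ ∧ Commute k (s * z)} *
      Nat.card {k : G // Odd (orderOf k) ∧ z * k * z⁻¹ = k⁻¹ ∧ Commute k s} := by
  have hzz := mul_self_of_orderOf_two hz.1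
  have hss := mul_self_of_orderOf_two hs
  have hsz1 : s * z * s⁻¹ = z := by
    have h : s * z = z * s := hsz
    rw [h]
    group
  rw [card_eq_mul z hz, card_K_eq z hz, mul_assoc]
  congr 1
  rw [mul_comm, ← Nat.card_prod]
  symm
  apply Nat.card_eq_of_bijective
    (fun p : {k : G // Odd (orderOf k) ∧ z * k * z⁻¹ = k⁻¹ ∧ Commute k s} ×
        {k : G // Odd (orderOf k) ∧ z * k * z⁻¹ = k⁻¹ ∧ Commute k (s * z)} =>
      (⟨((p.1 : G) * (p.2 : G)) * z * ((p.1 : G) * (p.2 : G))⁻¹, _, rfl⟩ :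
        {x : G // ∃ g : G, x = g * z * g⁻¹}))
  constructor
  · rintro ⟨⟨a, hao, haz, hac⟩, ⟨b, hbo, hbz, hbc⟩⟩ ⟨⟨a', hao', haz', hac'⟩, ⟨b', hbo', hbz', hbc'⟩⟩ h
    have h' : (a * b) * z * (a * b)⁻¹ = (a' * b') * z * (a' * b')⁻¹ := congrArg Subtype.val h
    have ha : s * a * s⁻¹ = a := by
      have e : a * s = s * a := hac
      rw [← e]
      group
    have ha' : s * a' * s⁻¹ = a' := by
      have e : a' * s = s * a' := hac'
      rw [← e]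
      group
    have hb := (commute_sz_iff hzz hss hbz).1 hbc
    have hb' := (commute_sz_iff hzz hss hbz').1 hbc'
    obtain ⟨e1, e2⟩ := psi_injective hzz hsz1 hao haz ha hbo hbz hb hao' haz' ha' hbo' hbz' hb' h'
    subst e1
    subst e2
    rfl
  · rintro ⟨x, g, rfl⟩
    obtain ⟨a, b, hao, haz, ha, hbo, hbz, hb, hab⟩ := psi_surjective hz hss hsz1 g
    refine ⟨⟨⟨a, hao, haz, ?_⟩, ⟨b, hbo, hbz, (commute_sz_iff hzz hss hbz).2 hb⟩⟩, Subtype.ext hab⟩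
    show a * s = s * a
    have e : s * a = (s * a * s⁻¹) * s := by group
    rw [e, ha]

end Cfsg.Agent.Lib.Helper2.Iso2
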