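import Mathlib
import Cfsg.Prelude.Def_Transfer

set_option autoImplicit false

namespace Cfsg.Agent.Lib.Helper2.Transfer2

open Cfsg
open scoped IsMulCommutative
open scoped commutatorElement

theorem pResidual_normal (p : ℕ) (G : Type*) [Group G] : (pResidual p G).Normal := by
  constructor
  intro n hn g
  have h1 : (pResidual p G).map (MulAut.conj g).toMonoidHom ≤ pResidual p G := by
    unfold pResidual
    rw [MonoidHom.map_closure, Subgroup.closure_le]
    rintro _ ⟨x, hx, rfl⟩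
    apply Subgroup.subset_closure
    show Nat.Coprime (orderOf ((MulAut.conj g) x)) p
    rw [MulEquiv.orderOf_eq]
    exact hx
  exact h1 ⟨n, hn, rfl⟩

theorem ap_normal (p : ℕ) (G : Type*) [Group G] : (pResidual p G ⊔ commutator G).Normal := by
  have := pResidual_normal p G
  infer_instance

theorem quot_comm_of_commutator_le {G : Type*} [Group G] (N : Subgroup G) [N.Normal]
    (h : commutator G ≤ N) : IsMulCommutative (G ⧸ N) := by
  refine ⟨⟨?_⟩⟩
  intro a b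
  induction a using QuotientGroup.induction_on with | _ a => ?_
  induction b using QuotientGroup.induction_on with | _ b => ?_
  rw [← QuotientGroup.mk_mul, ← QuotientGroup.mk_mul, QuotientGroup.eq]
  apply h
  have h1 : ⁅b⁻¹, a⁻¹⁆ ∈ ⁅(⊤ : Subgroup G), ⊤⁆ :=
    Subgroup.commutator_mem_commutator (Subgroup.mem_top _) (Subgroup.mem_top _)
  have h2 : (a * b)⁻¹ * (b * a) = ⁅b⁻¹, a⁻¹⁆ := by
    rw [commutatorElement_def]
    group
  rw [h2]
  exact h1

theorem exists_ppart_exponent (p n : ℕ) [hp : Fact p.Prime] (hn : 0 < n) :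
    ∃ k e m : ℕ, 1 ≤ k ∧ m.Coprime p ∧ n ∣ k * p ^ e ∧ n ∣ (k - 1) * m := by
  obtain ⟨e, m, hm, rfl⟩ := Nat.exists_eq_pow_mul_and_not_dvd hn.ne' p hp.out.ne_one
  have hcop : Nat.Coprime m (p ^ e) :=
    Nat.Coprime.pow_right e ((Nat.Prime.coprime_iff_not_dvd hp.out).2 hm).symm
  have hmpos : 0 < m := by
    rcases Nat.eq_zero_or_pos m with h | h
    · subst h
      simp at hn
    · exact h
  obtain ⟨k, hk1, hk2⟩ := Nat.chineseRemainder hcop 0 1
  have hk1' : m ∣ k := (Nat.modEq_zero_iff_dvd).1 hk1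
  have hppos : 0 < p ^ e := pow_pos hp.out.pos e
  by_cases hk0 : k = 0
  · subst hk0
    have h1 : p ^ e ∣ 1 := by
      have := (Nat.modEq_iff_dvd' (Nat.zero_le 1)).1 hk2
      simpa using this
    have h2 : p ^ e = 1 := Nat.dvd_one.1 h1
    refine ⟨m, e, m, hmpos, ((Nat.Prime.coprime_iff_not_dvd hp.out).2 hm).symm, ?_, ?_⟩
    · rw [h2]
      simp
    · rw [h2, one_mul]
      exact dvd_mul_left m (m - 1)
  · have hk1le : 1 ≤ k := Nat.one_le_iff_ne_zero.2 hk0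
    refine ⟨k, e, m, hk1le, ((Nat.Prime.coprime_iff_not_dvd hp.out).2 hm).symm, ?_, ?_⟩
    · rw [mul_comm k]
      exact Nat.mul_dvd_mul_left _ hk1'
    · have h3 : p ^ e ∣ k - 1 := (Nat.modEq_iff_dvd' hk1le).1 hk2.symm
      exact Nat.mul_dvd_mul h3 (dvd_refl m)

theorem focal_ap {G : Type*} [Group G] [Finite G] {p : ℕ} [Fact p.Prime] (H : Subgroup G)
    (hidx : Nat.Coprime p H.index)
    (hfus : ∀ g ∈ H, (∃ k : ℕ, orderOf g = p ^ k) → ∀ a : G, a * g * a⁻¹ ∈ H →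
      ∃ h ∈ H, h * g * h⁻¹ = a * g * a⁻¹) :
    (pResidual p G ⊔ commutator G) ⊓ H = (pResidual p ↥H ⊔ commutator ↥H).map H.subtype := by
  have hp : p.Prime := Fact.out
  have hNn : (pResidual p ↥H ⊔ commutator ↥H).Normal := ap_normal p ↥H
  have hcomm : IsMulCommutative (↥H ⧸ (pResidual p ↥H ⊔ commutator ↥H)) :=
    quot_comm_of_commutator_le _ le_sup_right
  let ϕ : ↥H →* ↥H ⧸ (pResidual p ↥H ⊔ commutator ↥H) := QuotientGroup.mk' _
  obtain ⟨k, e, m, hk1, hm, hke, hkm⟩ := exists_ppart_exponent p (Nat.card G) Nat.card_pos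
  have hpow_e : ∀ g : G, (g ^ k) ^ (p ^ e) = 1 := by
    intro g
    rw [← pow_mul]
    obtain ⟨c, hc⟩ := hke
    rw [hc, pow_mul, pow_card_eq_one', one_pow]
  have hpow_m : ∀ g : G, (g ^ (k - 1)) ^ m = 1 := by
    intro g
    rw [← pow_mul]
    obtain ⟨c, hc⟩ := hkm
    rw [hc, pow_mul, pow_card_eq_one', one_pow]
  have hϕ1 : ∀ h : ↥H, h ^ m = 1 → ϕ h = 1 := by
    intro h hh
    refine (QuotientGroup.eq_one_iff _).2 ?_
    apply (le_sup_left : pResidual p ↥H ≤ _)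
    apply Subgroup.subset_closure
    show Nat.Coprime (orderOf h) p
    exact Nat.Coprime.coprime_dvd_left (orderOf_dvd_of_pow_eq_one hh) hm
  have hϕk : ∀ h : ↥H, ϕ (h ^ k) = ϕ h := by
    intro h
    have h1 : h ^ k = h * h ^ (k - 1) := by
      rw [← pow_succ']
      congr 1
      omega
    have h2 : (h ^ (k - 1)) ^ m = 1 := by
      apply Subtype.ext
      simpa using hpow_m (h : G)
    rw [h1, map_mul, hϕ1 _ h2, mul_one]
  have hϕp : ∀ h : ↥H, ϕ h ^ (p ^ e) = 1 := by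
    intro h
    rw [← hϕk h, ← map_pow]
    have h2 : (h ^ k) ^ (p ^ e) = 1 := by
      apply Subtype.ext
      simpa using hpow_e (h : G)
    rw [h2, map_one]
  have key : ∀ (x : G) (hx : x ∈ H), MonoidHom.transfer ϕ x = ϕ ⟨x, hx⟩ ^ H.index := by
    intro x hx
    have hfint : Fintype (Quotient (MulAction.orbitRel (Subgroup.zpowers x) (G ⧸ H))) :=
      Fintype.ofFinite _
    rw [Subgroup.index_eq_sum_minimalPeriod H x, ← Finset.prod_pow_eq_pow_sum,
      MonoidHom.transfer_eq_prod_quotient_orbitRel_zpowers_quot]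
    apply Finset.prod_congr rfl
    intro q _
    rw [← map_pow]
    have hu := QuotientGroup.out_conj_pow_minimalPeriod_mem H x q.out
    suffices aux : ∀ (n : ℕ) (c : G) (hu : c⁻¹ * x ^ n * c ∈ H),
        ϕ ⟨c⁻¹ * x ^ n * c, hu⟩ = ϕ (⟨x, hx⟩ ^ n) from aux _ _ hu
    intro n c hu
    rw [← hϕk, ← hϕk (⟨x, hx⟩ ^ n)]
    have hgH : (x ^ n) ^ k ∈ H := H.pow_mem (H.pow_mem hx n) k
    have hgp : ∃ j : ℕ, orderOf ((x ^ n) ^ k) = p ^ j := by
      have h1 := orderOf_dvd_of_pow_eq_one (hpow_e (x ^ n))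
      obtain ⟨j, -, hj⟩ := (Nat.dvd_prime_pow hp).1 h1
      exact ⟨j, hj⟩
    have hcp : c⁻¹ * (x ^ n) ^ k * c⁻¹⁻¹ = (c⁻¹ * x ^ n * c) ^ k := by
      have h1 := conj_pow (a := c⁻¹) (b := x ^ n) (i := k)
      rw [inv_inv] at h1 ⊢
      exact h1.symm
    have hconj : c⁻¹ * (x ^ n) ^ k * c⁻¹⁻¹ ∈ H := by
      rw [hcp]
      exact H.pow_mem hu k
    obtain ⟨h, hhH, hh⟩ := hfus _ hgH hgp c⁻¹ hconj
    have e1 : (⟨c⁻¹ * x ^ n * c, hu⟩ : ↥H) ^ k =
        ⟨h, hhH⟩ * (⟨x, hx⟩ ^ n) ^ k * (⟨h, hhH⟩ : ↥H)⁻¹ := by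
      apply Subtype.ext
      simp only [Subgroup.coe_pow, Subgroup.coe_mul, Subgroup.coe_inv, Subgroup.coe_mk]
      rw [hh, hcp]
    rw [e1, map_mul, map_mul, map_inv]
    have hc2 := hcomm.is_comm.comm (ϕ ⟨h, hhH⟩) (ϕ ((⟨x, hx⟩ ^ n) ^ k))
    rw [hc2, mul_assoc, mul_inv_cancel, mul_one]
  have hker : pResidual p G ⊔ commutator G ≤ (MonoidHom.transfer ϕ).ker := by
    refine sup_le ?_ (Abelianization.commutator_subset_ker _)
    refine (Subgroup.closure_le _).2 ?_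
    intro g (hg : Nat.Coprime (orderOf g) p)
    rw [SetLike.mem_coe, MonoidHom.mem_ker]
    have h1 : MonoidHom.transfer ϕ g ^ orderOf g = 1 := by
      rw [← map_pow, pow_orderOf_eq_one, map_one]
    have h2 : MonoidHom.transfer ϕ g ^ (p ^ e) = 1 := by
      obtain ⟨h, hh⟩ := QuotientGroup.mk'_surjective _ (MonoidHom.transfer ϕ g)
      rw [← hh]
      exact hϕp h
    have h3 : orderOf (MonoidHom.transfer ϕ g) ∣ Nat.gcd (orderOf g) (p ^ e) :=
      Nat.dvd_gcd (orderOf_dvd_of_pow_eq_one h1) (orderOf_dvd_of_pow_eq_one h2)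
    have h4 : Nat.gcd (orderOf g) (p ^ e) = 1 := Nat.Coprime.pow_right e hg
    rw [h4, Nat.dvd_one, orderOf_eq_one_iff] at h3
    exact h3
  apply le_antisymm
  · rintro x ⟨hx1, hx2⟩
    have h1 : MonoidHom.transfer ϕ x = 1 := MonoidHom.mem_ker.1 (hker hx1)
    rw [key x hx2] at h1
    have h2 := hϕp ⟨x, hx2⟩
    have h3 : orderOf (ϕ ⟨x, hx2⟩) ∣ Nat.gcd (p ^ e) H.index :=
      Nat.dvd_gcd (orderOf_dvd_of_pow_eq_one h2) (orderOf_dvd_of_pow_eq_one h1)
    have h4 : Nat.gcd (p ^ e) H.index = 1 := Nat.Coprime.pow_left e hidx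
    rw [h4, Nat.dvd_one, orderOf_eq_one_iff] at h3
    exact ⟨⟨x, hx2⟩, (QuotientGroup.eq_one_iff _).1 h3, rfl⟩
  · refine le_inf ?_ (Subgroup.map_subtype_le _)
    rw [Subgroup.map_sup]
    apply sup_le_sup
    · refine (MonoidHom.map_closure _ _).le.trans ?_
      apply Subgroup.closure_mono
      rintro _ ⟨h, hh, rfl⟩
      show Nat.Coprime (orderOf (h : G)) p
      rw [Subgroup.orderOf_coe]
      exact hh
    · rw [commutator_def, commutator_def, Subgroup.map_commutator]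
      exact Subgroup.commutator_mono le_top le_top

end Cfsg.Agent.Lib.Helper2.Transfer2
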