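import Mathlib
import Cfsg.Prelude.Def_TwoFusion
import Cfsg.Prelude.Def_Transfer
import Cfsg.Agent.Lib.Helper2.Isolated
import Cfsg.Agent.Lib.Helper2.Iso2
import Cfsg.Agent.Lib.Helper2.SylowAux
import Cfsg.Agent.Lib.Helper2.Transfer2

set_option autoImplicit false

namespace Cfsg.Agent.Lib.Helper2.Iso3

open Cfsg Cfsg.Agent.Lib.Helper2.Isolated

variable {G : Type*} [Group G]

theorem quot_pResidual_isPGroup (p : ℕ) [hp : Fact p.Prime] (G : Type*) [Group G] [Finite G]
    [(pResidual p G).Normal] : IsPGroup p (G ⧸ pResidual p G) := by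
  obtain ⟨e, m, hm, hnm⟩ := Nat.exists_eq_pow_mul_and_not_dvd (Nat.card_pos (α := G)).ne' p
    hp.out.ne_one
  intro q
  induction q using QuotientGroup.induction_on with | _ h => ?_
  refine ⟨e, ?_⟩
  rw [← QuotientGroup.mk_pow]
  refine (QuotientGroup.eq_one_iff _).2 ?_
  apply Subgroup.subset_closure
  show Nat.Coprime (orderOf (h ^ p ^ e)) p
  have h1 : (h ^ p ^ e) ^ m = 1 := by
    rw [← pow_mul, ← hnm, pow_card_eq_one']
  have h2 : Nat.Coprime m p := ((Nat.Prime.coprime_iff_not_dvd hp.out).2 hm).symm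
  exact Nat.Coprime.coprime_dvd_left (orderOf_dvd_of_pow_eq_one h1) h2

theorem eq_top_of_sup_commutator (p : ℕ) [hp : Fact p.Prime] (G : Type*) [Group G] [Finite G]
    (h : pResidual p G ⊔ commutator G = ⊤) : pResidual p G = ⊤ := by
  have hn := Transfer2.pResidual_normal p G
  have hQ := quot_pResidual_isPGroup p G
  apply QuotientGroup.subgroup_eq_top_of_subsingleton
  by_contra hns
  rw [not_subsingleton_iff_nontrivial] at hns
  have hnil : Group.IsNilpotent (G ⧸ pResidual p G) := hQ.isNilpotent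
  have hlt := Group.IsSolvable.commutator_lt_top_of_nontrivial (G ⧸ pResidual p G)
  apply hlt.ne
  have h1 := congrArg (Subgroup.map (QuotientGroup.mk' (pResidual p G))) h
  rw [Subgroup.map_sup, Subgroup.map_top_of_surjective _ (QuotientGroup.mk'_surjective _)] at h1
  have h2 : (pResidual p G).map (QuotientGroup.mk' (pResidual p G)) = ⊥ := by
    rw [eq_bot_iff]
    rintro _ ⟨x, hx, rfl⟩
    exact (QuotientGroup.eq_one_iff x).2 hx
  rw [h2, bot_sup_eq] at h1
  rw [← h1]
  rw [commutator_def, commutator_def, Subgroup.map_commutator,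
    Subgroup.map_top_of_surjective _ (QuotientGroup.mk'_surjective _)]

theorem sylow_le_centralizer [Finite G] (z : G) (hz : IsIsolatedInvolution z) :
    Nat.Coprime 2 (Subgroup.centralizer ({z} : Set G)).index := by
  have hzz := mul_self_of_orderOf_two hz.1
  have hzp : IsPGroup 2 (Subgroup.zpowers z) := by
    apply SylowAux.isPGroup_of_elementary
    intro a ha
    obtain ⟨k, rfl⟩ := Subgroup.mem_zpowers_iff.1 ha
    rw [← zpow_natCast, ← zpow_mul, mul_comm, zpow_mul, zpow_natCast, pow_two, hzz, one_zpow]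
  obtain ⟨S, hS⟩ := hzp.exists_le_sylow
  have hzS : z ∈ (S : Subgroup G) := hS (Subgroup.mem_zpowers z)
  have hSC : (S : Subgroup G) ≤ Subgroup.centralizer ({z} : Set G) := by
    by_contra hcon
    have hne : (S : Subgroup G) ⊓ Subgroup.centralizer ({z} : Set G) ≠ (S : Subgroup G) := by
      intro h
      exact hcon (h ▸ inf_le_right)
    obtain ⟨x, hxS, hxT, hxn⟩ := SylowAux.exists_normalizing_not_mem S.2 inf_le_left hne
    have hzT : z ∈ (S : Subgroup G) ⊓ Subgroup.centralizer ({z} : Set G) :=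
      ⟨hzS, Subgroup.mem_centralizer_singleton_iff.2 rfl⟩
    have h1 := (hxn z).1 hzT
    have h2 : Commute z (x * z * x⁻¹) := (Subgroup.mem_centralizer_singleton_iff.1 h1.2).symm
    have h3 := hz.2 x h2
    apply hxT
    refine ⟨hxS, Subgroup.mem_centralizer_singleton_iff.2 ?_⟩
    have e : x * z = (x * z * x⁻¹) * x := by group
    rw [e, h3]
  have h1 := Subgroup.index_dvd_of_le hSC
  have h2 : ¬ 2 ∣ (S : Subgroup G).index := S.not_dvd_index
  rw [Nat.Prime.coprime_iff_not_dvd Nat.prime_two]
  exact fun h => h2 (h.trans h1)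

theorem residual_iff [Finite G] (z : G) (hz : IsIsolatedInvolution z)
    (hfus : ∀ x y : G, Commute x z → Commute y z → ∀ h : G, h * x * h⁻¹ = y →
      ∃ c : G, Commute c z ∧ c * x * c⁻¹ = y) :
    pResidual 2 G = ⊤ ↔ pResidual 2 ↥(Subgroup.centralizer ({z} : Set G)) = ⊤ := by
  have : Fact (Nat.Prime 2) := ⟨Nat.prime_two⟩
  constructor
  · intro hG
    have hidx := sylow_le_centralizer z hz
    have hf := Transfer2.focal_ap (p := 2) (Subgroup.centralizer ({z} : Set G)) hidx (by
      intro g hg _ a ha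
      rw [Subgroup.mem_centralizer_singleton_iff] at hg ha
      obtain ⟨c, hc, hcg⟩ := hfus g (a * g * a⁻¹) hg ha a rfl
      exact ⟨c, Subgroup.mem_centralizer_singleton_iff.2 hc, hcg⟩)
    rw [hG, top_sup_eq, top_inf_eq] at hf
    apply eq_top_of_sup_commutator
    rw [eq_top_iff]
    intro c _
    have h1 : (c : G) ∈ Subgroup.map (Subgroup.centralizer ({z} : Set G)).subtype
        (pResidual 2 ↥(Subgroup.centralizer ({z} : Set G)) ⊔
          commutator ↥(Subgroup.centralizer ({z} : Set G))) := by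
      rw [← hf]
      exact c.2
    obtain ⟨c', hc', hcc⟩ := h1
    have h2 : c' = c := Subtype.ext hcc
    rwa [h2] at hc'
  · intro hC
    rw [eq_top_iff]
    intro g _
    obtain ⟨k, -, hkodd, hkinv, hconj⟩ := exists_conj z hz g
    have hk : k ∈ pResidual 2 G := by
      apply Subgroup.subset_closure
      exact Nat.coprime_two_right.2 hkodd
    have hc : k⁻¹ * g ∈ Subgroup.centralizer ({z} : Set G) := by
      rw [Subgroup.mem_centralizer_singleton_iff]
      have e : k⁻¹ * g * z = k⁻¹ * (g * z * g⁻¹) * g := by group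
      rw [e, ← hconj]
      group
    have hc2 : (pResidual 2 ↥(Subgroup.centralizer ({z} : Set G))).map
        (Subgroup.centralizer ({z} : Set G)).subtype ≤ pResidual 2 G := by
      refine (MonoidHom.map_closure _ _).le.trans ?_
      apply Subgroup.closure_mono
      rintro _ ⟨h, hh, rfl⟩
      show Nat.Coprime (orderOf (h : G)) 2
      rw [Subgroup.orderOf_coe]
      exact hh
    have hc3 : k⁻¹ * g ∈ pResidual 2 G := by
      apply hc2
      refine ⟨⟨k⁻¹ * g, hc⟩, ?_, rfl⟩
      rw [hC]
      exact Subgroup.mem_top _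
    have e : g = k * (k⁻¹ * g) := by group
    rw [e]
    exact Subgroup.mul_mem _ hk hc3

end Cfsg.Agent.Lib.Helper2.Iso3
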