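import Mathlib

set_option autoImplicit false

universe u v

namespace Cfsg.Agent.Lib.Helper2.JordanN

open MulAction

def NT {G : Type*} [Group G] (N : Subgroup G) (X : Type*) [MulAction G X] (j : ℕ) : Prop :=
  ∀ x y : Fin j → X, Function.Injective x → Function.Injective y →
    ∃ n ∈ N, ∀ i, n • x i = y i

def NTa {G : Type*} [Group G] {X : Type*} [MulAction G X] (N : Subgroup G) (a : X) (j : ℕ) :
    Prop :=
  ∀ x y : Fin j → X, Function.Injective x → Function.Injective y → (∀ i, x i ≠ a) →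
    (∀ i, y i ≠ a) → ∃ n ∈ N, n • a = a ∧ ∀ i, n • x i = y i

variable {G : Type*} [Group G] {X : Type*} [MulAction G X]

theorem nt_to_class {N : Subgroup G} {j : ℕ} (h : NT N X j) :
    IsMultiplyPretransitive N X j := by
  rw [isMultiplyPretransitive_iff]
  intro x y
  obtain ⟨n, hn, hxy⟩ := h x y x.injective y.injective
  exact ⟨⟨n, hn⟩, Function.Embedding.ext (fun i => hxy i)⟩

theorem class_to_tuple {k : ℕ} [IsMultiplyPretransitive G X k] (x y : Fin k → X)
    (hx : Function.Injective x) (hy : Function.Injective y) : ∃ g : G, ∀ i, g • x i = y i := by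
  obtain ⟨g, hg⟩ := exists_smul_eq G (⟨x, hx⟩ : Fin k ↪ X) ⟨y, hy⟩
  exact ⟨g, fun i => DFunLike.congr_fun hg i⟩

theorem normal_transitive [FaithfulSMul G X]
    (h2 : ∀ a b c d : X, a ≠ b → c ≠ d → ∃ g : G, g • a = c ∧ g • b = d)
    (N : Subgroup G) [hNn : N.Normal] (hN : N ≠ ⊥) : ∀ u v : X, ∃ n ∈ N, n • u = v := by
  obtain ⟨⟨n, hn⟩, hn1⟩ := (Subgroup.ne_bot_iff_exists_ne_one).1 hN
  have hn1' : n ≠ 1 := fun h => hn1 (Subtype.ext h)
  have hx : ∃ x : X, n • x ≠ x := by
    by_contra hcon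
    push Not at hcon
    apply hn1'
    apply FaithfulSMul.eq_of_smul_eq_smul (α := X)
    intro x
    rw [hcon x, one_smul]
  obtain ⟨x, hx⟩ := hx
  intro u v
  by_cases huv : u = v
  · exact ⟨1, N.one_mem, by rw [one_smul, huv]⟩
  · obtain ⟨g, hg1, hg2⟩ := h2 x (n • x) u v (Ne.symm hx) huv
    refine ⟨g * n * g⁻¹, hNn.conj_mem n hn g, ?_⟩
    rw [mul_smul, mul_smul, ← hg1, inv_smul_smul, hg2]

theorem nt_succ {N : Subgroup G} {a : X} {j : ℕ} (h1 : ∀ u v : X, ∃ n ∈ N, n • u = v)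
    (ha : NTa N a j) : NT N X (j + 1) := by
  intro x y hx hy
  obtain ⟨n₁, hn₁, e₁⟩ := h1 (x 0) a
  obtain ⟨n₂, hn₂, e₂⟩ := h1 (y 0) a
  obtain ⟨h, hh, hha, hhx⟩ := ha (fun i => n₁ • x i.succ) (fun i => n₂ • y i.succ)
    (fun i j hij => Fin.succ_injective _ (hx (smul_left_cancel n₁ hij)))
    (fun i j hij => Fin.succ_injective _ (hy (smul_left_cancel n₂ hij)))
    (fun i hi => Fin.succ_ne_zero i (hx (smul_left_cancel n₁ (hi.trans e₁.symm))))
    (fun i hi => Fin.succ_ne_zero i (hy (smul_left_cancel n₂ (hi.trans e₂.symm))))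
  refine ⟨n₂⁻¹ * h * n₁, N.mul_mem (N.mul_mem (N.inv_mem hn₂) hh) hn₁, ?_⟩
  intro i
  refine Fin.cases ?_ (fun i' => ?_) i
  · rw [mul_smul, mul_smul, e₁, hha, inv_smul_eq_iff, e₂]
  · rw [mul_smul, mul_smul, hhx i', inv_smul_smul]

theorem nta_of_sub {N : Subgroup G} {a : X} {j : ℕ}
    (h : NT (N.subgroupOf (stabilizer G a)) (SubMulAction.ofStabilizer G a) j) : NTa N a j := by
  intro x y hx hy hxa hya
  obtain ⟨n, hn, hxy⟩ := h
    (fun i => ⟨x i, (SubMulAction.mem_ofStabilizer_iff G a).2 (hxa i)⟩)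
    (fun i => ⟨y i, (SubMulAction.mem_ofStabilizer_iff G a).2 (hya i)⟩)
    (fun i j hij => hx (congrArg Subtype.val hij))
    (fun i j hij => hy (congrArg Subtype.val hij))
  exact ⟨n.1, Subgroup.mem_subgroupOf.1 hn, n.2, fun i => congrArg Subtype.val (hxy i)⟩

theorem inj3 {a b c : X} (hab : a ≠ b) (hac : a ≠ c) (hbc : b ≠ c) :
    Function.Injective ![a, b, c] := by
  intro i j hij
  fin_cases i <;> fin_cases j <;> simp_all

theorem inj4 {a b c d : X} (hab : a ≠ b) (hac : a ≠ c) (had : a ≠ d) (hbc : b ≠ c)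
    (hbd : b ≠ d) (hcd : c ≠ d) : Function.Injective ![a, b, c, d] := by
  intro i j hij
  fin_cases i <;> fin_cases j <;> simp_all

theorem exists_fourth [Finite X] (hcard : 4 ≤ Nat.card X) (a b c : X) :
    ∃ d : X, d ≠ a ∧ d ≠ b ∧ d ≠ c := by
  classical
  have := Fintype.ofFinite X
  by_contra hcon
  push Not at hcon
  have h1 : (Finset.univ : Finset X) ⊆ {a, b, c} := by
    intro d _
    simp only [Finset.mem_insert, Finset.mem_singleton]
    by_cases h1 : d = a
    · left; exact h1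
    · by_cases h2 : d = b
      · right; left; exact h2
      · right; right; exact hcon d h1 h2
  have h2 := Finset.card_le_card h1
  have h3 : ({a, b, c} : Finset X).card ≤ 3 := Finset.card_le_three
  rw [Finset.card_univ, ← Nat.card_eq_fintype_card] at h2
  omega

theorem exists_fifth [Finite X] (hcard : 5 ≤ Nat.card X) (a b c d : X) :
    ∃ e : X, e ≠ a ∧ e ≠ b ∧ e ≠ c ∧ e ≠ d := by
  classical
  have := Fintype.ofFinite X
  by_contra hcon
  push Not at hcon
  have h1 : (Finset.univ : Finset X) ⊆ {a, b, c, d} := by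
    intro e _
    simp only [Finset.mem_insert, Finset.mem_singleton]
    by_cases h1 : e = a
    · left; exact h1
    · by_cases h2 : e = b
      · right; left; exact h2
      · by_cases h3 : e = c
        · right; right; left; exact h3
        · right; right; right; exact hcon e h1 h2 h3
  have h2 := Finset.card_le_card h1
  have h3 : ({a, b, c, d} : Finset X).card ≤ 4 := Finset.card_le_four
  rw [Finset.card_univ, ← Nat.card_eq_fintype_card] at h2
  omega

theorem reg_eq {N : Subgroup G} (hreg : ∀ n ∈ N, ∀ x : X, n • x = x → n = 1) {n m : G}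
    (hn : n ∈ N) (hm : m ∈ N) {a : X} (h : n • a = m • a) : n = m := by
  have h1 := hreg (m⁻¹ * n) (N.mul_mem (N.inv_mem hm) hn) a (by
    rw [mul_smul, h, inv_smul_smul])
  exact (inv_mul_eq_one.1 h1).symm

theorem reg_involutions [Finite X] [IsMultiplyPretransitive G X 3] (hcard : 4 ≤ Nat.card X)
    (N : Subgroup G) [hNn : N.Normal] (hreg : ∀ n ∈ N, ∀ x : X, n • x = x → n = 1) :
    ∀ n ∈ N, n * n = 1 := by
  intro n hn
  by_contra hne
  have hX : Nonempty X := by
    rw [← Finite.card_pos_iff]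
    omega
  obtain ⟨a⟩ := hX
  have hab : a ≠ n • a := by
    intro h
    have := hreg n hn a h.symm
    rw [this, one_mul] at hne
    exact hne rfl
  have hac : a ≠ n⁻¹ • a := by
    intro h
    apply hab
    rw [eq_inv_smul_iff] at h
    exact h.symm
  have hbc : n • a ≠ n⁻¹ • a := by
    intro h
    apply hne
    apply hreg (n * n) (N.mul_mem hn hn) a
    rw [mul_smul, h, smul_inv_smul]
  obtain ⟨d, hda, hdb, hdc⟩ := exists_fourth hcard a (n • a) (n⁻¹ • a)
  obtain ⟨g, hg⟩ := class_to_tuple (G := G) ![a, n • a, n⁻¹ • a] ![a, n • a, d]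
    (inj3 hab hac hbc) (inj3 hab (Ne.symm hda) (Ne.symm hdb))
  have hga : g • a = a := hg 0
  have hgb : g • n • a = n • a := hg 1
  have hgc : g • n⁻¹ • a = d := hg 2
  have hgia : g⁻¹ • a = a := by rw [inv_smul_eq_iff, hga]
  have hm : g * n * g⁻¹ = n := by
    apply reg_eq hreg (hNn.conj_mem n hn g) hn (a := a)
    rw [mul_smul, mul_smul, hgia, hgb]
  have h1 : (g * n * g⁻¹)⁻¹ • a = d := by
    have : (g * n * g⁻¹)⁻¹ = g * n⁻¹ * g⁻¹ := by group
    rw [this, mul_smul, mul_smul, hgia, hgc]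
  rw [hm] at h1
  exact hdc h1.symm

theorem reg_false [Finite X] [IsMultiplyPretransitive G X 4] (hcard : 5 ≤ Nat.card X)
    (N : Subgroup G) [hNn : N.Normal] (htr : ∀ u v : X, ∃ n ∈ N, n • u = v)
    (hreg : ∀ n ∈ N, ∀ x : X, n • x = x → n = 1) : False := by
  haveI : IsMultiplyPretransitive G X 3 :=
    isMultiplyPretransitive_of_le (n := 4) (by norm_num) (by omega)
  have hinv := reg_involutions (by omega) N hreg
  have hX : Nonempty X := by
    rw [← Finite.card_pos_iff]
    omega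
  obtain ⟨a⟩ := hX
  obtain ⟨b, hba, -, -⟩ := exists_fourth (by omega) a a a
  obtain ⟨c, hca, hcb, -⟩ := exists_fourth (by omega) a b b
  obtain ⟨n, hn, hna⟩ := htr a b
  obtain ⟨m, hm, hma⟩ := htr a c
  have hda : (n * m) • a ≠ a := by
    intro hh
    have h1 := hreg (n * m) (N.mul_mem hn hm) a hh
    have h2 : m = n := by
      have : m = n * n * m := by rw [hinv n hn, one_mul]
      rw [this, mul_assoc, h1, mul_one]
    apply hcb
    rw [← hna, ← hma, h2]
  have hdb : (n * m) • a ≠ b := by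
    intro hh
    rw [← hna] at hh
    have h1 := reg_eq hreg (N.mul_mem hn hm) hn hh
    have h2 : m = 1 := mul_left_cancel (h1.trans (mul_one n).symm)
    apply hca
    rw [← hma, h2, one_smul]
  have hdc : (n * m) • a ≠ c := by
    intro hh
    rw [← hma] at hh
    have h1 := reg_eq hreg (N.mul_mem hn hm) hm hh
    have h2 : n = 1 := by
      have : n * m = 1 * m := by rw [one_mul]; exact h1
      exact mul_right_cancel this
    apply hba
    rw [← hna, h2, one_smul]
  obtain ⟨e, hea, heb, hec, hed⟩ := exists_fifth hcard a b c ((n * m) • a)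
  obtain ⟨g, hg⟩ := class_to_tuple (G := G) ![a, b, c, (n * m) • a] ![a, b, c, e]
    (inj4 (Ne.symm hba) (Ne.symm hca) (Ne.symm hda) (Ne.symm hcb) (Ne.symm hdb) (Ne.symm hdc))
    (inj4 (Ne.symm hba) (Ne.symm hca) (Ne.symm hea) (Ne.symm hcb) (Ne.symm heb) (Ne.symm hec))
  have hga : g • a = a := hg 0
  have hgb : g • b = b := hg 1
  have hgc : g • c = c := hg 2
  have hgd : g • (n * m) • a = e := hg 3
  have hgia : g⁻¹ • a = a := by rw [inv_smul_eq_iff, hga]
  have hn' : g * n * g⁻¹ = n := by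
    apply reg_eq hreg (hNn.conj_mem n hn g) hn (a := a)
    rw [mul_smul, mul_smul, hgia, hna, hgb]
  have hm' : g * m * g⁻¹ = m := by
    apply reg_eq hreg (hNn.conj_mem m hm g) hm (a := a)
    rw [mul_smul, mul_smul, hgia, hma, hgc]
  have hnm : g * (n * m) * g⁻¹ = n * m := by
    have : g * (n * m) * g⁻¹ = (g * n * g⁻¹) * (g * m * g⁻¹) := by group
    rw [this, hn', hm']
  have h1 : (g * (n * m) * g⁻¹) • a = e := by
    rw [mul_smul, mul_smul, hgia, hgd]
  rw [hnm] at h1
  exact hed h1.symm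

theorem sharp_false [Finite X] (hcard : 4 ≤ Nat.card X) (N : Subgroup G)
    (hT : ∀ a b c d : X, a ≠ b → c ≠ d → ∃ n ∈ N, n • a = c ∧ n • b = d)
    (hS : ∀ n ∈ N, ∀ a b : X, a ≠ b → n • a = a → n • b = b → n = 1)
    (hinv : ∀ n ∈ N, ∀ x : X, n • x = x → n * n = 1) : False := by
  have hX : Nonempty X := by
    rw [← Finite.card_pos_iff]
    omega
  obtain ⟨a⟩ := hX
  obtain ⟨b, hba, -, -⟩ := exists_fourth hcard a a a
  obtain ⟨c, hca, hcb, -⟩ := exists_fourth hcard a b b
  obtain ⟨b', hb'a, hb'b, hb'c⟩ := exists_fourth hcard a b c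
  obtain ⟨t, ht, hta, htb⟩ := hT a b c b (Ne.symm hba) hcb
  obtain ⟨s, hs, hsa, hsb⟩ := hT a b' c b' (Ne.symm hb'a) (Ne.symm hb'c)
  have htt := hinv t ht b htb
  have hss := hinv s hs b' hsb
  have hsi : s⁻¹ = s := inv_eq_of_mul_eq_one_left hss
  have h1 : s⁻¹ * t = 1 := by
    apply hS (s⁻¹ * t) (N.mul_mem (N.inv_mem hs) ht) a c (Ne.symm hca)
    · rw [mul_smul, hta, inv_smul_eq_iff, hsa]
    · rw [mul_smul, ← hta, ← mul_smul t t, htt, one_smul, hsi, hsa, hta]
  have hst : s = t := inv_mul_eq_one.1 h1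
  have ht1 : t = 1 := hS t ht b b' (Ne.symm hb'b) htb (by rw [← hst]; exact hsb)
  rw [ht1, one_smul] at hta
  exact hca hta.symm

end Cfsg.Agent.Lib.Helper2.JordanN
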