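import Mathlib
import Cfsg.Agent.Lib.Helper2.JordanN

set_option autoImplicit false

universe u v

namespace Cfsg.Agent.Lib.Helper2.JordanN

open MulAction

theorem inj2 {X : Type*} {a b : X} (hab : a ≠ b) : Function.Injective ![a, b] := by
  intro i j hij
  fin_cases i <;> fin_cases j <;> simp_all

theorem two_of_class {G : Type*} [Group G] {X : Type*} [MulAction G X]
    [IsMultiplyPretransitive G X 2] :
    ∀ a b c d : X, a ≠ b → c ≠ d → ∃ g : G, g • a = c ∧ g • b = d := by
  intro a b c d hab hcd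
  obtain ⟨g, hg⟩ := class_to_tuple (G := G) (k := 2) ![a, b] ![c, d] (inj2 hab) (inj2 hcd)
  exact ⟨g, hg 0, hg 1⟩

theorem faithful_stab {G : Type*} [Group G] {X : Type*} [MulAction G X] [FaithfulSMul G X]
    (a : X) : FaithfulSMul (stabilizer G a) (SubMulAction.ofStabilizer G a) := by
  refine ⟨fun {g h} hgh => ?_⟩
  apply Subtype.ext
  apply FaithfulSMul.eq_of_smul_eq_smul (α := X)
  intro x
  by_cases hx : x = a
  · rw [hx]
    exact g.2.trans h.2.symm
  · have := hgh ⟨x, (SubMulAction.mem_ofStabilizer_iff G a).2 hx⟩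
    exact congrArg Subtype.val this

theorem comm_of_inv {G : Type*} [Group G] {g h : G} (hg : g * g = 1) (hh : h * h = 1)
    (hgh : (g * h) * (g * h) = 1) : g * h = h * g := by
  have h1 : g⁻¹ = g := inv_eq_of_mul_eq_one_left hg
  have h2 : h⁻¹ = h := inv_eq_of_mul_eq_one_left hh
  have h3 : (g * h)⁻¹ = g * h := inv_eq_of_mul_eq_one_left hgh
  rw [mul_inv_rev, h1, h2] at h3
  exact h3.symm

theorem stab_sharp {G : Type*} [Group G] {X : Type*} [MulAction G X] [FaithfulSMul G X]
    [Finite X] (N : Subgroup G) (a : X)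
    (htr : ∀ u v : X, ∃ n ∈ N, n • u = v)
    (htr' : ∀ u v : X, u ≠ a → v ≠ a → ∃ n ∈ N, n • a = a ∧ n • u = v)
    (hinv : ∀ n ∈ N, n • a = a → n * n = 1) (hcard : 4 ≤ Nat.card X) : False := by
  have hcomm : ∀ n ∈ N, ∀ m ∈ N, n • a = a → m • a = a → n * m = m * n :=
    fun n hn m hm hna hma => comm_of_inv (hinv n hn hna) (hinv m hm hma)
      (hinv (n * m) (N.mul_mem hn hm) (by rw [mul_smul, hma, hna]))
  have hsemi : ∀ n ∈ N, n • a = a → ∀ x : X, x ≠ a → n • x = x → n = 1 := by
    intro n hn hna x hxa hnx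
    apply FaithfulSMul.eq_of_smul_eq_smul (α := X)
    intro y
    rw [one_smul]
    by_cases hya : y = a
    · rw [hya, hna]
    · obtain ⟨m, hm, hma, hmx⟩ := htr' x y hxa hya
      rw [← hmx, ← mul_smul, hcomm n hn m hm hna hma, mul_smul, hnx]
  apply sharp_false hcard N
  · intro a' b c d hab hcd
    obtain ⟨n₁, hn₁, e₁⟩ := htr a' a
    obtain ⟨n₂, hn₂, e₂⟩ := htr c a
    have h1 : n₁ • b ≠ a := fun h => hab (smul_left_cancel n₁ (e₁.trans h.symm))
    have h2 : n₂ • d ≠ a := fun h => hcd (smul_left_cancel n₂ (e₂.trans h.symm))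
    obtain ⟨h, hh, hha, hhx⟩ := htr' _ _ h1 h2
    refine ⟨n₂⁻¹ * h * n₁, N.mul_mem (N.mul_mem (N.inv_mem hn₂) hh) hn₁, ?_, ?_⟩
    · rw [mul_smul, mul_smul, e₁, hha, inv_smul_eq_iff, e₂]
    · rw [mul_smul, mul_smul, hhx, inv_smul_smul]
  · intro n hn a' b hab hna hnb
    obtain ⟨n₁, hn₁, e₁⟩ := htr a' a
    have h1 : n₁ • b ≠ a := fun h => hab (smul_left_cancel n₁ (e₁.trans h.symm))
    have h2 : (n₁ * n * n₁⁻¹) • a = a := by
      rw [mul_smul, mul_smul, ← e₁, inv_smul_smul, hna]
    have h3 : (n₁ * n * n₁⁻¹) • (n₁ • b) = n₁ • b := by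
      rw [mul_smul, mul_smul, inv_smul_smul, hnb]
    have h4 := hsemi _ (N.mul_mem (N.mul_mem hn₁ hn) (N.inv_mem hn₁)) h2 _ h1 h3
    have h5 : n = n₁⁻¹ * (n₁ * n * n₁⁻¹) * n₁ := by group
    rw [h5, h4]
    group
  · intro n hn x hnx
    obtain ⟨n₁, hn₁, e₁⟩ := htr x a
    have h2 : (n₁ * n * n₁⁻¹) • a = a := by
      rw [mul_smul, mul_smul, ← e₁, inv_smul_smul, hnx]
    have h4 := hinv _ (N.mul_mem (N.mul_mem hn₁ hn) (N.inv_mem hn₁)) h2
    have h5 : n * n = n₁⁻¹ * ((n₁ * n * n₁⁻¹) * (n₁ * n * n₁⁻¹)) * n₁ := by group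
    rw [h5, h4]
    group

theorem jordan (k : ℕ) (hk : 2 ≤ k) : ∀ (G : Type u) (X : Type v) [Group G] [MulAction G X]
    [Finite X] [FaithfulSMul G X], k < Nat.card X → IsMultiplyPretransitive G X k →
    ∀ N : Subgroup G, N.Normal → N ≠ ⊥ →
      NT N X (k - 1) ∨ (k = 3 ∧ ∀ n ∈ N, n * n = 1) := by
  induction k, hk using Nat.le_induction with
  | base =>
    intro G X _ _ _ _ hcard h2 N hNn hN
    left
    have htr := normal_transitive (two_of_class (G := G) (X := X)) N hN
    intro x y hx hy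
    obtain ⟨n, hn, e⟩ := htr (x 0) (y 0)
    refine ⟨n, hn, fun i => ?_⟩
    have hi : i = 0 := Subsingleton.elim (α := Fin 1) i 0
    rw [hi]
    exact e
  | succ k hk ih =>
    intro G X _ _ _ _ hcard hk1 N hNn hN
    have h2 : IsMultiplyPretransitive G X 2 :=
      isMultiplyPretransitive_of_le (n := k + 1) (by omega) (by omega)
    have htr := normal_transitive (two_of_class (G := G) (X := X)) N hN
    have hX : Nonempty X := by
      rw [← Finite.card_pos_iff]
      omega
    obtain ⟨a⟩ := hX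
    have : IsPretransitive G X := isPretransitive_of_is_two_pretransitive
    have hk' : IsMultiplyPretransitive (stabilizer G a) (SubMulAction.ofStabilizer G a) k :=
      (SubMulAction.ofStabilizer.isMultiplyPretransitive (a := a)).1 hk1
    have := faithful_stab (G := G) a
    have hcard' : k < Nat.card (SubMulAction.ofStabilizer G a) := by
      rw [SubMulAction.nat_card_ofStabilizer_eq]
      omega
    by_cases hN' : N.subgroupOf (stabilizer G a) = ⊥
    · have hreg : ∀ n ∈ N, ∀ x : X, n • x = x → n = 1 := by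
        intro n hn x hx
        obtain ⟨m, hm, e⟩ := htr a x
        have h1 : m⁻¹ * n * m ∈ N := N.mul_mem (N.mul_mem (N.inv_mem hm) hn) hm
        have h2 : (m⁻¹ * n * m) • a = a := by
          rw [mul_smul, mul_smul, e, hx, ← e, inv_smul_smul]
        have h3 : (⟨m⁻¹ * n * m, h2⟩ : stabilizer G a) ∈ N.subgroupOf (stabilizer G a) :=
          Subgroup.mem_subgroupOf.2 h1
        rw [hN', Subgroup.mem_bot] at h3
        have h4 : m⁻¹ * n * m = 1 := congrArg Subtype.val h3
        have h5 : n = m * (m⁻¹ * n * m) * m⁻¹ := by group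
        rw [h5, h4]
        group
      by_cases hk3 : k + 1 = 3
      · right
        refine ⟨hk3, ?_⟩
        have : IsMultiplyPretransitive G X 3 := hk3 ▸ hk1
        exact reg_involutions (by omega) N hreg
      · exfalso
        have : IsMultiplyPretransitive G X 4 :=
          isMultiplyPretransitive_of_le (n := k + 1) (by omega) (by omega)
        exact reg_false (by omega) N htr hreg
    · have hNn' : (N.subgroupOf (stabilizer G a)).Normal := hNn.subgroupOf _
      rcases ih (stabilizer G a) (SubMulAction.ofStabilizer G a) hcard' hk' _ hNn' hN' with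
        h | ⟨hk3, hinv⟩
      · left
        have h3 := nt_succ htr (nta_of_sub h)
        have e : k - 1 + 1 = k + 1 - 1 := by omega
        rw [← e]
        exact h3
      · exfalso
        have : IsMultiplyPretransitive (stabilizer G a) (SubMulAction.ofStabilizer G a) 2 :=
          isMultiplyPretransitive_of_le (n := k) (by omega) (by omega)
        have htr' := normal_transitive (two_of_class (G := stabilizer G a)
          (X := SubMulAction.ofStabilizer G a)) (N.subgroupOf (stabilizer G a)) hN'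
        refine stab_sharp N a htr ?_ ?_ (by omega)
        · intro u v hu hv
          obtain ⟨n, hn, e⟩ := htr' ⟨u, (SubMulAction.mem_ofStabilizer_iff G a).2 hu⟩
            ⟨v, (SubMulAction.mem_ofStabilizer_iff G a).2 hv⟩
          exact ⟨n.1, Subgroup.mem_subgroupOf.1 hn, n.2, congrArg Subtype.val e⟩
        · intro g hg hga
          have h3 := hinv ⟨g, hga⟩ (Subgroup.mem_subgroupOf.2 hg)
          exact congrArg Subtype.val h3

end Cfsg.Agent.Lib.Helper2.JordanN
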