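import Mathlib

set_option autoImplicit false

namespace Cfsg.Agent.Lib.Helper2.RegNormal

open MulAction
open scoped Pointwise

variable {G : Type*} [Group G] {X : Type*} [MulAction G X]

theorem block_trivial (s : Set X)
    (hprim : IsPreprimitive (fixingSubgroup G s) (SubMulAction.ofFixingSubgroup G s))
    (B : Set X) (hBs : ∀ x ∈ B, x ∉ s)
    (hB : ∀ g ∈ fixingSubgroup G s, g • B = B ∨ Disjoint (g • B) B) :
    B.Subsingleton ∨ B = sᶜ := by
  have hblock : IsBlock (fixingSubgroup G s)
      (Subtype.val ⁻¹' B : Set (SubMulAction.ofFixingSubgroup G s)) := by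
    rw [isBlock_iff_smul_eq_or_disjoint]
    intro g
    have hpre : g • (Subtype.val ⁻¹' B : Set (SubMulAction.ofFixingSubgroup G s)) =
        Subtype.val ⁻¹' ((g : G) • B) := by
      ext x
      rw [Set.mem_smul_set_iff_inv_smul_mem, Set.mem_preimage, Set.mem_preimage,
        Set.mem_smul_set_iff_inv_smul_mem]
      rfl
    rcases hB g g.2 with h | h
    · left
      rw [hpre, h]
    · right
      rw [hpre]
      exact Disjoint.preimage _ h
  rcases hprim.isTrivialBlock_of_isBlock hblock with h | h
  · left
    intro x hx y hy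
    have := @h ⟨x, (SubMulAction.mem_ofFixingSubgroup_iff G).2 (hBs x hx)⟩ hx
      ⟨y, (SubMulAction.mem_ofFixingSubgroup_iff G).2 (hBs y hy)⟩ hy
    exact congrArg Subtype.val this
  · right
    ext x
    constructor
    · intro hx
      exact hBs x hx
    · intro hx
      have h1 : (⟨x, (SubMulAction.mem_ofFixingSubgroup_iff G).2 hx⟩ :
          SubMulAction.ofFixingSubgroup G s) ∈
          (Subtype.val ⁻¹' B : Set (SubMulAction.ofFixingSubgroup G s)) := by
        rw [h]
        exact Set.mem_univ _
      exact h1

theorem reg_inj (N : Subgroup G) (hreg : ∀ x : X, stabilizer N x = ⊥) {n m : G} (hn : n ∈ N)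
    (hm : m ∈ N) {a : X} (h : n • a = m • a) : n = m := by
  have h1 : (⟨m⁻¹ * n, N.mul_mem (N.inv_mem hm) hn⟩ : N) ∈ stabilizer N a := by
    rw [mem_stabilizer_iff]
    show (m⁻¹ * n) • a = a
    rw [mul_smul, h, inv_smul_smul]
  rw [hreg a, Subgroup.mem_bot] at h1
  have h2 : m⁻¹ * n = 1 := congrArg Subtype.val h1
  exact (inv_mul_eq_one.1 h2).symm

theorem pair_block (N : Subgroup G) [N.Normal] (hreg : ∀ x : X, stabilizer N x = ⊥) (a : X)
    (c : G) (hc : c ∈ N) (hcc : c * c = 1) (n : G) (hn : n ∈ N) (g : G) (hga : g • a = a)
    (hgc : g * c * g⁻¹ = c) :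
    g • ({n • a, (c * n) • a} : Set X) = {n • a, (c * n) • a} ∨
      Disjoint (g • ({n • a, (c * n) • a} : Set X)) {n • a, (c * n) • a} := by
  have hm : g * n * g⁻¹ ∈ N := Subgroup.Normal.conj_mem inferInstance n hn g
  have hgia : g⁻¹ • a = a := by rw [inv_smul_eq_iff, hga]
  have e1 : g • n • a = (g * n * g⁻¹) • a := by
    rw [mul_smul, mul_smul, hgia]
  have e2 : g • (c * n) • a = (c * (g * n * g⁻¹)) • a := by
    have : c * (g * n * g⁻¹) = g * (c * n) * g⁻¹ := by
      calc c * (g * n * g⁻¹) = (g * c * g⁻¹) * (g * n * g⁻¹) := by rw [hgc]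
        _ = g * (c * n) * g⁻¹ := by group
    rw [this, mul_smul (g * (c * n)) g⁻¹ a, hgia, mul_smul g (c * n) a]
  have hset : g • ({n • a, (c * n) • a} : Set X) =
      {(g * n * g⁻¹) • a, (c * (g * n * g⁻¹)) • a} := by
    rw [Set.smul_set_insert, Set.smul_set_singleton, e1, e2]
  rw [hset]
  by_cases hd : Disjoint ({(g * n * g⁻¹) • a, (c * (g * n * g⁻¹)) • a} : Set X)
      {n • a, (c * n) • a}
  · right
    exact hd
  · left
    rw [Set.not_disjoint_iff] at hd
    obtain ⟨x, hx1, hx2⟩ := hd
    have hcm : c * (g * n * g⁻¹) ∈ N := N.mul_mem hc hm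
    have hcn : c * n ∈ N := N.mul_mem hc hn
    have key : g * n * g⁻¹ = n ∨ g * n * g⁻¹ = c * n := by
      rcases hx1 with rfl | rfl
      · rcases hx2 with h | h
        · left
          exact reg_inj N hreg hm hn h
        · right
          exact reg_inj N hreg hm hcn h
      · rcases hx2 with h | h
        · right
          have h3 := reg_inj N hreg hcm hn h
          have : g * n * g⁻¹ = c * c * (g * n * g⁻¹) := by rw [hcc, one_mul]
          rw [this, mul_assoc, h3]
        · left
          have h3 := reg_inj N hreg hcm hcn h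
          exact mul_left_cancel h3
    rcases key with h | h
    · rw [h]
    · rw [h, ← mul_assoc, hcc, one_mul, Set.pair_comm]

theorem card_eq (N : Subgroup G) (htrans : IsPretransitive N X)
    (hreg : ∀ x : X, stabilizer N x = ⊥) (a : X) : Nat.card N = Nat.card X := by
  have h1 := MulAction.index_stabilizer_of_transitive (G := N) (x := a)
  rw [hreg a, Subgroup.index_bot] at h1
  exact h1

theorem involutions [Fintype X] (hX : 2 ≤ Fintype.card X)
    (h2 : IsMultiplyPreprimitive G X 2) (N : Subgroup G) [N.Normal]
    (hreg : ∀ x : X, stabilizer N x = ⊥) (h3 : Fintype.card X ≠ 3) :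
    ∀ n ∈ N, n * n = 1 := by
  classical
  have hne : Nonempty X := by
    rw [← Fintype.card_pos_iff]
    omega
  obtain ⟨a⟩ := hne
  intro n hn
  by_cases hn1 : n = 1
  · rw [hn1, one_mul]
  have hprim : IsPreprimitive (fixingSubgroup G ({a} : Set X))
      (SubMulAction.ofFixingSubgroup G ({a} : Set X)) :=
    h2.isPreprimitive_ofFixingSubgroup (by simp; rfl)
  have hna : n • a ≠ a := by
    intro h
    apply hn1
    exact reg_inj N hreg hn N.one_mem (h.trans (one_smul G a).symm)
  have hnia : n⁻¹ • a ≠ a := by
    intro h
    apply hna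
    rw [inv_smul_eq_iff] at h
    exact h.symm
  have hpair : ({n⁻¹ • a, n • a} : Set X) = {n⁻¹ • a, (1 * n) • a} := by rw [one_mul]
  have hsame : n • a = n⁻¹ • a := by
    by_contra hdiff
    have hB := block_trivial ({a} : Set X) hprim ({n⁻¹ • a, (n * n * n⁻¹) • a} : Set X)
      (by
        intro x hx
        rw [Set.mem_singleton_iff]
        rcases hx with rfl | rfl
        · exact hnia
        · have : n * n * n⁻¹ = n := by group
          rw [this]
          exact hna)
      (by
        intro g hg
        have hga : g • a = a := (mem_fixingSubgroup_iff G).1 hg a rfl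
        by_cases hd : Disjoint (g • ({n⁻¹ • a, (n * n * n⁻¹) • a} : Set X))
            {n⁻¹ • a, (n * n * n⁻¹) • a}
        · right
          exact hd
        · left
          have e0 : n * n * n⁻¹ = n := by group
          rw [e0] at hd ⊢
          have hm : g * n * g⁻¹ ∈ N := Subgroup.Normal.conj_mem inferInstance n hn g
          have hgia : g⁻¹ • a = a := by rw [inv_smul_eq_iff, hga]
          have e1 : g • n • a = (g * n * g⁻¹) • a := by
            rw [mul_smul, mul_smul, hgia]
          have e2 : g • n⁻¹ • a = (g * n * g⁻¹)⁻¹ • a := by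
            have : (g * n * g⁻¹)⁻¹ = g * n⁻¹ * g⁻¹ := by group
            rw [this, mul_smul, mul_smul, hgia]
          have hset : g • ({n⁻¹ • a, n • a} : Set X) =
              {(g * n * g⁻¹)⁻¹ • a, (g * n * g⁻¹) • a} := by
            rw [Set.smul_set_insert, Set.smul_set_singleton, e1, e2]
          rw [hset] at hd ⊢
          rw [Set.not_disjoint_iff] at hd
          obtain ⟨x, hx1, hx2⟩ := hd
          have hmi : (g * n * g⁻¹)⁻¹ ∈ N := N.inv_mem hm
          have hni : n⁻¹ ∈ N := N.inv_mem hn
          have key : g * n * g⁻¹ = n ∨ g * n * g⁻¹ = n⁻¹ := by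
            rcases hx1 with rfl | rfl
            · rcases hx2 with h | h
              · left
                exact inv_injective (reg_inj N hreg hmi hni h)
              · right
                exact inv_eq_iff_eq_inv.1 (reg_inj N hreg hmi hn h)
            · rcases hx2 with h | h
              · right
                exact reg_inj N hreg hm hni h
              · left
                exact reg_inj N hreg hm hn h
          rcases key with h | h
          · rw [h]
          · rw [h, inv_inv, Set.pair_comm])
    have e0 : n * n * n⁻¹ = n := by group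
    rw [e0] at hB
    rcases hB with h | h
    · exact hdiff (h (Set.mem_insert_of_mem _ rfl) (Set.mem_insert _ _))
    · apply h3
      have huniv : (Finset.univ : Finset X) = {a, n⁻¹ • a, n • a} := by
        ext z
        simp only [Finset.mem_univ, Finset.mem_insert, Finset.mem_singleton, true_iff]
        by_cases hz : z = a
        · left
          exact hz
        · right
          have : z ∈ ({n⁻¹ • a, n • a} : Set X) := by
            rw [h]
            exact hz
          exact this
      rw [← Finset.card_univ, huniv, Finset.card_insert_of_notMem, Finset.card_insert_of_notMem,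
        Finset.card_singleton]
      · rw [Finset.mem_singleton]
        exact fun h => hdiff h.symm
      · rw [Finset.mem_insert, Finset.mem_singleton]
        rintro (h | h)
        · exact hnia h.symm
        · exact hna h.symm
  have h4 : (n * n) • a = (1 : G) • a := by
    rw [mul_smul, hsame, smul_inv_smul, one_smul]
  exact reg_inj N hreg (N.mul_mem hn hn) N.one_mem h4

end Cfsg.Agent.Lib.Helper2.RegNormal
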