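import Mathlib
import Cfsg.Agent.Lib.Helper2.JordanN2
import Cfsg.Agent.Lib.Helper2.RegNormal

set_option autoImplicit false

universe u v

namespace Cfsg.Agent.Lib.Helper2.JordanN

open MulAction

theorem prim_normal_transitive {G : Type*} [Group G] {X : Type*} [MulAction G X]
    [FaithfulSMul G X] (hprim : IsMultiplyPreprimitive G X 1) (N : Subgroup G) [hNn : N.Normal]
    (hN : N ≠ ⊥) : ∀ u v : X, ∃ n ∈ N, n • u = v := by
  have hp : IsPreprimitive G X := (is_one_preprimitive_iff G X).1 hprim
  have hfix : fixedPoints N X ≠ Set.univ := by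
    intro h
    apply hN
    rw [Subgroup.eq_bot_iff_forall]
    intro n hn
    apply FaithfulSMul.eq_of_smul_eq_smul (α := X)
    intro x
    have hx : x ∈ fixedPoints N X := by
      rw [h]
      trivial
    rw [one_smul]
    exact hx ⟨n, hn⟩
  have := IsQuasiPreprimitive.isPretransitive_of_normal (G := G) (X := X) (N := N) hfix
  intro u v
  obtain ⟨n, hn⟩ := exists_smul_eq N u v
  exact ⟨n.1, n.2, hn⟩

theorem nt_one {G : Type*} [Group G] {X : Type*} [MulAction G X] {N : Subgroup G}
    (htr : ∀ u v : X, ∃ n ∈ N, n • u = v) : NT N X 1 := by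
  intro x y hx hy
  obtain ⟨n, hn, e⟩ := htr (x 0) (y 0)
  refine ⟨n, hn, fun i => ?_⟩
  have hi : i = 0 := Subsingleton.elim (α := Fin 1) i 0
  rw [hi]
  exact e

theorem kprim (k : ℕ) (hk : 1 ≤ k) : ∀ (G : Type u) (X : Type v) [Group G] [MulAction G X]
    [Finite X] [FaithfulSMul G X], k ≤ Nat.card X → IsMultiplyPreprimitive G X k →
    ¬ IsMultiplyPretransitive G X (Nat.card X - 1) →
    ∀ N : Subgroup G, N.Normal → N ≠ ⊥ → (∃ n ∈ N, n ≠ 1 ∧ ∃ x : X, n • x = x) →
      NT N X k := by
  induction k, hk using Nat.le_induction with
  | base =>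
    intro G X _ _ _ _ hcard hP hnot N hNn hN _
    exact nt_one (prim_normal_transitive hP N hN)
  | succ k hk ih =>
    intro G X _ _ _ _ hcard hP hnot N hNn hN hnr
    have hk1 : IsMultiplyPretransitive G X (k + 1) := inferInstance
    have h2 : IsMultiplyPretransitive G X 2 :=
      isMultiplyPretransitive_of_le (n := k + 1) (by omega) (by omega)
    have htr := normal_transitive (two_of_class (G := G) (X := X)) N hN
    obtain ⟨n₀, hn₀, hn₀1, a, hn₀a⟩ := hnr
    have : IsPretransitive G X := isPretransitive_of_is_two_pretransitive
    have hP' : IsMultiplyPreprimitive (stabilizer G a) (SubMulAction.ofStabilizer G a) k :=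
      isMultiplyPreprimitive_ofStabilizer G X
    have := faithful_stab (G := G) a
    have hcardX' : Nat.card (SubMulAction.ofStabilizer G a) = Nat.card X - 1 :=
      SubMulAction.nat_card_ofStabilizer_eq G a
    have hN' : N.subgroupOf (stabilizer G a) ≠ ⊥ := by
      intro h
      have h3 : (⟨n₀, hn₀a⟩ : stabilizer G a) ∈ N.subgroupOf (stabilizer G a) :=
        Subgroup.mem_subgroupOf.2 hn₀
      rw [h, Subgroup.mem_bot] at h3
      exact hn₀1 (congrArg Subtype.val h3)
    have hNn' : (N.subgroupOf (stabilizer G a)).Normal := hNn.subgroupOf _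
    have key : NT (N.subgroupOf (stabilizer G a)) (SubMulAction.ofStabilizer G a) k →
        NT N X (k + 1) := fun h => nt_succ htr (nta_of_sub h)
    apply key
    rcases Nat.eq_or_lt_of_le hk with hk1' | hk2
    · subst hk1'
      exact nt_one (prim_normal_transitive hP' (N.subgroupOf (stabilizer G a)) hN')
    · have hnot' : ¬ IsMultiplyPretransitive (stabilizer G a) (SubMulAction.ofStabilizer G a)
          (Nat.card (SubMulAction.ofStabilizer G a) - 1) := by
        intro h
        apply hnot
        have e : Nat.card X - 1 = (Nat.card (SubMulAction.ofStabilizer G a) - 1).succ := by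
          rw [hcardX']
          omega
        rw [e]
        exact (SubMulAction.ofStabilizer.isMultiplyPretransitive (a := a)).2 h
      by_cases hnr' : ∃ n ∈ N.subgroupOf (stabilizer G a), n ≠ 1 ∧
          ∃ x : SubMulAction.ofStabilizer G a, n • x = x
      · exact ih (stabilizer G a) (SubMulAction.ofStabilizer G a) (by rw [hcardX']; omega) hP'
          hnot' _ hNn' hN' hnr'
      · exfalso
        push Not at hnr'
        have hP2 : IsMultiplyPreprimitive (stabilizer G a) (SubMulAction.ofStabilizer G a) 2 :=
          isMultiplyPreprimitive_of_le _ _ hP' hk2 (by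
            have := Fintype.ofFinite (SubMulAction.ofStabilizer G a)
            rw [ENat.card_eq_coe_fintype_card, ← Nat.card_eq_fintype_card, hcardX']
            have : k ≤ Nat.card X - 1 := by omega
            exact_mod_cast this)
        have hc3 : Nat.card (SubMulAction.ofStabilizer G a) ≠ 3 := by
          intro h3
          apply hnot
          exact isMultiplyPretransitive_of_le (n := k + 1) (by omega) (by omega)
        have hc4 : 4 ≤ Nat.card X := by
          by_contra hlt
          apply hnot
          exact isMultiplyPretransitive_of_le (n := k + 1) (by omega) (by omega)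
        have := Fintype.ofFinite (SubMulAction.ofStabilizer G a)
        have hreg : ∀ x : SubMulAction.ofStabilizer G a,
            stabilizer (N.subgroupOf (stabilizer G a)) x = ⊥ := by
          intro x
          rw [Subgroup.eq_bot_iff_forall]
          intro n hn
          by_contra hne
          exact hnr' n.1 n.2 (fun h => hne (Subtype.ext h)) x hn
        have hinv := RegNormal.involutions (G := stabilizer G a)
          (X := SubMulAction.ofStabilizer G a)
          (by rw [← Nat.card_eq_fintype_card, hcardX']; omega) hP2
          (N.subgroupOf (stabilizer G a)) hreg (by rw [← Nat.card_eq_fintype_card]; exact hc3)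
        have : IsMultiplyPretransitive (stabilizer G a) (SubMulAction.ofStabilizer G a) 2 :=
          inferInstance
        have htr' := normal_transitive (two_of_class (G := stabilizer G a)
          (X := SubMulAction.ofStabilizer G a)) (N.subgroupOf (stabilizer G a)) hN'
        refine stab_sharp N a htr ?_ ?_ hc4
        · intro u v hu hv
          obtain ⟨n, hn, e⟩ := htr' ⟨u, (SubMulAction.mem_ofStabilizer_iff G a).2 hu⟩
            ⟨v, (SubMulAction.mem_ofStabilizer_iff G a).2 hv⟩
          exact ⟨n.1, Subgroup.mem_subgroupOf.1 hn, n.2, congrArg Subtype.val e⟩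
        · intro g hg hga
          have h3 := hinv ⟨g, hga⟩ (Subgroup.mem_subgroupOf.2 hg)
          exact congrArg Subtype.val h3

end Cfsg.Agent.Lib.Helper2.JordanN
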