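import Mathlib

set_option autoImplicit false

namespace Cfsg.Agent.Lib.Helper2.JordanP

open Equiv Equiv.Perm MulAction
open scoped Pointwise

variable {α : Type*} [Fintype α] [DecidableEq α]

def fixG (G : Subgroup (Perm α)) (g : Perm α) : Subgroup (Perm α) where
  carrier := {f | f ∈ G ∧ ∀ w, g w = w → f w = w}
  one_mem' := ⟨G.one_mem, fun _ _ => rfl⟩
  mul_mem' := by
    rintro a b ⟨ha, ha'⟩ ⟨hb, hb'⟩
    refine ⟨G.mul_mem ha hb, fun w hw => ?_⟩
    rw [Perm.mul_apply, hb' w hw, ha' w hw]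
  inv_mem' := by
    rintro a ⟨ha, ha'⟩
    refine ⟨G.inv_mem ha, fun w hw => ?_⟩
    rw [Perm.inv_eq_iff_eq, ha' w hw]

theorem sq_not_dvd_factorial {p : ℕ} (hp : p.Prime) : ¬ p ^ 2 ∣ p.factorial := by
  obtain ⟨q, rfl⟩ : ∃ q, p = q + 1 := ⟨p - 1, by have := hp.pos; omega⟩
  intro h
  rw [Nat.factorial_succ, pow_two] at h
  have h1 : (q + 1) ∣ q.factorial := (Nat.mul_dvd_mul_iff_left (by omega)).1 h
  have h2 := (hp.dvd_factorial).1 h1
  omega

theorem card_fixG_dvd (G : Subgroup (Perm α)) {p : ℕ} {g : Perm α} (hgp : g.support.card = p) :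
    Nat.card (fixG G g) ∣ p.factorial := by
  have hle : fixG G g ≤ (ofSubtype : Perm {x // x ∈ g.support} →* Perm α).range := by
    rintro f ⟨hf, hf'⟩
    have h₂ : ∀ x, f x ≠ x → x ∈ g.support := by
      intro x hx
      rw [Perm.mem_support]
      exact fun h => hx (hf' x h)
    have h₁ : ∀ x, f x ∈ g.support ↔ x ∈ g.support := by
      intro x
      rw [Perm.mem_support, Perm.mem_support, not_iff_not]
      constructor
      · intro h
        have h3 := hf' (f x) h
        have h4 : f x = x := f.injective h3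
        rw [h4] at h
        exact h
      · intro h
        rw [hf' x h]
        exact h
    exact ⟨subtypePerm f h₁, ofSubtype_subtypePerm h₁ h₂⟩
  have h1 : Nat.card (fixG G g) ∣
      Nat.card (ofSubtype : Perm {x // x ∈ g.support} →* Perm α).range :=
    Subgroup.card_dvd_of_le hle
  have h2 : Nat.card (ofSubtype : Perm {x // x ∈ g.support} →* Perm α).range =
      Nat.card (Perm {x // x ∈ g.support}) :=
    (Nat.card_congr (Equiv.ofInjective _ ofSubtype_injective)).symm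
  have h3 : Nat.card {x // x ∈ g.support} = p := by
    rw [Nat.card_eq_fintype_card, Fintype.card_coe, hgp]
  rw [h2, Nat.card_perm, h3] at h1
  exact h1

theorem sylow_step (G : Subgroup (Perm α)) {p : ℕ} (hp : p.Prime) {g : Perm α}
    (hgc : g.IsCycle) (hgp : g.support.card = p) (hg : g ∈ G) (h : Perm α) (hh : h ∈ G)
    (hΓ : ∀ w, g w = w → g (h⁻¹ w) = h⁻¹ w) :
    ∃ u ∈ G, (∀ w, g w = w → u w = w) ∧ ∃ j : ℤ, (u * h) * g * (u * h)⁻¹ = g ^ j := by
  have : Fact p.Prime := ⟨hp⟩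
  let gF : fixG G g := ⟨g, hg, fun w hw => hw⟩
  have hg'mem : h * g * h⁻¹ ∈ fixG G g := by
    refine ⟨G.mul_mem (G.mul_mem hh hg) (G.inv_mem hh), fun w hw => ?_⟩
    show h (g (h⁻¹ w)) = w
    rw [hΓ w hw]
    exact h.apply_symm_apply w
  let g'F : fixG G g := ⟨h * g * h⁻¹, hg'mem⟩
  have ho : orderOf gF = p := by
    rw [← Subgroup.orderOf_coe]
    show orderOf g = p
    rw [hgc.orderOf, hgp]
  have ho' : orderOf g'F = p := by
    rw [← Subgroup.orderOf_coe]
    show orderOf (h * g * h⁻¹) = p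
    rw [(hgc.conj (g := h)).orderOf, card_support_conj, hgp]
  have hfac : (Nat.card (fixG G g)).factorization p = 1 := by
    have hne : Nat.card (fixG G g) ≠ 0 := Nat.card_pos.ne'
    have h1 : p ^ 1 ∣ Nat.card (fixG G g) := by
      rw [pow_one, ← ho]
      exact orderOf_dvd_natCard gF
    have h2 : ¬ p ^ 2 ∣ Nat.card (fixG G g) :=
      fun h => sq_not_dvd_factorial hp (h.trans (card_fixG_dvd G hgp))
    rw [hp.pow_dvd_iff_le_factorization hne] at h1 h2
    omega
  let Q₁ : Sylow p (fixG G g) := Sylow.ofCard (Subgroup.zpowers gF) (by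
    rw [Nat.card_zpowers, ho, hfac, pow_one])
  let Q₂ : Sylow p (fixG G g) := Sylow.ofCard (Subgroup.zpowers g'F) (by
    rw [Nat.card_zpowers, ho', hfac, pow_one])
  obtain ⟨u, hu⟩ := exists_smul_eq (fixG G g) Q₂ Q₁
  have h1 : u * g'F * u⁻¹ ∈ (Q₁ : Subgroup (fixG G g)) := by
    rw [← hu, Sylow.coe_subgroup_smul, Subgroup.mem_smul_pointwise_iff_exists]
    exact ⟨g'F, Subgroup.mem_zpowers g'F, by rw [MulAut.smul_def, MulAut.conj_apply]⟩
  have h2 : u * g'F * u⁻¹ ∈ Subgroup.zpowers gF := h1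
  obtain ⟨j, hj⟩ := Subgroup.mem_zpowers_iff.1 h2
  refine ⟨u.1, u.2.1, u.2.2, j, ?_⟩
  have h3 := congrArg Subtype.val hj
  have h4 : ((gF ^ j : fixG G g) : Perm α) = g ^ j := by
    rw [Subgroup.coe_zpow]
  rw [h4] at h3
  rw [h3]
  show (u : Perm α) * h * g * ((u : Perm α) * h)⁻¹ = (u : Perm α) * (h * g * h⁻¹) * (u : Perm α)⁻¹
  group

end Cfsg.Agent.Lib.Helper2.JordanP
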