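import Mathlib
import Cfsg.Agent.Lib.Helper2.JordanP

set_option autoImplicit false

namespace Cfsg.Agent.Lib.Helper2.JordanP

open Equiv Equiv.Perm MulAction
open scoped Pointwise

variable {α : Type*} [Fintype α] [DecidableEq α]

theorem swap_fix {g : Perm α} {a b : α} (ha : g a = a) (hb : g b = b) :
    ∀ w, g w = w → g (swap a b w) = swap a b w := by
  intro w hw
  by_cases h1 : w = a
  · rw [h1, swap_apply_left]
    exact hb
  · by_cases h2 : w = b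
    · rw [h2, swap_apply_right]
      exact ha
    · rw [swap_apply_of_ne_of_ne h1 h2]
      exact hw

theorem exists_three_cycle (G : Subgroup (Perm α)) {p : ℕ} (hp : p.Prime) {g : Perm α}
    (hgc : g.IsCycle) (hgp : g.support.card = p) (hg : g ∈ G)
    (hext : ∀ σ : Perm α, ∃ h ∈ G, ∀ w, g w = w → h w = σ w)
    {x y z : α} (hx : g x = x) (hy : g y = y) (hz : g z = z) (hxy : x ≠ y) (hxz : x ≠ z)
    (hyz : y ≠ z) : ∃ τ ∈ G, IsThreeCycle τ := by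
  have key : ∀ a b : α, g a = a → g b = b → ∃ n ∈ G, (∀ w, g w = w → n w = swap a b w) ∧
      (∀ w, g w = w → n⁻¹ w = swap a b w) ∧ ∃ j : ℤ, n * g * n⁻¹ = g ^ j := by
    intro a b ha hb
    have hσ := swap_fix ha hb
    obtain ⟨h, hh, hhw⟩ := hext (swap a b)
    have hinv : ∀ w, g w = w → h⁻¹ w = swap a b w := by
      intro w hw
      rw [Perm.inv_eq_iff_eq, hhw _ (hσ w hw), swap_apply_self]
    obtain ⟨u, hu, huw, j, hj⟩ := sylow_step G hp hgc hgp hg h hh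
      (fun w hw => by rw [hinv w hw]; exact hσ w hw)
    refine ⟨u * h, G.mul_mem hu hh, ?_, ?_, j, hj⟩
    · intro w hw
      rw [Perm.mul_apply, hhw w hw, huw _ (hσ w hw)]
    · intro w hw
      rw [Perm.inv_eq_iff_eq, Perm.mul_apply, hhw _ (hσ w hw), swap_apply_self, huw w hw]
  obtain ⟨n₁, hn₁, e₁, e₁', j₁, hj₁⟩ := key x y hx hy
  obtain ⟨n₂, hn₂, e₂, e₂', j₂, hj₂⟩ := key x z hx hz
  have hσ₁ := swap_fix (g := g) hx hy
  have hσ₂ := swap_fix (g := g) hx hz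
  have hA : n₁ * n₂ * g * (n₁ * n₂)⁻¹ = g ^ (j₁ * j₂) := by
    have h1 : n₁ * n₂ * g * (n₁ * n₂)⁻¹ = n₁ * (n₂ * g * n₂⁻¹) * n₁⁻¹ := by group
    rw [h1, hj₂, ← conj_zpow, hj₁, ← zpow_mul]
  have hB : n₂ * n₁ * g * (n₂ * n₁)⁻¹ = g ^ (j₁ * j₂) := by
    have h1 : n₂ * n₁ * g * (n₂ * n₁)⁻¹ = n₂ * (n₁ * g * n₁⁻¹) * n₂⁻¹ := by group
    rw [h1, hj₁, ← conj_zpow, hj₂, ← zpow_mul, mul_comm]
  have hcg : (n₂ * n₁)⁻¹ * (n₁ * n₂) * g = g * ((n₂ * n₁)⁻¹ * (n₁ * n₂)) := by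
    have h1 : (n₂ * n₁)⁻¹ * (n₁ * n₂) * g * ((n₂ * n₁)⁻¹ * (n₁ * n₂))⁻¹ = g := by
      calc (n₂ * n₁)⁻¹ * (n₁ * n₂) * g * ((n₂ * n₁)⁻¹ * (n₁ * n₂))⁻¹
          = (n₂ * n₁)⁻¹ * (n₁ * n₂ * g * (n₁ * n₂)⁻¹) * (n₂ * n₁) := by group
        _ = (n₂ * n₁)⁻¹ * (n₂ * n₁ * g * (n₂ * n₁)⁻¹) * (n₂ * n₁) := by rw [hA, hB]
        _ = g := by group
    calc (n₂ * n₁)⁻¹ * (n₁ * n₂) * g
        = (n₂ * n₁)⁻¹ * (n₁ * n₂) * g * ((n₂ * n₁)⁻¹ * (n₁ * n₂))⁻¹ *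
          ((n₂ * n₁)⁻¹ * (n₁ * n₂)) := by group
      _ = g * ((n₂ * n₁)⁻¹ * (n₁ * n₂)) := by rw [h1]
  obtain ⟨c, hc⟩ : ∃ c, c = (n₂ * n₁)⁻¹ * (n₁ * n₂) := ⟨_, rfl⟩
  rw [← hc] at hcg
  have hcG : c ∈ G := by
    rw [hc]
    exact G.mul_mem (G.inv_mem (G.mul_mem hn₂ hn₁)) (G.mul_mem hn₁ hn₂)
  have hcΓ : ∀ w, g w = w → c w = swap x y (swap x z (swap x y (swap x z w))) := by
    intro w hw
    have w1 := hσ₂ w hw
    have w2 := hσ₁ _ w1
    have w3 := hσ₂ _ w2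
    rw [hc, mul_inv_rev]
    show n₁⁻¹ (n₂⁻¹ (n₁ (n₂ w))) = swap x y (swap x z (swap x y (swap x z w)))
    rw [e₂ w hw, e₁ _ w1, e₂' _ w2, e₁' _ w3]
  obtain ⟨a, ha, hcyc⟩ := hgc
  have hca : g (c a) ≠ c a := by
    intro h
    have h1 : c (g a) = c a := by
      have h2 := congrArg (fun f : Perm α => f a) hcg
      simp only [Perm.mul_apply] at h2
      rw [h2, h]
    exact ha (c.injective h1)
  obtain ⟨i, hi⟩ := hcyc hca
  obtain ⟨c', hc'⟩ : ∃ c', c' = g ^ (-i) * c := ⟨_, rfl⟩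
  have hc'G : c' ∈ G := by
    rw [hc']
    exact G.mul_mem (G.zpow_mem hg _) hcG
  have hc'a : c' a = a := by
    rw [hc']
    show (g ^ (-i)) (c a) = a
    rw [← hi, ← Perm.mul_apply, ← zpow_add, neg_add_cancel, zpow_zero, Perm.one_apply]
  have hc'g : Commute c' g := by
    have h1 : Commute c g := hcg
    rw [hc']
    exact ((Commute.refl g).zpow_left (-i)).mul_left h1
  have hc'Δ : ∀ d, g d ≠ d → c' d = d := by
    intro d hd
    obtain ⟨t, ht⟩ := hcyc hd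
    rw [← ht]
    have h2 : Commute c' (g ^ t) := hc'g.zpow_right t
    have h3 := congrArg (fun f : Perm α => f a) h2.eq
    simp only [Perm.mul_apply] at h3
    rw [h3, hc'a]
  have hc'τ : c' = (swap x y * swap x z) * (swap x y * swap x z) := by
    ext v
    show c' v = swap x y (swap x z (swap x y (swap x z v)))
    by_cases hv : g v = v
    · rw [hc']
      show (g ^ (-i)) (c v) = _
      rw [hcΓ v hv]
      apply zpow_apply_eq_self_of_apply_eq_self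
      exact hσ₁ _ (hσ₂ _ (hσ₁ _ (hσ₂ v hv)))
    · rw [hc'Δ v hv]
      have hvx : v ≠ x := fun h => hv (h ▸ hx)
      have hvy : v ≠ y := fun h => hv (h ▸ hy)
      have hvz : v ≠ z := fun h => hv (h ▸ hz)
      rw [swap_apply_of_ne_of_ne hvx hvz, swap_apply_of_ne_of_ne hvx hvy,
        swap_apply_of_ne_of_ne hvx hvz, swap_apply_of_ne_of_ne hvx hvy]
  refine ⟨(swap x y * swap x z) * (swap x y * swap x z), hc'τ ▸ hc'G, ?_⟩
  exact (isThreeCycle_swap_mul_swap_same hxy hxz hyz).isThreeCycle_sq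

theorem hext_of_trans (G : Subgroup (Perm α)) (g : Perm α) {k : ℕ}
    (hk : Fintype.card {w // g w = w} = k) (hG : IsMultiplyPretransitive G α k) :
    ∀ σ : Perm α, ∃ h ∈ G, ∀ w, g w = w → h w = σ w := by
  intro σ
  let e : Fin k ≃ {w // g w = w} := (Fintype.equivFinOfCardEq hk).symm
  let e₁ : Fin k ↪ α := e.toEmbedding.trans (Function.Embedding.subtype _)
  let e₂ : Fin k ↪ α := e₁.trans σ.toEmbedding
  obtain ⟨h, hh⟩ := exists_smul_eq G e₁ e₂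
  refine ⟨h.1, h.2, fun w hw => ?_⟩
  have h1 := DFunLike.congr_fun hh (e.symm ⟨w, hw⟩)
  have h2 : h • w = σ w := by simpa [e₁, e₂] using h1
  exact h2

end Cfsg.Agent.Lib.Helper2.JordanP
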