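import Mathlib
import Cfsg.Agent.Lib.Helper2.JordanN2

set_option autoImplicit false

namespace Cfsg.Agent.Lib.Helper2.JordanN

open MulAction

theorem jordan_two {G : Type*} [Group G] {X : Type*} [MulAction G X] [Finite X] (s : Set X)
    {m : ℕ} (hsm : s.ncard = m) (hm : IsMultiplyPretransitive G X m)
    (h2 : IsMultiplyPretransitive (fixingSubgroup G s) (SubMulAction.ofFixingSubgroup G s) 2) :
    IsMultiplyPretransitive G X (m + 2) := by
  have hcard : Nat.card s = m := by rw [Nat.card_coe_set_eq, hsm]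
  let e : Fin m ≃ s := (Finite.equivFinOfCardEq hcard).symm
  let e' : Fin m ↪ X := e.toEmbedding.trans (Function.Embedding.subtype _)
  have he' : ∀ i, e' i ∈ s := fun i => (e i).2
  have hsurj : ∀ v ∈ s, ∃ i, e' i = v := fun v hv => ⟨e.symm ⟨v, hv⟩, by simp [e']⟩
  have h2' := two_of_class (G := fixingSubgroup G s) (X := SubMulAction.ofFixingSubgroup G s)
  have key : ∀ x : Fin (m + 2) ↪ X, ∃ g : G, (∀ j : Fin m, g • x (Fin.castAdd 2 j) = e' j) ∧
      g • x (Fin.natAdd m 0) ∉ s ∧ g • x (Fin.natAdd m 1) ∉ s ∧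
      g • x (Fin.natAdd m 0) ≠ g • x (Fin.natAdd m 1) := by
    intro x
    let x' : Fin m ↪ X := (Fin.castAddEmb 2).trans x
    obtain ⟨g, hg⟩ := exists_smul_eq G x' e'
    have hg' : ∀ j : Fin m, g • x (Fin.castAdd 2 j) = e' j := fun j => DFunLike.congr_fun hg j
    refine ⟨g, hg', ?_, ?_, ?_⟩
    · intro hmem
      obtain ⟨i, hi⟩ := hsurj _ hmem
      rw [← hg' i] at hi
      have h3 := congrArg Fin.val (x.injective (smul_left_cancel g hi))
      simp at h3
      omega
    · intro hmem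
      obtain ⟨i, hi⟩ := hsurj _ hmem
      rw [← hg' i] at hi
      have h3 := congrArg Fin.val (x.injective (smul_left_cancel g hi))
      simp at h3
      omega
    · intro h
      have h3 := congrArg Fin.val (x.injective (smul_left_cancel g h))
      simp at h3
  rw [isMultiplyPretransitive_iff]
  intro x y
  obtain ⟨g₁, a1, a2, a3, a4⟩ := key x
  obtain ⟨g₂, b1, b2, b3, b4⟩ := key y
  obtain ⟨k, hk1, hk2⟩ := h2' ⟨_, (SubMulAction.mem_ofFixingSubgroup_iff G).2 a2⟩
    ⟨_, (SubMulAction.mem_ofFixingSubgroup_iff G).2 a3⟩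
    ⟨_, (SubMulAction.mem_ofFixingSubgroup_iff G).2 b2⟩
    ⟨_, (SubMulAction.mem_ofFixingSubgroup_iff G).2 b3⟩
    (fun h => a4 (congrArg Subtype.val h)) (fun h => b4 (congrArg Subtype.val h))
  refine ⟨g₂⁻¹ * k.1 * g₁, ?_⟩
  ext i
  show (g₂⁻¹ * k.1 * g₁) • x i = y i
  refine Fin.addCases (fun j => ?_) (fun j => ?_) i
  · rw [mul_smul, mul_smul, a1 j, inv_smul_eq_iff, b1 j]
    exact (mem_fixingSubgroup_iff G).1 k.2 _ (he' j)
  · have hj : j = 0 ∨ j = 1 := by omega
    rcases hj with rfl | rfl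
    · rw [mul_smul, mul_smul, inv_smul_eq_iff]
      exact congrArg Subtype.val hk1
    · rw [mul_smul, mul_smul, inv_smul_eq_iff]
      exact congrArg Subtype.val hk2

end Cfsg.Agent.Lib.Helper2.JordanN
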