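import Mathlib
import Cfsg.Prelude.Def_Balance
import Cfsg.Agent.Lib.Helper2.SylowAux

set_option autoImplicit false

namespace Cfsg.Agent.Lib.Helper2.KConn

variable {G : Type*} [Group G]

theorem ea_comm {p : ℕ} {A : Subgroup G} (h : Cfsg.IsElementaryAbelian p A) :
    ∀ a ∈ A, ∀ b ∈ A, a * b = b * a := by
  intro a ha b hb
  have := h.1.is_comm.comm ⟨a, ha⟩ ⟨b, hb⟩
  exact congrArg Subtype.val this

theorem ea_of {p : ℕ} {A : Subgroup G} (hc : ∀ a ∈ A, ∀ b ∈ A, a * b = b * a)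
    (he : ∀ a ∈ A, a ^ p = 1) : Cfsg.IsElementaryAbelian p A :=
  ⟨⟨⟨fun x y => Subtype.ext (hc x.1 x.2 y.1 y.2)⟩⟩, he⟩

theorem ea_conj {p : ℕ} {A : Subgroup G} (h : Cfsg.IsElementaryAbelian p A) (g : G) :
    Cfsg.IsElementaryAbelian p (A.map (MulAut.conj g).toMonoidHom) := by
  apply ea_of
  · rintro _ ⟨a, ha, rfl⟩ _ ⟨b, hb, rfl⟩
    show g * a * g⁻¹ * (g * b * g⁻¹) = g * b * g⁻¹ * (g * a * g⁻¹)
    have := ea_comm h a ha b hb
    calc g * a * g⁻¹ * (g * b * g⁻¹) = g * (a * b) * g⁻¹ := by group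
      _ = g * (b * a) * g⁻¹ := by rw [this]
      _ = _ := by group
  · rintro _ ⟨a, ha, rfl⟩
    show (g * a * g⁻¹) ^ p = 1
    rw [conj_pow, h.2 a ha, mul_one, mul_inv_cancel]

theorem ea_zpowers {p : ℕ} (x : G) (hx : x ^ p = 1) :
    Cfsg.IsElementaryAbelian p (Subgroup.zpowers x) := by
  apply ea_of
  · intro a ha b hb
    obtain ⟨i, rfl⟩ := Subgroup.mem_zpowers_iff.1 ha
    obtain ⟨j, rfl⟩ := Subgroup.mem_zpowers_iff.1 hb
    rw [← zpow_add, ← zpow_add, add_comm]
  · intro a ha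
    obtain ⟨i, rfl⟩ := Subgroup.mem_zpowers_iff.1 ha
    rw [← zpow_natCast, ← zpow_mul, mul_comm, zpow_mul, zpow_natCast, hx, one_zpow]

def Rel (p : ℕ) (A B : Subgroup G) : Prop :=
  Cfsg.IsElementaryAbelian p A ∧ p ^ 1 ≤ Nat.card ↥A ∧ Cfsg.IsElementaryAbelian p B ∧
    p ^ 1 ≤ Nat.card ↥B ∧ ∀ a ∈ A, ∀ b ∈ B, a * b = b * a

theorem Rel.symm {p : ℕ} {A B : Subgroup G} (h : Rel p A B) : Rel p B A :=
  ⟨h.2.2.1, h.2.2.2.1, h.1, h.2.1, fun b hb a ha => (h.2.2.2.2 a ha b hb).symm⟩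

theorem Rel.conj {p : ℕ} {A B : Subgroup G} (h : Rel p A B) (g : G) :
    Rel p (A.map (MulAut.conj g).toMonoidHom) (B.map (MulAut.conj g).toMonoidHom) := by
  refine ⟨ea_conj h.1 g, ?_, ea_conj h.2.2.1 g, ?_, ?_⟩
  · rw [Subgroup.card_map_of_injective (MulEquiv.injective _)]
    exact h.2.1
  · rw [Subgroup.card_map_of_injective (MulEquiv.injective _)]
    exact h.2.2.2.1
  · rintro _ ⟨a, ha, rfl⟩ _ ⟨b, hb, rfl⟩
    show g * a * g⁻¹ * (g * b * g⁻¹) = g * b * g⁻¹ * (g * a * g⁻¹)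
    have := h.2.2.2.2 a ha b hb
    calc g * a * g⁻¹ * (g * b * g⁻¹) = g * (a * b) * g⁻¹ := by group
      _ = g * (b * a) * g⁻¹ := by rw [this]
      _ = _ := by group

theorem rtg_conj {p : ℕ} {A B : Subgroup G} (h : Relation.ReflTransGen (Rel p) A B) (g : G) :
    Relation.ReflTransGen (Rel p) (A.map (MulAut.conj g).toMonoidHom)
      (B.map (MulAut.conj g).toMonoidHom) :=
  Relation.ReflTransGen.lift (fun A : Subgroup G => A.map (MulAut.conj g).toMonoidHom)
    (fun _ _ (h : Rel p _ _) => h.conj g) A B h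

theorem rtg_symm {p : ℕ} {A B : Subgroup G} (h : Relation.ReflTransGen (Rel p) A B) :
    Relation.ReflTransGen (Rel p) B A := by
  induction h with
  | refl => exact Relation.ReflTransGen.refl
  | tail _ hR ih => exact Relation.ReflTransGen.head hR.symm ih

theorem conj_conj (A : Subgroup G) (g h : G) :
    (A.map (MulAut.conj h).toMonoidHom).map (MulAut.conj g).toMonoidHom
      = A.map (MulAut.conj (g * h)).toMonoidHom := by
  rw [Subgroup.map_map]
  congr 1
  ext x
  simp [MulAut.conj_apply, mul_assoc]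

theorem conj_one (A : Subgroup G) : A.map (MulAut.conj (1 : G)).toMonoidHom = A := by
  ext x
  rw [SylowAux.mem_map_conj]
  simp

theorem dvd_card_vertex [Finite G] {p : ℕ} [Fact p.Prime] {A : Subgroup G}
    (h : Cfsg.IsElementaryAbelian p A) (hc : p ^ 1 ≤ Nat.card ↥A) : p ∣ Nat.card ↥A := by
  have hp : p.Prime := Fact.out
  have hA : IsPGroup p A := SylowAux.isPGroup_of_elementary A h.2
  obtain ⟨k, hk⟩ := hA.exists_card_eq
  rw [hk] at hc ⊢
  rcases k with _ | k
  · rw [pow_zero, pow_one] at hc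
    have := hp.one_lt
    omega
  · exact dvd_pow_self p (Nat.succ_ne_zero k)

theorem exists_vertex_of_dvd [Finite G] {p : ℕ} [Fact p.Prime] (H : Subgroup G)
    (h : p ∣ Nat.card ↥H) :
    ∃ x ∈ H, Cfsg.IsElementaryAbelian p (Subgroup.zpowers x) ∧
      p ^ 1 ≤ Nat.card ↥(Subgroup.zpowers x) := by
  obtain ⟨x, hx⟩ := exists_prime_orderOf_dvd_card' p h
  have hx' : orderOf (x : G) = p := by rw [Subgroup.orderOf_coe, hx]
  refine ⟨x, x.2, ea_zpowers _ (by rw [← hx', pow_orderOf_eq_one]), ?_⟩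
  rw [Nat.card_zpowers, hx', pow_one]

theorem sylow_conn [Finite G] {p : ℕ} [Fact p.Prime] (S : Sylow p G) (A B : Subgroup G)
    (hA : Cfsg.IsElementaryAbelian p A) (hcA : p ^ 1 ≤ Nat.card ↥A) (hAS : A ≤ S)
    (hB : Cfsg.IsElementaryAbelian p B) (hcB : p ^ 1 ≤ Nat.card ↥B) (hBS : B ≤ S) :
    Relation.ReflTransGen (Rel p) A B := by
  have hp : p.Prime := Fact.out
  have hnt : Nontrivial (S : Subgroup G) := by
    rw [← Finite.one_lt_card_iff_nontrivial]
    have h1 := Nat.le_of_dvd Nat.card_pos (Subgroup.card_dvd_of_le hAS)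
    have := hp.one_lt
    rw [pow_one] at hcA
    omega
  have hcn : Nontrivial (Subgroup.center (S : Subgroup G)) := S.2.center_nontrivial
  have hcp : IsPGroup p (Subgroup.center (S : Subgroup G)) := S.2.to_subgroup _
  obtain ⟨k, hk⟩ := hcp.exists_card_eq
  have hdvd : p ∣ Nat.card (Subgroup.center (S : Subgroup G)) := by
    rw [hk]
    rcases k with _ | k
    · rw [pow_zero] at hk
      have := Finite.one_lt_card_iff_nontrivial.2 hcn
      omega
    · exact dvd_pow_self p (Nat.succ_ne_zero k)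
  obtain ⟨z', hz'⟩ := exists_prime_orderOf_dvd_card' p hdvd
  have hz : orderOf (((z' : (S : Subgroup G)) : G)) = p := by
    rw [Subgroup.orderOf_coe, Subgroup.orderOf_coe, hz']
  have hzc : ∀ s ∈ (S : Subgroup G), s * ((z' : (S : Subgroup G)) : G)
      = ((z' : (S : Subgroup G)) : G) * s := by
    intro s hs
    have := (Subgroup.mem_center_iff.1 z'.2) ⟨s, hs⟩
    exact congrArg Subtype.val this
  generalize ((z' : (S : Subgroup G)) : G) = z at hz hzc
  have hZ : Cfsg.IsElementaryAbelian p (Subgroup.zpowers z) :=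
    ea_zpowers _ (by rw [← hz, pow_orderOf_eq_one])
  have hcZ : p ^ 1 ≤ Nat.card ↥(Subgroup.zpowers z) := by
    rw [Nat.card_zpowers, hz, pow_one]
  have hcomm : ∀ s ∈ (S : Subgroup G), ∀ b ∈ Subgroup.zpowers z, s * b = b * s := by
    intro s hs b hb
    obtain ⟨i, rfl⟩ := Subgroup.mem_zpowers_iff.1 hb
    exact ((show Commute s z from hzc s hs).zpow_right i).eq
  have r1 : Rel p A (Subgroup.zpowers z) :=
    ⟨hA, hcA, hZ, hcZ, fun a ha b hb => hcomm a (hAS ha) b hb⟩
  have r2 : Rel p (Subgroup.zpowers z) B :=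
    ⟨hZ, hcZ, hB, hcB, fun a ha b hb => (hcomm b (hBS hb) a ha).symm⟩
  exact (Relation.ReflTransGen.single r1).tail r2

theorem fwd [Finite G] (p : ℕ) [Fact p.Prime] (H : Subgroup G) (hH : H ≠ ⊤)
    (hdvd : p ∣ Nat.card ↥H)
    (hse : ∀ g : G, g ∉ H → ¬ p ∣ Nat.card ↥(H ⊓ H.map (MulAut.conj g).toMonoidHom))
    (hconn : ∀ E E' : Subgroup G, Cfsg.IsElementaryAbelian p E → p ^ 1 ≤ Nat.card ↥E →
      Cfsg.IsElementaryAbelian p E' → p ^ 1 ≤ Nat.card ↥E' →
      Relation.ReflTransGen (Rel p) E E') : False := by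
  obtain ⟨x, hxH, hE₀, hcE₀⟩ := exists_vertex_of_dvd H hdvd
  have hE₀H : Subgroup.zpowers x ≤ H := (Subgroup.zpowers_le).2 hxH
  have step : ∀ A B : Subgroup G, Rel p A B → A ≤ H → B ≤ H := by
    intro A B hR hAH b hb
    by_contra hbH
    apply hse b hbH
    have hle : A ≤ H ⊓ H.map (MulAut.conj b).toMonoidHom := by
      intro a ha
      refine ⟨hAH ha, ?_⟩
      show a ∈ H.map (MulAut.conj b).toMonoidHom
      rw [SylowAux.mem_map_conj]
      have h1 := hR.2.2.2.2 a ha b hb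
      have e : b⁻¹ * a * b = a := by rw [mul_assoc, h1, inv_mul_cancel_left]
      rw [e]
      exact hAH ha
    exact (dvd_card_vertex hR.1 hR.2.1).trans (Subgroup.card_dvd_of_le hle)
  have all : ∀ B : Subgroup G, Relation.ReflTransGen (Rel p) (Subgroup.zpowers x) B → B ≤ H := by
    intro B hB
    induction hB with
    | refl => exact hE₀H
    | tail _ hR ih => exact step _ _ hR ih
  obtain ⟨g, hg⟩ : ∃ g, g ∉ H := by
    by_contra hcon
    push Not at hcon
    exact hH ((Subgroup.eq_top_iff' H).2 hcon)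
  have hE₁ := ea_conj hE₀ g
  have hcE₁ : p ^ 1 ≤ Nat.card ↥((Subgroup.zpowers x).map (MulAut.conj g).toMonoidHom) := by
    rw [Subgroup.card_map_of_injective (MulEquiv.injective _)]
    exact hcE₀
  have h1 := all _ (hconn _ _ hE₀ hcE₀ hE₁ hcE₁)
  have h2 : (Subgroup.zpowers x).map (MulAut.conj g).toMonoidHom
      ≤ H ⊓ H.map (MulAut.conj g).toMonoidHom := le_inf h1 (Subgroup.map_mono hE₀H)
  exact hse g hg ((dvd_card_vertex hE₁ hcE₁).trans (Subgroup.card_dvd_of_le h2))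

theorem bwd [Finite G] (p : ℕ) [Fact p.Prime] (E E' : Subgroup G)
    (hE : Cfsg.IsElementaryAbelian p E) (hcE : p ^ 1 ≤ Nat.card ↥E)
    (hE' : Cfsg.IsElementaryAbelian p E') (hcE' : p ^ 1 ≤ Nat.card ↥E')
    (hnot : ¬ Relation.ReflTransGen (Rel p) E E') :
    ∃ H : Subgroup G, H ≠ ⊤ ∧ p ∣ Nat.card ↥H ∧
      ∀ g : G, g ∉ H → ¬ p ∣ Nat.card ↥(H ⊓ H.map (MulAut.conj g).toMonoidHom) := by
  let H : Subgroup G :=
    { carrier := {g | Relation.ReflTransGen (Rel p) E (E.map (MulAut.conj g).toMonoidHom)}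
      one_mem' := by
        show Relation.ReflTransGen (Rel p) E (E.map (MulAut.conj (1 : G)).toMonoidHom)
        rw [conj_one]
      mul_mem' := by
        intro a b ha hb
        show Relation.ReflTransGen (Rel p) E (E.map (MulAut.conj (a * b)).toMonoidHom)
        have h1 := rtg_conj (show Relation.ReflTransGen (Rel p) E
          (E.map (MulAut.conj b).toMonoidHom) from hb) a
        rw [conj_conj] at h1
        exact (show Relation.ReflTransGen (Rel p) E
          (E.map (MulAut.conj a).toMonoidHom) from ha).trans h1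
      inv_mem' := by
        intro a ha
        show Relation.ReflTransGen (Rel p) E (E.map (MulAut.conj a⁻¹).toMonoidHom)
        have h1 := rtg_conj (show Relation.ReflTransGen (Rel p) E
          (E.map (MulAut.conj a).toMonoidHom) from ha) a⁻¹
        rw [conj_conj, inv_mul_cancel, conj_one] at h1
        exact rtg_symm h1 }
  have hHmem : ∀ g, g ∈ H ↔
      Relation.ReflTransGen (Rel p) E (E.map (MulAut.conj g).toMonoidHom) := fun g => Iff.rfl
  have hEp : IsPGroup p E := SylowAux.isPGroup_of_elementary E hE.2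
  obtain ⟨S₀, hS₀⟩ := hEp.exists_le_sylow
  have hS₀H : (S₀ : Subgroup G) ≤ H := by
    intro g hg
    rw [hHmem]
    apply sylow_conn S₀ _ _ hE hcE hS₀ (ea_conj hE g)
    · rw [Subgroup.card_map_of_injective (MulEquiv.injective _)]
      exact hcE
    · rintro _ ⟨a, ha, rfl⟩
      exact Subgroup.mul_mem _ (Subgroup.mul_mem _ hg (hS₀ ha)) (Subgroup.inv_mem _ hg)
  refine ⟨H, ?_, ?_, ?_⟩
  · intro htop
    apply hnot
    have hE'p : IsPGroup p E' := SylowAux.isPGroup_of_elementary E' hE'.2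
    obtain ⟨S', hS'⟩ := hE'p.exists_le_sylow
    obtain ⟨g, hg⟩ := MulAction.exists_smul_eq G S₀ S'
    have hgH : g ∈ H := by rw [htop]; trivial
    rw [hHmem] at hgH
    refine hgH.trans ?_
    apply sylow_conn S' _ _ (ea_conj hE g) _ _ hE' hcE' hS'
    · rw [Subgroup.card_map_of_injective (MulEquiv.injective _)]
      exact hcE
    · rintro _ ⟨a, ha, rfl⟩
      rw [← hg]
      show g * a * g⁻¹ ∈ ((g • S₀ : Sylow p G) : Subgroup G)
      rw [SylowAux.mem_smul_sylow]
      have e : g⁻¹ * (g * a * g⁻¹) * g = a := by group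
      rw [e]
      exact hS₀ ha
  · exact ((dvd_card_vertex hE hcE).trans (Subgroup.card_dvd_of_le hS₀)).trans
      (Subgroup.card_dvd_of_le hS₀H)
  · intro g hg hdvd
    apply hg
    have claim : ∀ A : Subgroup G, Cfsg.IsElementaryAbelian p A → p ^ 1 ≤ Nat.card ↥A →
        A ≤ H → Relation.ReflTransGen (Rel p) E A := by
      intro A hA hcA hAH
      have hAp : IsPGroup p A := SylowAux.isPGroup_of_elementary A hA.2
      obtain ⟨h, hhH, hh⟩ := SylowAux.exists_conj_le_sylow_of_le S₀ hS₀H hAH hAp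
      have h1 : Relation.ReflTransGen (Rel p) E (A.map (MulAut.conj h⁻¹).toMonoidHom) := by
        apply sylow_conn S₀ _ _ hE hcE hS₀ (ea_conj hA h⁻¹)
        · rw [Subgroup.card_map_of_injective (MulEquiv.injective _)]
          exact hcA
        · rintro _ ⟨a, ha, rfl⟩
          show h⁻¹ * a * h⁻¹⁻¹ ∈ (S₀ : Subgroup G)
          rw [inv_inv]
          exact hh a ha
      have h2 := rtg_conj h1 h
      rw [conj_conj, mul_inv_cancel, conj_one] at h2
      exact ((hHmem h).1 hhH).trans h2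
    obtain ⟨a, haH, hA, hcA⟩ := exists_vertex_of_dvd _ hdvd
    have hAle : Subgroup.zpowers a ≤ H ⊓ H.map (MulAut.conj g).toMonoidHom :=
      (Subgroup.zpowers_le).2 haH
    have c1 := claim _ hA hcA (hAle.trans inf_le_left)
    have c2 : Relation.ReflTransGen (Rel p) E
        ((Subgroup.zpowers a).map (MulAut.conj g⁻¹).toMonoidHom) := by
      apply claim _ (ea_conj hA g⁻¹)
      · rw [Subgroup.card_map_of_injective (MulEquiv.injective _)]
        exact hcA
      · rintro _ ⟨b, hb, rfl⟩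
        have hb2 : b ∈ H.map (MulAut.conj g).toMonoidHom := (hAle hb).2
        rw [SylowAux.mem_map_conj] at hb2
        show g⁻¹ * b * g⁻¹⁻¹ ∈ H
        rw [inv_inv]
        exact hb2
    have c3 := rtg_conj c2 g
    rw [conj_conj, mul_inv_cancel, conj_one] at c3
    rw [hHmem]
    exact c1.trans (rtg_symm c3)

theorem main [Finite G] (p : ℕ) [Fact p.Prime] :
    (∃ H : Subgroup G, H ≠ ⊤ ∧ p ∣ Nat.card ↥H ∧
      ∀ g : G, g ∉ H → ¬ p ∣ Nat.card ↥(H ⊓ H.map (MulAut.conj g).toMonoidHom)) ↔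
    ¬ Cfsg.IsKConnected p 1 G := by
  constructor
  · rintro ⟨H, hH, hdvd, hse⟩ hconn
    exact fwd p H hH hdvd hse (fun E E' h1 h2 h3 h4 => hconn E E' h1 h2 h3 h4)
  · intro hnot
    unfold Cfsg.IsKConnected at hnot
    push Not at hnot
    obtain ⟨E, E', hE, hcE, hE', hcE', hn⟩ := hnot
    exact bwd p E E' hE hcE hE' hcE' hn

end Cfsg.Agent.Lib.Helper2.KConn
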