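import Mathlib

set_option autoImplicit false

namespace Cfsg.Agent.Lib.Helper2.Klein

variable {G : Type*} [Group G]

theorem not_normalizer_le_centralizer [Finite G] [IsSimpleGroup G] (hG : ¬ IsMulCommutative G)
    (h2 : Even (Nat.card G)) (T : Sylow 2 G) :
    ¬ (Subgroup.normalizer ((T : Subgroup G) : Set G) ≤
      Subgroup.centralizer ((T : Subgroup G) : Set G)) := by
  haveI : Fact (Nat.Prime 2) := ⟨Nat.prime_two⟩
  intro hP
  have hc := MonoidHom.ker_transferSylow_isComplement' T hP
  have hTne : (T : Subgroup G) ≠ ⊥ := by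
    intro h
    have h1 := T.card_eq_multiplicity
    rw [h, Subgroup.card_bot] at h1
    have h3 : (Nat.card G).factorization 2 = 0 := by
      by_contra hne
      have : 1 < 2 ^ (Nat.card G).factorization 2 := Nat.one_lt_two_pow hne
      omega
    have h4 : 2 ∣ Nat.card G := even_iff_two_dvd.1 h2
    have h5 := (Nat.Prime.factorization_pos_of_dvd Nat.prime_two Nat.card_pos.ne' h4)
    omega
  rcases (inferInstance : (MonoidHom.transferSylow T hP).ker.Normal).eq_bot_or_eq_top with h | h
  · rw [h] at hc
    have hTtop : (T : Subgroup G) = ⊤ := Subgroup.isComplement'_bot_left.1 hc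
    apply hG
    have hp : IsPGroup 2 G := by
      have := T.isPGroup'
      intro g
      obtain ⟨k, hk⟩ := this ⟨g, by rw [hTtop]; trivial⟩
      exact ⟨k, by simpa using congrArg Subtype.val hk⟩
    haveI : Nontrivial G := IsSimpleGroup.toNontrivial
    have hcen := hp.center_nontrivial
    rcases (inferInstance : (Subgroup.center G).Normal).eq_bot_or_eq_top with h' | h'
    · exfalso
      obtain ⟨z, hz⟩ := exists_ne (1 : Subgroup.center G)
      apply hz
      have : (z : G) ∈ (⊥ : Subgroup G) := h' ▸ z.2
      exact Subtype.ext (Subgroup.mem_bot.1 this)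
    · refine ⟨⟨fun a b => ?_⟩⟩
      have hb : b ∈ Subgroup.center G := by rw [h']; trivial
      exact (Subgroup.mem_center_iff.1 hb) a
  · rw [h] at hc
    exact hTne (Subgroup.isComplement'_top_left.1 hc)

theorem relIndex_dvd_factorial [Finite G] (T : Subgroup G) :
    (Subgroup.centralizer (T : Set G)).relIndex (Subgroup.normalizer (T : Set G)) ∣
      (Nat.card T).factorial ∧
    (Subgroup.centralizer (T : Set G)).subgroupOf (Subgroup.normalizer (T : Set G)) =
      ((MulAut.conjNormal (H := T.subgroupOf (Subgroup.normalizer (T : Set G)))).ker) := by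
  have hker : (Subgroup.centralizer (T : Set G)).subgroupOf (Subgroup.normalizer (T : Set G)) =
      ((MulAut.conjNormal (H := T.subgroupOf (Subgroup.normalizer (T : Set G)))).ker) := by
    ext n
    rw [Subgroup.mem_subgroupOf, MonoidHom.mem_ker, Subgroup.mem_centralizer_iff]
    constructor
    · intro h
      ext t
      rw [MulAut.conjNormal_apply]
      have h1 := h (t : G) (Subgroup.mem_subgroupOf.1 t.2)
      show ((n * (t : Subgroup.normalizer (T : Set G)) * n⁻¹ : Subgroup.normalizer (T : Set G)) : G) =
        ((t : Subgroup.normalizer (T : Set G)) : G)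
      push_cast
      rw [← h1, mul_inv_cancel_right]
    · intro h t ht
      have h1 := congrArg (fun f : MulAut (T.subgroupOf (Subgroup.normalizer (T : Set G))) =>
        ((f ⟨⟨t, Subgroup.le_normalizer ht⟩, Subgroup.mem_subgroupOf.2 ht⟩ :
          T.subgroupOf (Subgroup.normalizer (T : Set G))) : Subgroup.normalizer (T : Set G))) h
      simp only [MulAut.conjNormal_apply, MulAut.one_apply] at h1
      have h2 : (n : G) * t * (n : G)⁻¹ = t := congrArg Subtype.val h1
      calc t * (n : G) = (n : G) * t * (n : G)⁻¹ * (n : G) := by rw [h2]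
        _ = (n : G) * t := by group
  refine ⟨?_, hker⟩
  have h1 : (Subgroup.centralizer (T : Set G)).relIndex (Subgroup.normalizer (T : Set G)) =
      Nat.card (MulAut.conjNormal (H := T.subgroupOf (Subgroup.normalizer (T : Set G)))).range := by
    rw [Subgroup.relIndex, hker, Subgroup.index_ker]
  rw [h1]
  have h2 : Nat.card (MulAut.conjNormal (H := T.subgroupOf (Subgroup.normalizer (T : Set G)))).range ∣
      Nat.card (MulAut (T.subgroupOf (Subgroup.normalizer (T : Set G)))) :=
    Subgroup.card_subgroup_dvd_card _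
  have h3 : Nat.card (MulAut (T.subgroupOf (Subgroup.normalizer (T : Set G)))) ∣
      Nat.card (Equiv.Perm (T.subgroupOf (Subgroup.normalizer (T : Set G)))) :=
    Subgroup.card_dvd_of_injective (MulAut.toPerm _) (fun a b h => MulEquiv.ext (fun x => by
      have := congrArg (fun f : Equiv.Perm _ => f x) h
      exact this))
  have h4 : Nat.card (T.subgroupOf (Subgroup.normalizer (T : Set G))) = Nat.card T :=
    Nat.card_congr (Subgroup.subgroupOfEquivOfLe Subgroup.le_normalizer).toEquiv
  rw [Nat.card_perm, h4] at h3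
  exact h2.trans h3

theorem sq_mem_centralizer_of_cyclic4 [Finite G] (T : Subgroup G) (hT : Nat.card T = 4) (x : G)
    (hxT : x ∈ T) (hx : orderOf x = 4) (n : G) (hn : n ∈ Subgroup.normalizer (T : Set G)) :
    n ^ 2 ∈ Subgroup.centralizer (T : Set G) := by
  have hz : Subgroup.zpowers x = T := by
    apply Subgroup.eq_of_le_of_card_ge ((Subgroup.zpowers_le).2 hxT)
    rw [hT, Nat.card_zpowers, hx]
  have hx4 : x ^ 4 = 1 := by rw [← hx]; exact pow_orderOf_eq_one x
  have hy : n * x * n⁻¹ ∈ T := (Subgroup.mem_normalizer_iff.1 hn x).1 hxT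
  have hyo : orderOf (n * x * n⁻¹) = 4 := by
    have h6 : n * x * n⁻¹ = (MulAut.conj n) x := by simp
    rw [h6, MulEquiv.orderOf_eq, hx]
  rw [← hz, ← mem_powers_iff_mem_zpowers] at hy
  obtain ⟨j, hj⟩ := hy
  have hj' : x ^ (j % 4) = n * x * n⁻¹ := by
    rw [← hj, ← hx, pow_mod_orderOf]
  have hlt : j % 4 < 4 := Nat.mod_lt _ (by norm_num)
  have hcomm : n ^ 2 * x = x * n ^ 2 := by
    generalize j % 4 = i at hj' hlt
    interval_cases i
    · exfalso
      rw [pow_zero] at hj'
      rw [← hj', orderOf_one] at hyo
      omega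
    · rw [pow_one] at hj'
      have h1 : n * x = x * n := by
        calc n * x = n * x * n⁻¹ * n := by group
          _ = x * n := by rw [← hj']
      have hc : Commute n x := h1
      exact (hc.pow_left 2).eq
    · exfalso
      have h1 : (n * x * n⁻¹) ^ 2 = 1 := by
        rw [← hj', ← pow_mul]
        exact hx4
      have h2 := orderOf_dvd_of_pow_eq_one h1
      rw [hyo] at h2
      omega
    · have h1 : n ^ 2 * x * (n ^ 2)⁻¹ = x := by
        calc n ^ 2 * x * (n ^ 2)⁻¹ = n * (n * x * n⁻¹) * n⁻¹ := by
              simp only [pow_two, mul_inv_rev, mul_assoc]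
          _ = n * x ^ 3 * n⁻¹ := by rw [← hj']
          _ = (n * x * n⁻¹) ^ 3 := by rw [conj_pow]
          _ = (x ^ 3) ^ 3 := by rw [← hj']
          _ = x ^ 9 := by rw [← pow_mul]
          _ = x := by rw [show 9 = 4 * 2 + 1 from rfl, pow_succ, pow_mul, hx4, one_pow, one_mul]
      calc n ^ 2 * x = n ^ 2 * x * (n ^ 2)⁻¹ * n ^ 2 := by rw [inv_mul_cancel_right]
        _ = x * n ^ 2 := by rw [h1]
  rw [Subgroup.mem_centralizer_iff]
  intro t ht
  rw [← hz] at ht
  obtain ⟨m, rfl⟩ := Subgroup.mem_zpowers_iff.1 ht
  have hc : Commute x (n ^ 2) := hcomm.symm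
  exact (hc.zpow_left m).eq

theorem klein_of_simple [Finite G] [IsSimpleGroup G] (hG : ¬ IsMulCommutative G)
    (h2 : Even (Nat.card G)) (h8 : ¬ 8 ∣ Nat.card G) (T : Sylow 2 G) :
    IsKleinFour ↥(T : Subgroup G) ∧
      (Subgroup.centralizer ((T : Subgroup G) : Set G)).relIndex
        (Subgroup.normalizer ((T : Subgroup G) : Set G)) = 3 := by
  haveI : Fact (Nat.Prime 2) := ⟨Nat.prime_two⟩
  have hcard := T.card_eq_multiplicity
  have hk1 : 1 ≤ (Nat.card G).factorization 2 :=
    Nat.Prime.factorization_pos_of_dvd Nat.prime_two Nat.card_pos.ne' (even_iff_two_dvd.1 h2)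
  have hk2 : (Nat.card G).factorization 2 ≤ 2 := by
    by_contra hcon
    push Not at hcon
    apply h8
    have h1 : 2 ^ 3 ∣ 2 ^ (Nat.card G).factorization 2 := pow_dvd_pow 2 hcon
    exact h1.trans (Nat.ordProj_dvd _ 2)
  have hNC := not_normalizer_le_centralizer hG h2 T
  have hr1 : (Subgroup.centralizer ((T : Subgroup G) : Set G)).relIndex
      (Subgroup.normalizer ((T : Subgroup G) : Set G)) ≠ 1 := by
    intro h
    exact hNC (Subgroup.relIndex_eq_one.1 h)
  have hcommT : ∀ a ∈ (T : Subgroup G), ∀ b ∈ (T : Subgroup G), a * b = b * a := by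
    intro a ha b hb
    rcases Nat.lt_or_ge ((Nat.card G).factorization 2) 2 with hlt | hge
    · have hk : (Nat.card G).factorization 2 = 1 := by omega
      rw [hk, pow_one] at hcard
      haveI : IsCyclic ↥(T : Subgroup G) := isCyclic_of_prime_card hcard
      have := IsCyclic.commutative.is_comm.comm (⟨a, ha⟩ : ↥(T : Subgroup G)) ⟨b, hb⟩
      exact congrArg Subtype.val this
    · have hk : (Nat.card G).factorization 2 = 2 := by omega
      rw [hk] at hcard
      have := IsPGroup.commutative_of_card_eq_prime_sq hcard (⟨a, ha⟩ : ↥(T : Subgroup G)) ⟨b, hb⟩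
      exact congrArg Subtype.val this
  have hTC : (T : Subgroup G) ≤ Subgroup.centralizer ((T : Subgroup G) : Set G) := by
    intro a ha
    rw [Subgroup.mem_centralizer_iff]
    intro b hb
    exact hcommT b hb a ha
  have hodd : ¬ 2 ∣ (Subgroup.centralizer ((T : Subgroup G) : Set G)).relIndex
      (Subgroup.normalizer ((T : Subgroup G) : Set G)) := by
    intro h
    have h1 : (Subgroup.centralizer ((T : Subgroup G) : Set G)).relIndex
        (Subgroup.normalizer ((T : Subgroup G) : Set G)) ∣
        (T : Subgroup G).relIndex (Subgroup.normalizer ((T : Subgroup G) : Set G)) :=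
      Subgroup.relIndex_dvd_of_le_left _ hTC
    have h3 := Subgroup.relIndex_mul_index (Subgroup.le_normalizer (H := (T : Subgroup G)))
    have h4 : (T : Subgroup G).relIndex (Subgroup.normalizer ((T : Subgroup G) : Set G)) ∣
        (T : Subgroup G).index := Dvd.intro _ h3
    exact T.not_dvd_index (h.trans (h1.trans h4))
  obtain ⟨hdvd0, hker0⟩ := relIndex_dvd_factorial (T : Subgroup G)
  have hdvd : (Subgroup.centralizer ((T : Subgroup G) : Set G)).relIndex
      (Subgroup.normalizer ((T : Subgroup G) : Set G)) ∣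
      (Nat.card ↥(T : Subgroup G)).factorial := hdvd0
  have hker : (Subgroup.centralizer ((T : Subgroup G) : Set G)).subgroupOf
      (Subgroup.normalizer ((T : Subgroup G) : Set G)) =
      ((MulAut.conjNormal (H := (T : Subgroup G).subgroupOf
        (Subgroup.normalizer ((T : Subgroup G) : Set G)))).ker) := hker0
  have hk : (Nat.card G).factorization 2 = 2 := by
    by_contra hne
    have hk : (Nat.card G).factorization 2 = 1 := by omega
    have h2f : (2 ^ 1).factorial = 2 := by decide
    rw [hcard, hk, h2f] at hdvd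
    rcases (Nat.dvd_prime Nat.prime_two).1 hdvd with h | h
    · exact hr1 h
    · exact hodd (by rw [h])
  rw [hk] at hcard
  have hr3 : (Subgroup.centralizer ((T : Subgroup G) : Set G)).relIndex
      (Subgroup.normalizer ((T : Subgroup G) : Set G)) = 3 := by
    rw [hcard] at hdvd
    have h24 : (2 ^ 2).factorial = 24 := by decide
    rw [h24] at hdvd
    have hle := Nat.le_of_dvd (by norm_num) hdvd
    generalize (Subgroup.centralizer ((T : Subgroup G) : Set G)).relIndex
      (Subgroup.normalizer ((T : Subgroup G) : Set G)) = r at *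
    interval_cases r <;> omega
  refine ⟨⟨by rw [hcard]; norm_num, ?_⟩, hr3⟩
  have hexp : ∀ t : ↥(T : Subgroup G), t ^ 2 = 1 := by
    by_contra hcon
    push Not at hcon
    obtain ⟨x, hx⟩ := hcon
    have hx4 : orderOf (x : G) = 4 := by
      have h1 : orderOf x ∣ 4 := by
        have := orderOf_dvd_natCard x
        rwa [hcard] at this
      have h2 : orderOf x ≠ 1 := by
        intro h
        rw [orderOf_eq_one_iff] at h
        rw [h] at hx
        exact hx (one_pow 2)
      have h3 : orderOf x ≠ 2 := by
        intro h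
        apply hx
        have h9 := pow_orderOf_eq_one x
        rw [h] at h9
        exact h9
      have h4 : orderOf x ≤ 4 := Nat.le_of_dvd (by norm_num) h1
      have h5 : 0 < orderOf x := orderOf_pos x
      rw [Subgroup.orderOf_coe]
      generalize orderOf x = o at *
      interval_cases o <;> omega
    apply hNC
    intro n hn
    have hsq := sq_mem_centralizer_of_cyclic4 (T : Subgroup G) (by rw [hcard]; norm_num)
      (x : G) x.2 hx4 n hn
    haveI : ((Subgroup.centralizer ((T : Subgroup G) : Set G)).subgroupOf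
        (Subgroup.normalizer ((T : Subgroup G) : Set G))).Normal := by
      rw [hker]; infer_instance
    have hcube := Subgroup.pow_index_mem ((Subgroup.centralizer ((T : Subgroup G) : Set G)).subgroupOf
        (Subgroup.normalizer ((T : Subgroup G) : Set G))) ⟨n, hn⟩
    have hidx : ((Subgroup.centralizer ((T : Subgroup G) : Set G)).subgroupOf
        (Subgroup.normalizer ((T : Subgroup G) : Set G))).index = 3 := hr3
    rw [hidx, Subgroup.mem_subgroupOf] at hcube
    have h3 : n ^ 3 ∈ Subgroup.centralizer ((T : Subgroup G) : Set G) := by simpa using hcube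
    have e : n = n ^ 3 * (n ^ 2)⁻¹ := by group
    rw [e]
    exact Subgroup.mul_mem _ h3 (Subgroup.inv_mem _ hsq)
  have h1 : Monoid.exponent ↥(T : Subgroup G) ∣ 2 :=
    Monoid.exponent_dvd_of_forall_pow_eq_one hexp
  rcases (Nat.dvd_prime Nat.prime_two).1 h1 with h | h
  · exfalso
    rw [Monoid.exp_eq_one_iff] at h
    have := Finite.card_le_one_iff_subsingleton.2 h
    rw [hcard] at this
    norm_num at this
  · exact h

end Cfsg.Agent.Lib.Helper2.Klein
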