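import Mathlib

set_option autoImplicit false

namespace Cfsg.Agent.Lib.Helper2.MaxInt

variable {G : Type*} [Group G] [Finite G] (p : ℕ) [Fact p.Prime]

theorem exists_normalizer_mem {H D : Subgroup G} (hH : IsPGroup p H) (hDH : D ≤ H)
    (hne : D ≠ H) : ∃ x ∈ H, x ∈ Subgroup.normalizer (D : Set G) ∧ x ∉ D := by
  haveI : Group.IsNilpotent H := hH.isNilpotent
  have hlt : D.subgroupOf H < ⊤ := by
    rw [lt_top_iff_ne_top, Ne, Subgroup.subgroupOf_eq_top]
    intro h
    exact hne (le_antisymm hDH h)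
  have h2 := normalizerCondition_of_isNilpotent (G := H) _ hlt
  obtain ⟨x, hx, hx'⟩ := SetLike.exists_of_lt h2
  rw [← Subgroup.subgroupOf_normalizer_eq hDH] at hx
  exact ⟨x.1, x.2, Subgroup.mem_subgroupOf.1 hx, fun h => hx' (Subgroup.mem_subgroupOf.2 h)⟩

theorem main (P Q : Sylow p G) (hPQ : P ≠ Q) (D : Subgroup G)
    (hD : D = (P : Subgroup G) ⊓ (Q : Subgroup G))
    (hmax : ∀ P' Q' : Sylow p G, P' ≠ Q' →
      Nat.card ↥((P' : Subgroup G) ⊓ (Q' : Subgroup G)) ≤ Nat.card D) :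
    1 < Nat.card (Sylow p (Subgroup.normalizer (D : Set G))) ∧
    (∀ S T : Sylow p (Subgroup.normalizer (D : Set G)), S ≠ T →
      (S : Subgroup _) ⊓ (T : Subgroup _) = D.subgroupOf (Subgroup.normalizer (D : Set G))) ∧
    ∀ S : Sylow p (Subgroup.normalizer (D : Set G)), ∃! T : Sylow p G,
      (S : Subgroup _).map (Subgroup.normalizer (D : Set G)).subtype ≤ (T : Subgroup G) := by
  set N := Subgroup.normalizer (D : Set G) with hN
  have hDP : D ≤ P := by rw [hD]; exact inf_le_left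
  have hDQ : D ≤ Q := by rw [hD]; exact inf_le_right
  have hDN : D ≤ N := Subgroup.le_normalizer
  have hDneP : D ≠ P := by
    intro h
    apply hPQ
    have hle : (P : Subgroup G) ≤ Q := by rw [← h]; exact hDQ
    exact Sylow.ext (P.is_maximal' Q.isPGroup' hle).symm
  have hDneQ : D ≠ Q := by
    intro h
    apply hPQ
    have hle : (Q : Subgroup G) ≤ P := by rw [← h]; exact hDP
    exact Sylow.ext (Q.is_maximal' P.isPGroup' hle)
  obtain ⟨x, hxP, hxN, hxD⟩ := exists_normalizer_mem p P.isPGroup' hDP hDneP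
  obtain ⟨y, hyQ, hyN, hyD⟩ := exists_normalizer_mem p Q.isPGroup' hDQ hDneQ
  have hDp : IsPGroup p (D.subgroupOf N) :=
    (P.isPGroup'.to_le hDP).comap_of_injective N.subtype N.subtype_injective
  haveI : (D.subgroupOf N).Normal := Subgroup.normal_in_normalizer
  have hDS : ∀ S : Sylow p N, D.subgroupOf N ≤ S := fun S => hDp.le_sylow_of_normal S
  have hmapp : ∀ S : Sylow p N, IsPGroup p ((S : Subgroup N).map N.subtype) :=
    fun S => S.isPGroup'.map N.subtype
  have key : ∀ (T1 T2 : Sylow p G) (z : G), z ∈ (T1 : Subgroup G) → z ∈ (T2 : Subgroup G) →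
      D ≤ (T1 : Subgroup G) ⊓ (T2 : Subgroup G) → z ∉ D → T1 = T2 := by
    intro T1 T2 z hz1 hz2 hle hzD
    by_contra hne
    have h1 := hmax T1 T2 hne
    have h2 : D = (T1 : Subgroup G) ⊓ (T2 : Subgroup G) := Subgroup.eq_of_le_of_card_ge hle h1
    apply hzD
    rw [h2]
    exact ⟨hz1, hz2⟩
  have hPp : IsPGroup p ((P : Subgroup G).subgroupOf N) :=
    P.isPGroup'.comap_of_injective N.subtype N.subtype_injective
  have hQp : IsPGroup p ((Q : Subgroup G).subgroupOf N) :=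
    Q.isPGroup'.comap_of_injective N.subtype N.subtype_injective
  obtain ⟨SP, hSP⟩ := hPp.exists_le_sylow
  obtain ⟨SQ, hSQ⟩ := hQp.exists_le_sylow
  have hxSP : (⟨x, hxN⟩ : N) ∈ SP := hSP (Subgroup.mem_subgroupOf.2 hxP)
  have hySQ : (⟨y, hyN⟩ : N) ∈ SQ := hSQ (Subgroup.mem_subgroupOf.2 hyQ)
  have hbig : ∀ S : Sylow p N, ∃ z : N, z ∈ S ∧ (z : G) ∉ D := by
    intro S
    by_contra hcon
    push Not at hcon
    have hSD : (S : Subgroup N) = D.subgroupOf N :=
      le_antisymm (fun z hz => Subgroup.mem_subgroupOf.2 (hcon z hz)) (hDS S)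
    have hcard : Nat.card (SP : Subgroup N) = Nat.card (S : Subgroup N) := by
      rw [Sylow.card_eq_multiplicity, Sylow.card_eq_multiplicity]
    have hle : (S : Subgroup N) ≤ SP := by rw [hSD]; exact hDS SP
    have heq : (S : Subgroup N) = SP := Subgroup.eq_of_le_of_card_ge hle hcard.le
    have hmem : (⟨x, hxN⟩ : N) ∈ D.subgroupOf N := by rw [← hSD, heq]; exact hxSP
    exact hxD (Subgroup.mem_subgroupOf.1 hmem)
  have hDle : ∀ (S : Sylow p N) (T'' : Sylow p G),
      (S : Subgroup N).map N.subtype ≤ T'' → D ≤ T'' := by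
    intro S T'' h d hd
    apply h
    exact ⟨⟨d, hDN hd⟩, hDS S (Subgroup.mem_subgroupOf.2 hd), rfl⟩
  have huniq : ∀ (S : Sylow p N) (T T' : Sylow p G),
      (S : Subgroup N).map N.subtype ≤ T → (S : Subgroup N).map N.subtype ≤ T' → T' = T := by
    intro S T T' hT hT'
    obtain ⟨z, hzS, hzD⟩ := hbig S
    have hzm : (z : G) ∈ (S : Subgroup N).map N.subtype := ⟨z, hzS, rfl⟩
    exact key T' T z (hT' hzm) (hT hzm) (le_inf (hDle S T' hT') (hDle S T hT)) hzD
  refine ⟨?_, ?_, ?_⟩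
  · rw [Finite.one_lt_card_iff_nontrivial]
    refine ⟨SP, SQ, ?_⟩
    intro hSS
    obtain ⟨T, hT⟩ := (hmapp SP).exists_le_sylow
    have hxT : x ∈ (T : Subgroup G) := hT ⟨⟨x, hxN⟩, hxSP, rfl⟩
    have hyT : y ∈ (T : Subgroup G) := hT ⟨⟨y, hyN⟩, hSS ▸ hySQ, rfl⟩
    have hDT : D ≤ T := hDle SP T hT
    have e1 : T = P := key T P x hxT hxP (le_inf hDT hDP) hxD
    have e2 : T = Q := key T Q y hyT hyQ (le_inf hDT hDQ) hyD
    exact hPQ (e1.symm.trans e2)
  · intro S T hST
    obtain ⟨S', hS'⟩ := (hmapp S).exists_le_sylow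
    obtain ⟨T', hT'⟩ := (hmapp T).exists_le_sylow
    have hne : S' ≠ T' := by
      intro h
      apply hST
      have hp' : IsPGroup p ((S' : Subgroup G).subgroupOf N) :=
        S'.isPGroup'.comap_of_injective N.subtype N.subtype_injective
      have h1 : (S : Subgroup N) ≤ (S' : Subgroup G).subgroupOf N := by
        intro z hz
        exact Subgroup.mem_subgroupOf.2 (hS' ⟨z, hz, rfl⟩)
      have h2 : (T : Subgroup N) ≤ (S' : Subgroup G).subgroupOf N := by
        intro z hz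
        rw [h]
        exact Subgroup.mem_subgroupOf.2 (hT' ⟨z, hz, rfl⟩)
      exact Sylow.ext ((S.is_maximal' hp' h1).symm.trans (T.is_maximal' hp' h2))
    have hle : D.subgroupOf N ≤ (S : Subgroup N) ⊓ (T : Subgroup N) := le_inf (hDS S) (hDS T)
    refine (Subgroup.eq_of_le_of_card_ge hle ?_).symm
    have c1 : Nat.card (D.subgroupOf N) = Nat.card D :=
      Nat.card_congr (Subgroup.subgroupOfEquivOfLe hDN).toEquiv
    have c2 : Nat.card ((S : Subgroup N) ⊓ (T : Subgroup N) : Subgroup N)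
        = Nat.card (((S : Subgroup N) ⊓ (T : Subgroup N)).map N.subtype) :=
      (Subgroup.card_map_of_injective N.subtype_injective).symm
    have c3 : ((S : Subgroup N) ⊓ (T : Subgroup N)).map N.subtype
        ≤ (S' : Subgroup G) ⊓ (T' : Subgroup G) := by
      rintro _ ⟨z, ⟨hz1, hz2⟩, rfl⟩
      exact ⟨hS' ⟨z, hz1, rfl⟩, hT' ⟨z, hz2, rfl⟩⟩
    rw [c1, c2]
    exact (Subgroup.card_le_of_le c3).trans (hmax S' T' hne)
  · intro S
    obtain ⟨T, hT⟩ := (hmapp S).exists_le_sylow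
    exact ⟨T, hT, fun T' hT' => huniq S T T' hT hT'⟩

end Cfsg.Agent.Lib.Helper2.MaxInt
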