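import Mathlib
import Cfsg.Prelude.Def_Perm

set_option autoImplicit false

namespace Cfsg.Agent.Lib.Helper2.NearF

variable {F : Type*} [Cfsg.NearField F]

theorem zero_mul' (c : F) : (0 : F) * c = 0 := by
  have h := Cfsg.NearField.right_distrib (0 : F) 0 c
  rw [add_zero] at h
  have h2 : (0 : F) * c + 0 = 0 * c + 0 * c := by rw [add_zero]; exact h
  exact (add_left_cancel h2).symm

theorem neg_mul' (a c : F) : (-a) * c = -(a * c) := by
  have h := Cfsg.NearField.right_distrib a (-a) c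
  rw [add_neg_cancel, zero_mul'] at h
  exact (neg_eq_of_add_eq_zero_right h.symm).symm

theorem sub_mul' (a b c : F) : (a - b) * c = a * c - b * c := by
  rw [sub_eq_add_neg, Cfsg.NearField.right_distrib, neg_mul', ← sub_eq_add_neg]

theorem nsmul_mul' (n : ℕ) (a c : F) : (n • a) * c = n • (a * c) := by
  induction n with
  | zero => rw [zero_nsmul, zero_nsmul, zero_mul']
  | succ k ih => rw [succ_nsmul, succ_nsmul, Cfsg.NearField.right_distrib, ih]

theorem mul_ne_zero' {a b : F} (ha : a ≠ 0) (hb : b ≠ 0) : a * b ≠ 0 := by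
  intro h
  obtain ⟨b', hb1, hb2⟩ := Cfsg.NearField.exists_inv b hb
  apply ha
  have h1 : a * b * b' = 0 * b' := by rw [h]
  rw [mul_assoc, hb1, mul_one, zero_mul'] at h1
  exact h1

theorem inv_ne_zero' {a b : F} (hab : a * b = 1) : b ≠ 0 := by
  intro h
  rw [h, Cfsg.NearField.mul_zero] at hab
  exact Cfsg.NearField.zero_ne_one hab

theorem exists_mul_eq {x y : F} (hx : x ≠ 0) : ∃ c : F, x * c = y ∧ (y ≠ 0 → c ≠ 0) := by
  obtain ⟨x', hx1, hx2⟩ := Cfsg.NearField.exists_inv x hx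
  refine ⟨x' * y, by rw [← mul_assoc, hx1, one_mul], ?_⟩
  intro hy h
  apply hy
  have : x * (x' * y) = x * 0 := by rw [h]
  rw [← mul_assoc, hx1, one_mul, Cfsg.NearField.mul_zero] at this
  exact this

def affine : Subgroup (Equiv.Perm F) where
  carrier := {σ | ∃ a b : F, a ≠ 0 ∧ ∀ x : F, σ x = x * a + b}
  one_mem' := ⟨1, 0, Ne.symm Cfsg.NearField.zero_ne_one, fun x => by
    rw [mul_one, add_zero]; rfl⟩
  mul_mem' := by
    rintro σ τ ⟨a, b, ha, hσ⟩ ⟨c, d, hc, hτ⟩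
    refine ⟨c * a, d * a + b, mul_ne_zero' hc ha, fun x => ?_⟩
    rw [Equiv.Perm.mul_apply, hσ, hτ, Cfsg.NearField.right_distrib, mul_assoc, add_assoc]
  inv_mem' := by
    rintro σ ⟨a, b, ha, hσ⟩
    obtain ⟨a', ha1, ha2⟩ := Cfsg.NearField.exists_inv a ha
    refine ⟨a', (-b) * a', inv_ne_zero' ha1, fun x => ?_⟩
    rw [Equiv.Perm.inv_eq_iff_eq, hσ, Cfsg.NearField.right_distrib, mul_assoc, mul_assoc, ha2,
      mul_one, mul_one, add_assoc, neg_add_cancel, add_zero]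

theorem mem_affine (σ : Equiv.Perm F) :
    σ ∈ (affine : Subgroup (Equiv.Perm F)) ↔ ∃ a b : F, a ≠ 0 ∧ ∀ x : F, σ x = x * a + b :=
  Iff.rfl

theorem affine_trans {x₁ x₂ y₁ y₂ : F} (hx : x₁ ≠ x₂) (hy : y₁ ≠ y₂) :
    ∃ a b : F, a ≠ 0 ∧ x₁ * a + b = y₁ ∧ x₂ * a + b = y₂ := by
  have hu : x₁ - x₂ ≠ 0 := sub_ne_zero.2 hx
  have hv : y₁ - y₂ ≠ 0 := sub_ne_zero.2 hy
  obtain ⟨a, ha, ha0⟩ := exists_mul_eq (y := y₁ - y₂) hu
  refine ⟨a, -(x₁ * a) + y₁, ha0 hv, ?_, ?_⟩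
  · rw [← add_assoc, add_neg_cancel, zero_add]
  · rw [sub_mul'] at ha
    have h2 : x₂ * a + -(x₁ * a) = -(y₁ - y₂) := by
      rw [← ha, neg_sub, sub_eq_add_neg]
    rw [← add_assoc, h2, neg_sub, sub_add_cancel]

theorem exists_perm (a b : F) (ha : a ≠ 0) : ∃ σ : Equiv.Perm F, ∀ x, σ x = x * a + b := by
  obtain ⟨a', ha1, ha2⟩ := Cfsg.NearField.exists_inv a ha
  refine ⟨⟨fun x => x * a + b, fun y => (y - b) * a', ?_, ?_⟩, fun x => rfl⟩
  · intro x
    show (x * a + b - b) * a' = x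
    rw [add_sub_cancel_right, mul_assoc, ha1, mul_one]
  · intro y
    show (y - b) * a' * a + b = y
    rw [mul_assoc, ha2, mul_one, sub_add_cancel]

theorem affine_sharp {x₁ x₂ a b : F} (hx : x₁ ≠ x₂) (ha : a ≠ 0)
    (h1 : x₁ * a + b = x₁) (h2 : x₂ * a + b = x₂) : a = 1 ∧ b = 0 := by
  have hu : x₁ - x₂ ≠ 0 := sub_ne_zero.2 hx
  have h3 : (x₁ - x₂) * a = x₁ - x₂ := by
    rw [sub_mul']
    have h4 : x₁ * a + b - (x₂ * a + b) = x₁ - x₂ := by rw [h1, h2]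
    rw [add_sub_add_right_eq_sub] at h4
    exact h4
  obtain ⟨u', hu1, hu2⟩ := Cfsg.NearField.exists_inv _ hu
  have ha1 : a = 1 := by
    have : u' * ((x₁ - x₂) * a) = u' * (x₁ - x₂) := by rw [h3]
    rw [← mul_assoc, hu2, one_mul] at this
    exact this
  refine ⟨ha1, ?_⟩
  rw [ha1, mul_one] at h1
  exact add_eq_left.1 h1

end Cfsg.Agent.Lib.Helper2.NearF
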