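import Mathlib
import Cfsg.Agent.Lib.Helper2.NearF

set_option autoImplicit false

namespace Cfsg.Agent.Lib.Helper2.NearF

variable {F : Type*} [Cfsg.NearField F]

theorem finite_nearfield [Finite F] : ∃ p j : ℕ, p.Prime ∧ 1 ≤ j ∧ Nat.card F = p ^ j ∧
    (∀ x y : F, x + y = y + x) ∧ ∀ x : F, p • x = 0 := by
  classical
  haveI : Nontrivial F := ⟨⟨0, 1, Cfsg.NearField.zero_ne_one⟩⟩
  have hcard : 1 < Nat.card F := Finite.one_lt_card
  have hpp : ((Nat.card F).minFac).Prime := Nat.minFac_prime (by omega)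
  generalize hp : (Nat.card F).minFac = p at hpp
  haveI : Fact p.Prime := ⟨hpp⟩
  have hdvd : p ∣ Nat.card (Multiplicative F) := by
    rw [← hp]
    exact Nat.minFac_dvd _
  obtain ⟨g, hg⟩ := exists_prime_orderOf_dvd_card' p hdvd
  have hx₀ : p • (Multiplicative.toAdd g) = 0 := by
    have h1 : g ^ p = 1 := by rw [← hg]; exact pow_orderOf_eq_one g
    have h2 := congrArg Multiplicative.toAdd h1
    rwa [toAdd_pow, toAdd_one] at h2
  have hx₀ne : Multiplicative.toAdd g ≠ 0 := by
    intro h
    have h1 : g = 1 := by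
      apply Multiplicative.toAdd.injective
      rw [h, toAdd_one]
    rw [h1, orderOf_one] at hg
    exact hpp.one_lt.ne hg
  have hexp : ∀ y : F, p • y = 0 := by
    intro y
    obtain ⟨c, hc, -⟩ := exists_mul_eq (y := y) hx₀ne
    rw [← hc, ← nsmul_mul', hx₀, zero_mul']
  have hPG : IsPGroup p (Multiplicative F) := fun u => ⟨1, by
    rw [pow_one]
    apply Multiplicative.toAdd.injective
    rw [toAdd_pow, toAdd_one]
    exact hexp _⟩
  obtain ⟨j, hj⟩ := IsPGroup.iff_card.1 hPG
  have hj' : Nat.card F = p ^ j := hj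
  have hj1 : 1 ≤ j := by
    by_contra h
    have h0 : j = 0 := by omega
    rw [h0, pow_zero] at hj'
    omega
  haveI : Nontrivial (Multiplicative F) := inferInstanceAs (Nontrivial F)
  haveI := IsPGroup.center_nontrivial hPG
  obtain ⟨z, hz⟩ := exists_ne (1 : Subgroup.center (Multiplicative F))
  have hz0 : Multiplicative.toAdd z.1 ≠ 0 := by
    intro h
    apply hz
    apply Subtype.ext
    apply Multiplicative.toAdd.injective
    rw [h]
    rfl
  have hzc : ∀ w : F, Multiplicative.toAdd z.1 + w = w + Multiplicative.toAdd z.1 := by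
    intro w
    have h1 := (Subgroup.mem_center_iff.1 z.2) (Multiplicative.ofAdd w)
    have h2 := congrArg Multiplicative.toAdd h1
    rw [toAdd_mul, toAdd_mul, toAdd_ofAdd] at h2
    exact h2.symm
  refine ⟨p, j, hpp, hj1, hj', ?_, hexp⟩
  intro x y
  by_cases hx : x = 0
  · rw [hx, zero_add, add_zero]
  · obtain ⟨c, hc, hc0⟩ := exists_mul_eq (y := x) hz0
    obtain ⟨c', hc1, hc2⟩ := Cfsg.NearField.exists_inv c (hc0 hx)
    have hy : y = (y * c') * c := by rw [mul_assoc, hc2, mul_one]
    rw [hy, ← hc, ← Cfsg.NearField.right_distrib, ← Cfsg.NearField.right_distrib, hzc]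

end Cfsg.Agent.Lib.Helper2.NearF
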