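import Mathlib
import Cfsg.Prelude.Def_Involutions
import Cfsg.Agent.Lib.Helper2.SylowAux

set_option autoImplicit false

namespace Cfsg.Agent.Lib.Helper2.SE

open Cfsg

variable {G : Type*} [Group G]

theorem inv_eq_self_of_sq {s : G} (hs : s ^ 2 = 1) : s⁻¹ = s := by
  rw [pow_two] at hs
  exact inv_eq_of_mul_eq_one_left hs

theorem sq_of_orderOf {s : G} (hs : orderOf s = 2) : s ^ 2 = 1 := by
  rw [← hs]
  exact pow_orderOf_eq_one s

theorem ne_one_of_orderOf {s : G} (hs : orderOf s = 2) : s ≠ 1 := by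
  rintro rfl
  simp at hs

theorem conj_prod_inv {s u : G} (hs : s ^ 2 = 1) (hu : u ^ 2 = 1) :
    s * (s * u) * s⁻¹ = (s * u)⁻¹ := by
  rw [inv_eq_self_of_sq hs, mul_inv_rev, inv_eq_self_of_sq hs, inv_eq_self_of_sq hu]
  rw [pow_two] at hs
  rw [← mul_assoc, hs, one_mul]

theorem conj_prod_inv' {s u : G} (hs : s ^ 2 = 1) (hu : u ^ 2 = 1) :
    u * (s * u) * u⁻¹ = (s * u)⁻¹ := by
  rw [inv_eq_self_of_sq hu, mul_inv_rev, inv_eq_self_of_sq hs, inv_eq_self_of_sq hu]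
  rw [pow_two] at hu
  rw [mul_assoc, mul_assoc, hu, mul_one]

theorem dihedral_odd {s u : G} (hs : s ^ 2 = 1) (hu : u ^ 2 = 1) (k : ℕ)
    (h : (s * u) ^ (2 * k + 1) = 1) :
    ((s * u) ^ k * s) ^ 2 = 1 ∧ ((s * u) ^ k * s) * s * ((s * u) ^ k * s)⁻¹ = u := by
  have hsinv := inv_eq_self_of_sq hs
  have huinv := inv_eq_self_of_sq hu
  have hconjn : ∀ n : ℕ, s * (s * u) ^ n * s⁻¹ = ((s * u) ^ n)⁻¹ := by
    intro n
    rw [← conj_pow, conj_prod_inv hs hu, inv_pow]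
  have h1 : s * (s * u) ^ k * s = ((s * u) ^ k)⁻¹ := by
    have := hconjn k
    rwa [hsinv] at this
  have hsq : ((s * u) ^ k * s) ^ 2 = 1 := by
    rw [pow_two]
    calc (s * u) ^ k * s * ((s * u) ^ k * s) = (s * u) ^ k * (s * (s * u) ^ k * s) := by group
      _ = 1 := by rw [h1, mul_inv_cancel]
  refine ⟨hsq, ?_⟩
  have htinv := inv_eq_self_of_sq hsq
  rw [htinv]
  have hss : s * s = 1 := by rwa [pow_two] at hs
  have h2 : (s * u) ^ (2 * k) = (s * u)⁻¹ := by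
    rw [pow_succ] at h
    exact eq_inv_of_mul_eq_one_left h
  calc (s * u) ^ k * s * s * ((s * u) ^ k * s)
      = (s * u) ^ k * (s * s) * ((s * u) ^ k * s) := by group
    _ = (s * u) ^ k * ((s * u) ^ k * s) := by rw [hss, mul_one]
    _ = (s * u) ^ (2 * k) * s := by rw [two_mul, pow_add]; group
    _ = u := by rw [h2, mul_inv_rev, hsinv, huinv, mul_assoc, hss, mul_one]

theorem dihedral_even {s u : G} (hs : s ^ 2 = 1) (hu : u ^ 2 = 1) (k : ℕ) (hk0 : 0 < k)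
    (hk : orderOf (s * u) = 2 * k) :
    orderOf ((s * u) ^ k) = 2 ∧ Commute ((s * u) ^ k) s ∧ Commute ((s * u) ^ k) u := by
  have hz2 : ((s * u) ^ k) ^ 2 = 1 := by
    rw [← pow_mul, mul_comm, ← hk]
    exact pow_orderOf_eq_one _
  have hz1 : (s * u) ^ k ≠ 1 := by
    apply pow_ne_one_of_lt_orderOf hk0.ne'
    rw [hk]
    omega
  have hzinv := inv_eq_self_of_sq hz2
  refine ⟨orderOf_eq_prime hz2 hz1, ?_, ?_⟩
  · have h1 : s * (s * u) ^ k * s⁻¹ = ((s * u) ^ k)⁻¹ := by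
      rw [← conj_pow, conj_prod_inv hs hu, inv_pow]
    rw [hzinv] at h1
    show (s * u) ^ k * s = s * (s * u) ^ k
    conv_lhs => rw [← h1]
    group
  · have h1 : u * (s * u) ^ k * u⁻¹ = ((s * u) ^ k)⁻¹ := by
      rw [← conj_pow, conj_prod_inv' hs hu, inv_pow]
    rw [hzinv] at h1
    show (s * u) ^ k * u = u * (s * u) ^ k
    conv_lhs => rw [← h1]
    group

structure SEAct (G : Type*) [Group G] (Ω : Type*) [MulAction G Ω] : Prop where
  P1 : ∀ (x y : Ω) (t : G), orderOf t = 2 → t • x = x → t • y = y → x = y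
  P2 : ∀ x : Ω, ∃ t : G, orderOf t = 2 ∧ t • x = x

section act

variable {Ω : Type*} [MulAction G Ω]

theorem SEAct.P3 (h : SEAct G Ω) {x : Ω} {s z : G} (hs : orderOf s = 2) (hsx : s • x = x)
    (hc : Commute z s) : z • x = x := by
  apply h.P1 (z • x) x s hs _ hsx
  rw [← mul_smul, ← hc.eq, mul_smul, hsx]

theorem SEAct.P4 [Finite G] (h : SEAct G Ω) {x : Ω} {s u : G} (hs : orderOf s = 2)
    (hsx : s • x = x) (hu : orderOf u = 2) (hux : u • x ≠ x) :
    ∃ t : G, t ^ 2 = 1 ∧ t * s * t⁻¹ = u := by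
  have hs2 := sq_of_orderOf hs
  have hu2 := sq_of_orderOf hu
  rcases Nat.even_or_odd' (orderOf (s * u)) with ⟨k, hk | hk⟩
  · exfalso
    have hk0 : 0 < k := by
      rcases Nat.eq_zero_or_pos k with h0 | h0
      · subst h0
        have := orderOf_pos (s * u)
        omega
      · exact h0
    obtain ⟨hz, hzs, hzu⟩ := dihedral_even hs2 hu2 k hk0 hk
    have hzx : ((s * u) ^ k) • x = x := h.P3 hs hsx hzs
    exact hux (h.P3 hz hzx hzu.symm)
  · have h1 : (s * u) ^ (2 * k + 1) = 1 := by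
      rw [← hk]
      exact pow_orderOf_eq_one _
    exact ⟨_, (dihedral_odd hs2 hu2 k h1).1, (dihedral_odd hs2 hu2 k h1).2⟩

theorem SEAct.P5 [Finite G] (h : SEAct G Ω) (x : Ω) {u : G} (hu : orderOf u = 2) :
    ∃ z : Ω, u • z = z := by
  obtain ⟨s, hs, hsx⟩ := h.P2 x
  by_cases hux : u • x = x
  · exact ⟨x, hux⟩
  · obtain ⟨t, ht, hts⟩ := h.P4 hs hsx hu hux
    refine ⟨t • x, ?_⟩
    rw [← hts, ← mul_smul, inv_mul_cancel_right, mul_smul, hsx]

theorem SEAct.P6 [Finite G] (h : SEAct G Ω) {x y : Ω} (hxy : x ≠ y) {s s' : G}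
    (hs : orderOf s = 2) (hsx : s • x = x) (hs' : orderOf s' = 2) (hsy : s' • y = y) :
    ∃ t : G, orderOf t = 2 ∧ t • x = y ∧ t * s * t⁻¹ = s' := by
  have hs'x : s' • x ≠ x := fun hh => hxy (h.P1 x y s' hs' hh hsy)
  obtain ⟨t, ht, hts⟩ := h.P4 hs hsx hs' hs'x
  have htx : t • x = y := by
    apply h.P1 (t • x) y s' hs' _ hsy
    rw [← hts, ← mul_smul, inv_mul_cancel_right, mul_smul, hsx]
  refine ⟨t, orderOf_eq_prime ht ?_, htx, hts⟩
  rintro rfl
  rw [one_smul] at htx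
  exact hxy htx

theorem SEAct.card_le [Finite G] (h : SEAct G Ω) {x y : Ω} (hxy : x ≠ y) :
    Nat.card {t : G // orderOf t = 2 ∧ t • x = x} ≤ Nat.card {t : G // orderOf t = 2 ∧ t • x = y} := by
  obtain ⟨s', hs', hsy⟩ := h.P2 y
  have key : ∀ s : {t : G // orderOf t = 2 ∧ t • x = x},
      ∃ t : G, orderOf t = 2 ∧ t • x = y ∧ t * s.1 * t⁻¹ = s' :=
    fun s => h.P6 hxy s.2.1 s.2.2 hs' hsy
  choose f hf using key
  apply Nat.card_le_card_of_injective (fun s => ⟨f s, (hf s).1, (hf s).2.1⟩)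
  intro s₁ s₂ h12
  have h1 : f s₁ = f s₂ := congrArg Subtype.val h12
  apply Subtype.ext
  have e1 := (hf s₁).2.2
  have e2 := (hf s₂).2.2
  rw [h1] at e1
  have : f s₂ * s₁.1 * (f s₂)⁻¹ = f s₂ * s₂.1 * (f s₂)⁻¹ := by rw [e1, e2]
  simpa using this

theorem card_fix_conj (g : G) (x : Ω) :
    Nat.card {t : G // orderOf t = 2 ∧ t • (g • x) = g • x} =
      Nat.card {t : G // orderOf t = 2 ∧ t • x = x} := by
  apply Nat.card_congr
  refine ⟨fun t => ⟨g⁻¹ * t.1 * g, ?_, ?_⟩, fun t => ⟨g * t.1 * g⁻¹, ?_, ?_⟩, ?_, ?_⟩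
  · have h1 : g⁻¹ * t.1 * g = (MulAut.conj g⁻¹) t.1 := by simp [MulAut.conj_apply]
    rw [h1, MulEquiv.orderOf_eq]
    exact t.2.1
  · have := t.2.2
    rw [mul_smul, mul_smul, this, inv_smul_smul]
  · have h1 : g * t.1 * g⁻¹ = (MulAut.conj g) t.1 := by simp [MulAut.conj_apply]
    rw [h1, MulEquiv.orderOf_eq]
    exact t.2.1
  · have := t.2.2
    rw [mul_smul, mul_smul, inv_smul_smul, this]
  · intro t
    apply Subtype.ext
    show g * (g⁻¹ * t.1 * g) * g⁻¹ = t.1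
    group
  · intro t
    apply Subtype.ext
    show g⁻¹ * (g * t.1 * g⁻¹) * g = t.1
    group

theorem SEAct.card_eq [Finite G] [Finite Ω] [MulAction.IsPretransitive G Ω] (h : SEAct G Ω)
    (x y : Ω) :
    Nat.card {t : G // orderOf t = 2 ∧ t • x = y} = Nat.card {t : G // orderOf t = 2 ∧ t • x = x} := by
  classical
  have := Fintype.ofFinite Ω
  have e1 : {t : G // orderOf t = 2} ≃ Σ y : Ω, {t : G // orderOf t = 2 ∧ t • x = y} :=
    { toFun := fun t => ⟨t.1 • x, t.1, t.2, rfl⟩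
      invFun := fun p => ⟨p.2.1, p.2.2.1⟩
      left_inv := fun t => rfl
      right_inv := by
        rintro ⟨y, t, ht, rfl⟩
        rfl }
  have key : ∀ t : {t : G // orderOf t = 2}, ∃ z : Ω, t.1 • z = z := fun t => h.P5 x t.2
  choose fx hfx using key
  have e2 : {t : G // orderOf t = 2} ≃ Σ z : Ω, {t : G // orderOf t = 2 ∧ t • z = z} :=
    { toFun := fun t => ⟨fx t, t.1, t.2, hfx t⟩
      invFun := fun p => ⟨p.2.1, p.2.2.1⟩
      left_inv := fun t => rfl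
      right_inv := by
        rintro ⟨z, t, ht, htz⟩
        have hz : fx ⟨t, ht⟩ = z := h.P1 _ _ t ht (hfx ⟨t, ht⟩) htz
        subst hz
        rfl }
  have s1 := Nat.card_congr e1
  have s2 := Nat.card_congr e2
  rw [Nat.card_sigma] at s1 s2
  have hconst : ∀ z : Ω, Nat.card {t : G // orderOf t = 2 ∧ t • z = z} =
      Nat.card {t : G // orderOf t = 2 ∧ t • x = x} := by
    intro z
    obtain ⟨g, rfl⟩ := MulAction.exists_smul_eq G x z
    exact card_fix_conj g x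
  have hle : ∀ y ∈ (Finset.univ : Finset Ω),
      Nat.card {t : G // orderOf t = 2 ∧ t • x = x} ≤ Nat.card {t : G // orderOf t = 2 ∧ t • x = y} := by
    intro y _
    by_cases hxy : x = y
    · subst hxy
      exact le_rfl
    · exact h.card_le hxy
  have hsum : ∑ y : Ω, Nat.card {t : G // orderOf t = 2 ∧ t • x = x} =
      ∑ y : Ω, Nat.card {t : G // orderOf t = 2 ∧ t • x = y} := by
    rw [← s1, s2]
    exact Finset.sum_congr rfl (fun z _ => (hconst z).symm)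
  exact ((Finset.sum_eq_sum_iff_of_le hle).1 hsum y (Finset.mem_univ y)).symm

end act

theorem mem_iff_smul_one (H : Subgroup G) (t : G) :
    t • ((1 : G) : G ⧸ H) = ((1 : G) : G ⧸ H) ↔ t ∈ H := by
  rw [MulAction.Quotient.smul_coe, QuotientGroup.eq]
  simp

theorem smul_coe_eq_iff (H : Subgroup G) (t a : G) :
    t • (a : G ⧸ H) = (a : G ⧸ H) ↔ a⁻¹ * t * a ∈ H := by
  rw [MulAction.Quotient.smul_coe, QuotientGroup.eq]
  constructor
  · intro h
    have h2 := H.inv_mem h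
    simpa [mul_assoc] using h2
  · intro h
    have h2 := H.inv_mem h
    simpa [mul_assoc] using h2

theorem seAct_of_stronglyEmbedded [Finite G] (H : Subgroup G) (hH : IsStronglyEmbedded H) :
    SEAct G (G ⧸ H) := by
  obtain ⟨hne, heven, hodd⟩ := hH
  constructor
  · intro x y t ht hx hy
    obtain ⟨a, rfl⟩ := QuotientGroup.mk_surjective x
    obtain ⟨b, rfl⟩ := QuotientGroup.mk_surjective y
    by_contra hxy
    have hg : a⁻¹ * b ∉ H := fun hh => hxy (QuotientGroup.eq.2 hh)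
    have h1 := (smul_coe_eq_iff H t a).1 hx
    have h2 := (smul_coe_eq_iff H t b).1 hy
    have h3 : a⁻¹ * t * a ∈ H.map (MulAut.conj (a⁻¹ * b)).toMonoidHom := by
      rw [SylowAux.mem_map_conj]
      have : (a⁻¹ * b)⁻¹ * (a⁻¹ * t * a) * (a⁻¹ * b) = b⁻¹ * t * b := by group
      rw [this]
      exact h2
    have h4 := hodd _ hg
    have h5 : orderOf (a⁻¹ * t * a) = 2 := by
      have h6 : a⁻¹ * t * a = (MulAut.conj a⁻¹) t := by simp [MulAut.conj_apply]
      rw [h6, MulEquiv.orderOf_eq, ht]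
    have h7 : orderOf (⟨a⁻¹ * t * a, h1, h3⟩ : ↥(H ⊓ H.map (MulAut.conj (a⁻¹ * b)).toMonoidHom)) = 2 := by
      rw [← h5, ← Subgroup.orderOf_coe]
    have h8 := orderOf_dvd_natCard (⟨a⁻¹ * t * a, h1, h3⟩ : ↥(H ⊓ H.map (MulAut.conj (a⁻¹ * b)).toMonoidHom))
    rw [h7] at h8
    exact (Nat.not_even_iff_odd.2 h4) (even_iff_two_dvd.2 h8)
  · intro x
    obtain ⟨a, rfl⟩ := QuotientGroup.mk_surjective x
    have h2 : 2 ∣ Nat.card H := even_iff_two_dvd.1 heven
    obtain ⟨s, hs⟩ := exists_prime_orderOf_dvd_card' (G := H) 2 h2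
    refine ⟨a * s * a⁻¹, ?_, ?_⟩
    · have h6 : a * (s : G) * a⁻¹ = (MulAut.conj a) (s : G) := by simp [MulAut.conj_apply]
      rw [h6, MulEquiv.orderOf_eq, Subgroup.orderOf_coe, hs]
    · rw [smul_coe_eq_iff]
      have : a⁻¹ * (a * (s : G) * a⁻¹) * a = s := by group
      rw [this]
      exact s.2

theorem count_involutions [Finite G] (H : Subgroup G) (hH : IsStronglyEmbedded H) (x y : G ⧸ H) :
    Nat.card {i : G // orderOf i = 2 ∧ i • x = y} = Nat.card {t : G // orderOf t = 2 ∧ t ∈ H} := by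
  have h := seAct_of_stronglyEmbedded H hH
  rw [h.card_eq x y]
  obtain ⟨a, rfl⟩ := QuotientGroup.mk_surjective x
  have h1 := card_fix_conj a ((1 : G) : G ⧸ H)
  have h2 : a • ((1 : G) : G ⧸ H) = (a : G ⧸ H) := by
    rw [MulAction.Quotient.smul_coe]
    simp
  rw [h2] at h1
  rw [h1]
  apply Nat.card_congr
  exact Equiv.subtypeEquivRight (fun t => and_congr_right (fun _ => mem_iff_smul_one H t))

theorem conj_in_D [Finite G] (H : Subgroup G) (hH : IsStronglyEmbedded H) (u : G)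
    (hu : orderOf u = 2) (huH : u ∉ H) (s t : G) (hs : orderOf s = 2) (hsH : s ∈ H)
    (ht : orderOf t = 2) (htH : t ∈ H) :
    ∃ d ∈ (H ⊓ H.map (MulAut.conj u).toMonoidHom), d * s * d⁻¹ = t := by
  have h := seAct_of_stronglyEmbedded H hH
  have hxy : ((1 : G) : G ⧸ H) ≠ u • ((1 : G) : G ⧸ H) := by
    intro hh
    exact huH ((mem_iff_smul_one H u).1 hh.symm)
  have hsx := (mem_iff_smul_one H s).2 hsH
  have htx := (mem_iff_smul_one H t).2 htH
  have hs'' : orderOf (u * s * u⁻¹) = 2 := by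
    have h6 : u * s * u⁻¹ = (MulAut.conj u) s := by simp [MulAut.conj_apply]
    rw [h6, MulEquiv.orderOf_eq, hs]
  have hs''y : (u * s * u⁻¹) • (u • ((1 : G) : G ⧸ H)) = u • ((1 : G) : G ⧸ H) := by
    rw [← mul_smul, inv_mul_cancel_right, mul_smul, hsx]
  obtain ⟨a, ha, hax, has⟩ := h.P6 hxy hs hsx hs'' hs''y
  obtain ⟨b, hb, hbx, hbt⟩ := h.P6 hxy ht htx hs'' hs''y
  have ha2 := sq_of_orderOf ha
  have hb2 := sq_of_orderOf hb
  have hbinv := inv_eq_self_of_sq hb2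
  have hay : a • (u • ((1 : G) : G ⧸ H)) = ((1 : G) : G ⧸ H) := by
    rw [← hax, ← mul_smul, ← pow_two, ha2, one_smul]
  have hby : b • (u • ((1 : G) : G ⧸ H)) = ((1 : G) : G ⧸ H) := by
    rw [← hbx, ← mul_smul, ← pow_two, hb2, one_smul]
  refine ⟨b⁻¹ * a, ⟨?_, ?_⟩, ?_⟩
  · refine (mem_iff_smul_one H _).1 ?_
    rw [mul_smul, hax, hbinv, hby]
  · refine (SylowAux.mem_map_conj H u _).2 ?_
    have h1 : (b⁻¹ * a) • (u • ((1 : G) : G ⧸ H)) = u • ((1 : G) : G ⧸ H) := by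
      rw [mul_smul, hay, hbinv, hbx]
    have h2 : u • ((1 : G) : G ⧸ H) = (u : G ⧸ H) := by
      rw [MulAction.Quotient.smul_coe]
      simp
    rw [h2] at h1
    exact (smul_coe_eq_iff H _ u).1 h1
  · have e1 : b⁻¹ * a * s * (b⁻¹ * a)⁻¹ = b⁻¹ * (a * s * a⁻¹) * b := by group
    rw [e1, has, ← hbt]
    group

theorem all_conj [Finite G] (H : Subgroup G) (hH : IsStronglyEmbedded H) (u : G)
    (hu : orderOf u = 2) (huH : u ∉ H) (a b : G) (ha : orderOf a = 2) (hb : orderOf b = 2) :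
    IsConj a b := by
  have h := seAct_of_stronglyEmbedded H hH
  have key : ∀ a : G, orderOf a = 2 → ∃ s ∈ H, orderOf s = 2 ∧ IsConj a s := by
    intro a ha
    obtain ⟨z, hz⟩ := h.P5 ((1 : G) : G ⧸ H) ha
    obtain ⟨g, rfl⟩ := QuotientGroup.mk_surjective z
    refine ⟨g⁻¹ * a * g, (smul_coe_eq_iff H a g).1 hz, ?_, ?_⟩
    · have h6 : g⁻¹ * a * g = (MulAut.conj g⁻¹) a := by simp [MulAut.conj_apply]
      rw [h6, MulEquiv.orderOf_eq, ha]
    · rw [isConj_iff]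
      exact ⟨g⁻¹, by simp⟩
  obtain ⟨s, hsH, hs, has⟩ := key a ha
  obtain ⟨t, htH, ht, hbt⟩ := key b hb
  obtain ⟨d, -, hd⟩ := conj_in_D H hH u hu huH s t hs hsH ht htH
  have hst : IsConj s t := isConj_iff.2 ⟨d, hd⟩
  exact has.trans (hst.trans hbt.symm)

end Cfsg.Agent.Lib.Helper2.SE
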