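import Mathlib
import Cfsg.Prelude.Def_Involutions
import Cfsg.Agent.Lib.Helper2.SylowAux
import Cfsg.Agent.Lib.Helper2.Lift
import Cfsg.Agent.Lib.Helper2.SE

set_option autoImplicit false

namespace Cfsg.Agent.Lib.Helper2.SE2

open Cfsg

variable {G : Type*} [Group G]

theorem mem_sylow_of_mem_normalizer [Finite G] {p : ℕ} [Fact p.Prime] (T : Sylow p G) {t : G}
    (ht : t ∈ Subgroup.normalizer ((T : Subgroup G) : Set G)) (hp : IsPGroup p (Subgroup.zpowers t)) :
    t ∈ (T : Subgroup G) := by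
  have h1 : IsPGroup p (Subgroup.zpowers t ⊔ (T : Subgroup G) : Subgroup G) :=
    IsPGroup.to_sup_of_normal_right' hp T.2 ((Subgroup.zpowers_le).2 ht)
  have h2 := T.3 h1 le_sup_right
  have h3 : t ∈ Subgroup.zpowers t ⊔ (T : Subgroup G) :=
    (le_sup_left : Subgroup.zpowers t ≤ _) (Subgroup.mem_zpowers t)
  rw [h2] at h3
  exact h3

theorem isPGroup_zpowers_of_orderOf {t : G} (ht : orderOf t = 2) :
    IsPGroup 2 (Subgroup.zpowers t) := by
  apply SylowAux.isPGroup_of_elementary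
  intro a ha
  obtain ⟨k, rfl⟩ := Subgroup.mem_zpowers_iff.1 ha
  rw [← zpow_natCast, ← zpow_mul, mul_comm, zpow_mul, zpow_natCast, SE.sq_of_orderOf ht, one_zpow]

theorem centralizer_eq_sylow [Finite G] (T : Sylow 2 G)
    (hT : (T : Subgroup G) ≠ ⊥)
    (hC : ∀ t : G, orderOf t = 2 → ∀ c ∈ Subgroup.centralizer ({t} : Set G), c ^ 2 = 1)
    (t : G) (ht : orderOf t = 2) (htT : t ∈ (T : Subgroup G)) :
    Subgroup.centralizer ({t} : Set G) = (T : Subgroup G) := by
  have hnt : Nontrivial (T : Subgroup G) := (Subgroup.nontrivial_iff_ne_bot _).2 hT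
  have hcn : Nontrivial (Subgroup.center (T : Subgroup G)) := T.2.center_nontrivial
  have hcp : IsPGroup 2 (Subgroup.center (T : Subgroup G)) := T.2.to_subgroup _
  obtain ⟨n, hn0, hn⟩ := hcp.nontrivial_iff_card.1 hcn
  have h2 : 2 ∣ Nat.card (Subgroup.center (T : Subgroup G)) := by
    rw [hn]
    exact dvd_pow_self 2 hn0.ne'
  obtain ⟨z, hz⟩ := exists_prime_orderOf_dvd_card' (G := Subgroup.center (T : Subgroup G)) 2 h2
  have hz' : orderOf ((z : (T : Subgroup G)) : G) = 2 := by
    rw [Subgroup.orderOf_coe, Subgroup.orderOf_coe, hz]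
  have hle : (T : Subgroup G) ≤ Subgroup.centralizer ({((z : (T : Subgroup G)) : G)} : Set G) := by
    intro a ha
    rw [Subgroup.mem_centralizer_singleton_iff]
    have h3 := Subgroup.mem_center_iff.1 z.2 ⟨a, ha⟩
    have h4 := congrArg Subtype.val h3
    simpa using h4
  have hCz : Subgroup.centralizer ({((z : (T : Subgroup G)) : G)} : Set G) = (T : Subgroup G) :=
    T.3 (SylowAux.isPGroup_of_elementary _ (hC _ hz')) hle
  have hcomm : ∀ a ∈ (T : Subgroup G), ∀ b ∈ (T : Subgroup G), a * b = b * a := by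
    intro a ha b hb
    rw [← hCz] at ha hb
    have e1 : a ^ 2 = 1 := hC _ hz' a ha
    have e2 : b ^ 2 = 1 := hC _ hz' b hb
    have e3 : (a * b) ^ 2 = 1 := hC _ hz' (a * b) (Subgroup.mul_mem _ ha hb)
    have i1 := SE.inv_eq_self_of_sq e1
    have i2 := SE.inv_eq_self_of_sq e2
    have i3 := SE.inv_eq_self_of_sq e3
    rw [mul_inv_rev, i1, i2] at i3
    exact i3.symm
  have hle2 : (T : Subgroup G) ≤ Subgroup.centralizer ({t} : Set G) := by
    intro a ha
    rw [Subgroup.mem_centralizer_singleton_iff]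
    exact hcomm a ha t htT
  exact T.3 (SylowAux.isPGroup_of_elementary _ (hC _ ht)) hle2

theorem normalizer_stronglyEmbedded [Finite G] (T : Sylow 2 G)
    (hnc : ¬ IsCyclic (T : Subgroup G)) (hnn : ¬ (T : Subgroup G).Normal)
    (hC : ∀ t : G, orderOf t = 2 → ∀ c ∈ Subgroup.centralizer ({t} : Set G), c ^ 2 = 1) :
    IsStronglyEmbedded (Subgroup.normalizer ((T : Subgroup G) : Set G)) := by
  have hT : (T : Subgroup G) ≠ ⊥ := by
    intro h
    apply hnc
    rw [h]
    infer_instance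
  refine ⟨?_, ?_, ?_⟩
  · intro h
    exact hnn (Subgroup.normalizer_eq_top_iff.1 h)
  · have hnt : Nontrivial (T : Subgroup G) := (Subgroup.nontrivial_iff_ne_bot _).2 hT
    obtain ⟨n, hn0, hn⟩ := T.2.nontrivial_iff_card.1 hnt
    have h2 : 2 ∣ Nat.card (T : Subgroup G) := by
      rw [hn]
      exact dvd_pow_self 2 hn0.ne'
    have h3 : Nat.card (T : Subgroup G) ∣ Nat.card (Subgroup.normalizer ((T : Subgroup G) : Set G)) :=
      Subgroup.card_dvd_of_le Subgroup.le_normalizer
    exact even_iff_two_dvd.2 (h2.trans h3)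
  · intro g hg
    rw [← Nat.not_even_iff_odd]
    intro heven
    apply hg
    obtain ⟨s, hs⟩ := exists_prime_orderOf_dvd_card' (G := ↥(Subgroup.normalizer ((T : Subgroup G) : Set G) ⊓
      (Subgroup.normalizer ((T : Subgroup G) : Set G)).map (MulAut.conj g).toMonoidHom)) 2
      (even_iff_two_dvd.1 heven)
    have hs' : orderOf (s : G) = 2 := by rw [Subgroup.orderOf_coe, hs]
    have hs1 : (s : G) ∈ Subgroup.normalizer ((T : Subgroup G) : Set G) := s.2.1
    have hs2 : g⁻¹ * (s : G) * g ∈ Subgroup.normalizer ((T : Subgroup G) : Set G) :=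
      (SylowAux.mem_map_conj _ g _).1 s.2.2
    have hs2' : orderOf (g⁻¹ * (s : G) * g) = 2 := by
      have h6 : g⁻¹ * (s : G) * g = (MulAut.conj g⁻¹) (s : G) := by simp
      rw [h6, MulEquiv.orderOf_eq, hs']
    have m1 := mem_sylow_of_mem_normalizer T hs1 (isPGroup_zpowers_of_orderOf hs')
    have m2 := mem_sylow_of_mem_normalizer T hs2 (isPGroup_zpowers_of_orderOf hs2')
    have c1 := centralizer_eq_sylow T hT hC _ hs' m1
    have c2 := centralizer_eq_sylow T hT hC _ hs2' m2
    apply Lift.conj_le_mem_normalizer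
    intro a ha
    rw [← c1, Subgroup.mem_centralizer_singleton_iff]
    rw [← c2, Subgroup.mem_centralizer_singleton_iff] at ha
    have e1 : g * a * g⁻¹ * (s : G) = g * (a * (g⁻¹ * (s : G) * g)) * g⁻¹ := by group
    have e2 : (s : G) * (g * a * g⁻¹) = g * ((g⁻¹ * (s : G) * g) * a) * g⁻¹ := by group
    rw [e1, e2, ha]

end Cfsg.Agent.Lib.Helper2.SE2
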