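import Mathlib
import Cfsg.Agent.Lib.Helper2.SE2
import Cfsg.Agent.Lib.Helper2.Lift

set_option autoImplicit false

namespace Cfsg.Agent.Lib.Helper2.SylP

open Cfsg.Agent.Lib.Helper2

variable {G : Type*} [Group G]

theorem zpowers_eq_of_card_prime [Finite G] {p : ℕ} [Fact p.Prime] (P : Subgroup G)
    (hP : Nat.card P = p) {u : G} (hu : u ∈ P) (hu1 : u ≠ 1) : Subgroup.zpowers u = P := by
  apply Subgroup.eq_of_le_of_card_ge ((Subgroup.zpowers_le).2 hu)
  rw [hP, Nat.card_zpowers]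
  have h1 : orderOf u ∣ p := by
    rw [← hP]
    have := Subgroup.card_dvd_of_le ((Subgroup.zpowers_le).2 hu)
    rwa [Nat.card_zpowers] at this
  rcases (Nat.dvd_prime (Fact.out : p.Prime)).1 h1 with h | h
  · exact absurd (orderOf_eq_one_iff.1 h) hu1
  · exact h.ge

theorem isPGroup_zpowers_of_orderOf_prime {p : ℕ} [Fact p.Prime] {y : G} (hy : orderOf y = p) :
    IsPGroup p (Subgroup.zpowers y) := by
  apply IsPGroup.of_card (n := 1)
  rw [Nat.card_zpowers, hy, pow_one]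

theorem orderOf_conj' (g y : G) : orderOf (g⁻¹ * y * g) = orderOf y := by
  have h6 : g⁻¹ * y * g = (MulAut.conj g⁻¹) y := by simp
  rw [h6, MulEquiv.orderOf_eq]

theorem conj_mem_of_zpowers_eq [Finite G] (P : Subgroup G) {v w h : G}
    (hv : Subgroup.zpowers v = P) (hw : w ∈ P) (hh : h * v * h⁻¹ = w) :
    h ∈ Subgroup.normalizer (P : Set G) := by
  apply Lift.conj_le_mem_normalizer
  intro n hn
  rw [← hv] at hn
  obtain ⟨k, rfl⟩ := Subgroup.mem_zpowers_iff.1 hn
  have e : h * v ^ k * h⁻¹ = (h * v * h⁻¹) ^ k := by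
    rw [conj_zpow]
  rw [e, hh]
  exact P.zpow_mem hw k

theorem fixed_unique [Finite G] {p : ℕ} [Fact p.Prime] (P : Sylow p G)
    (hP : Nat.card ↥(P : Subgroup G) = p) (y : G) (hy : orderOf y = p) :
    Nat.card (MulAction.fixedBy (G ⧸ Subgroup.normalizer ((P : Subgroup G) : Set G)) y) = 1 := by
  have hy1 : y ≠ 1 := by
    intro h
    rw [h, orderOf_one] at hy
    exact (Fact.out : p.Prime).one_lt.ne hy
  have hfix : ∀ g : G, y • ((g : G) : G ⧸ Subgroup.normalizer ((P : Subgroup G) : Set G)) =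
      (g : G ⧸ Subgroup.normalizer ((P : Subgroup G) : Set G)) ↔
      g⁻¹ * y * g ∈ Subgroup.normalizer ((P : Subgroup G) : Set G) := by
    intro g
    rw [MulAction.Quotient.smul_mk, smul_eq_mul, QuotientGroup.eq]
    constructor
    · intro h
      have := Subgroup.inv_mem _ h
      rw [mul_inv_rev, inv_inv] at this
      rwa [mul_assoc]
    · intro h
      have := Subgroup.inv_mem _ h
      have e2 : (y * g)⁻¹ * g = (g⁻¹ * y * g)⁻¹ := by group
      rw [e2]
      exact this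
  rw [Nat.card_eq_one_iff_unique]
  constructor
  · constructor
    rintro ⟨q₁, h₁⟩ ⟨q₂, h₂⟩
    apply Subtype.ext
    show q₁ = q₂
    induction q₁ using QuotientGroup.induction_on with
    | _ g₁ =>
    induction q₂ using QuotientGroup.induction_on with
    | _ g₂ =>
    rw [MulAction.mem_fixedBy] at h₁ h₂
    have t₁ := (hfix g₁).1 h₁
    have t₂ := (hfix g₂).1 h₂
    have hp₁ : IsPGroup p (Subgroup.zpowers (g₁⁻¹ * y * g₁)) :=
      isPGroup_zpowers_of_orderOf_prime (by rw [orderOf_conj', hy])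
    have hp₂ : IsPGroup p (Subgroup.zpowers (g₂⁻¹ * y * g₂)) :=
      isPGroup_zpowers_of_orderOf_prime (by rw [orderOf_conj', hy])
    have m₁ := SE2.mem_sylow_of_mem_normalizer P t₁ hp₁
    have m₂ := SE2.mem_sylow_of_mem_normalizer P t₂ hp₂
    have hne₂ : g₂⁻¹ * y * g₂ ≠ 1 := by
      intro h
      apply hy1
      have : y = g₂ * (g₂⁻¹ * y * g₂) * g₂⁻¹ := by group
      rw [this, h]
      group
    have hz₂ := zpowers_eq_of_card_prime (P : Subgroup G) hP m₂ hne₂
    rw [QuotientGroup.eq]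
    apply conj_mem_of_zpowers_eq (P : Subgroup G) hz₂ m₁
    group
  · have hpg : IsPGroup p (Subgroup.zpowers y) := isPGroup_zpowers_of_orderOf_prime hy
    obtain ⟨R, hR⟩ := hpg.exists_le_sylow
    obtain ⟨g, rfl⟩ := MulAction.exists_smul_eq G P R
    have h1 := (SylowAux.mem_smul_sylow P g y).1 (hR (Subgroup.mem_zpowers y))
    exact ⟨⟨(g : G ⧸ Subgroup.normalizer ((P : Subgroup G) : Set G)),
      (hfix g).2 (Subgroup.le_normalizer h1)⟩⟩

theorem fixed_le_orbits [Finite G] {p : ℕ} [Fact p.Prime] (P : Sylow p G)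
    (hP : Nat.card ↥(P : Subgroup G) = p) (x : G)
    (hxN : x ∈ Subgroup.normalizer ((P : Subgroup G) : Set G))
    (hxC : x ∉ Subgroup.centralizer ((P : Subgroup G) : Set G)) :
    Nat.card (MulAction.fixedBy (G ⧸ Subgroup.normalizer ((P : Subgroup G) : Set G)) x) ≤
      Nat.card (MulAction.orbitRel.Quotient ↥(P : Subgroup G)
        (G ⧸ Subgroup.normalizer ((P : Subgroup G) : Set G))) := by
  apply Nat.card_le_card_of_injective
    (fun ω : MulAction.fixedBy (G ⧸ Subgroup.normalizer ((P : Subgroup G) : Set G)) x =>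
      (Quotient.mk'' ω.1 : MulAction.orbitRel.Quotient ↥(P : Subgroup G)
        (G ⧸ Subgroup.normalizer ((P : Subgroup G) : Set G))))
  rintro ⟨ω₁, h₁⟩ ⟨ω₂, h₂⟩ h
  apply Subtype.ext
  show ω₁ = ω₂
  have h' : ω₁ ∈ MulAction.orbit ↥(P : Subgroup G) ω₂ := by
    have := Quotient.eq''.1 h
    exact (MulAction.orbitRel_apply).1 this
  obtain ⟨u, hu⟩ := h'
  have hu' : (u : G) • ω₂ = ω₁ := hu
  rw [MulAction.mem_fixedBy] at h₁ h₂
  rw [← hu'] at h₁ ⊢
  have hxu : x * (u : G) * x⁻¹ ∈ (P : Subgroup G) :=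
    (Subgroup.mem_normalizer_iff.1 hxN (u : G)).1 u.2
  have hvP : (u : G)⁻¹ * (x * (u : G) * x⁻¹) ∈ (P : Subgroup G) :=
    Subgroup.mul_mem _ (Subgroup.inv_mem _ u.2) hxu
  have hxinv : x⁻¹ • ω₂ = ω₂ := by
    rw [inv_smul_eq_iff, h₂]
  have hvfix : ((u : G)⁻¹ * (x * (u : G) * x⁻¹)) • ω₂ = ω₂ := by
    rw [mul_smul, mul_smul, mul_smul, hxinv, h₁, inv_smul_smul]
  by_cases hv1 : (u : G)⁻¹ * (x * (u : G) * x⁻¹) = 1
  · have hcomm : x * (u : G) = (u : G) * x := by
      have h3 : (u : G) = x * (u : G) * x⁻¹ := inv_mul_eq_one.1 hv1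
      calc x * (u : G) = x * (u : G) * x⁻¹ * x := by group
        _ = (u : G) * x := by rw [← h3]
    by_cases hu1 : (u : G) = 1
    · rw [hu1, one_smul]
    · exfalso
      apply hxC
      have hz := zpowers_eq_of_card_prime (P : Subgroup G) hP u.2 hu1
      rw [Subgroup.mem_centralizer_iff]
      intro n hn
      rw [← hz] at hn
      obtain ⟨k, rfl⟩ := Subgroup.mem_zpowers_iff.1 hn
      have hc : Commute (u : G) x := hcomm.symm
      exact (hc.zpow_left k).eq
  · have hz := zpowers_eq_of_card_prime (P : Subgroup G) hP hvP hv1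
    induction ω₂ using QuotientGroup.induction_on with
    | _ g =>
    have hgv : g⁻¹ * ((u : G)⁻¹ * (x * (u : G) * x⁻¹)) * g ∈
        Subgroup.normalizer ((P : Subgroup G) : Set G) := by
      rw [MulAction.Quotient.smul_mk, smul_eq_mul, QuotientGroup.eq] at hvfix
      have := Subgroup.inv_mem _ hvfix
      have e2 : (((u : G)⁻¹ * (x * (u : G) * x⁻¹) * g)⁻¹ * g)⁻¹ =
          g⁻¹ * ((u : G)⁻¹ * (x * (u : G) * x⁻¹)) * g := by group
      rwa [e2] at this
    have hpg : IsPGroup p (Subgroup.zpowers (g⁻¹ * ((u : G)⁻¹ * (x * (u : G) * x⁻¹)) * g)) :=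
      (P.isPGroup'.to_le ((Subgroup.zpowers_le).2 hvP)).map (MulAut.conj g⁻¹).toMonoidHom |>.to_le
        (by
          rw [Subgroup.zpowers_le]
          exact ⟨_, Subgroup.mem_zpowers _, by simp⟩)
    have hgP := SE2.mem_sylow_of_mem_normalizer P hgv hpg
    have hgN : g⁻¹ ∈ Subgroup.normalizer ((P : Subgroup G) : Set G) := by
      apply conj_mem_of_zpowers_eq (P : Subgroup G) hz hgP
      rw [inv_inv]
    have hgN' : g ∈ Subgroup.normalizer ((P : Subgroup G) : Set G) := by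
      have := Subgroup.inv_mem _ hgN
      rwa [inv_inv] at this
    rw [MulAction.Quotient.smul_mk, smul_eq_mul, QuotientGroup.eq]
    have e3 : ((u : G) * g)⁻¹ * g = g⁻¹ * (u : G)⁻¹ * g := by group
    rw [e3]
    exact Subgroup.mul_mem _ (Subgroup.mul_mem _ hgN (Subgroup.inv_mem _ (Subgroup.le_normalizer u.2)))
      hgN'

end Cfsg.Agent.Lib.Helper2.SylP
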