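import Mathlib
import Cfsg.Agent.Lib.Helper2.SE2
import Cfsg.Agent.Lib.Helper2.SylP

set_option autoImplicit false

namespace Cfsg.Agent.Lib.Helper2.NoSimple1104

variable {G : Type*} [Group G]

theorem main [Finite G] [IsSimpleGroup G] : Nat.card G ≠ 1104 := by
  classical
  intro hG
  haveI : Fact (Nat.Prime 23) := ⟨by norm_num⟩
  haveI : Fact (Nat.Prime 2) := ⟨by norm_num⟩
  obtain ⟨P⟩ : Nonempty (Sylow 23 G) := inferInstance
  have hfac : (1104 : ℕ).factorization 23 = 1 := by
    have e : (1104 : ℕ) = 23 ^ 1 * 48 := by norm_num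
    rw [e, Nat.factorization_mul (by norm_num) (by norm_num), Nat.Prime.factorization_pow
      (by norm_num)]
    simp
    rw [Nat.factorization_eq_zero_of_not_dvd (by norm_num)]
  have hcardS : ∀ Q : Sylow 23 G, Nat.card (Q : Subgroup G) = 23 := by
    intro Q
    rw [Sylow.card_eq_multiplicity, hG, hfac, pow_one]
  have hPcard := hcardS P
  have hPnn : ¬ (P : Subgroup G).Normal := by
    intro hnorm
    rcases hnorm.eq_bot_or_eq_top with h | h
    · have h2 := hPcard
      rw [h, Subgroup.card_bot] at h2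
      omega
    · have h2 := hPcard
      rw [h, Subgroup.card_top, hG] at h2
      omega
  have hn1 : Nat.card (Sylow 23 G) ≡ 1 [MOD 23] := card_sylow_modEq_one 23 G
  have hidx : (P : Subgroup G).index = 48 := by
    have h := Subgroup.card_mul_index (P : Subgroup G)
    rw [hPcard, hG] at h
    omega
  have hn2 : Nat.card (Sylow 23 G) ∣ 48 := by
    rw [← hidx]
    exact Sylow.card_dvd_index P
  have hn3 : Nat.card (Sylow 23 G) = (Subgroup.normalizer ((P : Subgroup G) : Set G)).index :=
    Sylow.card_eq_index_normalizer P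
  have hn : Nat.card (Sylow 23 G) = 24 := by
    have hne1 : Nat.card (Sylow 23 G) ≠ 1 := by
      intro h1
      rw [hn3, Subgroup.index_eq_one] at h1
      exact hPnn (Subgroup.normalizer_eq_top_iff.1 h1)
    have hle : Nat.card (Sylow 23 G) ≤ 48 := Nat.le_of_dvd (by norm_num) hn2
    have hpos : 0 < Nat.card (Sylow 23 G) := Nat.card_pos
    generalize Nat.card (Sylow 23 G) = n at hn1 hn2 hle hpos hne1
    unfold Nat.ModEq at hn1
    interval_cases n <;> first | omega | (exfalso; revert hn2; decide)
  have hN : Nat.card (Subgroup.normalizer ((P : Subgroup G) : Set G)) = 46 := by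
    have h := Subgroup.card_mul_index (Subgroup.normalizer ((P : Subgroup G) : Set G))
    rw [← hn3, hn, hG] at h
    omega
  obtain ⟨t', ht'⟩ := exists_prime_orderOf_dvd_card' (G := Subgroup.normalizer
    ((P : Subgroup G) : Set G)) 2 (by rw [hN]; norm_num)
  have ht : orderOf (t' : G) = 2 := by rw [Subgroup.orderOf_coe, ht']
  have htN : (t' : G) ∈ Subgroup.normalizer ((P : Subgroup G) : Set G) := t'.2
  generalize (t' : G) = t at ht htN
  have hPcyc : ∀ a ∈ (P : Subgroup G), ∀ b ∈ (P : Subgroup G), a * b = b * a := by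
    intro a ha b hb
    haveI : IsCyclic (P : Subgroup G) := isCyclic_of_prime_card hPcard
    obtain ⟨g, hg⟩ := IsCyclic.exists_generator (α := (P : Subgroup G))
    obtain ⟨i, hi⟩ := Subgroup.mem_zpowers_iff.1 (hg ⟨a, ha⟩)
    obtain ⟨j, hj⟩ := Subgroup.mem_zpowers_iff.1 (hg ⟨b, hb⟩)
    have ha' : a = (g : G) ^ i := by
      have := congrArg Subtype.val hi
      rw [Subgroup.coe_zpow] at this
      exact this.symm
    have hb' : b = (g : G) ^ j := by
      have := congrArg Subtype.val hj
      rw [Subgroup.coe_zpow] at this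
      exact this.symm
    rw [ha', hb', ← zpow_add, ← zpow_add, add_comm]
  have htC : t ∉ Subgroup.centralizer ((P : Subgroup G) : Set G) := by
    intro htC
    have hPC : (P : Subgroup G) ≤ Subgroup.centralizer ((P : Subgroup G) : Set G) := by
      intro a ha
      rw [Subgroup.mem_centralizer_iff]
      intro b hb
      exact hPcyc b hb a ha
    have h2 : 2 ∣ Nat.card (Subgroup.centralizer ((P : Subgroup G) : Set G)) := by
      rw [← ht]
      exact Subgroup.orderOf_dvd_natCard _ htC
    have h23 : 23 ∣ Nat.card (Subgroup.centralizer ((P : Subgroup G) : Set G)) :=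
      (dvd_of_eq hPcard.symm).trans (Subgroup.card_dvd_of_le hPC)
    have hCN : Subgroup.centralizer ((P : Subgroup G) : Set G)
        ≤ Subgroup.normalizer ((P : Subgroup G) : Set G) := Subgroup.centralizer_le_normalizer _
    have h46 : 46 ∣ Nat.card (Subgroup.centralizer ((P : Subgroup G) : Set G)) :=
      Nat.Coprime.mul_dvd_of_dvd_of_dvd (by norm_num : Nat.Coprime 2 23) h2 h23
    have hge : Nat.card (Subgroup.normalizer ((P : Subgroup G) : Set G))
        ≤ Nat.card (Subgroup.centralizer ((P : Subgroup G) : Set G)) := by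
      rw [hN]
      exact Nat.le_of_dvd Nat.card_pos h46
    have hNC : Subgroup.normalizer ((P : Subgroup G) : Set G)
        ≤ Subgroup.centralizer ((P : Subgroup G) : Set G) :=
      (Subgroup.eq_of_le_of_card_ge hCN hge).ge
    have hcompl := MonoidHom.ker_transferSylow_isComplement' P hNC
    have hK := hcompl.card_mul
    rcases (MonoidHom.normal_ker (MonoidHom.transferSylow P hNC)).eq_bot_or_eq_top with h | h
    · rw [h, Subgroup.card_bot, hPcard, hG] at hK
      omega
    · rw [h, Subgroup.card_top, hG, hPcard] at hK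
      omega
  have hstab : ∀ Q : Sylow 23 G, Q ≠ P → ∀ x ∈ (P : Subgroup G), x • Q = Q → x = 1 := by
    intro Q hQ x hx hxQ
    rw [Sylow.smul_eq_iff_mem_normalizer] at hxQ
    have hxp : IsPGroup 23 (Subgroup.zpowers x) := P.2.to_le ((Subgroup.zpowers_le).2 hx)
    have hxQ' := SE2.mem_sylow_of_mem_normalizer Q hxQ hxp
    by_contra hx1
    apply hQ
    have e1 := SylP.zpowers_eq_of_card_prime (P : Subgroup G) hPcard hx hx1
    have e2 := SylP.zpowers_eq_of_card_prime (Q : Subgroup G) (hcardS Q) hxQ' hx1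
    exact Sylow.ext (e2.symm.trans e1)
  have htt : t * t = 1 := by rw [← pow_two, ← ht, pow_orderOf_eq_one]
  have htinv : t⁻¹ = t := inv_eq_of_mul_eq_one_right htt
  have htP : t • P = P := by
    rw [Sylow.smul_eq_iff_mem_normalizer]
    exact htN
  have hfixP : P ∈ MulAction.fixedPoints (Subgroup.zpowers t) (Sylow 23 G) := by
    intro g
    obtain ⟨i, hi⟩ := Subgroup.mem_zpowers_iff.1 g.2
    show (g : G) • P = P
    rw [← hi, Sylow.smul_eq_iff_mem_normalizer]
    exact Subgroup.zpow_mem _ htN i
  have htp : IsPGroup 2 (Subgroup.zpowers t) := SylP.isPGroup_zpowers_of_orderOf_prime ht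
  have hmod := htp.card_modEq_card_fixedPoints (Sylow 23 G)
  rw [hn] at hmod
  have hQ₁ : ∃ Q₁ : Sylow 23 G, Q₁ ≠ P ∧ t • Q₁ = Q₁ := by
    by_contra hcon
    push Not at hcon
    have hsub : Subsingleton (MulAction.fixedPoints (Subgroup.zpowers t) (Sylow 23 G)) := by
      constructor
      intro a b
      have ha : (a : Sylow 23 G) = P := by
        by_contra h
        exact hcon a h (a.2 ⟨t, Subgroup.mem_zpowers t⟩)
      have hb : (b : Sylow 23 G) = P := by
        by_contra h
        exact hcon b h (b.2 ⟨t, Subgroup.mem_zpowers t⟩)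
      exact Subtype.ext (ha.trans hb.symm)
    have hne : Nonempty (MulAction.fixedPoints (Subgroup.zpowers t) (Sylow 23 G)) :=
      ⟨⟨P, hfixP⟩⟩
    have h1 : Nat.card (MulAction.fixedPoints (Subgroup.zpowers t) (Sylow 23 G)) = 1 :=
      Nat.card_unique
    rw [h1] at hmod
    unfold Nat.ModEq at hmod
    omega
  obtain ⟨Q₁, hQ₁P, htQ₁⟩ := hQ₁
  have horb : ∀ Q₂ : Sylow 23 G, Q₂ ≠ P → ∃ x ∈ (P : Subgroup G), x • Q₁ = Q₂ := by
    have hstabbot : MulAction.stabilizer (P : Subgroup G) Q₁ = ⊥ := by
      rw [eq_bot_iff]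
      intro g hg
      rw [MulAction.mem_stabilizer_iff] at hg
      have := hstab Q₁ hQ₁P (g : G) g.2 hg
      rw [Subgroup.mem_bot]
      exact Subtype.ext this
    have h2 := MulAction.index_stabilizer (P : Subgroup G) Q₁
    rw [hstabbot, Subgroup.index_bot, hPcard] at h2
    have hsub : MulAction.orbit (P : Subgroup G) Q₁ ⊆ {Q : Sylow 23 G | Q ≠ P} := by
      rintro _ ⟨g, rfl⟩ hgP
      apply hQ₁P
      have h3 : (g : G) • Q₁ = P := hgP
      have h4 : (g : G)⁻¹ • P = P := by
        rw [Sylow.smul_eq_iff_mem_normalizer]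
        exact Subgroup.inv_mem _ (Subgroup.le_normalizer g.2)
      calc Q₁ = (g : G)⁻¹ • ((g : G) • Q₁) := (inv_smul_smul _ _).symm
        _ = (g : G)⁻¹ • P := congrArg _ h3
        _ = P := h4
    have hcard : ({Q : Sylow 23 G | Q ≠ P} : Set (Sylow 23 G)).ncard = 23 := by
      have h5 : ({Q : Sylow 23 G | Q ≠ P} : Set (Sylow 23 G)) = (Set.univ \ {P}) := by
        ext Q
        simp
      rw [h5, Set.ncard_sdiff_singleton_of_mem (Set.mem_univ P), Set.ncard_univ, hn]
    have heq : MulAction.orbit (P : Subgroup G) Q₁ = {Q : Sylow 23 G | Q ≠ P} :=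
      Set.eq_of_subset_of_ncard_le hsub (by rw [hcard, ← h2]) (Set.toFinite _)
    intro Q₂ hQ₂
    have hmem : Q₂ ∈ MulAction.orbit (P : Subgroup G) Q₁ := by rw [heq]; exact hQ₂
    obtain ⟨g, hg⟩ := hmem
    exact ⟨(g : G), g.2, hg⟩
  have hfix_iff : ∀ Q : Sylow 23 G, t • Q = Q ↔ Q = P ∨ Q = Q₁ := by
    intro Q
    constructor
    · intro hQ
      by_cases hQP : Q = P
      · exact Or.inl hQP
      · right
        obtain ⟨x, hx, hxQ⟩ := horb Q hQP
        have h1 : (x⁻¹ * (t * x * t⁻¹)) • Q₁ = Q₁ := by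
          have e1 : (t * x * t⁻¹) • Q₁ = x • Q₁ := by
            rw [mul_smul, mul_smul, htinv, htQ₁, hxQ, hQ]
          rw [mul_smul, e1, inv_smul_smul]
        have h2 : x⁻¹ * (t * x * t⁻¹) ∈ (P : Subgroup G) :=
          Subgroup.mul_mem _ (Subgroup.inv_mem _ hx)
            ((Subgroup.mem_normalizer_iff.1 htN x).1 hx)
        have h3 := hstab Q₁ hQ₁P _ h2 h1
        have h4 : t * x * t⁻¹ = x := by
          have := congrArg (fun y => x * y) h3
          simpa using this
        by_cases hx1 : x = 1
        · rw [hx1, one_smul] at hxQ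
          exact hxQ.symm
        · exfalso
          apply htC
          rw [Subgroup.mem_centralizer_iff]
          intro b hb
          have e1 := SylP.zpowers_eq_of_card_prime (P : Subgroup G) hPcard hx hx1
          rw [← e1] at hb
          obtain ⟨i, rfl⟩ := Subgroup.mem_zpowers_iff.1 hb
          have hcomm : Commute t x := by
            show t * x = x * t
            rw [mul_inv_eq_iff_eq_mul] at h4
            exact h4
          exact (hcomm.zpow_right i).eq.symm
    · rintro (h | h)
      · rw [h]; exact htP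
      · rw [h]; exact htQ₁
  letI : Fintype (Sylow 23 G) := Fintype.ofFinite _
  have hcardX : Fintype.card (Sylow 23 G) = 24 := by rw [← Nat.card_eq_fintype_card, hn]
  have hσ2 : (MulAction.toPerm t : Equiv.Perm (Sylow 23 G)) ^ 2 = 1 := by
    apply Equiv.ext
    intro Q
    show t • t • Q = Q
    rw [← mul_smul, htt, one_smul]
  have hsupp : (MulAction.toPerm t : Equiv.Perm (Sylow 23 G)).support = Finset.univ \ {P, Q₁} := by
    ext Q
    rw [Equiv.Perm.mem_support, Finset.mem_sdiff, Finset.mem_insert, Finset.mem_singleton]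
    show t • Q ≠ Q ↔ _
    rw [Ne, hfix_iff]
    simp
  have hsc : (MulAction.toPerm t : Equiv.Perm (Sylow 23 G)).support.card = 22 := by
    rw [hsupp, Finset.card_sdiff_of_subset (Finset.subset_univ _), Finset.card_univ, hcardX,
      Finset.card_pair (fun h => hQ₁P h.symm)]
  have hσ1 : (MulAction.toPerm t : Equiv.Perm (Sylow 23 G)) ≠ 1 := by
    intro h
    rw [h, Equiv.Perm.support_one, Finset.card_empty] at hsc
    omega
  have hord : orderOf (MulAction.toPerm t : Equiv.Perm (Sylow 23 G)) = 2 :=
    orderOf_eq_prime hσ2 hσ1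
  obtain ⟨k, hk⟩ := Equiv.Perm.cycleType_prime_order
    (σ := (MulAction.toPerm t : Equiv.Perm (Sylow 23 G))) (by rw [hord]; norm_num)
  rw [hord] at hk
  have hsum := Equiv.Perm.sum_cycleType (MulAction.toPerm t : Equiv.Perm (Sylow 23 G))
  rw [hk, Multiset.sum_replicate, hsc, smul_eq_mul] at hsum
  have hk10 : k = 10 := by omega
  have hsign : Equiv.Perm.sign (MulAction.toPerm t : Equiv.Perm (Sylow 23 G)) = -1 := by
    rw [Equiv.Perm.sign_of_cycleType, hk, Multiset.sum_replicate, Multiset.card_replicate, hk10]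
    decide
  have hker : ((Equiv.Perm.sign).comp (MulAction.toPermHom G (Sylow 23 G))).ker = ⊥ := by
    rcases (MonoidHom.normal_ker
      ((Equiv.Perm.sign).comp (MulAction.toPermHom G (Sylow 23 G)))).eq_bot_or_eq_top with h | h
    · exact h
    · exfalso
      have h1 : t ∈ ((Equiv.Perm.sign).comp (MulAction.toPermHom G (Sylow 23 G))).ker := by
        rw [h]; trivial
      rw [MonoidHom.mem_ker] at h1
      have h2 : Equiv.Perm.sign (MulAction.toPerm t : Equiv.Perm (Sylow 23 G)) = 1 := h1
      rw [hsign] at h2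
      revert h2
      decide
  have hinj : Function.Injective ((Equiv.Perm.sign).comp (MulAction.toPermHom G (Sylow 23 G))) :=
    (MonoidHom.ker_eq_bot_iff _).1 hker
  have hle := Nat.card_le_card_of_injective _ hinj
  rw [hG, Nat.card_eq_fintype_card, Fintype.card_units_int] at hle
  omega

end Cfsg.Agent.Lib.Helper2.NoSimple1104
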