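import Mathlib
import Cfsg.Agent.Lib.Helper2.SE
import Cfsg.Agent.Lib.Helper2.SE2
import Cfsg.Agent.Lib.Helper2.OrbitCount

set_option autoImplicit false

namespace Cfsg.Agent.Lib.Helper2.NoSimple1200

variable {G : Type*} [Group G]

theorem card_dvd_factorial_index [Finite G] [IsSimpleGroup G] (H : Subgroup G) (hH : H ≠ ⊤) :
    Nat.card G ∣ H.index.factorial := by
  have hker : (MulAction.toPermHom G (G ⧸ H)).ker = ⊥ := by
    rcases (MonoidHom.normal_ker (MulAction.toPermHom G (G ⧸ H))).eq_bot_or_eq_top with h | h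
    · exact h
    · exfalso
      apply hH
      rw [eq_top_iff]
      intro g _
      have hg : g ∈ (MulAction.toPermHom G (G ⧸ H)).ker := by rw [h]; trivial
      rw [MonoidHom.mem_ker] at hg
      have h1 : g • ((1 : G) : G ⧸ H) = ((1 : G) : G ⧸ H) := by
        have := congrArg (fun σ : Equiv.Perm (G ⧸ H) => σ ((1 : G) : G ⧸ H)) hg
        exact this
      exact (SE.mem_iff_smul_one H g).1 h1
  have hinj : Function.Injective (MulAction.toPermHom G (G ⧸ H)) :=
    (MonoidHom.ker_eq_bot_iff _).1 hker
  have h1 := Subgroup.card_dvd_of_injective _ hinj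
  rw [Nat.card_perm] at h1
  exact h1

theorem sylow_meet [Finite G] {p : ℕ} [Fact p.Prime] (P : Sylow p G)
    (h : ∀ Q : Sylow p G, Q ≠ P → (P : Subgroup G) ⊓ (Q : Subgroup G) = ⊥) :
    Nat.card (Sylow p G) ≡ 1 [MOD Nat.card (P : Subgroup G)] := by
  apply OrbitCount.card_modEq_one_of_orbits (G := (P : Subgroup G)) (Nat.card (P : Subgroup G)) P
  · intro g
    show (g : G) • P = P
    rw [Sylow.smul_eq_iff_mem_normalizer]
    exact Subgroup.le_normalizer g.2
  · intro Q hQ
    have hstab : MulAction.stabilizer (P : Subgroup G) Q = ⊥ := by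
      rw [eq_bot_iff]
      intro g hg
      rw [MulAction.mem_stabilizer_iff] at hg
      have hg' : (g : G) • Q = Q := hg
      rw [Sylow.smul_eq_iff_mem_normalizer] at hg'
      have hgp : IsPGroup p (Subgroup.zpowers (g : G)) :=
        P.2.to_le ((Subgroup.zpowers_le).2 g.2)
      have hgQ := SE2.mem_sylow_of_mem_normalizer Q hg' hgp
      have h1 : (g : G) ∈ (P : Subgroup G) ⊓ (Q : Subgroup G) := ⟨g.2, hgQ⟩
      rw [h Q hQ, Subgroup.mem_bot] at h1
      rw [Subgroup.mem_bot]
      exact Subtype.ext h1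
    have h2 := MulAction.index_stabilizer (P : Subgroup G) Q
    rw [hstab, Subgroup.index_bot] at h2
    rw [Nat.card_coe_set_eq, ← h2]

theorem main [Finite G] [IsSimpleGroup G] : Nat.card G ≠ 1200 := by
  intro hG
  haveI : Fact (Nat.Prime 5) := ⟨by norm_num⟩
  have hA : ∀ H : Subgroup G, H ≠ ⊤ → 10 ≤ H.index := by
    intro H hH
    by_contra hlt
    push Not at hlt
    have h1 := card_dvd_factorial_index H hH
    rw [hG] at h1
    have h2 : H.index.factorial ∣ Nat.factorial 9 := Nat.factorial_dvd_factorial (by omega)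
    have h3 : ¬ (1200 ∣ Nat.factorial 9) := by decide
    exact h3 (h1.trans h2)
  obtain ⟨P⟩ : Nonempty (Sylow 5 G) := inferInstance
  have hfac : (1200 : ℕ).factorization 5 = 2 := by
    have e : (1200 : ℕ) = 5 ^ 2 * 48 := by norm_num
    rw [e, Nat.factorization_mul (by norm_num) (by norm_num), Nat.Prime.factorization_pow
      (by norm_num)]
    simp
    rw [Nat.factorization_eq_zero_of_not_dvd (by norm_num)]
  have hcardS : ∀ Q : Sylow 5 G, Nat.card (Q : Subgroup G) = 25 := by
    intro Q
    rw [Sylow.card_eq_multiplicity, hG, hfac]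
    norm_num
  have hPcard := hcardS P
  have hPnn : ¬ (P : Subgroup G).Normal := by
    intro hnorm
    rcases hnorm.eq_bot_or_eq_top with h | h
    · have h2 := hPcard
      rw [h, Subgroup.card_bot] at h2
      omega
    · have h2 := hPcard
      rw [h, Subgroup.card_top, hG] at h2
      omega
  have hn1 : Nat.card (Sylow 5 G) ≡ 1 [MOD 5] := card_sylow_modEq_one 5 G
  have hidx : (P : Subgroup G).index = 48 := by
    have h := Subgroup.card_mul_index (P : Subgroup G)
    rw [hPcard, hG] at h
    omega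
  have hn2 : Nat.card (Sylow 5 G) ∣ 48 := by
    rw [← hidx]
    exact Sylow.card_dvd_index P
  have hn3 : Nat.card (Sylow 5 G) = (Subgroup.normalizer (P : Set G)).index :=
    Sylow.card_eq_index_normalizer P
  have hNtop : Subgroup.normalizer ((P : Subgroup G) : Set G) ≠ ⊤ := by
    intro h
    exact hPnn (Subgroup.normalizer_eq_top_iff.1 h)
  have hn4 : 10 ≤ Nat.card (Sylow 5 G) := by
    rw [hn3]
    exact hA _ hNtop
  have hn : Nat.card (Sylow 5 G) = 16 := by
    have hle : Nat.card (Sylow 5 G) ≤ 48 := Nat.le_of_dvd (by norm_num) hn2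
    generalize Nat.card (Sylow 5 G) = n at hn1 hn2 hle hn4
    unfold Nat.ModEq at hn1
    interval_cases n <;> first | omega | (exfalso; revert hn2; decide)
  have hQ : ∃ Q : Sylow 5 G, Q ≠ P ∧ (P : Subgroup G) ⊓ (Q : Subgroup G) ≠ ⊥ := by
    by_contra hcon
    push Not at hcon
    have h1 := sylow_meet P hcon
    rw [hn, hPcard] at h1
    unfold Nat.ModEq at h1
    omega
  obtain ⟨Q, hQP, hD⟩ := hQ
  have hQcard := hcardS Q
  have hPc : ∀ a ∈ (P : Subgroup G), ∀ b ∈ (P : Subgroup G), a * b = b * a := by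
    intro a ha b hb
    have h1 : Nat.card (P : Subgroup G) = 5 ^ 2 := by rw [hPcard]; norm_num
    have := IsPGroup.commutative_of_card_eq_prime_sq h1 ⟨a, ha⟩ ⟨b, hb⟩
    exact congrArg Subtype.val this
  have hQc : ∀ a ∈ (Q : Subgroup G), ∀ b ∈ (Q : Subgroup G), a * b = b * a := by
    intro a ha b hb
    have h1 : Nat.card (Q : Subgroup G) = 5 ^ 2 := by rw [hQcard]; norm_num
    have := IsPGroup.commutative_of_card_eq_prime_sq h1 ⟨a, ha⟩ ⟨b, hb⟩
    exact congrArg Subtype.val this
  have hPC : (P : Subgroup G) ≤ Subgroup.centralizer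
      (((P : Subgroup G) ⊓ (Q : Subgroup G) : Subgroup G) : Set G) := by
    intro a ha
    rw [Subgroup.mem_centralizer_iff]
    intro d hd
    exact hPc d hd.1 a ha
  have hQC : (Q : Subgroup G) ≤ Subgroup.centralizer
      (((P : Subgroup G) ⊓ (Q : Subgroup G) : Subgroup G) : Set G) := by
    intro a ha
    rw [Subgroup.mem_centralizer_iff]
    intro d hd
    exact hQc d hd.2 a ha
  have hCtop : Subgroup.centralizer
      (((P : Subgroup G) ⊓ (Q : Subgroup G) : Subgroup G) : Set G) ≠ ⊤ := by
    intro htop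
    have hcen : (P : Subgroup G) ⊓ (Q : Subgroup G) ≤ Subgroup.center G := by
      intro d hd
      rw [Subgroup.mem_center_iff]
      intro g
      have hg : g ∈ Subgroup.centralizer
          (((P : Subgroup G) ⊓ (Q : Subgroup G) : Subgroup G) : Set G) := by rw [htop]; trivial
      exact ((Subgroup.mem_centralizer_iff.1 hg) d hd).symm
    rcases (inferInstance : (Subgroup.center G).Normal).eq_bot_or_eq_top with h | h
    · rw [h] at hcen
      exact hD (le_bot_iff.1 hcen)
    · apply hPnn
      constructor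
      intro n hn g
      have hg : g ∈ Subgroup.center G := by rw [h]; trivial
      have := (Subgroup.mem_center_iff.1 hg) n
      have e : g * n * g⁻¹ = n := by rw [← this, mul_inv_cancel_right]
      rw [e]
      exact hn
  generalize Subgroup.centralizer
      (((P : Subgroup G) ⊓ (Q : Subgroup G) : Subgroup G) : Set G) = C at hPC hQC hCtop
  have hc1 : 25 ∣ Nat.card C := by
    rw [← hPcard]
    exact Subgroup.card_dvd_of_le hPC
  have hc2 : Nat.card C ∣ 1200 := by
    rw [← hG]
    exact Subgroup.card_subgroup_dvd_card C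
  have hfacC : (Nat.card C).factorization 5 = 2 := by
    have hC0 : Nat.card C ≠ 0 := Nat.card_pos.ne'
    apply le_antisymm
    · by_contra hlt
      push Not at hlt
      have h1 : 5 ^ 3 ∣ Nat.card C :=
        (Nat.Prime.pow_dvd_iff_le_factorization (by norm_num) hC0).2 hlt
      have h2 : 5 ^ 3 ∣ 1200 := h1.trans hc2
      revert h2
      decide
    · exact (Nat.Prime.pow_dvd_iff_le_factorization (by norm_num) hC0).1 hc1
  have hcP : Nat.card ((P : Subgroup G).subgroupOf C) = 5 ^ (Nat.card C).factorization 5 := by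
    rw [hfacC, Nat.card_congr (Subgroup.subgroupOfEquivOfLe hPC).toEquiv, hPcard]
    norm_num
  have hcQ : Nat.card ((Q : Subgroup G).subgroupOf C) = 5 ^ (Nat.card C).factorization 5 := by
    rw [hfacC, Nat.card_congr (Subgroup.subgroupOfEquivOfLe hQC).toEquiv, hQcard]
    norm_num
  have hne : Sylow.ofCard ((P : Subgroup G).subgroupOf C) hcP
      ≠ Sylow.ofCard ((Q : Subgroup G).subgroupOf C) hcQ := by
    intro heq
    apply hQP
    have h1 : (P : Subgroup G).subgroupOf C = (Q : Subgroup G).subgroupOf C := by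
      have := congrArg (fun S : Sylow 5 C => (S : Subgroup C)) heq
      exact this
    have h2 := congrArg (fun S : Subgroup C => S.map C.subtype) h1
    simp only [Subgroup.map_subgroupOf_eq_of_le hPC, Subgroup.map_subgroupOf_eq_of_le hQC] at h2
    exact Sylow.ext h2.symm
  have hm1 : Nat.card (Sylow 5 C) ≡ 1 [MOD 5] := card_sylow_modEq_one 5 C
  have hm2 : Nat.card (Sylow 5 C) ∣ (Sylow.ofCard ((P : Subgroup G).subgroupOf C) hcP :
      Subgroup C).index := Sylow.card_dvd_index _
  have hm3 : 2 ≤ Nat.card (Sylow 5 C) := by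
    exact Finite.one_lt_card_iff_nontrivial.2 ⟨⟨_, _, hne⟩⟩
  have hidxC : (Sylow.ofCard ((P : Subgroup G).subgroupOf C) hcP : Subgroup C).index * 25
      = Nat.card C := by
    have h := Subgroup.card_mul_index (Sylow.ofCard ((P : Subgroup G).subgroupOf C) hcP :
      Subgroup C)
    have h5 : Nat.card (Sylow.ofCard ((P : Subgroup G).subgroupOf C) hcP : Subgroup C) = 25 := by
      show Nat.card ((P : Subgroup G).subgroupOf C) = 25
      rw [hcP, hfacC]
      norm_num
    rw [h5] at h
    omega
  have hCidx := Subgroup.card_mul_index C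
  rw [hG] at hCidx
  have h10 := hA C hCtop
  generalize (Sylow.ofCard ((P : Subgroup G).subgroupOf C) hcP : Subgroup C).index = i
    at hm2 hidxC
  have h6 : 6 ≤ Nat.card (Sylow 5 C) := by
    unfold Nat.ModEq at hm1
    omega
  have h7 : 6 ≤ i := h6.trans (Nat.le_of_dvd (by
    rcases Nat.eq_zero_or_pos i with h | h
    · rw [h] at hidxC
      have := Nat.card_pos (α := C)
      omega
    · exact h) hm2)
  have h8 : 150 ≤ Nat.card C := by omega
  have h9 : Nat.card C * 10 ≤ 1200 := by
    calc Nat.card C * 10 ≤ Nat.card C * C.index := Nat.mul_le_mul_left _ h10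
      _ = 1200 := hCidx
  omega

end Cfsg.Agent.Lib.Helper2.NoSimple1200
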