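import Mathlib

set_option autoImplicit false

namespace Cfsg.Agent.Lib.Helper2.NormCount

theorem norm_count {F : Type*} [Field F] [Fintype F] [DecidableEq F] {q : ℕ}
    (hF : Fintype.card F = q ^ 2) (μ : F) (hμ : μ ≠ 0) (hμq : μ ^ q = μ) :
    (Finset.univ.filter (fun x : F => x ^ (q + 1) = μ)).card = q + 1 := by
  have hq2 : 2 ≤ q := by
    by_contra h
    have h0 : q ≤ 1 := by omega
    have h1 : Fintype.card F ≤ 1 := by
      rw [hF]
      nlinarith
    have h2 := Fintype.one_lt_card (α := F)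
    omega
  obtain ⟨r, rfl⟩ : ∃ r, q = r + 1 := ⟨q - 1, by omega⟩
  have hr : 1 ≤ r := by omega
  have hfib : ∀ y : F, (Finset.univ.filter (fun x : F => x ^ (r + 1 + 1) = y)).card ≤
      r + 1 + 1 := by
    intro y
    calc (Finset.univ.filter (fun x : F => x ^ (r + 1 + 1) = y)).card
        ≤ (Polynomial.nthRoots (r + 1 + 1) y).toFinset.card :=
          Finset.card_le_card (fun x hx => by
            rw [Multiset.mem_toFinset, Polynomial.mem_nthRoots (Nat.succ_pos _)]
            exact (Finset.mem_filter.1 hx).2)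
      _ ≤ Multiset.card (Polynomial.nthRoots (r + 1 + 1) y) := Multiset.toFinset_card_le _
      _ ≤ r + 1 + 1 := Polynomial.card_nthRoots _ _
  obtain ⟨T, hT⟩ : ∃ T : Finset F, T = Finset.univ.filter (fun y : F => y ≠ 0 ∧ y ^ r = 1) :=
    ⟨_, rfl⟩
  have hTcard : T.card ≤ r := by
    calc T.card ≤ (Polynomial.nthRoots r (1 : F)).toFinset.card :=
          Finset.card_le_card (fun x hx => by
            rw [hT] at hx
            rw [Multiset.mem_toFinset, Polynomial.mem_nthRoots (by omega)]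
            exact (Finset.mem_filter.1 hx).2.2)
      _ ≤ Multiset.card (Polynomial.nthRoots r (1 : F)) := Multiset.toFinset_card_le _
      _ ≤ r := Polynomial.card_nthRoots _ _
  obtain ⟨S, hS⟩ : ∃ S : Finset F, S = Finset.univ.filter (fun x : F => x ≠ 0) := ⟨_, rfl⟩
  have hScard : S.card = (r + 1) ^ 2 - 1 := by
    rw [hS, Finset.filter_ne', Finset.card_erase_of_mem (Finset.mem_univ _), Finset.card_univ, hF]
  have hmaps : ∀ x ∈ S, x ^ (r + 1 + 1) ∈ T := by
    intro x hx
    rw [hS] at hx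
    have hx0 : x ≠ 0 := (Finset.mem_filter.1 hx).2
    rw [hT]
    refine Finset.mem_filter.2 ⟨Finset.mem_univ _, pow_ne_zero _ hx0, ?_⟩
    rw [← pow_mul]
    have h1 : (r + 1 + 1) * r = Fintype.card F - 1 := by
      rw [hF]
      exact (Nat.sub_eq_of_eq_add (by ring)).symm
    rw [h1]
    exact FiniteField.pow_card_sub_one_eq_one x hx0
  have hsum := Finset.card_eq_sum_card_fiberwise hmaps
  have hμT : μ ∈ T := by
    rw [hT]
    refine Finset.mem_filter.2 ⟨Finset.mem_univ _, hμ, ?_⟩
    have h1 : μ ^ r * μ = 1 * μ := by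
      rw [← pow_succ, hμq, one_mul]
    exact mul_right_cancel₀ hμ h1
  have hle : ∀ b ∈ T, (S.filter (fun x => x ^ (r + 1 + 1) = b)).card ≤ r + 1 + 1 := by
    intro b _
    refine (Finset.card_le_card ?_).trans (hfib b)
    intro x hx
    exact Finset.mem_filter.2 ⟨Finset.mem_univ _, (Finset.mem_filter.1 hx).2⟩
  by_contra hne
  have hlt : (S.filter (fun x => x ^ (r + 1 + 1) = μ)).card < r + 1 + 1 := by
    have h1 : S.filter (fun x => x ^ (r + 1 + 1) = μ) =
        Finset.univ.filter (fun x : F => x ^ (r + 1 + 1) = μ) := by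
      ext x
      rw [hS]
      simp only [Finset.mem_filter, Finset.mem_univ, true_and]
      constructor
      · exact fun h => h.2
      · intro h
        refine ⟨?_, h⟩
        rintro rfl
        rw [zero_pow (Nat.succ_ne_zero _)] at h
        exact hμ h.symm
    rw [h1]
    exact lt_of_le_of_ne (hfib μ) hne
  have hstrict : ∑ b ∈ T, (S.filter (fun x => x ^ (r + 1 + 1) = b)).card <
      ∑ _b ∈ T, (r + 1 + 1) := Finset.sum_lt_sum hle ⟨μ, hμT, hlt⟩
  rw [← hsum, hScard, Finset.sum_const, smul_eq_mul] at hstrict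
  have h5 : T.card * (r + 1 + 1) ≤ r * (r + 1 + 1) := Nat.mul_le_mul_right _ hTcard
  have h6 : r * (r + 1 + 1) = (r + 1) ^ 2 - 1 := (Nat.sub_eq_of_eq_add (by ring)).symm
  omega

end Cfsg.Agent.Lib.Helper2.NormCount
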