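import Mathlib
import Cfsg.Prelude.Def_Classical
import Cfsg.Agent.Lib.Helper2.O4m

set_option autoImplicit false

namespace Cfsg.Agent.Lib.Helper2.O4m

open Cfsg

theorem eq_of_eqM (s t : M16) (h : eqM s t = true) : s = t := by
  unfold eqM at h
  simp only [Bool.and_eq_true] at h
  obtain ⟨⟨⟨⟨⟨⟨⟨⟨⟨⟨⟨⟨⟨⟨⟨h00, h01⟩, h02⟩, h03⟩, h10⟩, h11⟩, h12⟩, h13⟩, h20⟩, h21⟩, h22⟩, h23⟩, h30⟩, h31⟩, h32⟩, h33⟩ := h
  obtain ⟨a00, a01, a02, a03, a10, a11, a12, a13, a20, a21, a22, a23, a30, a31, a32, a33⟩ := s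
  obtain ⟨b00, b01, b02, b03, b10, b11, b12, b13, b20, b21, b22, b23, b30, b31, b32, b33⟩ := t
  have e00 := Nat.eq_of_beq_eq_true h00
  have e01 := Nat.eq_of_beq_eq_true h01
  have e02 := Nat.eq_of_beq_eq_true h02
  have e03 := Nat.eq_of_beq_eq_true h03
  have e10 := Nat.eq_of_beq_eq_true h10
  have e11 := Nat.eq_of_beq_eq_true h11
  have e12 := Nat.eq_of_beq_eq_true h12
  have e13 := Nat.eq_of_beq_eq_true h13
  have e20 := Nat.eq_of_beq_eq_true h20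
  have e21 := Nat.eq_of_beq_eq_true h21
  have e22 := Nat.eq_of_beq_eq_true h22
  have e23 := Nat.eq_of_beq_eq_true h23
  have e30 := Nat.eq_of_beq_eq_true h30
  have e31 := Nat.eq_of_beq_eq_true h31
  have e32 := Nat.eq_of_beq_eq_true h32
  have e33 := Nat.eq_of_beq_eq_true h33
  simp only at e00 e01 e02 e03 e10 e11 e12 e13 e20 e21 e22 e23 e30 e31 e32 e33
  subst e00 e01 e02 e03 e10 e11 e12 e13 e20 e21 e22 e23 e30 e31 e32 e33
  rfl

theorem d4_lt (a b c d e f g h : ℕ) : d4 a b c d e f g h < 2 := Nat.mod_lt _ (by norm_num)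

theorem qN_lt (x y z t : ℕ) : qN x y z t < 2 := Nat.mod_lt _ (by norm_num)

theorem red_mm (s t : M16) : red (mmN s t) :=
  ⟨d4_lt _ _ _ _ _ _ _ _, d4_lt _ _ _ _ _ _ _ _, d4_lt _ _ _ _ _ _ _ _, d4_lt _ _ _ _ _ _ _ _, d4_lt _ _ _ _ _ _ _ _, d4_lt _ _ _ _ _ _ _ _, d4_lt _ _ _ _ _ _ _ _, d4_lt _ _ _ _ _ _ _ _, d4_lt _ _ _ _ _ _ _ _, d4_lt _ _ _ _ _ _ _ _, d4_lt _ _ _ _ _ _ _ _, d4_lt _ _ _ _ _ _ _ _, d4_lt _ _ _ _ _ _ _ _, d4_lt _ _ _ _ _ _ _ _, d4_lt _ _ _ _ _ _ _ _, d4_lt _ _ _ _ _ _ _ _⟩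

theorem sing2 : ∀ p ∈ S5, p.1 < 2 ∧ p.2.1 < 2 ∧ p.2.2.1 < 2 ∧ p.2.2.2 < 2 ∧
    qN p.1 p.2.1 p.2.2.1 p.2.2.2 = 0 ∧ ¬ (p.1 = 0 ∧ p.2.1 = 0 ∧ p.2.2.1 = 0 ∧ p.2.2.2 = 0) := by
  decide

theorem S5_nodup : S5.Nodup := by decide

abbrev ι := (Fin 1 ⊕ Fin 1) ⊕ Fin 2

def E : ι ≃ Fin 4 where
  toFun := Sum.elim (Sum.elim (fun _ => 0) (fun _ => 1)) ![2, 3]
  invFun := ![Sum.inl (Sum.inl 0), Sum.inl (Sum.inr 0), Sum.inr 0, Sum.inr 1]
  left_inv := by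
    rintro ((i | i) | j)
    · fin_cases i; rfl
    · fin_cases i; rfl
    · fin_cases j <;> rfl
  right_inv := by
    intro j
    fin_cases j <;> rfl

section field

variable {F : Type*} [Field F]

def M4 (s : M16) : Matrix (Fin 4) (Fin 4) F :=
  !![(s.m00 : F), (s.m01 : F), (s.m02 : F), (s.m03 : F); (s.m10 : F), (s.m11 : F), (s.m12 : F), (s.m13 : F); (s.m20 : F), (s.m21 : F), (s.m22 : F), (s.m23 : F); (s.m30 : F), (s.m31 : F), (s.m32 : F), (s.m33 : F)]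

def matC (s : M16) : Matrix ι ι F := (M4 s).submatrix E E

def vecC (x y z t : ℕ) : ι → F := ![(x : F), (y : F), (z : F), (t : F)] ∘ E

theorem cast_mod2 (h2 : (2 : F) = 0) (n : ℕ) : ((n % 2 : ℕ) : F) = (n : F) := by
  have h := Nat.mod_add_div n 2
  have h4 : ((n % 2 + 2 * (n / 2) : ℕ) : F) = (n : F) := by rw [h]
  push_cast at h4
  rw [h2, zero_mul, add_zero] at h4
  exact h4

theorem cast_d4 (h2 : (2 : F) = 0) (a b c d e f g h : ℕ) :
    ((d4 a b c d e f g h : ℕ) : F) = (a : F) * b + c * d + e * f + g * h := by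
  show (((a * b + c * d + e * f + g * h) % 2 : ℕ) : F) = _
  rw [cast_mod2 h2]
  push_cast
  rfl

theorem cast_q (h2 : (2 : F) = 0) (x y z t : ℕ) :
    ((qN x y z t : ℕ) : F) = (x : F) * y + (z ^ 2 + 1 * z * t + 1 * t ^ 2) := by
  show (((x * y + z * z + z * t + t * t) % 2 : ℕ) : F) = _
  rw [cast_mod2 h2]
  push_cast
  ring

theorem M4_mm (h2 : (2 : F) = 0) (s t : M16) : (M4 (mmN s t) : Matrix (Fin 4) (Fin 4) F) =
    M4 s * M4 t := by
  ext i j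
  fin_cases i <;> fin_cases j <;>
    simp [M4, mmN, Matrix.mul_apply, Fin.sum_univ_four, cast_d4 h2]

theorem matC_mm (h2 : (2 : F) = 0) (s t : M16) : (matC (mmN s t) : Matrix ι ι F) =
    matC s * matC t := by
  unfold matC
  rw [Matrix.submatrix_mul_equiv, M4_mm h2]

theorem M4_one : (M4 I16 : Matrix (Fin 4) (Fin 4) F) = 1 := by
  unfold M4 I16
  ext i j
  fin_cases i <;> fin_cases j <;> simp

theorem matC_one : (matC I16 : Matrix ι ι F) = 1 := by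
  unfold matC
  rw [M4_one, Matrix.submatrix_one_equiv]

theorem Q_vecC (x y z t : F) :
    quadFormMinus 1 F 1 1 (![x, y, z, t] ∘ E) = x * y + (z ^ 2 + 1 * z * t + 1 * t ^ 2) := by
  simp [quadFormMinus, E]

theorem mulVec_vecC (h2 : (2 : F) = 0) (s : M16) (x y z t : ℕ) :
    Matrix.mulVec (matC s : Matrix ι ι F) (vecC x y z t) =
      vecC (r0 s x y z t) (r1 s x y z t) (r2 s x y z t) (r3 s x y z t) := by
  unfold matC vecC
  rw [Matrix.submatrix_mulVec_equiv]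
  congr 1
  have h1 : ((![(x : F), (y : F), (z : F), (t : F)] ∘ E) ∘ E.symm) =
      ![(x : F), (y : F), (z : F), (t : F)] := by
    funext j
    simp
  rw [h1]
  funext j
  fin_cases j <;>
    simp [M4, Matrix.mulVec, dotProduct, Fin.sum_univ_four, r0, r1, r2, r3, cast_d4 h2]

theorem exists_vec (hsurj : ∀ x : F, ∃ k < 2, ((k : ℕ) : F) = x) (v : ι → F) :
    ∃ x y z t : ℕ, x < 2 ∧ y < 2 ∧ z < 2 ∧ t < 2 ∧ v = vecC x y z t := by
  obtain ⟨x, hx, hx'⟩ := hsurj (v (E.symm 0))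
  obtain ⟨y, hy, hy'⟩ := hsurj (v (E.symm 1))
  obtain ⟨z, hz, hz'⟩ := hsurj (v (E.symm 2))
  obtain ⟨t, ht, ht'⟩ := hsurj (v (E.symm 3))
  refine ⟨x, y, z, t, hx, hy, hz, ht, ?_⟩
  funext i
  obtain ⟨j, rfl⟩ := E.symm.surjective i
  unfold vecC
  fin_cases j <;> simp [hx', hy', hz', ht']

theorem vecC_inj (hinj : ∀ a b : ℕ, a < 2 → b < 2 → (a : F) = (b : F) → a = b)
    {x y z t x' y' z' t' : ℕ} (hx : x < 2) (hy : y < 2) (hz : z < 2) (ht : t < 2)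
    (hx' : x' < 2) (hy' : y' < 2) (hz' : z' < 2) (ht' : t' < 2)
    (h : (vecC x y z t : ι → F) = vecC x' y' z' t') : x = x' ∧ y = y' ∧ z = z' ∧ t = t' := by
  have h0 := congrFun h (E.symm 0)
  have h1 := congrFun h (E.symm 1)
  have h2 := congrFun h (E.symm 2)
  have h3 := congrFun h (E.symm 3)
  simp [vecC] at h0 h1 h2 h3
  exact ⟨hinj _ _ hx hx' h0, hinj _ _ hy hy' h1, hinj _ _ hz hz' h2, hinj _ _ ht ht' h3⟩

theorem bridgeA (h2 : (2 : F) = 0)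
    (hinj : ∀ a b : ℕ, a < 2 → b < 2 → (a : F) = (b : F) → a = b) (s : M16)
    (hiso : ∀ v : ι → F, quadFormMinus 1 F 1 1 (Matrix.mulVec (matC s) v) =
      quadFormMinus 1 F 1 1 v) :
    isoChk s = true := by
  unfold isoChk
  rw [List.all_eq_true]
  intro x _
  rw [List.all_eq_true]
  intro y _
  rw [List.all_eq_true]
  intro z _
  rw [List.all_eq_true]
  intro t _
  unfold isoV
  have h := hiso (vecC x y z t)
  rw [mulVec_vecC h2] at h
  unfold vecC at h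
  rw [Q_vecC, Q_vecC, ← cast_q h2, ← cast_q h2] at h
  have h5 : qN (r0 s x y z t) (r1 s x y z t) (r2 s x y z t) (r3 s x y z t) = qN x y z t :=
    hinj _ _ (qN_lt _ _ _ _) (qN_lt _ _ _ _) h
  rw [h5]
  exact Nat.beq_refl _

theorem bridgeB (h2 : (2 : F) = 0) (hsurj : ∀ x : F, ∃ k < 2, ((k : ℕ) : F) = x) (s : M16)
    (hs : isoChk s = true) (v : ι → F) :
    quadFormMinus 1 F 1 1 (Matrix.mulVec (matC s) v) = quadFormMinus 1 F 1 1 v := by
  obtain ⟨x, y, z, t, hx, hy, hz, ht, rfl⟩ := exists_vec hsurj v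
  unfold isoChk at hs
  have h1 := List.all_eq_true.1 (List.all_eq_true.1 (List.all_eq_true.1 (List.all_eq_true.1 hs x
    (mem_D2 hx)) y (mem_D2 hy)) z (mem_D2 hz)) t (mem_D2 ht)
  unfold isoV at h1
  have h3 := Nat.eq_of_beq_eq_true h1
  rw [mulVec_vecC h2]
  unfold vecC
  rw [Q_vecC, Q_vecC, ← cast_q h2, ← cast_q h2, h3]

theorem matC_inj (hinj : ∀ a b : ℕ, a < 2 → b < 2 → (a : F) = (b : F) → a = b) (s t : M16)
    (hs : red s) (ht : red t) (h : (matC s : Matrix ι ι F) = matC t) : s = t := by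
  obtain ⟨s00, s01, s02, s03, s10, s11, s12, s13, s20, s21, s22, s23, s30, s31, s32, s33⟩ := hs
  obtain ⟨t00, t01, t02, t03, t10, t11, t12, t13, t20, t21, t22, t23, t30, t31, t32, t33⟩ := ht
  have key : ∀ i j : Fin 4, (M4 s : Matrix (Fin 4) (Fin 4) F) i j = M4 t i j := by
    intro i j
    have := congrFun (congrFun h (E.symm i)) (E.symm j)
    simpa [matC] using this
  have k00 := key 0 0
  have k01 := key 0 1
  have k02 := key 0 2
  have k03 := key 0 3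
  have k10 := key 1 0
  have k11 := key 1 1
  have k12 := key 1 2
  have k13 := key 1 3
  have k20 := key 2 0
  have k21 := key 2 1
  have k22 := key 2 2
  have k23 := key 2 3
  have k30 := key 3 0
  have k31 := key 3 1
  have k32 := key 3 2
  have k33 := key 3 3
  simp [M4] at k00 k01 k02 k03 k10 k11 k12 k13 k20 k21 k22 k23 k30 k31 k32 k33
  obtain ⟨a00, a01, a02, a03, a10, a11, a12, a13, a20, a21, a22, a23, a30, a31, a32, a33⟩ := s
  obtain ⟨b00, b01, b02, b03, b10, b11, b12, b13, b20, b21, b22, b23, b30, b31, b32, b33⟩ := t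
  simp only at *
  have e00 := hinj _ _ s00 t00 k00
  have e01 := hinj _ _ s01 t01 k01
  have e02 := hinj _ _ s02 t02 k02
  have e03 := hinj _ _ s03 t03 k03
  have e10 := hinj _ _ s10 t10 k10
  have e11 := hinj _ _ s11 t11 k11
  have e12 := hinj _ _ s12 t12 k12
  have e13 := hinj _ _ s13 t13 k13
  have e20 := hinj _ _ s20 t20 k20
  have e21 := hinj _ _ s21 t21 k21
  have e22 := hinj _ _ s22 t22 k22
  have e23 := hinj _ _ s23 t23 k23
  have e30 := hinj _ _ s30 t30 k30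
  have e31 := hinj _ _ s31 t31 k31
  have e32 := hinj _ _ s32 t32 k32
  have e33 := hinj _ _ s33 t33 k33
  subst e00 e01 e02 e03 e10 e11 e12 e13 e20 e21 e22 e23 e30 e31 e32 e33
  rfl

theorem exists_code (hsurj : ∀ x : F, ∃ k < 2, ((k : ℕ) : F) = x) (A : Matrix ι ι F) :
    ∃ s : M16, red s ∧ matC s = A := by
  choose t ht1 ht2 using (fun i j => hsurj (A (E.symm i) (E.symm j)))
  refine ⟨⟨t 0 0, t 0 1, t 0 2, t 0 3, t 1 0, t 1 1, t 1 2, t 1 3, t 2 0, t 2 1, t 2 2, t 2 3, t 3 0, t 3 1, t 3 2, t 3 3⟩,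
    ⟨ht1 0 0, ht1 0 1, ht1 0 2, ht1 0 3, ht1 1 0, ht1 1 1, ht1 1 2, ht1 1 3, ht1 2 0, ht1 2 1, ht1 2 2, ht1 2 3, ht1 3 0, ht1 3 1, ht1 3 2, ht1 3 3⟩, ?_⟩
  ext i j
  obtain ⟨i, rfl⟩ := E.symm.surjective i
  obtain ⟨j, rfl⟩ := E.symm.surjective j
  fin_cases i <;> fin_cases j <;> simp [matC, M4, ht2]

end field

end Cfsg.Agent.Lib.Helper2.O4m
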