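import Mathlib
import Cfsg.Agent.Lib.Helper2.SE2
import Cfsg.Agent.Lib.Helper2.SylP

set_option autoImplicit false

namespace Cfsg.Agent.Lib.Helper2.Ord24

theorem equiv_perm_of_faithful {G X : Type*} [Group G] [Finite G] [MulAction G X] [Finite X]
    (n : ℕ) (hX : Nat.card X = n) (hG : Nat.card G = n.factorial)
    (hker : ∀ g : G, (∀ x : X, g • x = x) → g = 1) : Nonempty (G ≃* Equiv.Perm (Fin n)) := by
  have hinj : Function.Injective (MulAction.toPermHom G X) := by
    rw [injective_iff_map_eq_one]
    intro g hg
    apply hker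
    intro x
    have := congrArg (fun σ : Equiv.Perm X => σ x) hg
    exact this
  have hcard : Nat.card (Equiv.Perm X) = n.factorial := by
    rw [Nat.card_perm, hX]
  have hbij : Function.Bijective (MulAction.toPermHom G X) :=
    hinj.bijective_of_nat_card_le (by rw [hcard, hG])
  exact ⟨(MulEquiv.ofBijective _ hbij).trans (Finite.equivFinOfCardEq hX).permCongrHom⟩

variable {G : Type*} [Group G]

theorem order6_of_commute {t a : G} (ht : orderOf t = 2) (ha : orderOf a = 3) (hc : t * a = a * t) :
    orderOf (t * a) = 6 := by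
  have h := Commute.orderOf_mul_eq_mul_orderOf_of_coprime (show Commute t a from hc)
    (by rw [ht, ha]; norm_num)
  rw [h, ht, ha]

theorem main [Finite G] (h : Nat.card G = 24) (h6 : ∀ g : G, orderOf g ≠ 6) :
    Nonempty (G ≃* Equiv.Perm (Fin 4)) := by
  classical
  haveI : Fact (Nat.Prime 3) := ⟨by norm_num⟩
  haveI : Fact (Nat.Prime 2) := ⟨by norm_num⟩
  obtain ⟨P⟩ : Nonempty (Sylow 3 G) := inferInstance
  have hfac : (24 : ℕ).factorization 3 = 1 := by
    have e : (24 : ℕ) = 3 ^ 1 * 8 := by norm_num
    rw [e, Nat.factorization_mul (by norm_num) (by norm_num), Nat.Prime.factorization_pow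
      (by norm_num)]
    simp
    rw [Nat.factorization_eq_zero_of_not_dvd (by norm_num)]
  have hcardS : ∀ Q : Sylow 3 G, Nat.card (Q : Subgroup G) = 3 := by
    intro Q
    rw [Sylow.card_eq_multiplicity, h, hfac, pow_one]
  have hPcard := hcardS P
  have hn1 : Nat.card (Sylow 3 G) ≡ 1 [MOD 3] := card_sylow_modEq_one 3 G
  have hidx : (P : Subgroup G).index = 8 := by
    have h' := Subgroup.card_mul_index (P : Subgroup G)
    rw [hPcard, h] at h'
    omega
  have hn2 : Nat.card (Sylow 3 G) ∣ 8 := by
    rw [← hidx]
    exact Sylow.card_dvd_index P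
  have hn3 : Nat.card (Sylow 3 G) = (Subgroup.normalizer ((P : Subgroup G) : Set G)).index :=
    Sylow.card_eq_index_normalizer P
  have hn : Nat.card (Sylow 3 G) = 1 ∨ Nat.card (Sylow 3 G) = 4 := by
    have hle : Nat.card (Sylow 3 G) ≤ 8 := Nat.le_of_dvd (by norm_num) hn2
    have hpos : 0 < Nat.card (Sylow 3 G) := Nat.card_pos
    generalize Nat.card (Sylow 3 G) = n at hn1 hn2 hle hpos
    unfold Nat.ModEq at hn1
    interval_cases n <;> first | omega | (exfalso; revert hn2; decide)
  obtain ⟨a', ha'⟩ := exists_prime_orderOf_dvd_card' (G := (P : Subgroup G)) 3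
    (by rw [hPcard])
  have ha3 : orderOf (a' : G) = 3 := by rw [Subgroup.orderOf_coe, ha']
  have haP : (a' : G) ∈ (P : Subgroup G) := a'.2
  generalize (a' : G) = a at ha3 haP
  have ha1 : a ≠ 1 := by
    intro h1
    rw [h1, orderOf_one] at ha3
    omega
  have hPz : Subgroup.zpowers a = (P : Subgroup G) :=
    SylP.zpowers_eq_of_card_prime (P : Subgroup G) hPcard haP ha1
  have ha3' : a ^ 3 = 1 := by rw [← ha3, pow_orderOf_eq_one]
  rcases hn with hn | hn
  · exfalso
    have hPn : (P : Subgroup G).Normal := by
      rw [hn3, Subgroup.index_eq_one] at hn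
      exact Subgroup.normalizer_eq_top_iff.1 hn
    have hconj : ∀ g : G, g * a * g⁻¹ = a ∨ g * a * g⁻¹ = a⁻¹ := by
      intro g
      have h1 : g * a * g⁻¹ ∈ Subgroup.zpowers a := by
        rw [hPz]
        exact hPn.conj_mem a haP g
      obtain ⟨k, hk⟩ := Subgroup.mem_zpowers_iff.1 h1
      have hk3 : a ^ k = a ^ (k % 3) := by
        conv_lhs => rw [← Int.emod_add_mul_ediv k 3]
        have ha3z : a ^ (3 : ℤ) = 1 := by
          have : a ^ ((3 : ℕ) : ℤ) = 1 := by rw [zpow_natCast, ha3']
          exact this
        rw [zpow_add, zpow_mul, ha3z, one_zpow, mul_one]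
      have h3 : k % 3 = 0 ∨ k % 3 = 1 ∨ k % 3 = 2 := by omega
      rcases h3 with h3 | h3 | h3
      · exfalso
        rw [hk3, h3, zpow_zero] at hk
        apply ha1
        have : g * a * g⁻¹ = 1 := hk.symm
        have h4 : a = g⁻¹ * (g * a * g⁻¹) * g := by group
        rw [h4, this]
        group
      · left
        rw [← hk, hk3, h3, zpow_one]
      · right
        rw [← hk, hk3, h3]
        have h5 : a ^ (2 : ℤ) * a = 1 := by
          have e2 : a ^ (2 : ℤ) = a * a := by
            rw [show (2 : ℤ) = ((2 : ℕ) : ℤ) from rfl, zpow_natCast, pow_two]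
          have e3 : a * a * a = a ^ 3 := by rw [pow_succ, pow_two]
          rw [e2, e3, ha3']
        exact eq_inv_of_mul_eq_one_left h5
    have hcentr : ∃ t : G, orderOf t = 2 ∧ t * a = a * t := by
      by_cases hall : ∀ g : G, g * a * g⁻¹ = a
      · obtain ⟨t, ht⟩ := exists_prime_orderOf_dvd_card' (G := G) 2 (by rw [h]; norm_num)
        refine ⟨t, ht, ?_⟩
        have := hall t
        rw [mul_inv_eq_iff_eq_mul] at this
        exact this
      · push Not at hall
        obtain ⟨g, hg⟩ := hall
        have hg' : g * a * g⁻¹ = a⁻¹ := (hconj g).resolve_left hg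
        have hidx2 : (Subgroup.centralizer ({a} : Set G)).index = 2 := by
          rw [Subgroup.index_eq_two_iff]
          refine ⟨g⁻¹, ?_⟩
          intro b
          have hmem : ∀ c : G, c ∈ Subgroup.centralizer ({a} : Set G) ↔ c * a * c⁻¹ = a := by
            intro c
            rw [Subgroup.mem_centralizer_iff]
            constructor
            · intro hc
              have := hc a rfl
              rw [mul_inv_eq_iff_eq_mul]
              exact this.symm
            · intro hc x hx
              rw [Set.mem_singleton_iff.1 hx]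
              rw [mul_inv_eq_iff_eq_mul] at hc
              exact hc.symm
          rw [hmem, hmem]
          have hginv : g⁻¹ * a⁻¹ * g = a := by
            rw [← hg']
            group
          rcases hconj b with hb | hb
          · right
            refine ⟨hb, ?_⟩
            intro hcon
            have e1 : b * g⁻¹ * a * (b * g⁻¹)⁻¹ = b * (g⁻¹ * a * g) * b⁻¹ := by group
            have e2 : g⁻¹ * a * g = a⁻¹ := by
              have : g⁻¹ * a * g = (g⁻¹ * a⁻¹ * g)⁻¹ := by group
              rw [this, hginv]
            rw [e1, e2] at hcon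
            have e3 : b * a⁻¹ * b⁻¹ = (b * a * b⁻¹)⁻¹ := by group
            rw [e3, hb] at hcon
            have h9 : a * a = 1 := by
              nth_rewrite 1 [← hcon]
              exact inv_mul_cancel a
            have h10 : a = 1 := by
              have h11 : a ^ 3 = a * a * a := by rw [pow_succ, pow_two]
              rw [h11, h9, one_mul] at ha3'
              exact ha3'
            exact ha1 h10
          · left
            refine ⟨?_, ?_⟩
            · have e1 : b * g⁻¹ * a * (b * g⁻¹)⁻¹ = b * (g⁻¹ * a * g) * b⁻¹ := by group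
              have e2 : g⁻¹ * a * g = a⁻¹ := by
                have : g⁻¹ * a * g = (g⁻¹ * a⁻¹ * g)⁻¹ := by group
                rw [this, hginv]
              rw [e1, e2]
              have e3 : b * a⁻¹ * b⁻¹ = (b * a * b⁻¹)⁻¹ := by group
              rw [e3, hb, inv_inv]
            · intro hcon
              rw [hb] at hcon
              have h9 : a * a = 1 := by
                nth_rewrite 1 [← hcon]
                exact inv_mul_cancel a
              have h10 : a = 1 := by
                have h11 : a ^ 3 = a * a * a := by rw [pow_succ, pow_two]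
                rw [h11, h9, one_mul] at ha3'
                exact ha3'
              exact ha1 h10
        have hC := Subgroup.card_mul_index (Subgroup.centralizer ({a} : Set G))
        rw [hidx2, h] at hC
        obtain ⟨t, ht⟩ := exists_prime_orderOf_dvd_card'
          (G := Subgroup.centralizer ({a} : Set G)) 2 (by omega)
        refine ⟨(t : G), by rw [Subgroup.orderOf_coe, ht], ?_⟩
        exact (Subgroup.mem_centralizer_iff.1 t.2 a rfl).symm
    obtain ⟨t, ht, hta⟩ := hcentr
    exact h6 _ (order6_of_commute ht ha3 hta)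
  · have hNcard : ∀ Q : Sylow 3 G, Nat.card (Subgroup.normalizer ((Q : Subgroup G) : Set G)) = 6 := by
      intro Q
      have h1 := Subgroup.card_mul_index (Subgroup.normalizer ((Q : Subgroup G) : Set G))
      have h2 : Nat.card (Sylow 3 G) = (Subgroup.normalizer ((Q : Subgroup G) : Set G)).index :=
        Sylow.card_eq_index_normalizer Q
      rw [← h2, hn, h] at h1
      omega
    have hexQ : ∃ Q : Sylow 3 G, Q ≠ P := by
      by_contra hcon
      push Not at hcon
      have hsub : Subsingleton (Sylow 3 G) := ⟨fun A B => (hcon A).trans (hcon B).symm⟩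
      have : Nat.card (Sylow 3 G) = 1 := Nat.card_unique
      omega
    obtain ⟨P', hP'⟩ := hexQ
    apply equiv_perm_of_faithful (X := Sylow 3 G) 4 hn (by rw [h]; rfl)
    intro k hk
    by_contra hk1
    have hkN : ∀ Q : Sylow 3 G, k ∈ Subgroup.normalizer ((Q : Subgroup G) : Set G) := by
      intro Q
      exact Sylow.smul_eq_iff_mem_normalizer.1 (hk Q)
    have hord : orderOf k ∣ 6 := by
      rw [← hNcard P]
      exact Subgroup.orderOf_dvd_natCard _ (hkN P)
    have hk0 : orderOf k ≠ 1 := by
      intro h1
      exact hk1 (orderOf_eq_one_iff.1 h1)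
    have hno3 : ∀ u : G, (∀ Q : Sylow 3 G, u ∈ Subgroup.normalizer ((Q : Subgroup G) : Set G)) →
        orderOf u ≠ 3 := by
      intro u hu hu3
      have hu1 : u ≠ 1 := by
        intro h1
        rw [h1, orderOf_one] at hu3
        omega
      have hup : IsPGroup 3 (Subgroup.zpowers u) := SylP.isPGroup_zpowers_of_orderOf_prime hu3
      have m1 := SE2.mem_sylow_of_mem_normalizer P (hu P) hup
      have m2 := SE2.mem_sylow_of_mem_normalizer P' (hu P') hup
      have e1 := SylP.zpowers_eq_of_card_prime (P : Subgroup G) hPcard m1 hu1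
      have e2 := SylP.zpowers_eq_of_card_prime (P' : Subgroup G) (hcardS P') m2 hu1
      exact hP' (Sylow.ext (e2.symm.trans e1))
    have hk2 : orderOf k = 2 := by
      have hle : orderOf k ≤ 6 := Nat.le_of_dvd (by norm_num) hord
      have h3 := hno3 k hkN
      have h6' := h6 k
      have hpos : 0 < orderOf k := orderOf_pos k
      generalize orderOf k = m at hord hk0 hle h3 h6' hpos
      interval_cases m <;> first | omega | (exfalso; revert hord; decide)
    have hconjN : ∀ Q : Sylow 3 G, a * k * a⁻¹ ∈ Subgroup.normalizer ((Q : Subgroup G) : Set G) := by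
      intro Q
      apply Sylow.smul_eq_iff_mem_normalizer.1
      rw [mul_smul, mul_smul, hk, smul_inv_smul]
    have hkk : k * k = 1 := by rw [← pow_two, ← hk2, pow_orderOf_eq_one]
    have hcomm : a * k * a⁻¹ = k := by
      set K : Subgroup G := ⨅ Q : Sylow 3 G, Subgroup.normalizer ((Q : Subgroup G) : Set G)
        with hK
      have hkK : k ∈ K := Subgroup.mem_iInf.2 hkN
      have hcK : a * k * a⁻¹ ∈ K := Subgroup.mem_iInf.2 hconjN
      have hKle : K ≤ Subgroup.normalizer ((P : Subgroup G) : Set G) := iInf_le _ P
      have hKd : Nat.card K ∣ 6 := by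
        rw [← hNcard P]
        exact Subgroup.card_dvd_of_le hKle
      have hK3 : ¬ 3 ∣ Nat.card K := by
        intro h3
        obtain ⟨u, hu⟩ := exists_prime_orderOf_dvd_card' (G := K) 3 h3
        have hu3 : orderOf (u : G) = 3 := by rw [Subgroup.orderOf_coe, hu]
        exact hno3 (u : G) (Subgroup.mem_iInf.1 u.2) hu3
      have hK2 : Nat.card K = 2 := by
        have hle : Nat.card K ≤ 6 := Nat.le_of_dvd (by norm_num) hKd
        have hpos : 0 < Nat.card K := Nat.card_pos
        have hne1 : Nat.card K ≠ 1 := by
          intro h1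
          have hbot : K = ⊥ := Subgroup.card_eq_one.1 h1
          rw [hbot, Subgroup.mem_bot] at hkK
          exact hk1 hkK
        generalize Nat.card K = m at hKd hK3 hle hpos hne1
        interval_cases m <;> first | omega | (exfalso; revert hKd; decide) | (exfalso; apply hK3; decide)
      have hz := SylP.zpowers_eq_of_card_prime K hK2 hkK hk1
      rw [← hz] at hcK
      obtain ⟨i, hi⟩ := Subgroup.mem_zpowers_iff.1 hcK
      have hkz : k ^ (2 : ℤ) = 1 := by
        rw [show (2 : ℤ) = ((2 : ℕ) : ℤ) from rfl, zpow_natCast, pow_two, hkk]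
      have hi2 : k ^ i = k ^ (i % 2) := by
        conv_lhs => rw [← Int.emod_add_mul_ediv i 2]
        rw [zpow_add, zpow_mul, hkz, one_zpow, mul_one]
      have h2 : i % 2 = 0 ∨ i % 2 = 1 := by omega
      rcases h2 with h2 | h2
      · exfalso
        rw [hi2, h2, zpow_zero] at hi
        apply hk1
        have h4 : k = a⁻¹ * (a * k * a⁻¹) * a := by group
        rw [h4, ← hi]
        group
      · rw [← hi, hi2, h2, zpow_one]
    have hta : k * a = a * k := by
      have := hcomm
      rw [mul_inv_eq_iff_eq_mul] at this
      exact this.symm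
    exact h6 _ (order6_of_commute hk2 ha3 hta)

end Cfsg.Agent.Lib.Helper2.Ord24
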