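import Mathlib
import Cfsg.Prelude.Def_Classical
import Cfsg.Agent.Lib.Helper2.O4mb
import Cfsg.Agent.Lib.Helper2.Ord24

set_option autoImplicit false

namespace Cfsg.Agent.Lib.Helper2.O4m

open Cfsg

section field

variable {F : Type*} [Field F]

def φ : ↥(isometryGroup F (quadFormMinus 1 F 1 1)) →* Matrix ι ι F :=
  (Units.coeHom (Matrix ι ι F)).comp (isometryGroup F (quadFormMinus 1 F 1 1)).subtype

theorem φ_inj : Function.Injective (φ (F := F)) := by
  intro a b hab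
  apply Subtype.ext
  apply Units.ext
  exact hab

theorem φ_iso (g : ↥(isometryGroup F (quadFormMinus 1 F 1 1))) (v : ι → F) :
    quadFormMinus 1 F 1 1 (Matrix.mulVec (φ g) v) = quadFormMinus 1 F 1 1 v :=
  g.2 v v

theorem exists_elt (M N : Matrix ι ι F) (hMN : M * N = 1) (hNM : N * M = 1)
    (hiso : ∀ v : ι → F, quadFormMinus 1 F 1 1 (Matrix.mulVec M v) = quadFormMinus 1 F 1 1 v) :
    ∃ g : ↥(isometryGroup F (quadFormMinus 1 F 1 1)), φ g = M := by
  let u : Matrix.GeneralLinearGroup ι F := ⟨M, N, hMN, hNM⟩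
  have hmem : u ∈ isometryGroup F (quadFormMinus 1 F 1 1) := fun a _ => hiso a
  exact ⟨⟨u, hmem⟩, rfl⟩

theorem vecC_zero : (vecC 0 0 0 0 : ι → F) = 0 := by
  funext i
  obtain ⟨j, rfl⟩ := E.symm.surjective i
  fin_cases j <;> simp [vecC]

theorem r_lt (s : M16) (x y z t : ℕ) :
    r0 s x y z t < 2 ∧ r1 s x y z t < 2 ∧ r2 s x y z t < 2 ∧ r3 s x y z t < 2 :=
  ⟨d4_lt _ _ _ _ _ _ _ _, d4_lt _ _ _ _ _ _ _ _, d4_lt _ _ _ _ _ _ _ _, d4_lt _ _ _ _ _ _ _ _⟩

def X (F : Type*) [Field F] := {v : ι → F // v ≠ 0 ∧ quadFormMinus 1 F 1 1 v = 0}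

theorem smul_ne (g : ↥(isometryGroup F (quadFormMinus 1 F 1 1))) (v : ι → F) (hv : v ≠ 0) :
    Matrix.mulVec (φ g) v ≠ 0 := by
  intro h0
  apply hv
  have h1 : Matrix.mulVec (φ g⁻¹) (Matrix.mulVec (φ g) v) = v := by
    rw [Matrix.mulVec_mulVec, ← map_mul, inv_mul_cancel, map_one, Matrix.one_mulVec]
  rw [h0, Matrix.mulVec_zero] at h1
  exact h1.symm

instance : MulAction ↥(isometryGroup F (quadFormMinus 1 F 1 1)) (X F) where
  smul g v := ⟨Matrix.mulVec (φ g) v.1, smul_ne g v.1 v.2.1, by rw [φ_iso]; exact v.2.2⟩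
  one_smul v := Subtype.ext (by
    show Matrix.mulVec (φ 1) v.1 = v.1
    rw [map_one, Matrix.one_mulVec])
  mul_smul a b v := Subtype.ext (by
    show Matrix.mulVec (φ (a * b)) v.1 = Matrix.mulVec (φ a) (Matrix.mulVec (φ b) v.1)
    rw [map_mul, Matrix.mulVec_mulVec])

theorem smul_val (g : ↥(isometryGroup F (quadFormMinus 1 F 1 1))) (v : X F) :
    (g • v).1 = Matrix.mulVec (φ g) v.1 := rfl

end field

theorem main {F : Type*} [Field F] [Fintype F] (hF : Fintype.card F = 2) :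
    Nonempty (↥(isometryGroup F (quadFormMinus 1 F 1 1)) ≃* Equiv.Perm (Fin 5)) := by
  classical
  haveI : Fact (Nat.Prime 2) := ⟨by norm_num⟩
  haveI : CharP F 2 := charP_of_card_eq_prime hF
  have h2 : (2 : F) = 0 := by
    have := CharP.cast_eq_zero F 2
    exact_mod_cast this
  have hinj : ∀ a b : ℕ, a < 2 → b < 2 → (a : F) = (b : F) → a = b := by
    intro a b ha hb hab
    have h1 := (CharP.natCast_eq_natCast F 2).1 hab
    unfold Nat.ModEq at h1
    omega
  have hsurj : ∀ x : F, ∃ k < 2, ((k : ℕ) : F) = x := by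
    have hinj' : Function.Injective (fun k : Fin 2 => ((k : ℕ) : F)) := by
      intro a b hab
      exact Fin.ext (hinj _ _ a.2 b.2 hab)
    have hbij : Function.Bijective (fun k : Fin 2 => ((k : ℕ) : F)) := by
      rw [Fintype.bijective_iff_injective_and_card]
      exact ⟨hinj', by rw [Fintype.card_fin, hF]⟩
    intro x
    obtain ⟨k, hk⟩ := hbij.2 x
    exact ⟨k, k.2, hk⟩
  haveI : Finite ↥(isometryGroup F (quadFormMinus 1 F 1 1)) := Finite.of_injective _ φ_inj
  have hcode : ∀ g : ↥(isometryGroup F (quadFormMinus 1 F 1 1)),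
      ∃ s : M16, red s ∧ (matC s : Matrix ι ι F) = φ g := fun g => exists_code hsurj (φ g)
  choose code hcred hcmat using hcode
  have hisoc : ∀ g, isoChk (code g) = true := by
    intro g
    apply bridgeA h2 hinj
    intro v
    rw [hcmat]
    exact φ_iso g v
  have hmemL : ∀ g, code g ∈ L120 := by
    intro g
    have h1 := chk_all (code g) (hcred g)
    unfold chk at h1
    rw [if_pos (hisoc g)] at h1
    unfold memL at h1
    rw [List.any_eq_true] at h1
    obtain ⟨t, ht, hst⟩ := h1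
    rw [eq_of_eqM _ _ hst]
    exact ht
  have hcard : Nat.card ↥(isometryGroup F (quadFormMinus 1 F 1 1)) = 120 := by
    let f : ↥(isometryGroup F (quadFormMinus 1 F 1 1)) → {s // s ∈ L120.toFinset} :=
      fun g => ⟨code g, List.mem_toFinset.2 (hmemL g)⟩
    have hfi : Function.Injective f := by
      intro a b hab
      have h1 : code a = code b := congrArg Subtype.val hab
      apply φ_inj
      rw [← hcmat a, ← hcmat b, h1]
    have hfs : Function.Surjective f := by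
      rintro ⟨s, hs⟩
      have hsL := List.mem_toFinset.1 hs
      have hs' := L120_spec s hsL
      obtain ⟨t, _, hst, hts⟩ := L120_inv s hsL
      have e1 : (matC s : Matrix ι ι F) * matC t = 1 := by
        rw [← matC_mm h2, hst, matC_one]
      have e2 : (matC t : Matrix ι ι F) * matC s = 1 := by
        rw [← matC_mm h2, hts, matC_one]
      obtain ⟨g, hg⟩ := exists_elt (matC s : Matrix ι ι F) (matC t) e1 e2
        (bridgeB h2 hsurj s hs'.2)
      refine ⟨g, Subtype.ext ?_⟩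
      show code g = s
      apply matC_inj hinj _ _ (hcred g) hs'.1
      rw [hcmat, hg]
    rw [Nat.card_congr (Equiv.ofBijective f ⟨hfi, hfs⟩), Nat.card_eq_fintype_card,
      Fintype.card_coe, List.toFinset_card_of_nodup L120_nodup, L120_length]
  have hXmem : ∀ p ∈ S5, (vecC p.1 p.2.1 p.2.2.1 p.2.2.2 : ι → F) ≠ 0 ∧
      quadFormMinus 1 F 1 1 (vecC p.1 p.2.1 p.2.2.1 p.2.2.2 : ι → F) = 0 := by
    intro p hp
    obtain ⟨p1, p2, p3, p4, hq, hnz⟩ := sing2 p hp
    constructor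
    · intro h0
      apply hnz
      rw [← vecC_zero] at h0
      exact vecC_inj hinj p1 p2 p3 p4 (by norm_num) (by norm_num) (by norm_num) (by norm_num) h0
    · unfold vecC
      rw [Q_vecC, ← cast_q h2, hq, Nat.cast_zero]
  have hXcode : ∀ v : X F, ∃ p : ℕ × ℕ × ℕ × ℕ, p ∈ S5 ∧
      v.1 = vecC p.1 p.2.1 p.2.2.1 p.2.2.2 := by
    intro v
    obtain ⟨x, y, z, t, hx, hy, hz, ht, hv⟩ := exists_vec hsurj v.1
    refine ⟨(x, y, z, t), ?_, hv⟩
    apply (sing_spec x (mem_D2 hx) y (mem_D2 hy) z (mem_D2 hz) t (mem_D2 ht)).1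
    constructor
    · have hq := v.2.2
      rw [hv] at hq
      unfold vecC at hq
      rw [Q_vecC, ← cast_q h2] at hq
      exact hinj _ _ (qN_lt _ _ _ _) (by norm_num) (by rw [hq, Nat.cast_zero])
    · rintro ⟨rfl, rfl, rfl, rfl⟩
      apply v.2.1
      rw [hv]
      exact vecC_zero
  choose vcode hvmem hveq using hXcode
  have hXcard : Nat.card (X F) = 5 := by
    let f : X F → {p // p ∈ S5.toFinset} := fun v => ⟨vcode v, List.mem_toFinset.2 (hvmem v)⟩
    have hfi : Function.Injective f := by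
      intro a b hab
      have h1 : vcode a = vcode b := congrArg Subtype.val hab
      apply Subtype.ext
      rw [hveq a, hveq b, h1]
    have hfs : Function.Surjective f := by
      rintro ⟨p, hp⟩
      have hpL := List.mem_toFinset.1 hp
      refine ⟨⟨vecC p.1 p.2.1 p.2.2.1 p.2.2.2, hXmem p hpL⟩, Subtype.ext ?_⟩
      show vcode ⟨vecC p.1 p.2.1 p.2.2.1 p.2.2.2, hXmem p hpL⟩ = p
      have h1 := hveq ⟨vecC p.1 p.2.1 p.2.2.1 p.2.2.2, hXmem p hpL⟩
      have h3 := hvmem ⟨vecC p.1 p.2.1 p.2.2.1 p.2.2.2, hXmem p hpL⟩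
      generalize vcode ⟨vecC p.1 p.2.1 p.2.2.1 p.2.2.2, hXmem p hpL⟩ = q at h1 h3
      obtain ⟨p1, p2, p3, p4, _, _⟩ := sing2 p hpL
      obtain ⟨q1, q2, q3, q4, _, _⟩ := sing2 q h3
      have h4 := vecC_inj hinj p1 p2 p3 p4 q1 q2 q3 q4 h1
      exact (Prod.ext h4.1 (Prod.ext h4.2.1 (Prod.ext h4.2.2.1 h4.2.2.2))).symm
    rw [Nat.card_congr (Equiv.ofBijective f ⟨hfi, hfs⟩), Nat.card_eq_fintype_card,
      Fintype.card_coe, List.toFinset_card_of_nodup S5_nodup]
    rfl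
  haveI : Finite (X F) := Nat.finite_of_card_ne_zero (by rw [hXcard]; norm_num)
  apply Ord24.equiv_perm_of_faithful (X := X F) 5 hXcard (by rw [hcard]; rfl)
  intro g hg
  have hfixp : ∀ p ∈ S5, Matrix.mulVec (φ g) (vecC p.1 p.2.1 p.2.2.1 p.2.2.2 : ι → F) =
      vecC p.1 p.2.1 p.2.2.1 p.2.2.2 := by
    intro p hp
    have h1 := hg ⟨vecC p.1 p.2.1 p.2.2.1 p.2.2.2, hXmem p hp⟩
    exact congrArg Subtype.val h1
  have hfix4 : fix4 (code g) = true := by
    have a1 : Matrix.mulVec (φ g) (vecC 1 0 0 0 : ι → F) = vecC 1 0 0 0 :=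
      hfixp (1, 0, 0, 0) (by decide)
    have a2 : Matrix.mulVec (φ g) (vecC 0 1 0 0 : ι → F) = vecC 0 1 0 0 :=
      hfixp (0, 1, 0, 0) (by decide)
    have a3 : Matrix.mulVec (φ g) (vecC 1 1 1 0 : ι → F) = vecC 1 1 1 0 :=
      hfixp (1, 1, 1, 0) (by decide)
    have a4 : Matrix.mulVec (φ g) (vecC 1 1 0 1 : ι → F) = vecC 1 1 0 1 :=
      hfixp (1, 1, 0, 1) (by decide)
    rw [← hcmat, mulVec_vecC h2] at a1 a2 a3 a4
    have l1 := r_lt (code g) 1 0 0 0
    have l2 := r_lt (code g) 0 1 0 0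
    have l3 := r_lt (code g) 1 1 1 0
    have l4 := r_lt (code g) 1 1 0 1
    have b1 := vecC_inj hinj l1.1 l1.2.1 l1.2.2.1 l1.2.2.2 (by norm_num) (by norm_num)
      (by norm_num) (by norm_num) a1
    have b2 := vecC_inj hinj l2.1 l2.2.1 l2.2.2.1 l2.2.2.2 (by norm_num) (by norm_num)
      (by norm_num) (by norm_num) a2
    have b3 := vecC_inj hinj l3.1 l3.2.1 l3.2.2.1 l3.2.2.2 (by norm_num) (by norm_num)
      (by norm_num) (by norm_num) a3
    have b4 := vecC_inj hinj l4.1 l4.2.1 l4.2.2.1 l4.2.2.2 (by norm_num) (by norm_num)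
      (by norm_num) (by norm_num) a4
    unfold fix4
    rw [b1.1, b1.2.1, b1.2.2.1, b1.2.2.2, b2.1, b2.2.1, b2.2.2.1, b2.2.2.2, b3.1, b3.2.1, b3.2.2.1,
      b3.2.2.2, b4.1, b4.2.1, b4.2.2.1, b4.2.2.2]
    rfl
  have hI := fix_spec (code g) (hmemL g) hfix4
  apply φ_inj
  rw [← hcmat, hI, matC_one, map_one]

end Cfsg.Agent.Lib.Helper2.O4m
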