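import Mathlib

set_option autoImplicit false

namespace Cfsg.Agent.Lib.Helper2.OrdPQR

open Subgroup

theorem fact_r {p q r : ℕ} (hp : p.Prime) (hq : q.Prime) (hr : r.Prime) (hpr : p ≠ r)
    (hqr : q ≠ r) : (p * q * r).factorization r = 1 := by
  have h1 : p.factorization r = 0 := Nat.factorization_eq_zero_of_not_dvd
    (fun h => hpr ((Nat.prime_dvd_prime_iff_eq hr hp).1 h).symm)
  have h2 : q.factorization r = 0 := Nat.factorization_eq_zero_of_not_dvd
    (fun h => hqr ((Nat.prime_dvd_prime_iff_eq hr hq).1 h).symm)
  rw [Nat.factorization_mul (Nat.mul_ne_zero hp.ne_zero hq.ne_zero) hr.ne_zero,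
    Nat.factorization_mul hp.ne_zero hq.ne_zero]
  simp only [Finsupp.coe_add, Pi.add_apply]
  rw [h1, h2, hr.factorization_self]

theorem fact_q {p q : ℕ} (hp : p.Prime) (hq : q.Prime) (hpq : p ≠ q) :
    (p * q).factorization q = 1 := by
  have h1 : p.factorization q = 0 := Nat.factorization_eq_zero_of_not_dvd
    (fun h => hpq ((Nat.prime_dvd_prime_iff_eq hq hp).1 h).symm)
  rw [Nat.factorization_mul hp.ne_zero hq.ne_zero]
  simp only [Finsupp.coe_add, Pi.add_apply]
  rw [h1, hq.factorization_self]

theorem main {G : Type*} [Group G] [Finite G] (p q r : ℕ) (hp : p.Prime) (hq : q.Prime)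
    [hr : Fact r.Prime] (hpq : p < q) (hqr : q < r) (hG : Nat.card G = p * q * r)
    (R : Sylow r G) : (R : Subgroup G).Normal := by
  have hr' := hr.out
  have hRcard : Nat.card R = r := by
    rw [Sylow.card_eq_multiplicity, hG, fact_r hp hq hr' (by omega) (by omega), pow_one]
  have hcyc : IsCyclic R := isCyclic_of_prime_card hRcard
  have hn1 : Nat.card (Sylow r G) ≡ 1 [MOD r] := card_sylow_modEq_one r G
  have hidx : (R : Subgroup G).index = p * q := by
    have h := Subgroup.card_mul_index (R : Subgroup G)
    rw [hRcard, hG] at h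
    have h' : r * (R : Subgroup G).index = r * (p * q) := by rw [h]; ring
    exact Nat.eq_of_mul_eq_mul_left hr'.pos h'
  have hn2 : Nat.card (Sylow r G) ∣ p * q := by
    rw [← hidx]; exact Sylow.card_dvd_index R
  have hn3 : Nat.card (Sylow r G) = (Subgroup.normalizer (R : Set G)).index :=
    Sylow.card_eq_index_normalizer R
  have hn : Nat.card (Sylow r G) = 1 ∨ Nat.card (Sylow r G) = p * q := by
    obtain ⟨a, b, ha, hb, hab⟩ := (Nat.dvd_mul).1 hn2
    rcases (Nat.dvd_prime hp).1 ha with rfl | rfl <;>
      rcases (Nat.dvd_prime hq).1 hb with rfl | rfl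
    · left; rw [← hab]
    · exfalso
      rw [← hab] at hn1
      unfold Nat.ModEq at hn1
      rw [one_mul, Nat.mod_eq_of_lt hqr, Nat.mod_eq_of_lt hr'.one_lt] at hn1
      exact hq.ne_one hn1
    · exfalso
      rw [← hab, mul_one] at hn1
      unfold Nat.ModEq at hn1
      rw [Nat.mod_eq_of_lt (hpq.trans hqr), Nat.mod_eq_of_lt hr'.one_lt] at hn1
      exact hp.ne_one hn1
    · right; rw [← hab]
  rcases hn with h1 | hpq'
  · rw [hn3, Subgroup.index_eq_one] at h1
    exact Subgroup.normalizer_eq_top_iff.1 h1
  · exfalso
    have hN : Nat.card (Subgroup.normalizer (R : Set G)) = r := by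
      have h := Subgroup.card_mul_index (Subgroup.normalizer (R : Set G))
      rw [← hn3, hpq', hG] at h
      have h' : (p * q) * Nat.card (Subgroup.normalizer (R : Set G)) = (p * q) * r := by
        rw [← h]; ring
      exact Nat.eq_of_mul_eq_mul_left (Nat.mul_pos hp.pos hq.pos) h'
    have hRN' : (R : Subgroup G) = Subgroup.normalizer (R : Set G) := by
      apply Subgroup.eq_of_le_of_card_ge Subgroup.le_normalizer
      exact le_of_eq (hN.trans hRcard.symm)
    have hNC : Subgroup.normalizer (R : Set G) ≤ Subgroup.centralizer (R : Set G) := by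
      intro x hx
      rw [← hRN'] at hx
      rw [Subgroup.mem_centralizer_iff]
      intro y hy
      letI := hcyc.commGroup
      exact congrArg Subtype.val (mul_comm (⟨y, hy⟩ : (R : Subgroup G)) ⟨x, hx⟩)
    have hcompl := MonoidHom.ker_transferSylow_isComplement' R hNC
    have hK := hcompl.card_mul
    set K := (MonoidHom.transferSylow R hNC).ker with hKdef
    have hKcard : Nat.card K = p * q := by
      rw [hRcard, hG] at hK
      exact Nat.eq_of_mul_eq_mul_right hr'.pos hK
    have hKn : K.Normal := MonoidHom.normal_ker _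
    have hKidx : K.index = r := by
      have h := Subgroup.card_mul_index K
      rw [hKcard, hG] at h
      exact Nat.eq_of_mul_eq_mul_left (Nat.mul_pos hp.pos hq.pos) h
    haveI : Fact q.Prime := ⟨hq⟩
    have hQcard : ∀ Q : Sylow q G, Nat.card Q = q := by
      intro Q
      rw [Sylow.card_eq_multiplicity, hG, show p * q * r = p * r * q by ring,
        fact_r hp hr' hq (by omega) (by omega), pow_one]
    have hQK : ∀ Q : Sylow q G, (Q : Subgroup G) ≤ K := by
      intro Q x hx
      rw [← QuotientGroup.eq_one_iff (N := K), ← orderOf_eq_one_iff]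
      have h1 : orderOf ((x : G) : G ⧸ K) ∣ q := by
        have h2 := orderOf_map_dvd (QuotientGroup.mk' K) x
        have h3 : orderOf x ∣ q := by
          have := orderOf_dvd_natCard (⟨x, hx⟩ : (Q : Subgroup G))
          rwa [hQcard Q, Subgroup.orderOf_mk] at this
        exact h2.trans h3
      have h4 : orderOf ((x : G) : G ⧸ K) ∣ r := by
        have := orderOf_dvd_natCard ((x : G) : G ⧸ K)
        rwa [← Subgroup.index, hKidx] at this
      have hcop : Nat.Coprime q r := (Nat.coprime_primes hq hr').2 (by omega)
      exact Nat.eq_one_of_dvd_coprimes hcop h1 h4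
    have hsubK : Subsingleton (Sylow q K) := by
      obtain ⟨S⟩ : Nonempty (Sylow q K) := inferInstance
      have hS : Nat.card S = q := by
        rw [Sylow.card_eq_multiplicity, hKcard, fact_q hp hq (by omega), pow_one]
      have hidxS : (S : Subgroup K).index = p := by
        have h := Subgroup.card_mul_index (S : Subgroup K)
        rw [hS, hKcard] at h
        have h' : q * (S : Subgroup K).index = q * p := by rw [h]; ring
        exact Nat.eq_of_mul_eq_mul_left hq.pos h'
      have d1 : Nat.card (Sylow q K) ∣ p := by rw [← hidxS]; exact Sylow.card_dvd_index S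
      have d2 := card_sylow_modEq_one q K
      have h1 : Nat.card (Sylow q K) = 1 := by
        rcases (Nat.dvd_prime hp).1 d1 with h | h
        · exact h
        · rw [h] at d2
          unfold Nat.ModEq at d2
          rw [Nat.mod_eq_of_lt hpq, Nat.mod_eq_of_lt hq.one_lt] at d2
          exact absurd d2 hp.ne_one
      exact (Nat.card_eq_one_iff_unique.1 h1).1
    have hsub : Subsingleton (Sylow q G) := by
      constructor
      intro Q1 Q2
      have c1 : Nat.card ((Q1 : Subgroup G).subgroupOf K) = q ^ (Nat.card K).factorization q := by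
        rw [Nat.card_congr (Subgroup.subgroupOfEquivOfLe (hQK Q1)).toEquiv, hQcard Q1, hKcard,
          fact_q hp hq (by omega), pow_one]
      have c2 : Nat.card ((Q2 : Subgroup G).subgroupOf K) = q ^ (Nat.card K).factorization q := by
        rw [Nat.card_congr (Subgroup.subgroupOfEquivOfLe (hQK Q2)).toEquiv, hQcard Q2, hKcard,
          fact_q hp hq (by omega), pow_one]
      have e : Sylow.ofCard _ c1 = Sylow.ofCard _ c2 := Subsingleton.elim _ _
      have e' : (Q1 : Subgroup G).subgroupOf K = (Q2 : Subgroup G).subgroupOf K := by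
        have := congrArg (fun S : Sylow q K => (S : Subgroup K)) e
        simpa using this
      rw [Subgroup.subgroupOf_inj, inf_eq_left.2 (hQK Q1), inf_eq_left.2 (hQK Q2)] at e'
      exact Sylow.ext e'
    obtain ⟨Q⟩ : Nonempty (Sylow q G) := inferInstance
    haveI hQn : (Q : Subgroup G).Normal := Sylow.normal_of_subsingleton Q
    have hQcyc : IsCyclic Q := isCyclic_of_prime_card (hQcard Q)
    have hAut : Nat.card (MulAut Q) = q - 1 := by
      rw [hQcyc.card_mulAut, hQcard Q, Nat.totient_prime hq]
    have hQN : (Q : Subgroup G) ≤ Subgroup.normalizer (R : Set G) := by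
      intro y hy
      apply Subgroup.centralizer_le_normalizer
      rw [Subgroup.mem_centralizer_iff]
      intro x hx
      have h1 : orderOf (MulAut.conjNormal (H := (Q : Subgroup G)) x) ∣ r := by
        have h2 := orderOf_map_dvd (MulAut.conjNormal (H := (Q : Subgroup G))) x
        have h3 : orderOf x ∣ r := by
          have := orderOf_dvd_natCard (⟨x, hx⟩ : (R : Subgroup G))
          rwa [hRcard, Subgroup.orderOf_mk] at this
        exact h2.trans h3
      have h4 : orderOf (MulAut.conjNormal (H := (Q : Subgroup G)) x) ∣ q - 1 := by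
        rw [← hAut]; exact orderOf_dvd_natCard _
      have hcop : Nat.Coprime r (q - 1) := by
        rw [Nat.Prime.coprime_iff_not_dvd hr']
        intro hdvd
        have := Nat.le_of_dvd (by have := hq.one_lt; omega) hdvd
        omega
      have h5 := Nat.eq_one_of_dvd_coprimes hcop h1 h4
      rw [orderOf_eq_one_iff] at h5
      have h6 := congrArg
        (fun f : MulAut (Q : Subgroup G) => ((f ⟨y, hy⟩ : (Q : Subgroup G)) : G)) h5
      simp only [MulAut.conjNormal_apply, MulAut.one_apply] at h6
      calc x * y = (x * y * x⁻¹) * x := by group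
        _ = y * x := by rw [h6]
    have hdvd : q ∣ r := by
      have := Subgroup.card_dvd_of_le hQN
      rwa [hQcard Q, hN] at this
    rcases (Nat.dvd_prime hr').1 hdvd with h | h
    · exact hq.ne_one h
    · omega

end Cfsg.Agent.Lib.Helper2.OrdPQR
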