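import Mathlib

set_option autoImplicit false

namespace Cfsg.Agent.Lib.Helper2.PairAct

variable {G : Type*} [Group G]

@[reducible] def pairAction (P : Subgroup G) (c : G) (hc : c ∈ Subgroup.centralizer (P : Set G))
    (g h : G) :
    MulAction P {xy : G × G // IsConj g xy.1 ∧ IsConj h xy.2 ∧ xy.1 * xy.2 = c} where
  smul u xy := ⟨((u : G) * xy.1.1 * (u : G)⁻¹, (u : G) * xy.1.2 * (u : G)⁻¹),
    xy.2.1.trans (isConj_iff.2 ⟨(u : G), rfl⟩), xy.2.2.1.trans (isConj_iff.2 ⟨(u : G), rfl⟩), by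
      have h1 := (Subgroup.mem_centralizer_iff.1 hc) (u : G) u.2
      have h2 := xy.2.2.2
      calc (u : G) * xy.1.1 * (u : G)⁻¹ * ((u : G) * xy.1.2 * (u : G)⁻¹)
          = (u : G) * (xy.1.1 * xy.1.2) * (u : G)⁻¹ := by group
        _ = (u : G) * c * (u : G)⁻¹ := by rw [h2]
        _ = c := by rw [h1, mul_inv_cancel_right]⟩
  one_smul xy := by
    apply Subtype.ext
    apply Prod.ext
    · show ((1 : P) : G) * xy.1.1 * ((1 : P) : G)⁻¹ = xy.1.1
      simp
    · show ((1 : P) : G) * xy.1.2 * ((1 : P) : G)⁻¹ = xy.1.2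
      simp
  mul_smul u v xy := by
    apply Subtype.ext
    apply Prod.ext
    · show ((u * v : P) : G) * xy.1.1 * ((u * v : P) : G)⁻¹ =
        (u : G) * ((v : G) * xy.1.1 * (v : G)⁻¹) * (u : G)⁻¹
      push_cast
      group
    · show ((u * v : P) : G) * xy.1.2 * ((u * v : P) : G)⁻¹ =
        (u : G) * ((v : G) * xy.1.2 * (v : G)⁻¹) * (u : G)⁻¹
      push_cast
      group

theorem card_pairs_modEq [Finite G] (p : ℕ) [Fact p.Prime] (P : Subgroup G) (hP : IsPGroup p P)
    (c : G) (hc : c ∈ Subgroup.centralizer (P : Set G)) (g h : G) :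
    Nat.card {xy : G × G // IsConj g xy.1 ∧ IsConj h xy.2 ∧ xy.1 * xy.2 = c} ≡
      Nat.card {xy : G × G // IsConj g xy.1 ∧ IsConj h xy.2 ∧ xy.1 * xy.2 = c ∧
        xy.1 ∈ Subgroup.centralizer (P : Set G) ∧ xy.2 ∈ Subgroup.centralizer (P : Set G)}
      [MOD p] := by
  letI := pairAction P c hc g h
  have h1 := hP.card_modEq_card_fixedPoints
    {xy : G × G // IsConj g xy.1 ∧ IsConj h xy.2 ∧ xy.1 * xy.2 = c}
  have e : MulAction.fixedPoints P
      {xy : G × G // IsConj g xy.1 ∧ IsConj h xy.2 ∧ xy.1 * xy.2 = c} ≃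
      {xy : G × G // IsConj g xy.1 ∧ IsConj h xy.2 ∧ xy.1 * xy.2 = c ∧
        xy.1 ∈ Subgroup.centralizer (P : Set G) ∧ xy.2 ∈ Subgroup.centralizer (P : Set G)} :=
    { toFun := fun w => ⟨w.1.1, w.1.2.1, w.1.2.2.1, w.1.2.2.2, by
          rw [Subgroup.mem_centralizer_iff]
          intro u hu
          have h2 := congrArg (fun z : {xy : G × G // IsConj g xy.1 ∧ IsConj h xy.2 ∧
            xy.1 * xy.2 = c} => z.1.1) (w.2 ⟨u, hu⟩)
          have h3 : u * w.1.1.1 * u⁻¹ = w.1.1.1 := h2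
          calc u * w.1.1.1 = u * w.1.1.1 * u⁻¹ * u := by group
            _ = w.1.1.1 * u := by rw [h3], by
          rw [Subgroup.mem_centralizer_iff]
          intro u hu
          have h2 := congrArg (fun z : {xy : G × G // IsConj g xy.1 ∧ IsConj h xy.2 ∧
            xy.1 * xy.2 = c} => z.1.2) (w.2 ⟨u, hu⟩)
          have h3 : u * w.1.1.2 * u⁻¹ = w.1.1.2 := h2
          calc u * w.1.1.2 = u * w.1.1.2 * u⁻¹ * u := by group
            _ = w.1.1.2 * u := by rw [h3]⟩
      invFun := fun w => ⟨⟨w.1, w.2.1, w.2.2.1, w.2.2.2.1⟩, by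
          intro u
          apply Subtype.ext
          apply Prod.ext
          · show (u : G) * w.1.1 * (u : G)⁻¹ = w.1.1
            have := (Subgroup.mem_centralizer_iff.1 w.2.2.2.2.1) (u : G) u.2
            rw [this, mul_inv_cancel_right]
          · show (u : G) * w.1.2 * (u : G)⁻¹ = w.1.2
            have := (Subgroup.mem_centralizer_iff.1 w.2.2.2.2.2) (u : G) u.2
            rw [this, mul_inv_cancel_right]⟩
      left_inv := fun w => rfl
      right_inv := fun w => rfl }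
  rw [Nat.card_congr e] at h1
  exact h1

end Cfsg.Agent.Lib.Helper2.PairAct
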