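import Mathlib
import Cfsg.Agent.Lib.Helper2.ConjCount

set_option autoImplicit false

namespace Cfsg.Agent.Lib.Helper2.PairAct

open Cfsg.Agent.Lib.Helper2

variable {G : Type*} [Group G]

theorem dvd_card_of_dvd_orbits {H α : Type*} [Group H] [MulAction H α] [Finite α] (m : ℕ)
    (h : ∀ x : α, m ∣ Nat.card (MulAction.orbit H x)) : m ∣ Nat.card α := by
  classical
  haveI : Fintype (MulAction.orbitRel.Quotient H α) := Fintype.ofFinite _
  rw [Nat.card_congr (MulAction.selfEquivSigmaOrbits H α), Nat.card_sigma]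
  exact Finset.dvd_sum (fun ω _ => h _)

@[reducible] def pairAction2 (P : Subgroup G) (g h : G) :
    MulAction P {yz : G × G // IsConj g yz.1 ∧ IsConj h yz.2 ∧ yz.2 * yz.1⁻¹ ∈ P} where
  smul u xy := ⟨((u : G) * xy.1.1 * (u : G)⁻¹, (u : G) * xy.1.2 * (u : G)⁻¹),
    xy.2.1.trans (isConj_iff.2 ⟨(u : G), rfl⟩), xy.2.2.1.trans (isConj_iff.2 ⟨(u : G), rfl⟩), by
      have h2 := xy.2.2.2
      have e : (u : G) * xy.1.2 * (u : G)⁻¹ * ((u : G) * xy.1.1 * (u : G)⁻¹)⁻¹ =
          (u : G) * (xy.1.2 * xy.1.1⁻¹) * (u : G)⁻¹ := by group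
      rw [e]
      exact P.mul_mem (P.mul_mem u.2 h2) (P.inv_mem u.2)⟩
  one_smul xy := by
    apply Subtype.ext
    apply Prod.ext
    · show ((1 : P) : G) * xy.1.1 * ((1 : P) : G)⁻¹ = xy.1.1
      simp
    · show ((1 : P) : G) * xy.1.2 * ((1 : P) : G)⁻¹ = xy.1.2
      simp
  mul_smul u v xy := by
    apply Subtype.ext
    apply Prod.ext
    · show ((u * v : P) : G) * xy.1.1 * ((u * v : P) : G)⁻¹ =
        (u : G) * ((v : G) * xy.1.1 * (v : G)⁻¹) * (u : G)⁻¹
      push_cast
      group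
    · show ((u * v : P) : G) * xy.1.2 * ((u * v : P) : G)⁻¹ =
        (u : G) * ((v : G) * xy.1.2 * (v : G)⁻¹) * (u : G)⁻¹
      push_cast
      group

theorem card_centralizer_eq_of_isConj [Finite G] {g y : G} (hgy : IsConj g y) :
    Nat.card (Subgroup.centralizer ({y} : Set G)) = Nat.card (Subgroup.centralizer ({g} : Set G)) := by
  have h1 := ConjCount.card_conj_mul_card_centralizer g
  have h2 := ConjCount.card_conj_mul_card_centralizer y
  have e : Nat.card {w : G // IsConj y w} = Nat.card {w : G // IsConj g w} :=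
    Nat.card_congr (Equiv.subtypeEquivRight (fun w =>
      ⟨fun h => hgy.trans h, fun h => hgy.symm.trans h⟩))
  rw [e, ← h1] at h2
  have hpos : 0 < Nat.card {w : G // IsConj g w} :=
    Nat.card_pos_iff.2 ⟨⟨⟨g, IsConj.refl g⟩⟩, inferInstance⟩
  exact Nat.eq_of_mul_eq_mul_left hpos h2

theorem card_pairs_dvd [Finite G] (p : ℕ) [Fact p.Prime] (P : Sylow p G) (g h : G)
    (S : Sylow p (Subgroup.centralizer ({g} : Set G))) :
    Nat.card P / Nat.card S ∣ Nat.card {yz : G × G // IsConj g yz.1 ∧ IsConj h yz.2 ∧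
      yz.2 * yz.1⁻¹ ∈ (P : Subgroup G)} := by
  have hp : p.Prime := Fact.out
  letI := pairAction2 (P : Subgroup G) g h
  apply dvd_card_of_dvd_orbits (H := ↥(P : Subgroup G))
  intro ω
  have h1 : Nat.card (MulAction.orbit ↥(P : Subgroup G) ω) *
      Nat.card (MulAction.stabilizer ↥(P : Subgroup G) ω) = Nat.card ↥(P : Subgroup G) := by
    rw [Nat.card_coe_set_eq, ← MulAction.index_stabilizer]
    exact Subgroup.index_mul_card _
  have hS := S.card_eq_multiplicity
  have hPc := P.card_eq_multiplicity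
  have hstab_p : IsPGroup p (MulAction.stabilizer ↥(P : Subgroup G) ω) :=
    P.isPGroup'.to_subgroup _
  obtain ⟨a, ha⟩ := IsPGroup.iff_card.1 hstab_p
  let φ : MulAction.stabilizer ↥(P : Subgroup G) ω →* Subgroup.centralizer ({ω.1.1} : Set G) :=
    { toFun := fun u => ⟨((u : ↥(P : Subgroup G)) : G), by
        rw [Subgroup.mem_centralizer_singleton_iff]
        have h2 := congrArg (fun z : {yz : G × G // IsConj g yz.1 ∧ IsConj h yz.2 ∧
          yz.2 * yz.1⁻¹ ∈ (P : Subgroup G)} => z.1.1) u.2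
        have h3 : ((u : ↥(P : Subgroup G)) : G) * ω.1.1 * ((u : ↥(P : Subgroup G)) : G)⁻¹ =
            ω.1.1 := h2
        calc ((u : ↥(P : Subgroup G)) : G) * ω.1.1
            = ((u : ↥(P : Subgroup G)) : G) * ω.1.1 * ((u : ↥(P : Subgroup G)) : G)⁻¹ *
              ((u : ↥(P : Subgroup G)) : G) := by group
          _ = ω.1.1 * ((u : ↥(P : Subgroup G)) : G) := by rw [h3]⟩
      map_one' := rfl
      map_mul' := fun _ _ => rfl }
  have hφ : Function.Injective φ := by
    intro u v huv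
    have := congrArg Subtype.val huv
    exact Subtype.ext (Subtype.ext this)
  have hd1 : Nat.card (MulAction.stabilizer ↥(P : Subgroup G) ω) ∣
      Nat.card (Subgroup.centralizer ({ω.1.1} : Set G)) := Subgroup.card_dvd_of_injective φ hφ
  rw [card_centralizer_eq_of_isConj ω.2.1, ha] at hd1
  have hd2 : Nat.card (MulAction.stabilizer ↥(P : Subgroup G) ω) ∣ Nat.card S := by
    rw [ha, hS]
    exact pow_dvd_pow p ((hp.pow_dvd_iff_le_factorization Nat.card_pos.ne').1 hd1)
  have hd3 : Nat.card S ∣ Nat.card P := by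
    rw [hS, hPc]
    apply pow_dvd_pow p
    apply (hp.pow_dvd_iff_le_factorization Nat.card_pos.ne').1
    exact (Nat.ordProj_dvd _ p).trans (Subgroup.card_subgroup_dvd_card _)
  have h4 : Nat.card (MulAction.orbit ↥(P : Subgroup G) ω) =
      Nat.card P / Nat.card (MulAction.stabilizer ↥(P : Subgroup G) ω) := by
    rw [← h1, Nat.mul_div_cancel _ Nat.card_pos]
  rw [h4]
  exact Nat.div_dvd_div_left hd3 hd2

end Cfsg.Agent.Lib.Helper2.PairAct
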