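import Mathlib
import Cfsg.Prelude.Def_ClassicalGeometry

set_option autoImplicit false

namespace Cfsg.Agent.Lib.Helper2.Parab

open Matrix

variable {F : Type*} [Field F]

def eidx {n k m : ℕ} (h : k + m = n) : Fin k ⊕ Fin m ≃ Fin n :=
  finSumFinEquiv.trans (finCongr h)

theorem eidx_inl {n k m : ℕ} (h : k + m = n) (i : Fin k) :
    ((eidx h (Sum.inl i) : Fin n) : ℕ) = i := by
  simp [eidx]

theorem eidx_inr {n k m : ℕ} (h : k + m = n) (j : Fin m) :
    ((eidx h (Sum.inr j) : Fin n) : ℕ) = k + j := by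
  simp [eidx]

theorem U_iff {n k m : ℕ} (h : k + m = n) (v : Fin n → F) :
    (∀ i : Fin n, k ≤ (i : ℕ) → v i = 0) ↔ ∀ j : Fin m, v (eidx h (Sum.inr j)) = 0 := by
  constructor
  · intro hv j
    exact hv _ (by rw [eidx_inr]; omega)
  · intro hv i hi
    have hi2 : i = eidx h (Sum.inr ⟨i - k, by omega⟩) := by
      apply Fin.ext
      rw [eidx_inr]
      simp only
      omega
    rw [hi2]
    exact hv _

theorem block_stab {n k m : ℕ} (h : k + m = n) (A : Matrix (Fin k) (Fin k) F)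
    (B : Matrix (Fin k) (Fin m) F) (D : Matrix (Fin m) (Fin m) F) (hD : D.det ≠ 0)
    (v : Fin n → F) :
    (∀ i : Fin n, k ≤ (i : ℕ) → v i = 0) ↔
      (∀ i : Fin n, k ≤ (i : ℕ) →
        (((Matrix.fromBlocks A B 0 D).submatrix (eidx h).symm (eidx h).symm) *ᵥ v) i = 0) := by
  rw [U_iff h, U_iff h]
  have key : ∀ j : Fin m,
      (((Matrix.fromBlocks A B 0 D).submatrix (eidx h).symm (eidx h).symm) *ᵥ v)
        (eidx h (Sum.inr j)) = (D *ᵥ ((v ∘ eidx h) ∘ Sum.inr)) j := by
    intro j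
    rw [Matrix.submatrix_mulVec_equiv, Function.comp_apply, Equiv.symm_apply_apply,
      Equiv.symm_symm, Matrix.fromBlocks_mulVec, Sum.elim_inr, Matrix.zero_mulVec, zero_add]
  simp only [key]
  constructor
  · intro hv j
    have h0 : (v ∘ eidx h) ∘ Sum.inr = 0 := funext hv
    rw [h0, Matrix.mulVec_zero]
    rfl
  · intro hv j
    have h0 : D *ᵥ ((v ∘ eidx h) ∘ Sum.inr) = 0 := funext hv
    have h1 : D⁻¹ *ᵥ (D *ᵥ ((v ∘ eidx h) ∘ Sum.inr)) = (v ∘ eidx h) ∘ Sum.inr := by
      rw [Matrix.mulVec_mulVec, Matrix.nonsing_inv_mul _ (isUnit_iff_ne_zero.2 hD),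
        Matrix.one_mulVec]
    rw [h0, Matrix.mulVec_zero] at h1
    exact (congrFun h1 j).symm

theorem card_parab [Fintype F] {n k m : ℕ} (h : k + m = n) :
    Nat.card ↥(Cfsg.stabilizing (Cfsg.glToMat (Fin n) F)
      {v : Fin n → F | ∀ i : Fin n, k ≤ (i : ℕ) → v i = 0}) =
      Nat.card (Matrix.GeneralLinearGroup (Fin k) F) *
        Nat.card (Matrix.GeneralLinearGroup (Fin m) F) *
        Nat.card (Matrix (Fin k) (Fin m) F) := by
  classical
  rw [← Nat.card_prod, ← Nat.card_prod]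
  have hC : ∀ g : ↥(Cfsg.stabilizing (Cfsg.glToMat (Fin n) F)
      {v : Fin n → F | ∀ i : Fin n, k ≤ (i : ℕ) → v i = 0}),
      (((g.1 : Matrix.GeneralLinearGroup (Fin n) F) : Matrix (Fin n) (Fin n) F).submatrix
        (eidx h) (eidx h)).toBlocks₂₁ = 0 := by
    intro g
    ext j' j
    show ((g.1 : Matrix.GeneralLinearGroup (Fin n) F) : Matrix (Fin n) (Fin n) F)
      (eidx h (Sum.inr j')) (eidx h (Sum.inl j)) = 0
    have h1 := (g.2 (Pi.single (eidx h (Sum.inl j)) 1)).1 (by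
      intro i hi
      apply Pi.single_eq_of_ne
      intro e
      have h2 := eidx_inl h j
      rw [← e] at h2
      have h3 := j.2
      omega) (eidx h (Sum.inr j')) (by rw [eidx_inr]; omega)
    have h2 : (((g.1 : Matrix.GeneralLinearGroup (Fin n) F) : Matrix (Fin n) (Fin n) F) *ᵥ
        Pi.single (eidx h (Sum.inl j)) 1) (eidx h (Sum.inr j')) = 0 := h1
    rw [Matrix.mulVec_single_one] at h2
    exact h2
  have hform : ∀ g : ↥(Cfsg.stabilizing (Cfsg.glToMat (Fin n) F)
      {v : Fin n → F | ∀ i : Fin n, k ≤ (i : ℕ) → v i = 0}),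
      ((g.1 : Matrix.GeneralLinearGroup (Fin n) F) : Matrix (Fin n) (Fin n) F).submatrix
        (eidx h) (eidx h) =
      Matrix.fromBlocks
        (((g.1 : Matrix.GeneralLinearGroup (Fin n) F) : Matrix (Fin n) (Fin n) F).submatrix
          (eidx h) (eidx h)).toBlocks₁₁
        (((g.1 : Matrix.GeneralLinearGroup (Fin n) F) : Matrix (Fin n) (Fin n) F).submatrix
          (eidx h) (eidx h)).toBlocks₁₂ 0
        (((g.1 : Matrix.GeneralLinearGroup (Fin n) F) : Matrix (Fin n) (Fin n) F).submatrix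
          (eidx h) (eidx h)).toBlocks₂₂ := by
    intro g
    conv_lhs => rw [← Matrix.fromBlocks_toBlocks (((g.1 : Matrix.GeneralLinearGroup (Fin n) F) :
      Matrix (Fin n) (Fin n) F).submatrix (eidx h) (eidx h)), hC g]
  have hdet : ∀ g : ↥(Cfsg.stabilizing (Cfsg.glToMat (Fin n) F)
      {v : Fin n → F | ∀ i : Fin n, k ≤ (i : ℕ) → v i = 0}),
      (((g.1 : Matrix.GeneralLinearGroup (Fin n) F) : Matrix (Fin n) (Fin n) F).submatrix
          (eidx h) (eidx h)).toBlocks₁₁.det *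
        (((g.1 : Matrix.GeneralLinearGroup (Fin n) F) : Matrix (Fin n) (Fin n) F).submatrix
          (eidx h) (eidx h)).toBlocks₂₂.det ≠ 0 := by
    intro g
    rw [← Matrix.det_fromBlocks_zero₂₁ _ (((g.1 : Matrix.GeneralLinearGroup (Fin n) F) :
      Matrix (Fin n) (Fin n) F).submatrix (eidx h) (eidx h)).toBlocks₁₂, ← hform g,
      Matrix.det_submatrix_equiv_self]
    exact ((Matrix.isUnit_iff_isUnit_det _).1 (Units.isUnit g.1)).ne_zero
  have hdet' : ∀ x : (Matrix.GeneralLinearGroup (Fin k) F × Matrix.GeneralLinearGroup (Fin m) F) ×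
      Matrix (Fin k) (Fin m) F,
      ((Matrix.fromBlocks (x.1.1 : Matrix (Fin k) (Fin k) F) x.2 0
        (x.1.2 : Matrix (Fin m) (Fin m) F)).submatrix (eidx h).symm (eidx h).symm).det ≠ 0 := by
    intro x
    rw [Matrix.det_submatrix_equiv_self, Matrix.det_fromBlocks_zero₂₁]
    exact mul_ne_zero ((Matrix.isUnit_iff_isUnit_det _).1 (Units.isUnit x.1.1)).ne_zero
      ((Matrix.isUnit_iff_isUnit_det _).1 (Units.isUnit x.1.2)).ne_zero
  refine Nat.card_congr
    { toFun := fun g =>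
        ((Matrix.GeneralLinearGroup.mkOfDetNeZero _ (left_ne_zero_of_mul (hdet g)),
          Matrix.GeneralLinearGroup.mkOfDetNeZero _ (right_ne_zero_of_mul (hdet g))),
          (((g.1 : Matrix.GeneralLinearGroup (Fin n) F) : Matrix (Fin n) (Fin n) F).submatrix
            (eidx h) (eidx h)).toBlocks₁₂)
      invFun := fun x => ⟨Matrix.GeneralLinearGroup.mkOfDetNeZero _ (hdet' x), fun v =>
        block_stab h _ _ _ ((Matrix.isUnit_iff_isUnit_det _).1 (Units.isUnit x.1.2)).ne_zero v⟩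
      left_inv := ?_
      right_inv := ?_ }
  · intro g
    apply Subtype.ext
    apply Units.ext
    show (Matrix.fromBlocks _ _ 0 _).submatrix (eidx h).symm (eidx h).symm =
      ((g.1 : Matrix.GeneralLinearGroup (Fin n) F) : Matrix (Fin n) (Fin n) F)
    have h1 := hform g
    have h2 : (Matrix.fromBlocks
        (((g.1 : Matrix.GeneralLinearGroup (Fin n) F) : Matrix (Fin n) (Fin n) F).submatrix
          (eidx h) (eidx h)).toBlocks₁₁
        (((g.1 : Matrix.GeneralLinearGroup (Fin n) F) : Matrix (Fin n) (Fin n) F).submatrix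
          (eidx h) (eidx h)).toBlocks₁₂ 0
        (((g.1 : Matrix.GeneralLinearGroup (Fin n) F) : Matrix (Fin n) (Fin n) F).submatrix
          (eidx h) (eidx h)).toBlocks₂₂).submatrix (eidx h).symm (eidx h).symm =
        ((g.1 : Matrix.GeneralLinearGroup (Fin n) F) : Matrix (Fin n) (Fin n) F) := by
      rw [← h1, Matrix.submatrix_submatrix, Equiv.self_comp_symm, Matrix.submatrix_id_id]
    exact h2
  · intro x
    have h1 : ((Matrix.fromBlocks (x.1.1 : Matrix (Fin k) (Fin k) F) x.2 0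
        (x.1.2 : Matrix (Fin m) (Fin m) F)).submatrix (eidx h).symm (eidx h).symm).submatrix
        (eidx h) (eidx h) = Matrix.fromBlocks (x.1.1 : Matrix (Fin k) (Fin k) F) x.2 0
        (x.1.2 : Matrix (Fin m) (Fin m) F) := by
      rw [Matrix.submatrix_submatrix, Equiv.symm_comp_self, Matrix.submatrix_id_id]
    refine Prod.ext (Prod.ext ?_ ?_) ?_
    · apply Units.ext
      show (((Matrix.fromBlocks (x.1.1 : Matrix (Fin k) (Fin k) F) x.2 0
        (x.1.2 : Matrix (Fin m) (Fin m) F)).submatrix (eidx h).symm (eidx h).symm).submatrix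
        (eidx h) (eidx h)).toBlocks₁₁ = _
      rw [h1, Matrix.toBlocks_fromBlocks₁₁]
    · apply Units.ext
      show (((Matrix.fromBlocks (x.1.1 : Matrix (Fin k) (Fin k) F) x.2 0
        (x.1.2 : Matrix (Fin m) (Fin m) F)).submatrix (eidx h).symm (eidx h).symm).submatrix
        (eidx h) (eidx h)).toBlocks₂₂ = _
      rw [h1, Matrix.toBlocks_fromBlocks₂₂]
    · show (((Matrix.fromBlocks (x.1.1 : Matrix (Fin k) (Fin k) F) x.2 0
        (x.1.2 : Matrix (Fin m) (Fin m) F)).submatrix (eidx h).symm (eidx h).symm).submatrix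
        (eidx h) (eidx h)).toBlocks₁₂ = _
      rw [h1, Matrix.toBlocks_fromBlocks₁₂]

theorem main [Fintype F] {q : ℕ} (hF : Fintype.card F = q) (n k : ℕ) (hk : k ≤ n) :
    Nat.card ↥(Cfsg.stabilizing (Cfsg.glToMat (Fin n) F)
      {v : Fin n → F | ∀ i : Fin n, k ≤ (i : ℕ) → v i = 0}) =
      q ^ (k * (n - k)) * (∏ i : Fin k, (q ^ k - q ^ (i : ℕ))) *
        ∏ i : Fin (n - k), (q ^ (n - k) - q ^ (i : ℕ)) := by
  have h : k + (n - k) = n := by omega
  rw [card_parab h, Matrix.card_GL_field, Matrix.card_GL_field, hF]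
  have hmat : Nat.card (Matrix (Fin k) (Fin (n - k)) F) = q ^ (k * (n - k)) := by
    show Nat.card (Fin k → Fin (n - k) → F) = q ^ (k * (n - k))
    rw [Nat.card_fun, Nat.card_fun, Nat.card_eq_fintype_card, Nat.card_eq_fintype_card,
      Nat.card_eq_fintype_card, Fintype.card_fin, Fintype.card_fin, hF, ← pow_mul, mul_comm]
  rw [hmat]
  ring

end Cfsg.Agent.Lib.Helper2.Parab
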