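import Mathlib
import Cfsg.Agent.Lib.Helper2.Parab
import Cfsg.Agent.Lib.Helper2.SylowAux

set_option autoImplicit false

namespace Cfsg.Agent.Lib.Helper2.Parab

open Matrix

variable {F : Type*} [Field F]

abbrev Pj (F : Type*) [Field F] (n j : ℕ) : Subgroup (Matrix.GeneralLinearGroup (Fin n) F) :=
  Cfsg.stabilizing (Cfsg.glToMat (Fin n) F) {v : Fin n → F | ∀ i : Fin n, j ≤ (i : ℕ) → v i = 0}

theorem mem_Pj {n j : ℕ} (g : Matrix.GeneralLinearGroup (Fin n) F) :
    g ∈ Pj F n j ↔ ∀ v : Fin n → F, (∀ i : Fin n, j ≤ (i : ℕ) → v i = 0) ↔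
      (∀ i : Fin n, j ≤ (i : ℕ) → ((g : Matrix (Fin n) (Fin n) F) *ᵥ v) i = 0) :=
  Iff.rfl

theorem mem_iff_zero {n j : ℕ} (hj : j ≤ n) (g : Matrix.GeneralLinearGroup (Fin n) F) :
    g ∈ Pj F n j ↔ ∀ i l : Fin n, j ≤ (i : ℕ) → (l : ℕ) < j →
      (g : Matrix (Fin n) (Fin n) F) i l = 0 := by
  classical
  constructor
  · intro hg i l hi hl
    have h1 := ((mem_Pj g).1 hg (Pi.single l 1)).1 (by
      intro m hm
      apply Pi.single_eq_of_ne
      intro e
      rw [e] at hm
      omega) i hi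
    rw [Matrix.mulVec_single_one] at h1
    exact h1
  · intro hz
    have h : j + (n - j) = n := by omega
    have hC : ((g : Matrix (Fin n) (Fin n) F).submatrix (eidx h) (eidx h)).toBlocks₂₁ = 0 := by
      ext a b
      exact hz _ _ (by rw [eidx_inr]; omega) (by rw [eidx_inl]; exact b.2)
    have hform : (g : Matrix (Fin n) (Fin n) F).submatrix (eidx h) (eidx h) =
        Matrix.fromBlocks
          ((g : Matrix (Fin n) (Fin n) F).submatrix (eidx h) (eidx h)).toBlocks₁₁
          ((g : Matrix (Fin n) (Fin n) F).submatrix (eidx h) (eidx h)).toBlocks₁₂ 0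
          ((g : Matrix (Fin n) (Fin n) F).submatrix (eidx h) (eidx h)).toBlocks₂₂ := by
      conv_lhs => rw [← Matrix.fromBlocks_toBlocks
        ((g : Matrix (Fin n) (Fin n) F).submatrix (eidx h) (eidx h)), hC]
    have hdet : ((g : Matrix (Fin n) (Fin n) F).submatrix (eidx h) (eidx h)).toBlocks₁₁.det *
        ((g : Matrix (Fin n) (Fin n) F).submatrix (eidx h) (eidx h)).toBlocks₂₂.det ≠ 0 := by
      rw [← Matrix.det_fromBlocks_zero₂₁ _
        ((g : Matrix (Fin n) (Fin n) F).submatrix (eidx h) (eidx h)).toBlocks₁₂, ← hform,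
        Matrix.det_submatrix_equiv_self]
      exact ((Matrix.isUnit_iff_isUnit_det _).1 (Units.isUnit g)).ne_zero
    have hg' : (g : Matrix (Fin n) (Fin n) F) = (Matrix.fromBlocks
          ((g : Matrix (Fin n) (Fin n) F).submatrix (eidx h) (eidx h)).toBlocks₁₁
          ((g : Matrix (Fin n) (Fin n) F).submatrix (eidx h) (eidx h)).toBlocks₁₂ 0
          ((g : Matrix (Fin n) (Fin n) F).submatrix (eidx h) (eidx h)).toBlocks₂₂).submatrix
          (eidx h).symm (eidx h).symm := by
      rw [← hform, Matrix.submatrix_submatrix, Equiv.self_comp_symm, Matrix.submatrix_id_id]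
    rw [mem_Pj]
    intro v
    rw [hg']
    exact block_stab h _ _ _ (right_ne_zero_of_mul hdet) v

def revM {n : ℕ} (M : Matrix (Fin n) (Fin n) F) : Matrix (Fin n) (Fin n) F :=
  (Mᵀ).submatrix Fin.revPerm Fin.revPerm

theorem revM_apply {n : ℕ} (M : Matrix (Fin n) (Fin n) F) (i l : Fin n) :
    revM M i l = M (Fin.rev l) (Fin.rev i) := rfl

theorem revM_mul {n : ℕ} (M N : Matrix (Fin n) (Fin n) F) :
    revM (M * N) = revM N * revM M := by
  unfold revM
  rw [Matrix.transpose_mul, Matrix.submatrix_mul_equiv]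

theorem revM_one {n : ℕ} : revM (1 : Matrix (Fin n) (Fin n) F) = 1 := by
  unfold revM
  rw [Matrix.transpose_one, Matrix.submatrix_one_equiv]

theorem revM_revM {n : ℕ} (M : Matrix (Fin n) (Fin n) F) : revM (revM M) = M := by
  ext i l
  rw [revM_apply, revM_apply, Fin.rev_rev, Fin.rev_rev]

def Phi {n : ℕ} (g : Matrix.GeneralLinearGroup (Fin n) F) : Matrix.GeneralLinearGroup (Fin n) F :=
  ⟨revM ((g⁻¹ : Matrix.GeneralLinearGroup (Fin n) F) : Matrix (Fin n) (Fin n) F),
    revM (g : Matrix (Fin n) (Fin n) F),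
    by rw [← revM_mul, Units.mul_inv, revM_one],
    by rw [← revM_mul, Units.inv_mul, revM_one]⟩

theorem Phi_val {n : ℕ} (g : Matrix.GeneralLinearGroup (Fin n) F) :
    ((Phi g : Matrix.GeneralLinearGroup (Fin n) F) : Matrix (Fin n) (Fin n) F) =
      revM ((g⁻¹ : Matrix.GeneralLinearGroup (Fin n) F) : Matrix (Fin n) (Fin n) F) := rfl

theorem Phi_inv_val {n : ℕ} (g : Matrix.GeneralLinearGroup (Fin n) F) :
    (((Phi g)⁻¹ : Matrix.GeneralLinearGroup (Fin n) F) : Matrix (Fin n) (Fin n) F) =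
      revM (g : Matrix (Fin n) (Fin n) F) := rfl

theorem Phi_mul {n : ℕ} (g h : Matrix.GeneralLinearGroup (Fin n) F) :
    Phi (g * h) = Phi g * Phi h := by
  apply Units.ext
  rw [Units.val_mul, Phi_val, Phi_val, Phi_val, _root_.mul_inv_rev, Units.val_mul, revM_mul]

theorem Phi_Phi {n : ℕ} (g : Matrix.GeneralLinearGroup (Fin n) F) : Phi (Phi g) = g := by
  apply Units.ext
  rw [Phi_val, Phi_inv_val, revM_revM]

theorem Phi_mem {n k : ℕ} (hk : k ≤ n) (g : Matrix.GeneralLinearGroup (Fin n) F)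
    (hg : g ∈ Pj F n k) : Phi g ∈ Pj F n (n - k) := by
  rw [mem_iff_zero (Nat.sub_le n k)]
  intro i l hi hl
  rw [Phi_val, revM_apply]
  have hg' : g⁻¹ ∈ Pj F n k := Subgroup.inv_mem _ hg
  refine (mem_iff_zero hk _).1 hg' _ _ ?_ ?_
  · rw [Fin.val_rev]
    omega
  · rw [Fin.val_rev]
    have := i.2
    omega

theorem iso (n k : ℕ) (hk : k ≤ n) :
    Nonempty (↥(Pj F n k) ≃* ↥(Pj F n (n - k))) := by
  have hk' : n - (n - k) = k := Nat.sub_sub_self hk
  exact ⟨{ toFun := fun g => ⟨Phi g.1, Phi_mem hk g.1 g.2⟩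
           invFun := fun g => ⟨Phi g.1, by
             have h1 := Phi_mem (Nat.sub_le n k) g.1 g.2
             rwa [hk'] at h1⟩
           left_inv := fun g => Subtype.ext (Phi_Phi _)
           right_inv := fun g => Subtype.ext (Phi_Phi _)
           map_mul' := fun g h => Subtype.ext (Phi_mul _ _) }⟩

theorem zero_block_singular [Fintype F] {n a b : ℕ} (hab : n < a + b) (ha : a ≤ n) (hb : b ≤ n)
    (g : Matrix.GeneralLinearGroup (Fin n) F)
    (hz : ∀ i l : Fin n, n - a ≤ (i : ℕ) → (l : ℕ) < b →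
      (g : Matrix (Fin n) (Fin n) F) i l = 0) : False := by
  classical
  obtain ⟨inj, hinj⟩ : ∃ inj : (Fin b → F) → (Fin n → F),
      inj = fun (c : Fin b → F) (i : Fin n) => if h : (i : ℕ) < b then c ⟨i, h⟩ else 0 :=
    ⟨_, rfl⟩
  have hna : n - a ≤ n := Nat.sub_le n a
  obtain ⟨f, hf⟩ : ∃ f : (Fin b → F) → (Fin (n - a) → F),
      f = fun (c : Fin b → F) (r : Fin (n - a)) =>
        ((g : Matrix (Fin n) (Fin n) F) *ᵥ inj c) ⟨r, by omega⟩ := ⟨_, rfl⟩
  have hq : 1 < Fintype.card F := Fintype.one_lt_card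
  have hcard : Fintype.card (Fin (n - a) → F) < Fintype.card (Fin b → F) := by
    rw [Fintype.card_fun, Fintype.card_fun, Fintype.card_fin, Fintype.card_fin]
    exact Nat.pow_lt_pow_right hq (by omega)
  obtain ⟨c, c', hne, hcc⟩ := Fintype.exists_ne_map_eq_of_card_lt f hcard
  apply hne
  have hzero : ∀ (c : Fin b → F) (i : Fin n), n - a ≤ (i : ℕ) →
      ((g : Matrix (Fin n) (Fin n) F) *ᵥ inj c) i = 0 := by
    intro c i hi
    rw [Matrix.mulVec, dotProduct]
    apply Finset.sum_eq_zero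
    intro l _
    by_cases hl : (l : ℕ) < b
    · rw [hz i l hi hl, zero_mul]
    · rw [hinj]
      simp only
      rw [dif_neg hl, mul_zero]
  have heq : (g : Matrix (Fin n) (Fin n) F) *ᵥ inj c = (g : Matrix (Fin n) (Fin n) F) *ᵥ inj c' := by
    funext i
    by_cases hi : (i : ℕ) < n - a
    · have h1 := congrFun hcc ⟨i, hi⟩
      rw [hf] at h1
      exact h1
    · rw [hzero c i (not_lt.1 hi), hzero c' i (not_lt.1 hi)]
  have heq2 : inj c = inj c' := by
    have h1 := congrArg (fun x => ((g⁻¹ : Matrix.GeneralLinearGroup (Fin n) F) :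
      Matrix (Fin n) (Fin n) F) *ᵥ x) heq
    simp only [Matrix.mulVec_mulVec, Units.inv_mul, Matrix.one_mulVec] at h1
    exact h1
  funext r
  have h2 := congrFun heq2 ⟨r, by have := r.2; omega⟩
  rw [hinj] at h2
  simp only at h2
  rw [dif_pos r.2, dif_pos r.2] at h2
  exact h2

theorem trans_mulVec {n : ℕ} (l i : Fin n) (c : F) (v : Fin n → F) :
    Matrix.transvection l i c *ᵥ v = v + (c * v i) • Pi.single l 1 := by
  classical
  unfold Matrix.transvection
  rw [Matrix.add_mulVec, Matrix.one_mulVec]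
  congr 1
  ext m
  rw [Matrix.mulVec, dotProduct, Finset.sum_eq_single i]
  · rw [Matrix.single_apply, Pi.smul_apply, Pi.single_apply, smul_eq_mul]
    by_cases hm : m = l
    · rw [if_pos ⟨hm.symm, rfl⟩, if_pos hm, mul_one]
    · rw [if_neg (fun h => hm h.1.symm), if_neg hm, mul_zero, zero_mul]
  · intro b _ hb
    rw [Matrix.single_apply, if_neg (fun h => hb h.2.symm), zero_mul]
  · intro h
    exact absurd (Finset.mem_univ i) h

theorem minimal {n j : ℕ} (X : Set (Fin n → F))
    (hsub : ∀ x ∈ X, ∀ y ∈ X, x - y ∈ X) (hsmul : ∀ (c : F), ∀ x ∈ X, c • x ∈ X)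
    (hinv : ∀ h ∈ Pj F n j, ∀ x ∈ X, (h : Matrix (Fin n) (Fin n) F) *ᵥ x ∈ X)
    (v : Fin n → F) (hv : v ∈ X) (hv0 : v ≠ 0) (l : Fin n) (hl : (l : ℕ) < j) :
    (Pi.single l 1 : Fin n → F) ∈ X := by
  classical
  by_cases hcase : ∃ i, i ≠ l ∧ v i ≠ 0
  · obtain ⟨i, hil, hvi⟩ := hcase
    have hdet : (Matrix.transvection l i (v i)⁻¹).det ≠ 0 := by
      rw [Matrix.det_transvection_of_ne _ _ (Ne.symm hil)]
      exact one_ne_zero
    have hmem : Matrix.GeneralLinearGroup.mkOfDetNeZero _ hdet ∈ Pj F n j := by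
      rw [mem_Pj]
      intro w
      have hw : ∀ m : Fin n, j ≤ (m : ℕ) →
          (((Matrix.GeneralLinearGroup.mkOfDetNeZero _ hdet :
            Matrix.GeneralLinearGroup (Fin n) F) : Matrix (Fin n) (Fin n) F) *ᵥ w) m = w m := by
        intro m hm
        show (Matrix.transvection l i (v i)⁻¹ *ᵥ w) m = w m
        rw [trans_mulVec, Pi.add_apply, Pi.smul_apply, Pi.single_eq_of_ne (by
          intro e
          rw [e] at hm
          omega), smul_zero, add_zero]
      constructor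
      · intro h1 m hm
        rw [hw m hm]
        exact h1 m hm
      · intro h1 m hm
        rw [← hw m hm]
        exact h1 m hm
    have h1 := hinv _ hmem v hv
    have h2 : ((Matrix.GeneralLinearGroup.mkOfDetNeZero _ hdet :
        Matrix.GeneralLinearGroup (Fin n) F) : Matrix (Fin n) (Fin n) F) *ᵥ v =
        v + Pi.single l 1 := by
      show Matrix.transvection l i (v i)⁻¹ *ᵥ v = v + Pi.single l 1
      rw [trans_mulVec, inv_mul_cancel₀ hvi, one_smul]
    rw [h2] at h1
    have h3 := hsub _ h1 _ hv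
    rw [add_sub_cancel_left] at h3
    exact h3
  · push Not at hcase
    have hvl : v l ≠ 0 := by
      intro h0
      apply hv0
      funext i
      by_cases hi : i = l
      · rw [hi]
        exact h0
      · exact hcase i hi
    have h1 : (Pi.single l 1 : Fin n → F) = (v l)⁻¹ • v := by
      ext m
      by_cases hm : m = l
      · rw [hm, Pi.single_eq_same, Pi.smul_apply, smul_eq_mul, inv_mul_cancel₀ hvl]
      · rw [Pi.single_eq_of_ne hm, Pi.smul_apply, hcase m hm, smul_zero]
    rw [h1]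
    exact hsmul _ _ hv

theorem col_zero [Fintype F] {n k j : ℕ} (hk0 : 0 < k) (hkn : k ≤ n)
    (g : Matrix.GeneralLinearGroup (Fin n) F)
    (hconj : ∀ h ∈ Pj F n j, g⁻¹ * h * g ∈ Pj F n k) :
    ∀ i l : Fin n, k ≤ (i : ℕ) → (l : ℕ) < j →
      ((g⁻¹ : Matrix.GeneralLinearGroup (Fin n) F) : Matrix (Fin n) (Fin n) F) i l = 0 := by
  classical
  intro i l hi hl
  have hn0 : 0 < n := by omega
  have hX := minimal (F := F) (j := j)
    {v : Fin n → F | ∀ i : Fin n, k ≤ (i : ℕ) →
      (((g⁻¹ : Matrix.GeneralLinearGroup (Fin n) F) : Matrix (Fin n) (Fin n) F) *ᵥ v) i = 0}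
    (by
      intro x hx y hy m hm
      rw [Matrix.mulVec_sub, Pi.sub_apply, hx m hm, hy m hm, sub_zero])
    (by
      intro c x hx m hm
      rw [Matrix.mulVec_smul, Pi.smul_apply, hx m hm, smul_zero])
    (by
      intro h hh x hx
      have h1 := hconj h hh
      have h2 := ((mem_Pj _).1 h1 _).1 hx
      have e : ((g⁻¹ * h * g : Matrix.GeneralLinearGroup (Fin n) F) : Matrix (Fin n) (Fin n) F) *ᵥ
          (((g⁻¹ : Matrix.GeneralLinearGroup (Fin n) F) : Matrix (Fin n) (Fin n) F) *ᵥ x) =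
          ((g⁻¹ : Matrix.GeneralLinearGroup (Fin n) F) : Matrix (Fin n) (Fin n) F) *ᵥ
            ((h : Matrix (Fin n) (Fin n) F) *ᵥ x) := by
        rw [Matrix.mulVec_mulVec, Matrix.mulVec_mulVec, ← Units.val_mul, ← Units.val_mul]
        congr 2
        group
      rw [e] at h2
      exact h2)
    ((g : Matrix (Fin n) (Fin n) F) *ᵥ Pi.single ⟨0, hn0⟩ 1)
    (by
      intro m hm
      rw [Matrix.mulVec_mulVec, Units.inv_mul, Matrix.one_mulVec]
      apply Pi.single_eq_of_ne
      intro e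
      rw [e] at hm
      simp only at hm
      omega)
    (by
      intro h0
      have h1 := congrArg (fun x => ((g⁻¹ : Matrix.GeneralLinearGroup (Fin n) F) :
        Matrix (Fin n) (Fin n) F) *ᵥ x) h0
      simp only [Matrix.mulVec_mulVec, Units.inv_mul, Matrix.one_mulVec, Matrix.mulVec_zero] at h1
      have h2 := congrFun h1 ⟨0, hn0⟩
      rw [Pi.single_eq_same, Pi.zero_apply] at h2
      exact one_ne_zero h2)
    l hl
  have h3 := hX i hi
  rw [Matrix.mulVec_single_one] at h3
  exact h3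

theorem not_conj [Finite F] (n k : ℕ) (hk0 : 0 < k) (hkn : k < n) (h2 : 2 * k ≠ n)
    (g : Matrix.GeneralLinearGroup (Fin n) F) :
    (Pj F n k).map (MulAut.conj g).toMonoidHom ≠ Pj F n (n - k) := by
  classical
  letI : Fintype F := Fintype.ofFinite F
  intro hconj
  have hmem : ∀ h : Matrix.GeneralLinearGroup (Fin n) F,
      h ∈ Pj F n (n - k) ↔ g⁻¹ * h * g ∈ Pj F n k := by
    intro h
    rw [← hconj, SylowAux.mem_map_conj]
  have c1 := col_zero (F := F) (j := n - k) hk0 hkn.le g (fun h hh => (hmem h).1 hh)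
  have c2 := col_zero (F := F) (k := n - k) (j := k) (by omega) (Nat.sub_le n k) g⁻¹ (by
    intro h hh
    rw [inv_inv, hmem]
    have e : g⁻¹ * (g * h * g⁻¹) * g = h := by group
    rw [e]
    exact hh)
  rw [inv_inv] at c2
  rcases Nat.lt_or_gt_of_ne h2 with h3 | h3
  · exact zero_block_singular (a := n - k) (b := n - k) (by omega) (Nat.sub_le n k)
      (Nat.sub_le n k) g⁻¹ (by
      intro i l hi hl
      exact c1 i l (by omega) hl)
  · exact zero_block_singular (a := k) (b := k) (by omega) hkn.le hkn.le g (by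
      intro i l hi hl
      exact c2 i l hi hl)

end Cfsg.Agent.Lib.Helper2.Parab
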