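import Mathlib

set_option autoImplicit false

namespace Cfsg.Agent.Lib.Helper2.PerfInv

open scoped commutatorElement

variable {G : Type*} [Group G]

theorem main (x : G) (hx : orderOf x = 2) (L : Subgroup G) (hperf : ⁅L, L⁆ = L)
    (hcomm : ⁅L, L.map (MulAut.conj x).toMonoidHom⁆ = ⊥) :
    ∃ π : ↥L →* G, (∀ l : ↥L, π l = (l : G) * (x * (l : G) * x⁻¹)) ∧
      π.ker ≤ Subgroup.center ↥L ∧ π.range ≤ Subgroup.centralizer ({x} : Set G) ∧
      ⁅(L ⊔ L.map (MulAut.conj x).toMonoidHom) ⊓ Subgroup.centralizer ({x} : Set G),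
        (L ⊔ L.map (MulAut.conj x).toMonoidHom) ⊓ Subgroup.centralizer ({x} : Set G)⁆
        = π.range := by
  have hx2 : x * x = 1 := by rw [← pow_two, ← hx, pow_orderOf_eq_one]
  have hxinv : x⁻¹ = x := inv_eq_of_mul_eq_one_right hx2
  have hmemLx : ∀ b ∈ L, x * b * x⁻¹ ∈ L.map (MulAut.conj x).toMonoidHom :=
    fun b hb => Subgroup.mem_map.2 ⟨b, hb, rfl⟩
  have hcent := Subgroup.commutator_eq_bot_iff_le_centralizer.1 hcomm
  have hc' : ∀ a ∈ L, ∀ c ∈ L.map (MulAut.conj x).toMonoidHom, a * c = c * a := by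
    intro a ha c hc
    exact ((Subgroup.mem_centralizer_iff.1 (hcent ha)) c hc).symm
  have hc : ∀ a ∈ L, ∀ b ∈ L, a * (x * b * x⁻¹) = (x * b * x⁻¹) * a :=
    fun a ha b hb => hc' a ha _ (hmemLx b hb)
  have hconj_mul : ∀ a b : G, x * (a * b) * x⁻¹ = (x * a * x⁻¹) * (x * b * x⁻¹) := by
    intro a b
    group
  let φ : ↥L × ↥L →* G :=
    { toFun := fun p => (p.1 : G) * (x * (p.2 : G) * x⁻¹)
      map_one' := by
        show ((1 : ↥L) : G) * (x * ((1 : ↥L) : G) * x⁻¹) = 1
        rw [Subgroup.coe_one, one_mul, mul_one, mul_inv_cancel]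
      map_mul' := by
        intro p q
        show ((p.1 * q.1 : ↥L) : G) * (x * ((p.2 * q.2 : ↥L) : G) * x⁻¹)
          = (p.1 : G) * (x * (p.2 : G) * x⁻¹) * ((q.1 : G) * (x * (q.2 : G) * x⁻¹))
        rw [Subgroup.coe_mul, Subgroup.coe_mul, hconj_mul]
        calc (p.1 : G) * (q.1 : G) * (x * (p.2 : G) * x⁻¹ * (x * (q.2 : G) * x⁻¹))
            = (p.1 : G) * ((q.1 : G) * (x * (p.2 : G) * x⁻¹)) * (x * (q.2 : G) * x⁻¹) := by
              simp only [mul_assoc]
          _ = (p.1 : G) * ((x * (p.2 : G) * x⁻¹) * (q.1 : G)) * (x * (q.2 : G) * x⁻¹) := by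
              rw [hc _ q.1.2 _ p.2.2]
          _ = _ := by simp only [mul_assoc] }
  have hφ : ∀ p : ↥L × ↥L, φ p = (p.1 : G) * (x * (p.2 : G) * x⁻¹) := fun p => rfl
  let π : ↥L →* G := φ.comp (MonoidHom.prod (MonoidHom.id ↥L) (MonoidHom.id ↥L))
  have hπ : ∀ l : ↥L, π l = (l : G) * (x * (l : G) * x⁻¹) := fun l => rfl
  have hsup : L ⊔ L.map (MulAut.conj x).toMonoidHom ≤ φ.range := by
    apply sup_le
    · intro a ha
      refine ⟨(⟨a, ha⟩, 1), ?_⟩
      rw [hφ]
      show a * (x * ((1 : ↥L) : G) * x⁻¹) = a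
      rw [Subgroup.coe_one, mul_one, mul_inv_cancel, mul_one]
    · intro c hc
      obtain ⟨b, hb, rfl⟩ := Subgroup.mem_map.1 hc
      refine ⟨(1, ⟨b, hb⟩), ?_⟩
      rw [hφ]
      show ((1 : ↥L) : G) * (x * b * x⁻¹) = _
      rw [Subgroup.coe_one, one_mul]
      rfl
  have hπK : π.range ≤ L ⊔ L.map (MulAut.conj x).toMonoidHom := by
    rintro _ ⟨l, rfl⟩
    rw [hπ]
    exact Subgroup.mul_mem _ (Subgroup.mem_sup_left l.2) (Subgroup.mem_sup_right (hmemLx _ l.2))
  have hπC : π.range ≤ Subgroup.centralizer ({x} : Set G) := by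
    rintro _ ⟨l, rfl⟩
    rw [Subgroup.mem_centralizer_iff]
    intro h hh
    rw [Set.mem_singleton_iff] at hh
    rw [hh, hπ]
    have e1 : x * ((l : G) * (x * (l : G) * x⁻¹)) = (x * (l : G) * x⁻¹) * (l : G) * x := by
      rw [hxinv]
      calc x * ((l : G) * (x * (l : G) * x)) = x * (l : G) * x * (l : G) * x := by
            simp only [mul_assoc]
        _ = x * (l : G) * x * (l : G) * x := rfl
    rw [e1, ← hc _ l.2 _ l.2]
  refine ⟨π, hπ, ?_, hπC, ?_⟩
  · intro l hl
    rw [MonoidHom.mem_ker, hπ] at hl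
    have h1 : (l : G) = (x * (l : G) * x⁻¹)⁻¹ := eq_inv_of_mul_eq_one_left hl
    have h2 : (l : G) ∈ L.map (MulAut.conj x).toMonoidHom := by
      rw [h1]
      exact Subgroup.inv_mem _ (hmemLx _ l.2)
    rw [Subgroup.mem_center_iff]
    intro g
    apply Subtype.ext
    show (g : G) * (l : G) = (l : G) * (g : G)
    exact hc' _ g.2 _ h2
  · apply le_antisymm
    · rw [Subgroup.commutator_le]
      have key : ∀ g ∈ (L ⊔ L.map (MulAut.conj x).toMonoidHom) ⊓
          Subgroup.centralizer ({x} : Set G),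
          ∃ z p : G, g = z * p ∧ p ∈ π.range ∧
            ∀ k ∈ L ⊔ L.map (MulAut.conj x).toMonoidHom, z * k = k * z := by
        intro g hg
        obtain ⟨⟨a, b⟩, hab⟩ := hsup hg.1
        rw [hφ] at hab
        have hgx : x * g = g * x :=
          (Subgroup.mem_centralizer_iff.1 hg.2) x (Set.mem_singleton x)
        have hz1 : ((b : G)⁻¹ * (a : G)) ∈ L := L.mul_mem (L.inv_mem b.2) a.2
        have hz2 : (b : G)⁻¹ * (a : G) = x * ((a : G) * (b : G)⁻¹) * x⁻¹ := by
          have e1 : x * g * x⁻¹ = g := by rw [hgx, mul_inv_cancel_right]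
          rw [← hab, hconj_mul] at e1
          have e2 : x * (x * (b : G) * x⁻¹) * x⁻¹ = (b : G) := by
            rw [hxinv]
            calc x * (x * (b : G) * x) * x = (x * x) * (b : G) * (x * x) := by
                  simp only [mul_assoc]
              _ = (b : G) := by rw [hx2, one_mul, mul_one]
          rw [e2, ← hc _ b.2 _ a.2] at e1
          rw [hconj_mul]
          have e3 : x * (b : G)⁻¹ * x⁻¹ = (x * (b : G) * x⁻¹)⁻¹ := by group
          rw [e3, eq_mul_inv_iff_mul_eq, mul_assoc, ← e1]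
          group
        have hz3 : (b : G)⁻¹ * (a : G) ∈ L.map (MulAut.conj x).toMonoidHom := by
          rw [hz2]
          exact hmemLx _ (L.mul_mem a.2 (L.inv_mem b.2))
        refine ⟨(b : G)⁻¹ * (a : G), π b, ?_, ⟨b, rfl⟩, ?_⟩
        · rw [hπ, ← hab]
          have e4 := hc' _ b.2 _ hz3
          calc (a : G) * (x * (b : G) * x⁻¹)
              = (b : G) * ((b : G)⁻¹ * (a : G)) * (x * (b : G) * x⁻¹) := by
                rw [mul_inv_cancel_left]
            _ = ((b : G)⁻¹ * (a : G)) * (b : G) * (x * (b : G) * x⁻¹) := by rw [e4]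
            _ = _ := by simp only [mul_assoc]
        · intro k hk
          have h3 : L ⊔ L.map (MulAut.conj x).toMonoidHom
              ≤ Subgroup.centralizer ({(b : G)⁻¹ * (a : G)} : Set G) := by
            apply sup_le
            · intro l hl
              rw [Subgroup.mem_centralizer_iff]
              intro h hh
              rw [Set.mem_singleton_iff] at hh
              rw [hh]
              exact (hc' _ hl _ hz3).symm
            · intro c hc2
              rw [Subgroup.mem_centralizer_iff]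
              intro h hh
              rw [Set.mem_singleton_iff] at hh
              rw [hh]
              exact hc' _ hz1 _ hc2
          exact (Subgroup.mem_centralizer_iff.1 (h3 hk)) _ (Set.mem_singleton _)
      intro g₁ hg₁ g₂ hg₂
      obtain ⟨z₁, p₁, rfl, hp₁, hz₁⟩ := key g₁ hg₁
      obtain ⟨z₂, p₂, rfl, hp₂, hz₂⟩ := key g₂ hg₂
      have hp₁K := hπK hp₁
      have hp₂K := hπK hp₂
      have hz₂K : z₂ ∈ L ⊔ L.map (MulAut.conj x).toMonoidHom := by
        have h1 := (Subgroup.mul_mem_cancel_right _ hp₂K).1 hg₂.1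
        exact h1
      have e : ⁅z₁ * p₁, z₂ * p₂⁆ = ⁅p₁, p₂⁆ := by
        rw [commutatorElement_def, commutatorElement_def]
        have a1 := hz₁ p₁ hp₁K
        have a2 := hz₁ p₂ hp₂K
        have a3 := hz₂ p₁ hp₁K
        have a4 := hz₂ p₂ hp₂K
        have a5 := hz₁ z₂ hz₂K
        have b1 : z₁ * p₁ * (z₂ * p₂) = p₁ * p₂ * (z₁ * z₂) := by
          calc z₁ * p₁ * (z₂ * p₂) = z₁ * (p₁ * z₂) * p₂ := by simp only [mul_assoc]
            _ = z₁ * (z₂ * p₁) * p₂ := by rw [a3]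
            _ = (z₁ * z₂) * (p₁ * p₂) := by simp only [mul_assoc]
            _ = p₁ * p₂ * (z₁ * z₂) := by
              have : (z₁ * z₂) * (p₁ * p₂) = (p₁ * p₂) * (z₁ * z₂) := by
                calc (z₁ * z₂) * (p₁ * p₂) = z₁ * (z₂ * p₁) * p₂ := by simp only [mul_assoc]
                  _ = z₁ * (p₁ * z₂) * p₂ := by rw [a3]
                  _ = (z₁ * p₁) * (z₂ * p₂) := by simp only [mul_assoc]
                  _ = (p₁ * z₁) * (p₂ * z₂) := by rw [a1, a4]
                  _ = p₁ * (z₁ * p₂) * z₂ := by simp only [mul_assoc]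
                  _ = p₁ * (p₂ * z₁) * z₂ := by rw [a2]
                  _ = _ := by simp only [mul_assoc]
              exact this
        have b2 : (z₁ * p₁)⁻¹ * (z₂ * p₂)⁻¹ = (z₁ * z₂)⁻¹ * (p₁⁻¹ * p₂⁻¹) := by
          rw [← mul_inv_rev, ← mul_inv_rev, ← mul_inv_rev]
          congr 1
          calc z₂ * p₂ * (z₁ * p₁) = z₂ * (p₂ * z₁) * p₁ := by simp only [mul_assoc]
            _ = z₂ * (z₁ * p₂) * p₁ := by rw [a2]
            _ = (z₂ * z₁) * (p₂ * p₁) := by simp only [mul_assoc]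
            _ = (z₁ * z₂) * (p₂ * p₁) := by rw [a5]
            _ = p₂ * p₁ * (z₁ * z₂) := by
              calc (z₁ * z₂) * (p₂ * p₁) = z₁ * (z₂ * p₂) * p₁ := by simp only [mul_assoc]
                _ = z₁ * (p₂ * z₂) * p₁ := by rw [a4]
                _ = (z₁ * p₂) * (z₂ * p₁) := by simp only [mul_assoc]
                _ = (p₂ * z₁) * (p₁ * z₂) := by rw [a2, a3]
                _ = p₂ * (z₁ * p₁) * z₂ := by simp only [mul_assoc]
                _ = p₂ * (p₁ * z₁) * z₂ := by rw [a1]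
                _ = _ := by simp only [mul_assoc]
        calc z₁ * p₁ * (z₂ * p₂) * (z₁ * p₁)⁻¹ * (z₂ * p₂)⁻¹
            = (z₁ * p₁ * (z₂ * p₂)) * ((z₁ * p₁)⁻¹ * (z₂ * p₂)⁻¹) := by simp only [mul_assoc]
          _ = p₁ * p₂ * (z₁ * z₂) * ((z₁ * z₂)⁻¹ * (p₁⁻¹ * p₂⁻¹)) := by rw [b1, b2]
          _ = p₁ * p₂ * p₁⁻¹ * p₂⁻¹ := by group
      rw [e]
      obtain ⟨l₁, rfl⟩ := hp₁
      obtain ⟨l₂, rfl⟩ := hp₂
      exact ⟨⁅l₁, l₂⁆, by rw [map_commutatorElement]⟩
    · have htop : (⁅(⊤ : Subgroup ↥L), (⊤ : Subgroup ↥L)⁆ : Subgroup ↥L) = ⊤ := by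
        apply Subgroup.map_injective L.subtype_injective
        rw [Subgroup.map_commutator, ← MonoidHom.range_eq_map, Subgroup.range_subtype, hperf]
      have h1 : π.range = ⁅π.range, π.range⁆ := by
        conv_lhs => rw [MonoidHom.range_eq_map, ← htop, Subgroup.map_commutator,
          ← MonoidHom.range_eq_map]
      rw [h1]
      exact Subgroup.commutator_mono (le_inf hπK hπC) (le_inf hπK hπC)

end Cfsg.Agent.Lib.Helper2.PerfInv
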