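import Mathlib

set_option autoImplicit false

namespace Cfsg.Agent.Lib.Helper2.PermCent

variable {α : Type*}

theorem semiregular_centralizer (G : Subgroup (Equiv.Perm α)) [MulAction.IsPretransitive G α]
    {c : Equiv.Perm α} (hc : c ∈ Subgroup.centralizer (G : Set (Equiv.Perm α))) {a : α}
    (h : c a = a) : c = 1 := by
  ext x
  obtain ⟨g, hg⟩ := MulAction.exists_smul_eq G a x
  have hg' : (g : Equiv.Perm α) a = x := hg
  have h1 := (Subgroup.mem_centralizer_iff.1 hc) (g : Equiv.Perm α) g.2
  have h2 : c ((g : Equiv.Perm α) a) = (g : Equiv.Perm α) (c a) := by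
    have := congrArg (fun σ : Equiv.Perm α => σ a) h1
    simpa using this.symm
  rw [← hg', h2, h]
  rfl

theorem eq_of_smul_eq (G : Subgroup (Equiv.Perm α))
    (hreg : ∀ a : α, MulAction.stabilizer G a = ⊥) {a : α} {g g' : G} (h : g • a = g' • a) :
    g = g' := by
  have h1 : g'⁻¹ * g ∈ MulAction.stabilizer G a := by
    rw [MulAction.mem_stabilizer_iff, mul_smul, h, inv_smul_smul]
  rw [hreg a, Subgroup.mem_bot] at h1
  exact (inv_mul_eq_one.1 h1).symm

theorem exists_centralizer_of_regular (G : Subgroup (Equiv.Perm α))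
    [MulAction.IsPretransitive G α] (hreg : ∀ a : α, MulAction.stabilizer G a = ⊥) (a b : α) :
    ∃ c ∈ Subgroup.centralizer (G : Set (Equiv.Perm α)), c a = b ∧
      ∀ g : G, c (g • a) = g • b := by
  classical
  let f : α → α := fun x => (Classical.choose (MulAction.exists_smul_eq G a x)) • b
  let f' : α → α := fun x => (Classical.choose (MulAction.exists_smul_eq G b x)) • a
  have hf : ∀ g : G, f (g • a) = g • b := by
    intro g
    have h1 := Classical.choose_spec (MulAction.exists_smul_eq G a (g • a))
    have h2 := eq_of_smul_eq G hreg h1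
    show (Classical.choose (MulAction.exists_smul_eq G a (g • a))) • b = g • b
    rw [h2]
  have hf' : ∀ g : G, f' (g • b) = g • a := by
    intro g
    have h1 := Classical.choose_spec (MulAction.exists_smul_eq G b (g • b))
    have h2 := eq_of_smul_eq G hreg h1
    show (Classical.choose (MulAction.exists_smul_eq G b (g • b))) • a = g • a
    rw [h2]
  have hl : Function.LeftInverse f' f := by
    intro x
    obtain ⟨g, rfl⟩ := MulAction.exists_smul_eq G a x
    rw [hf, hf']
  have hr : Function.RightInverse f' f := by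
    intro x
    obtain ⟨g, rfl⟩ := MulAction.exists_smul_eq G b x
    rw [hf', hf]
  refine ⟨⟨f, f', hl, hr⟩, ?_, ?_, ?_⟩
  · rw [Subgroup.mem_centralizer_iff]
    intro h hh
    ext x
    obtain ⟨g, rfl⟩ := MulAction.exists_smul_eq G a x
    show h (f (g • a)) = f (h (g • a))
    have e : h (g • a) = ((⟨h, hh⟩ : G) * g) • a := by
      rw [mul_smul]; rfl
    rw [e, hf, hf, mul_smul]
    rfl
  · have := hf 1
    rw [one_smul, one_smul] at this
    exact this
  · exact hf

theorem transitive_iff_regular (G : Subgroup (Equiv.Perm α)) [MulAction.IsPretransitive G α] :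
    MulAction.IsPretransitive (Subgroup.centralizer (G : Set (Equiv.Perm α))) α ↔
      ∀ a : α, MulAction.stabilizer G a = ⊥ := by
  constructor
  · intro htr a
    rw [eq_bot_iff]
    intro g hg
    rw [Subgroup.mem_bot]
    apply Subtype.ext
    ext x
    obtain ⟨c, hc⟩ := MulAction.exists_smul_eq (Subgroup.centralizer (G : Set (Equiv.Perm α))) a x
    have hc' : (c : Equiv.Perm α) a = x := hc
    have h1 := (Subgroup.mem_centralizer_iff.1 c.2) (g : Equiv.Perm α) g.2
    have h2 : (g : Equiv.Perm α) ((c : Equiv.Perm α) a) = (c : Equiv.Perm α) ((g : Equiv.Perm α) a) := by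
      have := congrArg (fun σ : Equiv.Perm α => σ a) h1
      simpa using this
    have h3 : (g : Equiv.Perm α) a = a := hg
    rw [← hc', h2, h3]
    rfl
  · intro hreg
    constructor
    intro a b
    obtain ⟨c, hc, hcab, -⟩ := exists_centralizer_of_regular G hreg a b
    exact ⟨⟨c, hc⟩, hcab⟩

end Cfsg.Agent.Lib.Helper2.PermCent
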