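import Mathlib
import Cfsg.Agent.Lib.Helper2.PermCent

set_option autoImplicit false

namespace Cfsg.Agent.Lib.Helper2.PermCent

variable {α : Type*}

theorem pretransitive_map (G : Subgroup (Equiv.Perm α)) (M : Subgroup G)
    [h : MulAction.IsPretransitive M α] : MulAction.IsPretransitive (M.map G.subtype) α := by
  constructor
  intro a b
  obtain ⟨m, hm⟩ := MulAction.exists_smul_eq M a b
  exact ⟨⟨((m : G) : Equiv.Perm α), ⟨(m : G), m.2, rfl⟩⟩, hm⟩

theorem smul_def' (G : Subgroup (Equiv.Perm α)) (M : Subgroup G) (m : M) (a : α) :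
    m • a = ((m : G) : Equiv.Perm α) a := rfl

theorem eq_one_of_forall (G : Subgroup (Equiv.Perm α)) (g : G)
    (h : ∀ x : α, (g : Equiv.Perm α) x = x) : g = 1 := by
  apply Subtype.ext
  ext x
  exact h x

theorem comm_of_disjoint_normal {G : Type*} [Group G] (L M : Subgroup G) [L.Normal] [M.Normal]
    (h : L ⊓ M = ⊥) {l m : G} (hl : l ∈ L) (hm : m ∈ M) : l * m = m * l :=
  (Subgroup.commute_of_normal_of_disjoint L M inferInstance inferInstance
    (disjoint_iff.2 h) l m hl hm).eq

theorem centralizer_eq_of_abelian_transitive (T : Subgroup (Equiv.Perm α))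
    [MulAction.IsPretransitive T α] (hab : ∀ s ∈ T, ∀ t ∈ T, s * t = t * s) (a : α) :
    Subgroup.centralizer (T : Set (Equiv.Perm α)) = T := by
  apply le_antisymm
  · intro c hc
    obtain ⟨m, hm⟩ := MulAction.exists_smul_eq T a (c a)
    have hm' : (m : Equiv.Perm α) a = c a := hm
    have hmc : (m : Equiv.Perm α) ∈ Subgroup.centralizer (T : Set (Equiv.Perm α)) := by
      rw [Subgroup.mem_centralizer_iff]
      intro t ht
      exact hab t ht _ m.2
    have h1 : (m : Equiv.Perm α)⁻¹ * c ∈ Subgroup.centralizer (T : Set (Equiv.Perm α)) :=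
      Subgroup.mul_mem _ (Subgroup.inv_mem _ hmc) hc
    have h2 : ((m : Equiv.Perm α)⁻¹ * c) a = a := by
      rw [Equiv.Perm.mul_apply, ← hm']
      simp
    have h3 := semiregular_centralizer T h1 h2
    have h4 : c = (m : Equiv.Perm α) := (inv_mul_eq_one.1 h3).symm
    rw [h4]
    exact m.2
  · intro t ht
    rw [Subgroup.mem_centralizer_iff]
    intro s hs
    exact hab s hs t ht

end Cfsg.Agent.Lib.Helper2.PermCent
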