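import Mathlib
import Cfsg.Prelude.Def_Perm

set_option autoImplicit false

namespace Cfsg.Agent.Lib.Helper2.PermHom

variable {G : Type*} [Group G] {K : Type*} [Field K] {Ω₁ Ω₂ : Type*} [Fintype Ω₁] [Fintype Ω₂]
  [MulAction G Ω₁] [MulAction G Ω₂]

noncomputable def fc (c : MulAction.orbitRel.Quotient G (Ω₁ × Ω₂) → K) :
    (Ω₁ → K) →ₗ[K] (Ω₂ → K) :=
  { toFun := fun v y => ∑ x, c (Quotient.mk'' (x, y)) * v x
    map_add' := by
      intro v w
      funext y
      simp only [Pi.add_apply, mul_add, Finset.sum_add_distrib]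
    map_smul' := by
      intro a v
      funext y
      simp only [Pi.smul_apply, smul_eq_mul, RingHom.id_apply, Finset.mul_sum]
      apply Finset.sum_congr rfl
      intro x _
      ring }

theorem fc_apply (c : MulAction.orbitRel.Quotient G (Ω₁ × Ω₂) → K) (v : Ω₁ → K) (y : Ω₂) :
    fc c v y = ∑ x, c (Quotient.mk'' (x, y)) * v x := rfl

theorem mk_smul (g : G) (x : Ω₁) (y : Ω₂) :
    (Quotient.mk'' (g • x, g • y) : MulAction.orbitRel.Quotient G (Ω₁ × Ω₂))
      = Quotient.mk'' (x, y) := by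
  apply Quotient.sound'
  exact ⟨g, rfl⟩

theorem fc_single [DecidableEq Ω₁] (c : MulAction.orbitRel.Quotient G (Ω₁ × Ω₂) → K) (x : Ω₁)
    (y : Ω₂) : fc c (Pi.single x 1) y = c (Quotient.mk'' (x, y)) := by
  rw [fc_apply, Finset.sum_eq_single x]
  · rw [Pi.single_eq_same, mul_one]
  · intro b _ hb
    rw [Pi.single_eq_of_ne hb, mul_zero]
  · intro h
    exact absurd (Finset.mem_univ x) h

theorem fc_inv (c : MulAction.orbitRel.Quotient G (Ω₁ × Ω₂) → K) :
    fc c ∈ ((Cfsg.permRep K G Ω₁).linHom (Cfsg.permRep K G Ω₂)).invariants := by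
  rw [Representation.mem_invariants]
  intro g
  rw [Representation.linHom_apply]
  apply LinearMap.ext
  intro v
  funext y
  show fc c (Cfsg.permRep K G Ω₁ g⁻¹ v) (g⁻¹ • y) = fc c v y
  rw [fc_apply, fc_apply]
  apply Fintype.sum_equiv (MulAction.toPerm g)
  intro x
  show c (Quotient.mk'' (x, g⁻¹ • y)) * v (g⁻¹⁻¹ • x) = c (Quotient.mk'' (g • x, y)) * v (g • x)
  have e : (Quotient.mk'' (g • x, y) : MulAction.orbitRel.Quotient G (Ω₁ × Ω₂))
      = Quotient.mk'' (x, g⁻¹ • y) := by
    have := mk_smul g x (g⁻¹ • y)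
    rwa [smul_inv_smul] at this
  rw [inv_inv, e]

theorem inv_single [DecidableEq Ω₁] (f : (Ω₁ → K) →ₗ[K] (Ω₂ → K))
    (hf : f ∈ ((Cfsg.permRep K G Ω₁).linHom (Cfsg.permRep K G Ω₂)).invariants) (g : G)
    (x : Ω₁) (y : Ω₂) : f (Pi.single (g • x) 1) (g • y) = f (Pi.single x 1) y := by
  rw [Representation.mem_invariants] at hf
  have h1 := hf g
  rw [Representation.linHom_apply] at h1
  have h2 := congrFun (congrArg (fun φ : (Ω₁ → K) →ₗ[K] (Ω₂ → K) => φ (Pi.single (g • x) 1)) h1)
    (g • y)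
  have h3 : f (Cfsg.permRep K G Ω₁ g⁻¹ (Pi.single (g • x) 1)) (g⁻¹ • g • y)
      = f (Pi.single (g • x) 1) (g • y) := h2
  rw [inv_smul_smul] at h3
  rw [← h3]
  have e : Cfsg.permRep K G Ω₁ g⁻¹ (Pi.single (g • x) 1) = Pi.single x 1 := by
    funext z
    show (Pi.single (g • x) (1 : K) : Ω₁ → K) (g⁻¹⁻¹ • z) = (Pi.single x (1 : K) : Ω₁ → K) z
    rw [inv_inv, Pi.single_apply, Pi.single_apply]
    by_cases hz : z = x
    · rw [if_pos hz, if_pos (by rw [hz])]
    · rw [if_neg hz, if_neg (fun h => hz (MulAction.injective g h))]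
  rw [e]

theorem main : Module.finrank K ((Cfsg.permRep K G Ω₁).linHom (Cfsg.permRep K G Ω₂)).invariants
    = Nat.card (MulAction.orbitRel.Quotient G (Ω₁ × Ω₂)) := by
  classical
  letI : Fintype (MulAction.orbitRel.Quotient G (Ω₁ × Ω₂)) := Fintype.ofFinite _
  let Φ : (MulAction.orbitRel.Quotient G (Ω₁ × Ω₂) → K) →ₗ[K]
      ((Cfsg.permRep K G Ω₁).linHom (Cfsg.permRep K G Ω₂)).invariants :=
    { toFun := fun c => ⟨fc c, fc_inv c⟩
      map_add' := by
        intro c c'
        apply Subtype.ext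
        apply LinearMap.ext
        intro v
        funext y
        show fc (c + c') v y = fc c v y + fc c' v y
        simp only [fc_apply, Pi.add_apply, add_mul, Finset.sum_add_distrib]
      map_smul' := by
        intro a c
        apply Subtype.ext
        apply LinearMap.ext
        intro v
        funext y
        show fc (a • c) v y = a * fc c v y
        simp only [fc_apply, Pi.smul_apply, smul_eq_mul, Finset.mul_sum, mul_assoc] }
  have hΦ : ∀ c, ((Φ c : ((Cfsg.permRep K G Ω₁).linHom (Cfsg.permRep K G Ω₂)).invariants) :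
      (Ω₁ → K) →ₗ[K] (Ω₂ → K)) = fc c := fun c => rfl
  have hinj : Function.Injective Φ := by
    rw [injective_iff_map_eq_zero]
    intro c hc
    funext q
    induction q using Quotient.inductionOn' with
    | h p =>
      obtain ⟨x, y⟩ := p
      have h1 : fc c = 0 := by rw [← hΦ, hc]; rfl
      have h2 := fc_single c x y
      rw [h1] at h2
      exact h2.symm
  have hsurj : Function.Surjective Φ := by
    intro f
    refine ⟨fun q => (f : (Ω₁ → K) →ₗ[K] (Ω₂ → K)) (Pi.single (Quotient.out q).1 1)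
      (Quotient.out q).2, ?_⟩
    apply Subtype.ext
    rw [hΦ]
    apply LinearMap.pi_ext
    intro x a
    have e : (Pi.single x a : Ω₁ → K) = a • Pi.single x 1 := by
      rw [← Pi.single_smul, smul_eq_mul, mul_one]
    rw [e, map_smul, map_smul]
    congr 1
    funext y
    rw [fc_single]
    have h1 : (Quotient.mk'' (Quotient.out (Quotient.mk'' (x, y) :
        MulAction.orbitRel.Quotient G (Ω₁ × Ω₂))) : MulAction.orbitRel.Quotient G (Ω₁ × Ω₂))
        = Quotient.mk'' (x, y) := Quotient.out_eq' _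
    have h2 := Quotient.exact' h1
    obtain ⟨g, hg⟩ := h2
    have hg' : (g • x, g • y) = Quotient.out (Quotient.mk'' (x, y) :
        MulAction.orbitRel.Quotient G (Ω₁ × Ω₂)) := hg
    show (f : (Ω₁ → K) →ₗ[K] (Ω₂ → K)) (Pi.single (Quotient.out (Quotient.mk'' (x, y) :
        MulAction.orbitRel.Quotient G (Ω₁ × Ω₂))).1 1) (Quotient.out (Quotient.mk'' (x, y) :
        MulAction.orbitRel.Quotient G (Ω₁ × Ω₂))).2 = _
    rw [← hg']
    exact inv_single _ f.2 g x y
  have e := LinearEquiv.ofBijective Φ ⟨hinj, hsurj⟩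
  rw [← e.finrank_eq, Module.finrank_fintype_fun_eq_card, Nat.card_eq_fintype_card]

end Cfsg.Agent.Lib.Helper2.PermHom
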