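import Mathlib
import Cfsg.Agent.Lib.Helper2.Generous2

set_option autoImplicit false

namespace Cfsg.Agent.Lib.Helper2.SmallSupp

open Equiv Equiv.Perm
open Cfsg.Agent.Lib.Helper2.Generous (app_inv inv_app)

variable {α : Type*} [Fintype α] [DecidableEq α]

theorem ext_of_trans (G : Subgroup (Perm α)) {k : ℕ} (hkn : k ≤ Fintype.card α)
    (hG : MulAction.IsMultiplyPretransitive G α k) (D : Finset α) (hD : D.card ≤ k)
    (σ : Perm α) : ∃ h ∈ G, ∀ d ∈ D, h d = σ d := by
  haveI := hG
  haveI : MulAction.IsMultiplyPretransitive G α D.card :=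
    MulAction.isMultiplyPretransitive_of_le hD (by rw [Nat.card_eq_fintype_card]; exact hkn)
  obtain ⟨eq⟩ : Nonempty (↥D ≃ Fin D.card) := ⟨Fintype.equivFinOfCardEq (Fintype.card_coe D)⟩
  let e₁ : Fin D.card ↪ α := eq.symm.toEmbedding.trans (Function.Embedding.subtype _)
  let e₂ : Fin D.card ↪ α := e₁.trans σ.toEmbedding
  obtain ⟨h, hh⟩ := MulAction.exists_smul_eq G e₁ e₂
  refine ⟨h.1, h.2, fun d hd => ?_⟩
  have h1 := DFunLike.congr_fun hh (eq ⟨d, hd⟩)
  have h2 : h • d = σ d := by simpa [e₁, e₂] using h1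
  exact h2

theorem supp_bound (g h : Perm α) (D B : Finset α) (hD : D ⊆ g.support)
    (hDfix : ∀ d ∈ D, h d = d) (hB : B ⊆ g.support) (hBmap : ∀ b ∈ B, h b ∈ g.support) :
    (g⁻¹ * (h * g * h⁻¹)).support.card + (D.filter (fun x => g x ∈ D)).card + B.card
      ≤ 2 * g.support.card := by
  have h1 : (g⁻¹ * (h * g * h⁻¹)).support ⊆
      (g.support ∪ (g.support \ B).image h) \ (D.filter (fun x => g x ∈ D)) := by
    intro x hx
    rw [Finset.mem_sdiff]
    constructor
    · by_contra hnot
      rw [Finset.mem_union, not_or] at hnot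
      obtain ⟨hx1, hx2⟩ := hnot
      have hgx : g x = x := Perm.notMem_support.1 hx1
      have hu : h⁻¹ x ∉ g.support := by
        intro hu
        by_cases huB : h⁻¹ x ∈ B
        · have h3 := hBmap _ huB
          rw [app_inv] at h3
          exact hx1 h3
        · apply hx2
          rw [Finset.mem_image]
          exact ⟨h⁻¹ x, Finset.mem_sdiff.2 ⟨hu, huB⟩, app_inv h x⟩
      have hgu : g (h⁻¹ x) = h⁻¹ x := Perm.notMem_support.1 hu
      rw [Perm.mem_support] at hx
      apply hx
      show g⁻¹ (h (g (h⁻¹ x))) = x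
      rw [hgu, app_inv, Perm.inv_eq_iff_eq, hgx]
    · intro hxA
      rw [Finset.mem_filter] at hxA
      obtain ⟨hxD, hgxD⟩ := hxA
      rw [Perm.mem_support] at hx
      apply hx
      show g⁻¹ (h (g (h⁻¹ x))) = x
      have e1 : h⁻¹ x = x := by rw [Perm.inv_eq_iff_eq, hDfix x hxD]
      rw [e1, hDfix _ hgxD, inv_app]
  have h2 : D.filter (fun x => g x ∈ D) ⊆ g.support ∪ (g.support \ B).image h :=
    fun x hx => Finset.mem_union_left _ (hD (Finset.mem_filter.1 hx).1)
  have h3 := Finset.card_le_card h1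
  rw [Finset.card_sdiff_of_subset h2] at h3
  have h4 : (g.support ∪ (g.support \ B).image h).card
      ≤ g.support.card + ((g.support \ B).image h).card := Finset.card_union_le _ _
  have h5 : ((g.support \ B).image h).card ≤ g.support.card - B.card := by
    rw [← Finset.card_sdiff_of_subset hB]
    exact Finset.card_image_le
  have h6 := Finset.card_le_card h2
  have h7 := Finset.card_le_card hB
  omega

theorem ne_one_of (g h : Perm α) (x : α) (hx : h x = x) (hgx : h (g x) ≠ g x) :
    g⁻¹ * (h * g * h⁻¹) ≠ 1 := by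
  intro hc
  have h1 : (g⁻¹ * (h * g * h⁻¹)) x = x := by rw [hc]; rfl
  have h2 : g⁻¹ (h (g (h⁻¹ x))) = x := h1
  have e1 : h⁻¹ x = x := by rw [Perm.inv_eq_iff_eq, hx]
  rw [e1, Perm.inv_eq_iff_eq] at h2
  exact hgx h2

theorem ne_one_of' (g h : Perm α) (y : α) (hy : g y ≠ y) (hz : g (h y) = h y) :
    g⁻¹ * (h * g * h⁻¹) ≠ 1 := by
  intro hc
  have h1 : (g⁻¹ * (h * g * h⁻¹)) (h y) = h y := by rw [hc]; rfl
  have h2 : g⁻¹ (h (g (h⁻¹ (h y)))) = h y := h1
  rw [inv_app, Perm.inv_eq_iff_eq, hz] at h2
  exact hy (h.injective h2)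

theorem exists_one_exit (g : Perm α) (j : ℕ) (hj : j ≤ g.support.card) :
    ∃ D : Finset α, D ⊆ g.support ∧ D.card = j ∧
      ∀ x ∈ D, ∀ x' ∈ D, g x ∉ D → g x' ∉ D → x = x' := by
  induction j with
  | zero => exact ⟨∅, Finset.empty_subset _, rfl, by simp⟩
  | succ j ih =>
    obtain ⟨D, hD, hDc, hex⟩ := ih (by omega)
    by_cases hexit : ∃ x ∈ D, g x ∉ D
    · obtain ⟨x, hx, hgx⟩ := hexit
      have key : ∀ c ∈ insert (g x) D, g c ∉ insert (g x) D → c = g x := by
        intro c hc hgc
        rcases Finset.mem_insert.1 hc with rfl | hc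
        · rfl
        · exfalso
          have hgcD : g c ∉ D := fun h => hgc (Finset.mem_insert_of_mem h)
          have h1 := hex c hc x hx hgcD hgx
          rw [h1] at hgc
          exact hgc (Finset.mem_insert_self _ _)
      refine ⟨insert (g x) D, ?_, ?_, ?_⟩
      · intro y hy
        rcases Finset.mem_insert.1 hy with rfl | hy
        · exact Perm.apply_mem_support.2 (hD hx)
        · exact hD hy
      · rw [Finset.card_insert_of_notMem hgx, hDc]
      · intro a ha b hb hga hgb
        rw [key a ha hga, key b hb hgb]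
    · push Not at hexit
      obtain ⟨y, hy, hyD⟩ : ∃ y ∈ g.support, y ∉ D := by
        by_contra hcon
        push Not at hcon
        have h1 := Finset.card_le_card (show g.support ⊆ D from hcon)
        omega
      have key : ∀ c ∈ insert y D, g c ∉ insert y D → c = y := by
        intro c hc hgc
        rcases Finset.mem_insert.1 hc with rfl | hc
        · rfl
        · exact absurd (Finset.mem_insert_of_mem (hexit c hc)) hgc
      refine ⟨insert y D, ?_, ?_, ?_⟩
      · intro c hc
        rcases Finset.mem_insert.1 hc with rfl | hc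
        · exact hy
        · exact hD hc
      · rw [Finset.card_insert_of_notMem hyD, hDc]
      · intro a ha b hb hga hgb
        rw [key a ha hga, key b hb hgb]

theorem card_filter_ge (g : Perm α) (D : Finset α)
    (hex : ∀ x ∈ D, ∀ x' ∈ D, g x ∉ D → g x' ∉ D → x = x') :
    D.card ≤ (D.filter (fun x => g x ∈ D)).card + 1 := by
  have h1 := Finset.card_filter_add_card_filter_not (s := D) (fun x => g x ∈ D)
  have h2 : (D.filter (fun x => ¬ g x ∈ D)).card ≤ 1 := by
    rw [Finset.card_le_one]
    intro a ha b hb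
    rw [Finset.mem_filter] at ha hb
    exact hex a ha.1 b hb.1 ha.2 hb.2
  omega

end Cfsg.Agent.Lib.Helper2.SmallSupp
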