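import Mathlib
import Cfsg.Prelude.Def_Perm
import Cfsg.Agent.Lib.Helper2.SmallSupp

set_option autoImplicit false

namespace Cfsg.Agent.Lib.Helper2.PermMod

open Equiv Equiv.Perm
open Cfsg.Agent.Lib.Helper2.Generous (app_inv inv_app)

variable {α : Type*} [Fintype α] [DecidableEq α] {K : Type*} [Field K]

def dvec (K : Type*) [Field K] (a b : α) : α → K :=
  fun x => (if x = a then 1 else 0) - (if x = b then 1 else 0)

theorem perm_mem (hα : 5 ≤ Fintype.card α)
    (W : Subrepresentation (Cfsg.permRep K (alternatingGroup α) α)) (v : α → K)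
    (hv : v ∈ W.toSubmodule) (D : Finset α) (hD : D.card ≤ 3) (hsupp : ∀ x, x ∉ D → v x = 0)
    (σ : Perm α) : (fun x => v (σ⁻¹ x)) ∈ W.toSubmodule := by
  have hmt : MulAction.IsMultiplyPretransitive (alternatingGroup α) α (Fintype.card α - 2) := by
    have h := alternatingGroup.isMultiplyPretransitive α
    rwa [Nat.card_eq_fintype_card] at h
  obtain ⟨h, hh, hhs⟩ := SmallSupp.ext_of_trans (alternatingGroup α) (by omega) hmt D
    (by omega) σ
  have h1 := W.apply_mem_toSubmodule ⟨h, hh⟩ hv
  have e : Cfsg.permRep K (alternatingGroup α) α ⟨h, hh⟩ v = fun x => v (σ⁻¹ x) := by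
    funext x
    show v (h⁻¹ x) = v (σ⁻¹ x)
    by_cases hx : h⁻¹ x ∈ D
    · have e1 : σ⁻¹ x = h⁻¹ x := by
        rw [Perm.inv_eq_iff_eq, ← hhs _ hx, app_inv]
      rw [e1]
    · rw [hsupp _ hx]
      have hx' : σ⁻¹ x ∉ D := by
        intro h2
        apply hx
        have e1 : h⁻¹ x = σ⁻¹ x := by rw [Perm.inv_eq_iff_eq, hhs _ h2, app_inv]
        rw [e1]
        exact h2
      rw [hsupp _ hx']
  rw [e] at h1
  exact h1

theorem exists_dvec (hα : 5 ≤ Fintype.card α)
    (W : Subrepresentation (Cfsg.permRep K (alternatingGroup α) α)) (w : α → K)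
    (hw : w ∈ W.toSubmodule) (i j : α) (hij : w i ≠ w j) :
    ∃ a b : α, a ≠ b ∧ dvec K a b ∈ W.toSubmodule := by
  have hij' : i ≠ j := fun h => hij (by rw [h])
  obtain ⟨l, hl⟩ : ∃ l, l ∉ ({i, j} : Finset α) := by
    by_contra hcon
    push Not at hcon
    have h1 : ({i, j} : Finset α) = Finset.univ := Finset.eq_univ_iff_forall.2 hcon
    have h2 := Finset.card_le_two (a := i) (b := j)
    rw [h1, Finset.card_univ] at h2
    omega
  have hli : l ≠ i := fun h => hl (by rw [h]; simp)
  have hlj : l ≠ j := fun h => hl (by rw [h]; simp)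
  obtain ⟨m, hm⟩ : ∃ m, m ∉ ({i, j, l} : Finset α) := by
    by_contra hcon
    push Not at hcon
    have h1 : ({i, j, l} : Finset α) = Finset.univ := Finset.eq_univ_iff_forall.2 hcon
    have h2 := Finset.card_le_three (a := i) (b := j) (c := l)
    rw [h1, Finset.card_univ] at h2
    omega
  have hmj : m ≠ j := fun h => hm (by rw [h]; simp)
  have hσ : swap i j * swap j l ∈ alternatingGroup α := by
    rw [Perm.mem_alternatingGroup, Perm.sign_mul, Perm.sign_swap hij', Perm.sign_swap hlj.symm]
    rfl
  have hv : w - Cfsg.permRep K (alternatingGroup α) α ⟨swap i j * swap j l, hσ⟩ w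
      ∈ W.toSubmodule := W.toSubmodule.sub_mem hw (W.apply_mem_toSubmodule _ hw)
  have hvx : ∀ x, (w - Cfsg.permRep K (alternatingGroup α) α ⟨swap i j * swap j l, hσ⟩ w) x
      = w x - w (swap j l (swap i j x)) := by
    intro x
    show w x - w ((swap i j * swap j l)⁻¹ x) = _
    rw [mul_inv_rev, swap_inv, swap_inv]
    rfl
  generalize w - Cfsg.permRep K (alternatingGroup α) α ⟨swap i j * swap j l, hσ⟩ w = v
    at hv hvx
  have hvj : v j ≠ 0 := by
    rw [hvx, swap_apply_right, swap_apply_of_ne_of_ne hij' hli.symm]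
    exact sub_ne_zero.2 (Ne.symm hij)
  have hvs : ∀ x, x ∉ ({i, j, l} : Finset α) → v x = 0 := by
    intro x hx
    have hxi : x ≠ i := fun h => hx (by rw [h]; simp)
    have hxj : x ≠ j := fun h => hx (by rw [h]; simp)
    have hxl : x ≠ l := fun h => hx (by rw [h]; simp)
    rw [hvx, swap_apply_of_ne_of_ne hxi hxj, swap_apply_of_ne_of_ne hxj hxl, sub_self]
  have hu := W.toSubmodule.sub_mem hv
    (perm_mem hα W v hv {i, j, l} Finset.card_le_three hvs (swap j m))
  have hue : v - (fun x => v ((swap j m)⁻¹ x)) = v j • dvec K j m := by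
    funext x
    show v x - v ((swap j m)⁻¹ x) = v j * dvec K j m x
    rw [swap_inv]
    unfold dvec
    by_cases hxj : x = j
    · subst hxj
      rw [swap_apply_left, hvs m hm, if_pos rfl, if_neg hmj.symm]
      ring
    · by_cases hxm : x = m
      · subst hxm
        rw [swap_apply_right, hvs x hm, if_neg hxj, if_pos rfl]
        ring
      · rw [swap_apply_of_ne_of_ne hxj hxm, if_neg hxj, if_neg hxm]
        ring
  rw [hue] at hu
  refine ⟨j, m, hmj.symm, ?_⟩
  have h3 := W.toSubmodule.smul_mem (v j)⁻¹ hu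
  rwa [smul_smul, inv_mul_cancel₀ hvj, one_smul] at h3

theorem dvec_all (hα : 5 ≤ Fintype.card α)
    (W : Subrepresentation (Cfsg.permRep K (alternatingGroup α) α)) (a b : α) (hab : a ≠ b)
    (h : dvec K a b ∈ W.toSubmodule) (c d : α) (hcd : c ≠ d) : dvec K c d ∈ W.toSubmodule := by
  have hσ : ∃ σ : Perm α, σ a = c ∧ σ b = d := by
    refine ⟨swap (swap a c b) d * swap a c, ?_, ?_⟩
    · rw [Perm.mul_apply, swap_apply_left, swap_apply_of_ne_of_ne _ hcd]
      intro h1
      have h2 : swap a c c = swap a c (swap a c b) := by rw [← h1]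
      rw [swap_apply_right, swap_apply_self] at h2
      exact hab h2
    · rw [Perm.mul_apply, swap_apply_left]
  obtain ⟨σ, hσa, hσb⟩ := hσ
  have h1 := perm_mem hα W (dvec K a b) h {a, b} (Finset.card_le_two.trans (by omega)) (by
    intro x hx
    have hxa : x ≠ a := fun h => hx (by rw [h]; simp)
    have hxb : x ≠ b := fun h => hx (by rw [h]; simp)
    unfold dvec
    rw [if_neg hxa, if_neg hxb, sub_zero]) σ
  have e : (fun x => dvec K a b (σ⁻¹ x)) = dvec K c d := by
    funext x
    unfold dvec
    have e1 : (σ⁻¹ x = a) = (x = c) := by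
      rw [Perm.inv_eq_iff_eq, hσa]
    have e2 : (σ⁻¹ x = b) = (x = d) := by
      rw [Perm.inv_eq_iff_eq, hσb]
    simp only [e1, e2]
  rw [e] at h1
  exact h1

theorem sumZero_le (hα : 5 ≤ Fintype.card α)
    (W : Subrepresentation (Cfsg.permRep K (alternatingGroup α) α)) (w : α → K)
    (hw : w ∈ W.toSubmodule) (i j : α) (hij : w i ≠ w j) :
    (Cfsg.permSumZero K (alternatingGroup α) α).toSubmodule ≤ W.toSubmodule := by
  obtain ⟨a, b, hab, hd⟩ := exists_dvec hα W w hw i j hij
  intro f hf
  have hf' : ∑ x, f x = 0 := hf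
  have e : f = ∑ x, f x • dvec K x i := by
    funext t
    simp only [Finset.sum_apply, Pi.smul_apply, smul_eq_mul, dvec, mul_sub, mul_ite, mul_one,
      mul_zero, Finset.sum_sub_distrib, Finset.sum_ite_eq, Finset.mem_univ, if_true]
    by_cases hti : t = i
    · simp [hti, hf']
    · simp [hti]
  rw [e]
  apply W.toSubmodule.sum_mem
  intro x _
  apply W.toSubmodule.smul_mem
  by_cases hxi : x = i
  · have e0 : dvec K x i = 0 := by
      funext t
      simp [dvec, hxi]
    rw [e0]
    exact W.toSubmodule.zero_mem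
  · exact dvec_all hα W a b hab hd x i hxi

theorem main (hα : 5 ≤ Fintype.card α)
    (W : Subrepresentation (Cfsg.permRep K (alternatingGroup α) α)) :
    W.toSubmodule = ⊥ ∨ W = Cfsg.permConstants K (alternatingGroup α) α ∨
      W = Cfsg.permSumZero K (alternatingGroup α) α ∨ W.toSubmodule = ⊤ := by
  by_cases hconst : ∀ w ∈ W.toSubmodule, ∀ x y, w x = w y
  · by_cases hbot : W.toSubmodule = ⊥
    · exact Or.inl hbot
    · right
      left
      apply Subrepresentation.toSubmodule_injective
      show W.toSubmodule = Submodule.span K {fun _ => 1}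
      obtain ⟨w, hw, hw0⟩ := (Submodule.ne_bot_iff _).1 hbot
      obtain ⟨x₀⟩ : Nonempty α := by
        rw [← Fintype.card_pos_iff]
        omega
      have hc : w x₀ ≠ 0 := by
        intro h0
        apply hw0
        funext x
        rw [hconst w hw x x₀, h0]
        rfl
      apply le_antisymm
      · intro u hu
        rw [Submodule.mem_span_singleton]
        exact ⟨u x₀, funext fun x => by simp [hconst u hu x x₀]⟩
      · rw [Submodule.span_singleton_le_iff_mem]
        have e : (fun _ : α => (1 : K)) = (w x₀)⁻¹ • w := by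
          funext x
          simp [hconst w hw x x₀, hc]
        rw [e]
        exact W.toSubmodule.smul_mem _ hw
  · push Not at hconst
    obtain ⟨w, hw, i, j, hij⟩ := hconst
    have hsz := sumZero_le hα W w hw i j hij
    by_cases hle : W.toSubmodule ≤ (Cfsg.permSumZero K (alternatingGroup α) α).toSubmodule
    · right
      right
      left
      exact Subrepresentation.toSubmodule_injective (le_antisymm hle hsz)
    · right
      right
      right
      obtain ⟨w', hw', hs⟩ := Set.not_subset.1 hle
      have hs' : ∑ x, w' x ≠ 0 := hs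
      rw [eq_top_iff]
      intro f _
      have h1 : f - ((∑ x, f x) / (∑ x, w' x)) • w'
          ∈ (Cfsg.permSumZero K (alternatingGroup α) α).toSubmodule := by
        show ∑ x, (f - ((∑ x, f x) / (∑ x, w' x)) • w') x = 0
        simp only [Pi.sub_apply, Pi.smul_apply, smul_eq_mul, Finset.sum_sub_distrib,
          ← Finset.mul_sum]
        field_simp
        ring
      have h2 := W.toSubmodule.add_mem (hsz h1)
        (W.toSubmodule.smul_mem ((∑ x, f x) / (∑ x, w' x)) hw')
      simpa using h2

end Cfsg.Agent.Lib.Helper2.PermMod
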