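import Mathlib
import Cfsg.Prelude.Def_Perm

set_option autoImplicit false

namespace Cfsg.Agent.Lib.Helper2.PermModP

variable {G : Type*} [Group G] [Finite G] {K : Type*} [Field K] {p f : ℕ} [Fact p.Prime]
  {Ω : Type*} [Fintype Ω] [MulAction G Ω]

theorem sylow_trans [MulAction.IsPretransitive G Ω] (hcard : Fintype.card Ω = p ^ f)
    (P : Sylow p G) (a b : Ω) : ∃ g ∈ (P : Subgroup G), g • a = b := by
  classical
  have hp : p.Prime := Fact.out
  have h1 : (MulAction.stabilizer (P : Subgroup G) a).index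
      * Nat.card (MulAction.stabilizer (P : Subgroup G) a) = Nat.card (P : Subgroup G) :=
    Subgroup.index_mul_card _
  rw [MulAction.index_stabilizer] at h1
  have h2 : (MulAction.stabilizer G a).index * Nat.card (MulAction.stabilizer G a) = Nat.card G :=
    Subgroup.index_mul_card _
  rw [MulAction.index_stabilizer_of_transitive, Nat.card_eq_fintype_card, hcard] at h2
  let φ : MulAction.stabilizer (P : Subgroup G) a →* MulAction.stabilizer G a :=
    { toFun := fun x => ⟨((x : (P : Subgroup G)) : G), x.2⟩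
      map_one' := rfl
      map_mul' := fun _ _ => rfl }
  have hφ : Function.Injective φ := by
    intro x y hxy
    apply Subtype.ext
    apply Subtype.ext
    exact congrArg (fun z : MulAction.stabilizer G a => (z : G)) hxy
  have h3 : Nat.card (MulAction.stabilizer (P : Subgroup G) a)
      ∣ Nat.card (MulAction.stabilizer G a) := Subgroup.card_dvd_of_injective φ hφ
  have h4 : (P : Subgroup G).index * Nat.card (P : Subgroup G) = Nat.card G :=
    Subgroup.index_mul_card _
  have h5 : ¬ p ∣ (P : Subgroup G).index := P.not_dvd_index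
  obtain ⟨m, hm⟩ := P.isPGroup'.exists_card_eq
  obtain ⟨k, hk⟩ := (P.isPGroup'.to_subgroup (MulAction.stabilizer (P : Subgroup G) a)).exists_card_eq
  rw [hk] at h1 h3
  rw [hm] at h1 h4
  obtain ⟨t, ht⟩ := h3
  have h6 : p ^ (f + k) ∣ p ^ m := by
    have h7 : p ^ (f + k) ∣ (P : Subgroup G).index * p ^ m := by
      rw [h4, ← h2, ht, pow_add, ← mul_assoc]
      exact Dvd.intro _ rfl
    exact (Nat.Coprime.pow_left _ ((Nat.Prime.coprime_iff_not_dvd hp).2 h5)).dvd_of_dvd_mul_left h7
  have h8 : f + k ≤ m := (Nat.pow_dvd_pow_iff_le_right hp.one_lt).1 h6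
  have h9 : (MulAction.orbit (P : Subgroup G) a).ncard = p ^ (m - k) := by
    have e : p ^ m = p ^ (m - k) * p ^ k := by rw [← pow_add]; congr 1; omega
    rw [e] at h1
    exact Nat.eq_of_mul_eq_mul_right (pow_pos hp.pos k) h1
  have h10 : p ^ f ≤ p ^ (m - k) := Nat.pow_le_pow_right hp.pos (by omega)
  have h11 : (MulAction.orbit (P : Subgroup G) a).ncard ≤ Nat.card Ω := Set.ncard_le_card _
  rw [Nat.card_eq_fintype_card, hcard] at h11
  have h12 : MulAction.orbit (P : Subgroup G) a = Set.univ := by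
    rw [Set.eq_univ_iff_ncard, Nat.card_eq_fintype_card, hcard]
    omega
  have hb : b ∈ MulAction.orbit (P : Subgroup G) a := by rw [h12]; trivial
  obtain ⟨g, hg⟩ := hb
  exact ⟨(g : G), g.2, hg⟩

theorem const_mem' [CharP K p] [MulAction.IsPretransitive G Ω] (hcard : Fintype.card Ω = p ^ f)
    (W : Submodule K (Ω → K)) (hinv : ∀ g : G, ∀ v ∈ W, Cfsg.permRep K G Ω g v ∈ W)
    (hne : W ≠ ⊥) : (fun _ => (1 : K)) ∈ W := by
  classical
  have hp : p.Prime := Fact.out
  obtain ⟨P⟩ : Nonempty (Sylow p G) := inferInstance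
  obtain ⟨w, hwW, hw0⟩ := (Submodule.ne_bot_iff W).1 hne
  letI : Algebra (ZMod p) K := ZMod.algebra K p
  let V₀ : Submodule (ZMod p) (Ω → K) :=
    Submodule.span (ZMod p) (Set.range fun g : (P : Subgroup G) => Cfsg.permRep K G Ω (g : G) w)
  haveI : Module.Finite (ZMod p) V₀ := Module.Finite.span_of_finite _ (Set.finite_range _)
  haveI : Finite V₀ := Module.finite_of_finite (ZMod p)
  have hsm : ∀ (c : ZMod p) (x : Ω → K), c • x = (algebraMap (ZMod p) K c) • x := by
    intro c x
    rw [algebraMap_smul]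
  have hV₀inv : ∀ g : (P : Subgroup G), ∀ v ∈ V₀, Cfsg.permRep K G Ω (g : G) v ∈ V₀ := by
    intro g v hv
    induction hv using Submodule.span_induction with
    | mem x hx =>
      obtain ⟨h, rfl⟩ := hx
      apply Submodule.subset_span
      refine ⟨g * h, ?_⟩
      show Cfsg.permRep K G Ω ((g : G) * (h : G)) w = _
      rw [map_mul]
      rfl
    | zero => rw [map_zero]; exact V₀.zero_mem
    | add x y _ _ hx hy => rw [map_add]; exact V₀.add_mem hx hy
    | smul c x _ hx =>
      have e : Cfsg.permRep K G Ω (g : G) (c • x) = c • Cfsg.permRep K G Ω (g : G) x := by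
        rw [hsm, map_smul, ← hsm]
      rw [e]
      exact V₀.smul_mem c hx
  have hV₀W : ∀ v ∈ V₀, v ∈ W := by
    intro v hv
    induction hv using Submodule.span_induction with
    | mem x hx =>
      obtain ⟨h, rfl⟩ := hx
      exact hinv _ _ hwW
    | zero => exact W.zero_mem
    | add x y _ _ hx hy => exact W.add_mem hx hy
    | smul c x _ hx =>
      rw [hsm]
      exact W.smul_mem _ hx
  letI : MulAction (P : Subgroup G) V₀ :=
    { smul := fun g v => ⟨Cfsg.permRep K G Ω (g : G) v.1, hV₀inv g v.1 v.2⟩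
      one_smul := fun v => by
        apply Subtype.ext
        show Cfsg.permRep K G Ω (1 : G) v.1 = v.1
        rw [map_one]
        rfl
      mul_smul := fun g h v => by
        apply Subtype.ext
        show Cfsg.permRep K G Ω ((g : G) * (h : G)) v.1 = _
        rw [map_mul]
        rfl }
  have hwV₀ : w ∈ V₀ := by
    apply Submodule.subset_span
    refine ⟨1, ?_⟩
    show Cfsg.permRep K G Ω (1 : G) w = w
    rw [map_one]
    rfl
  have hdvd : p ∣ Nat.card V₀ := by
    have h1 : addOrderOf (⟨w, hwV₀⟩ : V₀) ∣ p := by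
      apply addOrderOf_dvd_of_nsmul_eq_zero
      apply Subtype.ext
      show p • w = 0
      rw [← Nat.cast_smul_eq_nsmul (ZMod p), ZMod.natCast_self, zero_smul]
    have h2 : addOrderOf (⟨w, hwV₀⟩ : V₀) ≠ 1 := by
      intro h
      rw [AddMonoid.addOrderOf_eq_one_iff] at h
      exact hw0 (congrArg Subtype.val h)
    have h3 : addOrderOf (⟨w, hwV₀⟩ : V₀) = p := ((Nat.dvd_prime hp).1 h1).resolve_left h2
    have h4 := addOrderOf_dvd_natCard (⟨w, hwV₀⟩ : V₀)
    exact (dvd_of_eq h3.symm).trans h4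
  have h0fix : (0 : V₀) ∈ MulAction.fixedPoints (P : Subgroup G) V₀ := by
    intro g
    apply Subtype.ext
    show Cfsg.permRep K G Ω (g : G) 0 = 0
    rw [map_zero]
  obtain ⟨v, hvfix, hv0⟩ :=
    P.isPGroup'.exists_fixed_point_of_prime_dvd_card_of_fixed_point (α := V₀) hdvd h0fix
  have hconst : ∀ x y : Ω, v.1 x = v.1 y := by
    intro x y
    obtain ⟨g, hg, hgxy⟩ := sylow_trans hcard P x y
    have h1 := congrFun (congrArg Subtype.val (hvfix ⟨g, hg⟩)) y
    have h2 : v.1 (g⁻¹ • y) = v.1 y := h1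
    rw [← h2, ← hgxy, inv_smul_smul]
  have hΩ : 0 < Fintype.card Ω := by rw [hcard]; exact pow_pos hp.pos f
  obtain ⟨a⟩ : Nonempty Ω := Fintype.card_pos_iff.1 hΩ
  have hc : v.1 a ≠ 0 := by
    intro h
    apply hv0
    apply Subtype.ext
    funext x
    show (0 : Ω → K) x = v.1 x
    rw [hconst x a, h]
    rfl
  have e : (fun _ => (1 : K)) = (v.1 a)⁻¹ • v.1 := by
    funext x
    show (1 : K) = (v.1 a)⁻¹ * v.1 x
    rw [hconst x a, inv_mul_cancel₀ hc]
  rw [e]
  exact W.smul_mem _ (hV₀W _ v.2)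

theorem two_trans [CharP K p] [MulAction.IsPretransitive G Ω] (hf : 1 ≤ f)
    (hcard : Fintype.card Ω = p ^ f)
    (h : ∀ W W' : Subrepresentation (Cfsg.permRep K G Ω),
      (Cfsg.permConstants K G Ω).toSubmodule ≤ W.toSubmodule →
      W.toSubmodule < W'.toSubmodule →
      W'.toSubmodule ≤ (Cfsg.permSumZero K G Ω).toSubmodule →
      ∃ g : G, ∃ v ∈ W'.toSubmodule, Cfsg.permRep K G Ω g v - v ∉ W.toSubmodule) :
    MulAction.IsMultiplyPretransitive G Ω 2 := by
  classical
  by_contra hnot
  rw [MulAction.is_two_pretransitive_iff] at hnot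
  push Not at hnot
  obtain ⟨a, b, c, d, hab, hcd, hno⟩ := hnot
  obtain ⟨g₀, hg₀⟩ := MulAction.exists_smul_eq G c a
  let R : Ω → Ω → Prop := fun x y => ∃ g : G, g • a = x ∧ g • b = y
  have hRinv : ∀ (g : G) (x y : Ω), R x y → R (g • x) (g • y) := by
    rintro g x y ⟨k, rfl, rfl⟩
    exact ⟨g * k, mul_smul _ _ _, mul_smul _ _ _⟩
  have hRinv' : ∀ (g : G) (x y : Ω), R (g • x) (g • y) ↔ R x y := by
    intro g x y
    constructor
    · intro hh
      have := hRinv g⁻¹ _ _ hh
      rwa [inv_smul_smul, inv_smul_smul] at this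
    · exact hRinv g x y
  have hRab : R a b := ⟨1, one_smul _ _, one_smul _ _⟩
  have hd' : ¬ R a (g₀ • d) := by
    rintro ⟨g, hga, hgb⟩
    apply hno (g₀⁻¹ * g)
    · rw [mul_smul, hga, ← hg₀, inv_smul_smul]
    · rw [mul_smul, hgb, inv_smul_smul]
  have had' : a ≠ g₀ • d := by
    rw [← hg₀]
    intro hh
    exact hcd (MulAction.injective g₀ hh)
  have hbd' : b ≠ g₀ • d := by
    intro hh
    apply hd'
    rw [← hh]
    exact hRab
  generalize g₀ • d = d' at hd' had' hbd'
  let B : (Ω → K) →ₗ[K] (Ω → K) :=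
    { toFun := fun f x => ∑ y, if R x y then f y - f x else 0
      map_add' := by
        intro f1 f2
        funext x
        simp only [Pi.add_apply]
        rw [← Finset.sum_add_distrib]
        apply Finset.sum_congr rfl
        intro y _
        split_ifs <;> ring
      map_smul' := by
        intro c f
        funext x
        simp only [Pi.smul_apply, smul_eq_mul, RingHom.id_apply]
        rw [Finset.mul_sum]
        apply Finset.sum_congr rfl
        intro y _
        split_ifs <;> ring }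
  have hBdef : ∀ f x, B f x = ∑ y, if R x y then f y - f x else 0 := fun f x => rfl
  have hBeq : ∀ (g : G) (f : Ω → K),
      B (Cfsg.permRep K G Ω g f) = Cfsg.permRep K G Ω g (B f) := by
    intro g f
    funext x
    show (∑ y, if R x y then f (g⁻¹ • y) - f (g⁻¹ • x) else 0)
      = ∑ y, if R (g⁻¹ • x) y then f y - f (g⁻¹ • x) else 0
    apply Fintype.sum_equiv (MulAction.toPerm g⁻¹)
    intro y
    show _ = if R (g⁻¹ • x) (g⁻¹ • y) then f (g⁻¹ • y) - f (g⁻¹ • x) else 0
    by_cases hxy : R x y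
    · rw [if_pos hxy, if_pos ((hRinv' g⁻¹ x y).2 hxy)]
    · rw [if_neg hxy, if_neg (fun hh => hxy ((hRinv' g⁻¹ x y).1 hh))]
  have hBconst : ∀ c : K, B (fun _ => c) = 0 := by
    intro c
    funext x
    rw [hBdef]
    apply Finset.sum_eq_zero
    intro y _
    split_ifs
    · exact sub_self c
    · rfl
  have hconstfix : ∀ (g : G) (c : K),
      Cfsg.permRep K G Ω g (fun _ => c) = fun _ => c := fun g c => rfl
  let S := (Cfsg.permSumZero K G Ω).toSubmodule
  have hSmem : ∀ f : Ω → K, f ∈ S ↔ ∑ x, f x = 0 := fun f => Iff.rfl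
  have hSinv : ∀ (g : G) (v : Ω → K), v ∈ S → Cfsg.permRep K G Ω g v ∈ S :=
    fun g v hv => (Cfsg.permSumZero K G Ω).apply_mem_toSubmodule g hv
  have hp : p.Prime := Fact.out
  have hone : (fun _ => (1 : K)) ∈ S := by
    rw [hSmem, Finset.sum_const, Finset.card_univ, nsmul_eq_mul, mul_one, hcard, Nat.cast_pow,
      CharP.cast_eq_zero K p, zero_pow (by omega)]
  let f₀ : Ω → K := fun x => (if x = b then 1 else 0) - (if x = d' then (1 : K) else 0)
  have hf₀S : f₀ ∈ S := by
    rw [hSmem]
    show ∑ x, ((if x = b then 1 else 0) - (if x = d' then (1 : K) else 0)) = 0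
    rw [Finset.sum_sub_distrib, Finset.sum_ite_eq' Finset.univ b, Finset.sum_ite_eq' Finset.univ d',
      if_pos (Finset.mem_univ _), if_pos (Finset.mem_univ _), sub_self]
  have hf₀a : f₀ a = 0 := by
    show (if a = b then 1 else 0) - (if a = d' then (1 : K) else 0) = 0
    rw [if_neg hab, if_neg had', sub_zero]
  have hBf₀ : B f₀ a = 1 := by
    rw [hBdef]
    have e : ∀ y, (if R a y then f₀ y - f₀ a else 0) = if y = b then (1 : K) else 0 := by
      intro y
      rw [hf₀a, sub_zero]
      by_cases hyb : y = b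
      · rw [if_pos hyb, hyb, if_pos hRab]
        show (if b = b then 1 else 0) - (if b = d' then (1 : K) else 0) = 1
        rw [if_pos rfl, if_neg hbd', sub_zero]
      · rw [if_neg hyb]
        by_cases hRy : R a y
        · rw [if_pos hRy]
          have hyd : y ≠ d' := by
            intro hh
            rw [hh] at hRy
            exact hd' hRy
          show (if y = b then 1 else 0) - (if y = d' then (1 : K) else 0) = 0
          rw [if_neg hyb, if_neg hyd, sub_zero]
        · rw [if_neg hRy]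
    rw [Finset.sum_congr rfl (fun y _ => e y), Finset.sum_ite_eq' Finset.univ b,
      if_pos (Finset.mem_univ _)]
  have hMinv : ∀ g : G, ∀ v ∈ Submodule.map B S, Cfsg.permRep K G Ω g v ∈ Submodule.map B S := by
    rintro g v ⟨u, hu, rfl⟩
    exact ⟨Cfsg.permRep K G Ω g u, hSinv g u hu, hBeq g u⟩
  have hMne : Submodule.map B S ≠ ⊥ := by
    intro hh
    have h1 : B f₀ ∈ Submodule.map B S := ⟨f₀, hf₀S, rfl⟩
    rw [hh, Submodule.mem_bot] at h1
    have h2 := congrFun h1 a
    rw [hBf₀] at h2
    exact one_ne_zero h2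
  obtain ⟨f₁, hf₁S, hBf₁⟩ := const_mem' hcard (Submodule.map B S) hMinv hMne
  let W : Subrepresentation (Cfsg.permRep K G Ω) :=
    { toSubmodule := S ⊓ LinearMap.ker B
      apply_mem_toSubmodule := fun g v hv => ⟨hSinv g v hv.1, by
        have h2 : B v = 0 := LinearMap.mem_ker.1 hv.2
        show B (Cfsg.permRep K G Ω g v) = 0
        rw [hBeq, h2, map_zero]⟩ }
  let W' : Subrepresentation (Cfsg.permRep K G Ω) :=
    { toSubmodule := S ⊓ Submodule.comap B (Cfsg.permConstants K G Ω).toSubmodule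
      apply_mem_toSubmodule := fun g v hv => ⟨hSinv g v hv.1, by
        have h2 : B v ∈ (Cfsg.permConstants K G Ω).toSubmodule := hv.2
        show B (Cfsg.permRep K G Ω g v) ∈ (Cfsg.permConstants K G Ω).toSubmodule
        rw [hBeq]
        exact (Cfsg.permConstants K G Ω).apply_mem_toSubmodule g h2⟩ }
  have hCdef : (Cfsg.permConstants K G Ω).toSubmodule = Submodule.span K {fun _ => (1 : K)} := rfl
  have hCW : (Cfsg.permConstants K G Ω).toSubmodule ≤ W.toSubmodule := by
    rw [hCdef, Submodule.span_le, Set.singleton_subset_iff]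
    exact ⟨hone, hBconst 1⟩
  have hlt : W.toSubmodule < W'.toSubmodule := by
    rw [SetLike.lt_iff_le_and_exists]
    refine ⟨?_, f₁, ⟨hf₁S, ?_⟩, ?_⟩
    · intro v hv
      refine ⟨hv.1, ?_⟩
      have h2 : B v = 0 := LinearMap.mem_ker.1 hv.2
      show B v ∈ (Cfsg.permConstants K G Ω).toSubmodule
      rw [h2]
      exact Submodule.zero_mem _
    · show B f₁ ∈ (Cfsg.permConstants K G Ω).toSubmodule
      rw [hBf₁, hCdef]
      exact Submodule.mem_span_singleton_self _
    · intro hv
      have h2 : B f₁ = 0 := LinearMap.mem_ker.1 hv.2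
      rw [hBf₁] at h2
      have h3 := congrFun h2 a
      exact one_ne_zero h3
  have hW'S : W'.toSubmodule ≤ (Cfsg.permSumZero K G Ω).toSubmodule := fun v hv => hv.1
  obtain ⟨g, v, hv, hnot'⟩ := h W W' hCW hlt hW'S
  apply hnot'
  refine ⟨S.sub_mem (hSinv g v hv.1) hv.1, ?_⟩
  show B (Cfsg.permRep K G Ω g v - v) = 0
  have h2 : B v ∈ (Cfsg.permConstants K G Ω).toSubmodule := hv.2
  rw [hCdef, Submodule.mem_span_singleton] at h2
  obtain ⟨c, hc⟩ := h2
  have h3 : B v = fun _ => c := by
    rw [← hc]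
    funext x
    show c * 1 = c
    rw [mul_one]
  rw [map_sub, hBeq, h3, hconstfix, sub_self]

end Cfsg.Agent.Lib.Helper2.PermModP
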