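import Mathlib
import Cfsg.Agent.Lib.Helper2.PairAct2

set_option autoImplicit false

namespace Cfsg.Agent.Lib.Helper2.Semireg

open Cfsg.Agent.Lib.Helper2

variable {G : Type*} [Group G]

@[reducible] def conjSetAction (F : Subgroup G) (S : Set G)
    (hS : ∀ v ∈ F, ∀ u ∈ S, v * u * v⁻¹ ∈ S) : MulAction F S where
  smul v u := ⟨(v : G) * u.1 * (v : G)⁻¹, hS v.1 v.2 u.1 u.2⟩
  one_smul u := by
    apply Subtype.ext
    show ((1 : F) : G) * u.1 * ((1 : F) : G)⁻¹ = u.1
    simp
  mul_smul v w u := by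
    apply Subtype.ext
    show ((v * w : F) : G) * u.1 * ((v * w : F) : G)⁻¹ =
      (v : G) * ((w : G) * u.1 * (w : G)⁻¹) * (v : G)⁻¹
    push_cast
    group

theorem index_dvd_card_of_centralizers [Finite G] (F : Subgroup G) (S : Set G)
    (hS : ∀ v ∈ F, ∀ u ∈ S, v * u * v⁻¹ ∈ S) (m : ℕ)
    (hm : ∀ w ∈ S, Nat.card ↥(F ⊓ Subgroup.centralizer ({w} : Set G)) = m) :
    Nat.card F / m ∣ Nat.card S := by
  letI := conjSetAction F S hS
  apply PairAct.dvd_card_of_dvd_orbits (H := F)
  intro w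
  have h1 := MulAction.index_stabilizer F w
  have h2 := Subgroup.index_mul_card (MulAction.stabilizer F w)
  have h3 : Nat.card (MulAction.stabilizer F w) = m := by
    rw [← hm w.1 w.2]
    apply Nat.card_congr
    refine
      { toFun := fun v => ⟨v.1.1, ⟨v.1.2, ?_⟩⟩
        invFun := fun v => ⟨⟨v.1, v.2.1⟩, ?_⟩
        left_inv := fun v => rfl
        right_inv := fun v => rfl }
    · apply Subgroup.mem_centralizer_singleton_iff.2
      have h4 : v.1 • w = w := MulAction.mem_stabilizer_iff.1 v.2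
      have h5 : (v.1 : G) * w.1 * (v.1 : G)⁻¹ = w.1 := congrArg Subtype.val h4
      exact mul_inv_eq_iff_eq_mul.1 h5
    · rw [MulAction.mem_stabilizer_iff]
      apply Subtype.ext
      show v.1 * w.1 * v.1⁻¹ = w.1
      have h4 := Subgroup.mem_centralizer_singleton_iff.1
        (show v.1 ∈ Subgroup.centralizer ({w.1} : Set G) from v.2.2)
      exact mul_inv_eq_iff_eq_mul.2 h4
  rw [h3] at h2
  have hm0 : 0 < m := by
    rw [← h3]
    exact Nat.card_pos
  rw [Nat.card_coe_set_eq, ← h1]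
  exact dvd_of_eq (Nat.div_eq_of_eq_mul_left hm0 h2.symm)

theorem card_filter_mem [Fintype G] (K : Subgroup G) [DecidablePred (· ∈ K)] :
    (Finset.univ.filter (fun g : G => g ∈ K)).card = Nat.card K := by
  rw [Nat.card_eq_fintype_card]
  exact (Fintype.card_of_subtype _ (by intro x; simp)).symm

theorem card_centralizer_conj [Finite G] (F : Subgroup G) (h x : G)
    (hh : ∀ u ∈ F, h * u * h⁻¹ ∈ F) (hh' : ∀ u ∈ F, h⁻¹ * u * h ∈ F) :
    Nat.card ↥(F ⊓ Subgroup.centralizer ({h * x * h⁻¹} : Set G)) =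
      Nat.card ↥(F ⊓ Subgroup.centralizer ({x} : Set G)) := by
  have h1 : (F ⊓ Subgroup.centralizer ({h * x * h⁻¹} : Set G)) =
      (F ⊓ Subgroup.centralizer ({x} : Set G)).map (MulAut.conj h).toMonoidHom := by
    ext v
    rw [Subgroup.mem_map, Subgroup.mem_inf, Subgroup.mem_centralizer_singleton_iff]
    constructor
    · rintro ⟨hvF, hv⟩
      refine ⟨h⁻¹ * v * h, ⟨hh' v hvF, ?_⟩, ?_⟩
      · apply Subgroup.mem_centralizer_singleton_iff.2
        have e1 : h⁻¹ * v * h * x = h⁻¹ * (v * (h * x * h⁻¹)) * h := by group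
        have e2 : x * (h⁻¹ * v * h) = h⁻¹ * (h * x * h⁻¹ * v) * h := by group
        rw [e1, e2, hv]
      · show h * (h⁻¹ * v * h) * h⁻¹ = v
        group
    · rintro ⟨v', ⟨hvF, hv0⟩, rfl⟩
      have hv := Subgroup.mem_centralizer_singleton_iff.1
        (show v' ∈ Subgroup.centralizer ({x} : Set G) from hv0)
      refine ⟨hh v' hvF, ?_⟩
      show h * v' * h⁻¹ * (h * x * h⁻¹) = h * x * h⁻¹ * (h * v' * h⁻¹)
      have e1 : h * v' * h⁻¹ * (h * x * h⁻¹) = h * (v' * x) * h⁻¹ := by group
      have e2 : h * x * h⁻¹ * (h * v' * h⁻¹) = h * (x * v') * h⁻¹ := by group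
      rw [e1, e2, hv]
  rw [h1]
  exact Subgroup.card_map_of_injective (MulAut.conj h).injective

section main

variable [Finite G] (E F : Subgroup G)
  (hnorm : ∀ h ∈ E, ∀ u ∈ F, h * u * h⁻¹ ∈ F)
  (hsemi : ∀ h ∈ E, ∀ u ∈ F, u ≠ 1 → h * u * h⁻¹ = u → h = 1)
  (hcard : Nat.card F ≤ 2 * Nat.card E + 1)

include hsemi in
theorem conj_inj {m : G} (hm : m ∈ F) (hm1 : m ≠ 1) {h h' : G} (hh : h ∈ E) (hh' : h' ∈ E)
    (heq : h * m * h⁻¹ = h' * m * h'⁻¹) : h = h' := by
  have h1 : h'⁻¹ * h = 1 := by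
    apply hsemi (h'⁻¹ * h) (E.mul_mem (E.inv_mem hh') hh) m hm hm1
    have e : h'⁻¹ * h * m * (h'⁻¹ * h)⁻¹ = h'⁻¹ * (h * m * h⁻¹) * h' := by group
    rw [e, heq]
    group
  exact (inv_mul_eq_one.1 h1).symm

include hsemi hcard in
theorem invariant_eq (M : Subgroup G) (hMF : M ≤ F) (hM : M ≠ ⊥)
    (hinv : ∀ h ∈ E, ∀ m ∈ M, h * m * h⁻¹ ∈ M) : M = F := by
  obtain ⟨m, hm1⟩ := (Subgroup.ne_bot_iff_exists_ne_one).1 hM
  have hmM' : (m : G) ∈ M := m.2
  have hm1' : (m : G) ≠ 1 := fun h => hm1 (Subtype.ext h)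
  let f : Option E → M := fun o =>
    match o with
    | none => 1
    | some h => ⟨h.1 * m.1 * h.1⁻¹, hinv h.1 h.2 m.1 m.2⟩
  have hf : Function.Injective f := by
    intro o o' hoo
    match o, o' with
    | none, none => rfl
    | none, some h' =>
      exfalso
      have h1 : (1 : G) = h'.1 * m.1 * h'.1⁻¹ := congrArg Subtype.val hoo
      apply hm1'
      have h2 : (m : G) = h'.1⁻¹ * (h'.1 * m.1 * h'.1⁻¹) * h'.1 := by group
      rw [h2, ← h1]
      group
    | some h, none =>
      exfalso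
      have h1 : h.1 * m.1 * h.1⁻¹ = (1 : G) := congrArg Subtype.val hoo
      apply hm1'
      have h2 : (m : G) = h.1⁻¹ * (h.1 * m.1 * h.1⁻¹) * h.1 := by group
      rw [h2, h1]
      group
    | some h, some h' =>
      have h1 : h.1 * m.1 * h.1⁻¹ = h'.1 * m.1 * h'.1⁻¹ := congrArg Subtype.val hoo
      have h2 := conj_inj E F hsemi (hMF hmM') hm1' h.2 h'.2 h1
      rw [Subtype.ext h2]
  have h1 := Nat.card_le_card_of_injective f hf
  rw [Finite.card_option] at h1
  obtain ⟨k, hk⟩ := Subgroup.card_dvd_of_le hMF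
  have hFpos : 0 < Nat.card F := Nat.card_pos
  apply Subgroup.eq_of_le_of_card_ge hMF
  rcases Nat.lt_or_ge k 2 with hk2 | hk2
  · interval_cases k
    · omega
    · omega
  · have : Nat.card M * 2 ≤ Nat.card M * k := Nat.mul_le_mul_left _ hk2
    omega

include hnorm hsemi hcard in
theorem exists_central (hF : F ≠ ⊥) :
    ∃ z ∈ F, z ≠ 1 ∧ ∀ u ∈ F, z * u = u * z := by
  classical
  haveI : Fintype G := Fintype.ofFinite G
  obtain ⟨x, hx1⟩ := (Subgroup.ne_bot_iff_exists_ne_one).1 hF
  have hxF' : (x : G) ∈ F := x.2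
  have hx1' : (x : G) ≠ 1 := fun h => hx1 (Subtype.ext h)
  by_cases hall : ∀ u ∈ F, u ≠ 1 → orderOf u = orderOf (x : G)
  · have hm0 : orderOf (x : G) ≠ 0 := (orderOf_pos (x : G)).ne'
    have hm1 : orderOf (x : G) ≠ 1 := fun h => hx1' (orderOf_eq_one_iff.1 h)
    have hp : (orderOf (x : G)).minFac.Prime := Nat.minFac_prime hm1
    have hdvd : (orderOf (x : G)).minFac ∣ orderOf (x : G) := Nat.minFac_dvd _
    have ho := orderOf_pow_orderOf_div hm0 hdvd
    have hy1 : (x : G) ^ (orderOf (x : G) / (orderOf (x : G)).minFac) ≠ 1 := by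
      intro h
      rw [h, orderOf_one] at ho
      exact hp.one_lt.ne ho
    have hpm := hall _ (F.pow_mem hxF' _) hy1
    rw [ho] at hpm
    haveI : Fact (orderOf (x : G)).minFac.Prime := ⟨hp⟩
    have hPG : IsPGroup (orderOf (x : G)).minFac F := by
      intro u
      refine ⟨1, ?_⟩
      rw [pow_one]
      by_cases hu : (u : G) = 1
      · have : u = 1 := Subtype.ext hu
        rw [this, one_pow]
      · have h2 := hall u.1 u.2 hu
        apply Subtype.ext
        rw [Subgroup.coe_pow, Subgroup.coe_one, hpm, ← h2]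
        exact pow_orderOf_eq_one _
    haveI : Nontrivial F := ⟨⟨x, 1, hx1⟩⟩
    haveI := hPG.center_nontrivial
    obtain ⟨z, hz⟩ := exists_ne (1 : Subgroup.center F)
    refine ⟨z.1.1, z.1.2, ?_, ?_⟩
    · intro h
      apply hz
      apply Subtype.ext
      apply Subtype.ext
      exact h
    · intro u hu
      have h2 := Subgroup.mem_center_iff.1 z.2 ⟨u, hu⟩
      have h3 : (u : G) * z.1.1 = z.1.1 * u := congrArg Subtype.val h2
      exact h3.symm
  · push Not at hall
    obtain ⟨y, hyF, hy1, hyo⟩ := hall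
    refine ⟨x, hxF', hx1', ?_⟩
    let Tx : Finset G := Finset.univ.filter (fun u => u ∈ F ∧ orderOf u = orderOf (x : G))
    let Ty : Finset G := Finset.univ.filter (fun u => u ∈ F ∧ orderOf u = orderOf y)
    let Es : Finset G := Finset.univ.filter (fun g => g ∈ E)
    let Fs : Finset G := Finset.univ.filter (fun g => g ∈ F)
    have hEs : Es.card = Nat.card E := card_filter_mem E
    have hFs : Fs.card = Nat.card F := card_filter_mem F
    have himx : (Es.image (fun h => h * (x : G) * h⁻¹)).card = Es.card := by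
      apply Finset.card_image_of_injOn
      intro h hh h' hh' heq
      exact conj_inj E F hsemi hxF' hx1' (Finset.mem_filter.1 hh).2 (Finset.mem_filter.1 hh').2 heq
    have himy : (Es.image (fun h => h * y * h⁻¹)).card = Es.card := by
      apply Finset.card_image_of_injOn
      intro h hh h' hh' heq
      exact conj_inj E F hsemi hyF hy1 (Finset.mem_filter.1 hh).2 (Finset.mem_filter.1 hh').2 heq
    have hsubx : Es.image (fun h => h * (x : G) * h⁻¹) ⊆ Tx := by
      intro w hw
      obtain ⟨h, hh, rfl⟩ := Finset.mem_image.1 hw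
      rw [Finset.mem_filter]
      refine ⟨Finset.mem_univ _, hnorm h (Finset.mem_filter.1 hh).2 _ hxF', ?_⟩
      have h6 : h * (x : G) * h⁻¹ = (MulAut.conj h) (x : G) := by simp
      rw [h6, MulEquiv.orderOf_eq]
    have hsuby : Es.image (fun h => h * y * h⁻¹) ⊆ Ty := by
      intro w hw
      obtain ⟨h, hh, rfl⟩ := Finset.mem_image.1 hw
      rw [Finset.mem_filter]
      refine ⟨Finset.mem_univ _, hnorm h (Finset.mem_filter.1 hh).2 _ hyF, ?_⟩
      have h6 : h * y * h⁻¹ = (MulAut.conj h) y := by simp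
      rw [h6, MulEquiv.orderOf_eq]
    have hdisj : Disjoint Tx Ty := by
      rw [Finset.disjoint_left]
      intro u hu hu'
      apply hyo
      rw [← (Finset.mem_filter.1 hu').2.2, (Finset.mem_filter.1 hu).2.2]
    have hsub : Tx ∪ Ty ⊆ Fs.erase 1 := by
      intro u hu
      rw [Finset.mem_erase]
      rcases Finset.mem_union.1 hu with hu | hu
      · refine ⟨?_, Finset.mem_filter.2 ⟨Finset.mem_univ _, (Finset.mem_filter.1 hu).2.1⟩⟩
        intro h1
        have h2 := (Finset.mem_filter.1 hu).2.2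
        rw [h1, orderOf_one] at h2
        exact hx1' (orderOf_eq_one_iff.1 h2.symm)
      · refine ⟨?_, Finset.mem_filter.2 ⟨Finset.mem_univ _, (Finset.mem_filter.1 hu).2.1⟩⟩
        intro h1
        have h2 := (Finset.mem_filter.1 hu).2.2
        rw [h1, orderOf_one] at h2
        exact hy1 (orderOf_eq_one_iff.1 h2.symm)
    have hc1 := Finset.card_le_card hsub
    rw [Finset.card_union_of_disjoint hdisj,
      Finset.card_erase_of_mem (Finset.mem_filter.2 ⟨Finset.mem_univ _, F.one_mem⟩), hFs] at hc1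
    have hc2 := Finset.card_le_card hsubx
    have hc3 := Finset.card_le_card hsuby
    rw [himx, hEs] at hc2
    rw [himy, hEs] at hc3
    have hFpos : 0 < Nat.card F := Nat.card_pos
    have hTx : Tx.card = Nat.card E := by omega
    have hn : Nat.card F = 2 * Nat.card E + 1 := by omega
    have himeq : Es.image (fun h => h * (x : G) * h⁻¹) = Tx :=
      Finset.eq_of_subset_of_card_le hsubx (by rw [himx, hEs, hTx])
    let S : Set G := {u | u ∈ F ∧ orderOf u = orderOf (x : G)}
    have hScard : Nat.card S = Nat.card E := by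
      rw [← hTx, Nat.card_eq_fintype_card]
      exact Fintype.card_of_subtype _ (by intro u; simp [S, Tx])
    have hSinv : ∀ v ∈ F, ∀ u ∈ S, v * u * v⁻¹ ∈ S := by
      intro v hv u hu
      refine ⟨F.mul_mem (F.mul_mem hv hu.1) (F.inv_mem hv), ?_⟩
      have h6 : v * u * v⁻¹ = (MulAut.conj v) u := by simp
      rw [h6, MulEquiv.orderOf_eq]
      exact hu.2
    have hcent : ∀ w ∈ S, Nat.card ↥(F ⊓ Subgroup.centralizer ({w} : Set G)) =
        Nat.card ↥(F ⊓ Subgroup.centralizer ({(x : G)} : Set G)) := by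
      intro w hw
      have hwT : w ∈ Tx := Finset.mem_filter.2 ⟨Finset.mem_univ _, hw⟩
      rw [← himeq] at hwT
      obtain ⟨h, hh, rfl⟩ := Finset.mem_image.1 hwT
      have hhE : h ∈ E := (Finset.mem_filter.1 hh).2
      apply card_centralizer_conj F h x (hnorm h hhE)
      intro u hu
      have := hnorm h⁻¹ (E.inv_mem hhE) u hu
      rw [inv_inv] at this
      exact this
    have hdiv := index_dvd_card_of_centralizers F S hSinv _ hcent
    rw [hScard] at hdiv
    obtain ⟨k, hk⟩ := Subgroup.card_dvd_of_le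
      (inf_le_left : F ⊓ Subgroup.centralizer ({(x : G)} : Set G) ≤ F)
    have hmpos : 0 < Nat.card ↥(F ⊓ Subgroup.centralizer ({(x : G)} : Set G)) := Nat.card_pos
    have hk' : Nat.card F / Nat.card ↥(F ⊓ Subgroup.centralizer ({(x : G)} : Set G)) = k := by
      rw [hk]
      exact Nat.mul_div_cancel_left k hmpos
    rw [hk'] at hdiv
    have hk1 : k = 1 := by
      have h1 : k ∣ 2 * Nat.card E + 1 := by
        rw [← hn, hk]
        exact dvd_mul_left k _
      have h2 : k ∣ 1 := by
        have h3 : k ∣ 2 * Nat.card E := dvd_mul_of_dvd_right hdiv 2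
        exact (Nat.dvd_add_right h3).1 h1
      exact Nat.dvd_one.1 h2
    rw [hk1, mul_one] at hk
    have heq : F ⊓ Subgroup.centralizer ({(x : G)} : Set G) = F :=
      Subgroup.eq_of_le_of_card_ge inf_le_left hk.le
    intro u hu
    have hu' : u ∈ F ⊓ Subgroup.centralizer ({(x : G)} : Set G) := by rw [heq]; exact hu
    exact (Subgroup.mem_centralizer_singleton_iff.1 hu'.2).symm

include hnorm hsemi hcard in
theorem comm_of_semiregular (hF : F ≠ ⊥) : ∀ u ∈ F, ∀ v ∈ F, u * v = v * u := by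
  obtain ⟨z, hzF, hz1, hz⟩ := exists_central E F hnorm hsemi hcard hF
  have hM : F ⊓ Subgroup.centralizer (F : Set G) = F := by
    apply invariant_eq E F hsemi hcard _ inf_le_left
    · intro h
      have : z ∈ (⊥ : Subgroup G) := by
        rw [← h]
        refine ⟨hzF, ?_⟩
        apply Subgroup.mem_centralizer_iff.2
        intro u hu
        exact (hz u hu).symm
      exact hz1 (Subgroup.mem_bot.1 this)
    · intro h hh m hm
      refine ⟨hnorm h hh m hm.1, ?_⟩
      apply Subgroup.mem_centralizer_iff.2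
      intro u hu
      have h1 : h⁻¹ * u * h ∈ F := by
        have := hnorm h⁻¹ (E.inv_mem hh) u hu
        rw [inv_inv] at this
        exact this
      have h2 := (Subgroup.mem_centralizer_iff.1
        (show m ∈ Subgroup.centralizer (F : Set G) from hm.2)) _ h1
      have e1 : u * (h * m * h⁻¹) = h * (h⁻¹ * u * h * m) * h⁻¹ := by group
      have e2 : h * m * h⁻¹ * u = h * (m * (h⁻¹ * u * h)) * h⁻¹ := by group
      rw [e1, e2, h2]
  intro u hu v hv
  have hu' : u ∈ F ⊓ Subgroup.centralizer (F : Set G) := by rw [hM]; exact hu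
  exact ((Subgroup.mem_centralizer_iff.1 hu'.2) v hv).symm

include hnorm hsemi hcard in
theorem exponent_of_semiregular (hF : F ≠ ⊥) : ∃ p : ℕ, p.Prime ∧ ∀ u ∈ F, u ^ p = 1 := by
  have hcomm := comm_of_semiregular E F hnorm hsemi hcard hF
  have hn1 : Nat.card F ≠ 1 := by
    intro h
    exact hF (Subgroup.card_eq_one.1 h)
  have hp : (Nat.card F).minFac.Prime := Nat.minFac_prime hn1
  haveI : Fact (Nat.card F).minFac.Prime := ⟨hp⟩
  obtain ⟨x, hx⟩ := exists_prime_orderOf_dvd_card' (G := F) (Nat.card F).minFac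
    (Nat.minFac_dvd _)
  refine ⟨(Nat.card F).minFac, hp, ?_⟩
  let M : Subgroup G :=
    { carrier := {u | u ∈ F ∧ u ^ (Nat.card F).minFac = 1}
      one_mem' := ⟨F.one_mem, one_pow _⟩
      mul_mem' := by
        rintro u v ⟨hu, hu'⟩ ⟨hv, hv'⟩
        refine ⟨F.mul_mem hu hv, ?_⟩
        have hc : Commute u v := hcomm u hu v hv
        rw [hc.mul_pow, hu', hv', one_mul]
      inv_mem' := by
        rintro u ⟨hu, hu'⟩
        exact ⟨F.inv_mem hu, by rw [inv_pow, hu', inv_one]⟩ }
  have hMF : M ≤ F := fun u hu => hu.1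
  have hM : M = F := by
    apply invariant_eq E F hsemi hcard M hMF
    · intro h
      have hxM : (x : G) ∈ M := by
        refine ⟨x.2, ?_⟩
        have h1 := pow_orderOf_eq_one x
        rw [hx] at h1
        have h2 : ((x ^ (Nat.card F).minFac : F) : G) = 1 := by rw [h1]; rfl
        rw [Subgroup.coe_pow] at h2
        exact h2
      rw [h] at hxM
      have hx1 : x = 1 := Subtype.ext (Subgroup.mem_bot.1 hxM)
      rw [hx1, orderOf_one] at hx
      exact hp.one_lt.ne hx
    · rintro h hh m ⟨hm, hm'⟩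
      refine ⟨hnorm h hh m hm, ?_⟩
      rw [conj_pow, hm']
      group
  intro u hu
  have hu' : u ∈ M := by rw [hM]; exact hu
  exact hu'.2

end main

end Cfsg.Agent.Lib.Helper2.Semireg
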