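import Mathlib
import Cfsg.Agent.Lib.Helper2.Semireg
import Cfsg.Agent.Lib.Helper2.SylP
import Cfsg.Agent.Lib.Helper2.Lift

set_option autoImplicit false

namespace Cfsg.Agent.Lib.Helper2.PrimeDeg

open Cfsg.Agent.Lib.Helper2

variable {K α : Type*} [Group K] [MulAction K α]

theorem fpf_of_card_prime [Finite K] [Fintype α] [FaithfulSMul K α] {p : ℕ} [Fact p.Prime]
    (hα : Fintype.card α = p) (P : Subgroup K) (hP : Nat.card P = p) (x : K) (hx : x ∈ P)
    (hx1 : x ≠ 1) (b : α) : x • b ≠ b := by
  classical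
  have hp : p.Prime := Fact.out
  intro hxb
  apply hx1
  apply FaithfulSMul.eq_of_smul_eq_smul (α := α)
  intro c
  rw [one_smul]
  by_cases hcb : c = b
  · rw [hcb, hxb]
  have hPz := SylP.zpowers_eq_of_card_prime P hP hx hx1
  have hPb : ∀ y : P, y • b = b := by
    intro y
    have hy : (y : K) ∈ Subgroup.zpowers x := by rw [hPz]; exact y.2
    have h1 : Subgroup.zpowers x ≤ MulAction.stabilizer K b := by
      rw [Subgroup.zpowers_le]
      exact MulAction.mem_stabilizer_iff.2 hxb
    exact MulAction.mem_stabilizer_iff.1 (h1 hy)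
  have h1 := MulAction.index_stabilizer P c
  have h2 : (MulAction.stabilizer P c).index ∣ p := by
    rw [← hP]
    exact Subgroup.index_dvd_card _
  have h3 : (MulAction.orbit P c).ncard ≤ p - 1 := by
    have hsub : MulAction.orbit P c ⊆ ((Finset.univ.erase b : Finset α) : Set α) := by
      rintro _ ⟨y, rfl⟩
      rw [Finset.mem_coe, Finset.mem_erase]
      refine ⟨?_, Finset.mem_univ _⟩
      intro h
      apply hcb
      have h4 : y • c = y • b := by
        rw [hPb y]
        exact h
      exact smul_left_cancel y h4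
    have h5 := Set.ncard_le_ncard hsub (Finset.finite_toSet _)
    rw [Set.ncard_coe_finset, Finset.card_erase_of_mem (Finset.mem_univ b), Finset.card_univ,
      hα] at h5
    exact h5
  rw [h1] at h2
  have h6 : (MulAction.orbit P c).ncard = 1 := by
    rcases (Nat.dvd_prime hp).1 h2 with h | h
    · exact h
    · have := hp.pos
      omega
  have h7 : x • c ∈ MulAction.orbit P c := ⟨⟨x, hx⟩, rfl⟩
  have h8 : c ∈ MulAction.orbit P c := MulAction.mem_orbit_self c
  obtain ⟨d, hd⟩ := Set.ncard_eq_one.1 h6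
  rw [hd, Set.mem_singleton_iff] at h7 h8
  rw [h7, h8]

theorem card_eq_of_self_normalizing [Finite K] [Fintype α] [FaithfulSMul K α]
    [MulAction.IsPretransitive K α] {p : ℕ} [Fact p.Prime] (hα : Fintype.card α = p)
    (P : Subgroup K) (hP : Nat.card P = p) (hN : Subgroup.normalizer (P : Set K) ≤ P) :
    Nat.card K = p := by
  classical
  have hp : p.Prime := Fact.out
  haveI : Fintype K := Fintype.ofFinite K
  have hne : Nonempty α := by
    rw [← Fintype.card_pos_iff, hα]
    exact hp.pos
  obtain ⟨a⟩ := hne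
  have hfpf : ∀ x ∈ P, x ≠ 1 → ∀ b : α, x • b ≠ b :=
    fun x hx hx1 b => fpf_of_card_prime hα P hP x hx hx1 b
  have hKS : Nat.card K = p * Nat.card (MulAction.stabilizer K a) := by
    have h1 := MulAction.index_stabilizer_of_transitive (G := K) (x := a)
    have h2 := Subgroup.index_mul_card (MulAction.stabilizer K a)
    rw [h1, Nat.card_eq_fintype_card (α := α), hα] at h2
    exact h2.symm
  let Sf : Finset K := Finset.univ.filter (fun k => k ∈ MulAction.stabilizer K a)
  let Tf : Finset K := Finset.univ.filter (fun k => ∃ b : α, k • b = b)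
  let Ff : Finset K := Finset.univ.filter (fun k => ¬ ∃ b : α, k • b = b)
  let Pf : Finset K := (Finset.univ.filter (fun k => k ∈ P)).erase 1
  have hSf : Sf.card = Nat.card (MulAction.stabilizer K a) :=
    Semireg.card_filter_mem (MulAction.stabilizer K a)
  have hPf : Pf.card = p - 1 := by
    rw [Finset.card_erase_of_mem (by simp [P.one_mem]), Semireg.card_filter_mem P, hP]
  have hTF : Tf.card + Ff.card = Nat.card K := by
    rw [Nat.card_eq_fintype_card, ← Finset.card_univ]
    exact Finset.card_filter_add_card_filter_not _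
  have hST : Sf ⊆ Tf := by
    intro k hk
    rw [Finset.mem_filter] at hk ⊢
    exact ⟨hk.1, a, MulAction.mem_stabilizer_iff.1 hk.2⟩
  have hinj : (Sf ×ˢ Pf).card ≤ Ff.card := by
    apply Finset.card_le_card_of_injOn (fun sx => sx.1 * sx.2 * sx.1⁻¹)
    · rintro ⟨s, x⟩ hsx
      rw [Finset.mem_coe, Finset.mem_product] at hsx
      obtain ⟨hs, hx⟩ := hsx
      rw [Finset.mem_erase, Finset.mem_filter] at hx
      rw [Finset.mem_coe, Finset.mem_filter]
      refine ⟨Finset.mem_univ _, ?_⟩
      rintro ⟨b, hb⟩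
      apply hfpf x hx.2.2 hx.1 (s⁻¹ • b)
      rw [mul_smul, mul_smul] at hb
      exact eq_inv_smul_iff.2 hb
    · rintro ⟨s, x⟩ hsx ⟨s', x'⟩ hsx' heq
      rw [Finset.mem_coe, Finset.mem_product] at hsx hsx'
      obtain ⟨hs, hx⟩ := hsx
      obtain ⟨hs', hx'⟩ := hsx'
      rw [Finset.mem_erase, Finset.mem_filter] at hx hx'
      rw [Finset.mem_filter] at hs hs'
      have heq' : s * x * s⁻¹ = s' * x' * s'⁻¹ := heq
      have ht : s'⁻¹ * s ∈ MulAction.stabilizer K a :=
        Subgroup.mul_mem _ (Subgroup.inv_mem _ hs'.2) hs.2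
      have hconj : (s'⁻¹ * s) * x * (s'⁻¹ * s)⁻¹ = x' := by
        have e : s'⁻¹ * (s * x * s⁻¹) * s' = x' := by rw [heq']; group
        rw [← e]
        group
      have htN : s'⁻¹ * s ∈ Subgroup.normalizer (P : Set K) := by
        apply Lift.conj_le_mem_normalizer
        intro y hy
        rw [← SylP.zpowers_eq_of_card_prime P hP hx.2.2 hx.1] at hy
        obtain ⟨k, rfl⟩ := Subgroup.mem_zpowers_iff.1 hy
        rw [← conj_zpow, hconj]
        exact P.zpow_mem hx'.2.2 k
      have htP : s'⁻¹ * s ∈ P := hN htN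
      have ht1 : s'⁻¹ * s = 1 := by
        by_contra hne
        exact hfpf _ htP hne a (MulAction.mem_stabilizer_iff.1 ht)
      have hss : s = s' := (inv_mul_eq_one.1 ht1).symm
      rw [ht1] at hconj
      have hxx : x = x' := by simpa using hconj
      rw [hss, hxx]
  rw [Finset.card_product, hSf, hPf] at hinj
  have hTle : Tf.card ≤ Sf.card := by
    rw [hSf]
    have h1 : Nat.card (MulAction.stabilizer K a) * (p - 1) +
        Nat.card (MulAction.stabilizer K a) = p * Nat.card (MulAction.stabilizer K a) := by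
      obtain ⟨m, rfl⟩ : ∃ m, p = m + 1 := ⟨p - 1, by have := hp.pos; omega⟩
      simp only [Nat.add_sub_cancel]
      ring
    omega
  have hTS : Sf = Tf := Finset.eq_of_subset_of_card_le hST hTle
  have hfix : ∀ k : K, (∃ b : α, k • b = b) → k • a = a := by
    intro k hk
    have h1 : k ∈ Tf := Finset.mem_filter.2 ⟨Finset.mem_univ _, hk⟩
    rw [← hTS] at h1
    exact MulAction.mem_stabilizer_iff.1 (Finset.mem_filter.1 h1).2
  have hS1 : ∀ k ∈ MulAction.stabilizer K a, k = 1 := by
    intro k hk
    have hka : k • a = a := MulAction.mem_stabilizer_iff.1 hk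
    apply FaithfulSMul.eq_of_smul_eq_smul (α := α)
    intro c
    rw [one_smul]
    obtain ⟨g, rfl⟩ := MulAction.exists_smul_eq K a c
    have h1 := hfix (g⁻¹ * k * g) ⟨g⁻¹ • a, by
      rw [mul_smul, mul_smul, smul_inv_smul, hka]⟩
    rw [mul_smul, mul_smul, inv_smul_eq_iff] at h1
    exact h1
  have hScard : Nat.card (MulAction.stabilizer K a) = 1 := by
    rw [Subgroup.card_eq_one]
    exact (Subgroup.eq_bot_iff_forall _).2 hS1
  rw [hKS, hScard, mul_one]

end Cfsg.Agent.Lib.Helper2.PrimeDeg
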