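import Mathlib

set_option autoImplicit false

namespace Cfsg.Agent.Lib.Helper2.QIndex

variable {F V : Type*} [Field F] [AddCommGroup V] [Module F V]

theorem polar_zero (Q : QuadraticForm F V) {W : Submodule F V} (h : ∀ w ∈ W, Q w = 0)
    {x y : V} (hx : x ∈ W) (hy : y ∈ W) : QuadraticMap.polar Q x y = 0 := by
  rw [QuadraticMap.polar, h _ (W.add_mem hx hy), h x hx, h y hy]
  simp

theorem mem_of_ortho (Q : QuadraticForm F V) {W₂ : Submodule F V} (h₂ : ∀ w ∈ W₂, Q w = 0)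
    (hmax₂ : ∀ W : Submodule F V, W₂ ≤ W → (∀ w ∈ W, Q w = 0) → W = W₂) {x : V}
    (hx : Q x = 0) (hxo : ∀ y ∈ W₂, QuadraticMap.polar Q y x = 0) : x ∈ W₂ := by
  have h := hmax₂ (W₂ ⊔ Submodule.span F {x}) le_sup_left (by
    intro w hw
    obtain ⟨y, hy, z, hz, rfl⟩ := Submodule.mem_sup.1 hw
    obtain ⟨c, rfl⟩ := Submodule.mem_span_singleton.1 hz
    rw [QuadraticMap.map_add Q y (c • x), h₂ y hy, QuadraticMap.map_smul, hx,
      QuadraticMap.polar_smul_right, hxo y hy]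
    simp)
  rw [← h]
  exact Submodule.mem_sup_right (Submodule.mem_span_singleton_self x)

theorem finrank_le [FiniteDimensional F V] (Q : QuadraticForm F V)
    (hQ : (QuadraticMap.polarBilin Q).Nondegenerate) (W₁ W₂ : Submodule F V)
    (h₁ : ∀ w ∈ W₁, Q w = 0) (h₂ : ∀ w ∈ W₂, Q w = 0)
    (hmax₂ : ∀ W : Submodule F V, W₂ ≤ W → (∀ w ∈ W, Q w = 0) → W = W₂) :
    Module.finrank F W₁ ≤ Module.finrank F W₂ := by
  obtain ⟨C₀, hC₀⟩ := Submodule.exists_isCompl (W₁ ⊓ W₂)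
  have hUC : (W₁ ⊓ W₂) ⊔ (C₀ ⊓ W₂) = W₂ := by
    rw [← sup_inf_assoc_of_le C₀ (inf_le_right : W₁ ⊓ W₂ ≤ W₂), hC₀.sup_eq_top, top_inf_eq]
  have hUC' : (W₁ ⊓ W₂) ⊓ (C₀ ⊓ W₂) = ⊥ := by
    rw [eq_bot_iff, ← hC₀.inf_eq_bot]
    exact inf_le_inf_left _ inf_le_left
  have hdim : Module.finrank F W₂ =
      Module.finrank F ↥(W₁ ⊓ W₂) + Module.finrank F ↥(C₀ ⊓ W₂) := by
    have h := Submodule.finrank_sup_add_finrank_inf_eq (W₁ ⊓ W₂) (C₀ ⊓ W₂)
    rw [hUC, hUC', finrank_bot] at h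
    omega
  have hle : W₁ ⊓ (LinearMap.BilinForm.orthogonal (QuadraticMap.polarBilin Q)) (C₀ ⊓ W₂) ≤ W₁ ⊓ W₂ := by
    rintro x ⟨hx1, hx2⟩
    refine ⟨hx1, ?_⟩
    apply mem_of_ortho Q h₂ hmax₂ (h₁ x hx1)
    intro y hy
    rw [← hUC] at hy
    obtain ⟨u, hu, c, hc, rfl⟩ := Submodule.mem_sup.1 hy
    rw [QuadraticMap.polar_add_left, polar_zero Q h₁ hu.1 hx1, zero_add]
    exact (LinearMap.BilinForm.mem_orthogonal_iff.1 hx2) c hc
  have h1 := Submodule.finrank_sup_add_finrank_inf_eq W₁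
    (LinearMap.BilinForm.orthogonal (QuadraticMap.polarBilin Q) (C₀ ⊓ W₂))
  have h2 := LinearMap.BilinForm.finrank_orthogonal hQ (C₀ ⊓ W₂)
  have h3 := Submodule.finrank_mono hle
  have h4 : Module.finrank F ↥(W₁ ⊔ (LinearMap.BilinForm.orthogonal (QuadraticMap.polarBilin Q)) (C₀ ⊓ W₂)) ≤
      Module.finrank F V := Submodule.finrank_le _
  have h5 : Module.finrank F ↥(C₀ ⊓ W₂) ≤ Module.finrank F V := Submodule.finrank_le _
  omega

theorem two_mul_le [FiniteDimensional F V] (Q : QuadraticForm F V)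
    (hQ : (QuadraticMap.polarBilin Q).Nondegenerate) (W₁ : Submodule F V)
    (h₁ : ∀ w ∈ W₁, Q w = 0) : 2 * Module.finrank F W₁ ≤ Module.finrank F V := by
  have hle : W₁ ≤ (LinearMap.BilinForm.orthogonal (QuadraticMap.polarBilin Q)) W₁ := by
    intro x hx
    rw [LinearMap.BilinForm.mem_orthogonal_iff]
    intro y hy
    exact polar_zero Q h₁ hy hx
  have h2 := LinearMap.BilinForm.finrank_orthogonal hQ W₁
  have h3 := Submodule.finrank_mono hle
  have h5 : Module.finrank F W₁ ≤ Module.finrank F V := Submodule.finrank_le _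
  omega

end Cfsg.Agent.Lib.Helper2.QIndex
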