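import Mathlib
import Cfsg.Agent.Lib.Helper2.SylowAux
import Cfsg.Agent.Lib.Helper2.Semireg

set_option autoImplicit false

namespace Cfsg.Agent.Lib.Helper2.QSyl

variable {G : Type*} [Group G]

theorem cyc_mem [Finite G] (t z : G) (D : Subgroup G) (hD : D ≤ Subgroup.zpowers t)
    (hz : z ∈ Subgroup.zpowers t) (hzD : z ^ Nat.card D = 1) : z ∈ D := by
  classical
  haveI : Fintype (Subgroup.zpowers t) := Fintype.ofFinite _
  have hk : 0 < Nat.card D := Nat.card_pos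
  have hF := IsCyclic.card_pow_eq_one_le (α := Subgroup.zpowers t) hk
  have hU : (Finset.univ.filter (fun c : Subgroup.zpowers t =>
      c ∈ D.subgroupOf (Subgroup.zpowers t))).card = Nat.card D := by
    rw [Semireg.card_filter_mem]
    exact Nat.card_congr (Subgroup.subgroupOfEquivOfLe hD).toEquiv
  have hsub : (Finset.univ.filter (fun c : Subgroup.zpowers t =>
      c ∈ D.subgroupOf (Subgroup.zpowers t))) ⊆
      (Finset.univ.filter (fun c : Subgroup.zpowers t => c ^ Nat.card D = 1)) := by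
    intro c hc
    rw [Finset.mem_filter] at hc ⊢
    refine ⟨Finset.mem_univ _, ?_⟩
    have h1 : (c : G) ∈ D := Subgroup.mem_subgroupOf.1 hc.2
    have h2 : (⟨(c : G), h1⟩ : D) ^ Nat.card D = 1 := pow_card_eq_one'
    apply Subtype.ext
    have h3 := congrArg Subtype.val h2
    exact h3
  have heq := Finset.eq_of_subset_of_card_le hsub (by rw [hU]; exact hF)
  have hz' : (⟨z, hz⟩ : Subgroup.zpowers t) ∈
      (Finset.univ.filter (fun c : Subgroup.zpowers t => c ^ Nat.card D = 1)) := by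
    rw [Finset.mem_filter]
    exact ⟨Finset.mem_univ _, Subtype.ext hzD⟩
  rw [← heq, Finset.mem_filter] at hz'
  exact Subgroup.mem_subgroupOf.1 hz'.2

theorem conj_centralizer {D : Subgroup G} {h b : G}
    (hh : h ∈ Subgroup.normalizer (D : Set G)) (hb : b ∈ Subgroup.centralizer (D : Set G)) :
    h⁻¹ * b * h ∈ Subgroup.centralizer (D : Set G) := by
  rw [Subgroup.mem_centralizer_iff] at hb ⊢
  intro d hd
  have h1 : h * d * h⁻¹ ∈ D := (Subgroup.mem_normalizer_iff.1 hh d).1 hd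
  have h2 := hb _ h1
  calc d * (h⁻¹ * b * h) = h⁻¹ * ((h * d * h⁻¹) * b) * h := by group
    _ = h⁻¹ * (b * (h * d * h⁻¹)) * h := by rw [h2]
    _ = h⁻¹ * b * h * d := by group

theorem part1 [Finite G] (S : Sylow 2 G) (D : Subgroup G) (hDS : D ≤ S)
    (hSN : (S : Subgroup G) ≤ Subgroup.normalizer (D : Set G))
    (hDab : D ≤ Subgroup.centralizer (D : Set G)) (t : G)
    (hT : ∀ s ∈ (S : Subgroup G), s ∈ Subgroup.centralizer (D : Set G) →
      s ∈ Subgroup.zpowers t)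
    (y : G) (hy : y ∈ Subgroup.centralizer (D : Set G)) (hdvd : Nat.card D ∣ orderOf y) :
    D ≤ Subgroup.zpowers y := by
  haveI : Fact (Nat.Prime 2) := ⟨Nat.prime_two⟩
  have hDp : IsPGroup 2 D := S.isPGroup'.to_le hDS
  obtain ⟨d, hd⟩ := hDp.exists_card_eq
  have ho : orderOf y ≠ 0 := (orderOf_pos y).ne'
  obtain ⟨a, m, hm, hoam⟩ := Nat.exists_eq_two_pow_mul_odd ho
  have hm0 : m ≠ 0 := by
    rintro rfl
    exact (Nat.not_odd_iff_even.2 (by decide)) hm
  have hda : 2 ^ d ∣ 2 ^ a := by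
    rw [hd, hoam] at hdvd
    exact (Nat.Coprime.pow_left d (Nat.coprime_two_left.2 hm)).dvd_of_dvd_mul_right hdvd
  obtain ⟨y₂, hy₂⟩ : ∃ y₂ : G, y₂ = y ^ m := ⟨_, rfl⟩
  have hoy₂ : orderOf y₂ = 2 ^ a := by
    rw [hy₂, orderOf_pow' y hm0, hoam, Nat.gcd_mul_left_left, Nat.mul_div_cancel _ (Nat.pos_of_ne_zero hm0)]
  have hy₂C : y₂ ∈ Subgroup.centralizer (D : Set G) := by
    rw [hy₂]
    exact Subgroup.pow_mem _ hy m
  have hB : IsPGroup 2 (Subgroup.zpowers y₂ ⊔ D : Subgroup G) := by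
    refine IsPGroup.to_sup_of_normal_right' ?_ hDp ?_
    · exact IsPGroup.of_card (n := a) (by rw [Nat.card_zpowers, hoy₂])
    · rw [Subgroup.zpowers_le]
      exact Subgroup.centralizer_le_normalizer _ hy₂C
  have hBN : (Subgroup.zpowers y₂ ⊔ D : Subgroup G) ≤ Subgroup.normalizer (D : Set G) := by
    refine sup_le ?_ Subgroup.le_normalizer
    rw [Subgroup.zpowers_le]
    exact Subgroup.centralizer_le_normalizer _ hy₂C
  have hBC : (Subgroup.zpowers y₂ ⊔ D : Subgroup G) ≤ Subgroup.centralizer (D : Set G) := by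
    refine sup_le ?_ hDab
    rw [Subgroup.zpowers_le]
    exact hy₂C
  obtain ⟨h, hhN, hh⟩ := SylowAux.exists_conj_le_sylow_of_le S hSN hBN hB
  have hconj : ∀ b ∈ (Subgroup.zpowers y₂ ⊔ D : Subgroup G), h⁻¹ * b * h ∈ Subgroup.zpowers t :=
    fun b hb => hT _ (hh b hb) (conj_centralizer hhN (hBC hb))
  have hU : (Subgroup.zpowers (h⁻¹ * y₂ * h)) ≤ Subgroup.zpowers t := by
    rw [Subgroup.zpowers_le]
    exact hconj y₂ (Subgroup.mem_sup_left (Subgroup.mem_zpowers y₂))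
  have hcardU : Nat.card (Subgroup.zpowers (h⁻¹ * y₂ * h)) = 2 ^ a := by
    rw [Nat.card_zpowers]
    have e : h⁻¹ * y₂ * h = MulAut.conj h⁻¹ y₂ := by
      rw [MulAut.conj_apply, inv_inv]
    rw [e, MulEquiv.orderOf_eq, hoy₂]
  intro x hx
  have hx1 : h⁻¹ * x * h ∈ Subgroup.zpowers t := hconj x (Subgroup.mem_sup_right hx)
  have hx2 : (h⁻¹ * x * h) ^ Nat.card (Subgroup.zpowers (h⁻¹ * y₂ * h)) = 1 := by
    rw [hcardU]
    have h1 : x ^ 2 ^ d = 1 := by
      have h2 : (⟨x, hx⟩ : D) ^ Nat.card D = 1 := pow_card_eq_one'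
      rw [hd] at h2
      exact congrArg Subtype.val h2
    obtain ⟨c, hc⟩ := hda
    have h3 : x ^ 2 ^ a = 1 := by rw [hc, pow_mul, h1, one_pow]
    have e : (h⁻¹ * x * h) ^ 2 ^ a = h⁻¹ * x ^ 2 ^ a * h := by
      have e1 : h⁻¹ * x * h = MulAut.conj h⁻¹ x := by rw [MulAut.conj_apply, inv_inv]
      have e2 : h⁻¹ * x ^ 2 ^ a * h = MulAut.conj h⁻¹ (x ^ 2 ^ a) := by
        rw [MulAut.conj_apply, inv_inv]
      rw [e1, e2, map_pow]
    rw [e, h3]
    group
  have hx3 := cyc_mem t _ _ hU hx1 hx2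
  obtain ⟨k, hk⟩ := Subgroup.mem_zpowers_iff.1 hx3
  have hx4 : x = y₂ ^ k := by
    have e : (h⁻¹ * y₂ * h) ^ k = h⁻¹ * y₂ ^ k * h := by
      have e1 : h⁻¹ * y₂ * h = MulAut.conj h⁻¹ y₂ := by rw [MulAut.conj_apply, inv_inv]
      have e2 : h⁻¹ * y₂ ^ k * h = MulAut.conj h⁻¹ (y₂ ^ k) := by
        rw [MulAut.conj_apply, inv_inv]
      rw [e1, e2, map_zpow]
    rw [e] at hk
    have h5 : y₂ ^ k = h * (h⁻¹ * y₂ ^ k * h) * h⁻¹ := by group
    rw [h5, hk]
    group
  rw [hx4, hy₂, ← zpow_natCast, ← zpow_mul]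
  exact Subgroup.zpow_mem_zpowers y _

theorem part2 [Finite G] (D : Subgroup G)
    (h1 : ∀ y : G, y ∈ Subgroup.centralizer (D : Set G) → Nat.card D ∣ orderOf y →
      D ≤ Subgroup.zpowers y)
    (g y : G) (hy : y ∈ Subgroup.centralizer (D : Set G)) (hdvd : Nat.card D ∣ orderOf y)
    (hgy : g * y * g⁻¹ ∈ Subgroup.centralizer (D : Set G)) :
    g ∈ Subgroup.normalizer (D : Set G) := by
  have hD1 := h1 y hy hdvd
  have horder : orderOf (g * y * g⁻¹) = orderOf y := by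
    have e : g * y * g⁻¹ = MulAut.conj g y := by rw [MulAut.conj_apply]
    rw [e, MulEquiv.orderOf_eq]
  have hD2 := h1 _ hgy (by rw [horder]; exact hdvd)
  have hkey : ∀ x ∈ D, g⁻¹ * x * g ∈ D := by
    intro x hx
    obtain ⟨k, hk⟩ := Subgroup.mem_zpowers_iff.1 (hD2 hx)
    have e : (g * y * g⁻¹) ^ k = g * y ^ k * g⁻¹ := by
      have e1 : g * y * g⁻¹ = MulAut.conj g y := by rw [MulAut.conj_apply]
      have e2 : g * y ^ k * g⁻¹ = MulAut.conj g (y ^ k) := by rw [MulAut.conj_apply]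
      rw [e1, e2, map_zpow]
    rw [e] at hk
    have hx' : g⁻¹ * x * g = y ^ k := by
      rw [← hk]
      group
    refine cyc_mem y _ D hD1 (by rw [hx']; exact Subgroup.zpow_mem_zpowers y k) ?_
    have h2 : (⟨x, hx⟩ : D) ^ Nat.card D = 1 := pow_card_eq_one'
    have h3 : x ^ Nat.card D = 1 := congrArg Subtype.val h2
    have e1 : g⁻¹ * x * g = MulAut.conj g⁻¹ x := by rw [MulAut.conj_apply, inv_inv]
    rw [e1, ← map_pow, h3, map_one]
  have hinj : Function.Injective (fun x : D => (⟨g⁻¹ * x.1 * g, hkey x.1 x.2⟩ : D)) := by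
    intro x x' hxx
    have h2 := congrArg Subtype.val hxx
    simp only at h2
    apply Subtype.ext
    have h3 : x.1 = g * (g⁻¹ * x.1 * g) * g⁻¹ := by group
    rw [h3, h2]
    group
  have hsurj := Finite.surjective_of_injective hinj
  rw [Subgroup.mem_normalizer_iff]
  intro x
  constructor
  · intro hx
    obtain ⟨x₀, hx₀⟩ := hsurj ⟨x, hx⟩
    have h2 := congrArg Subtype.val hx₀
    simp only at h2
    rw [← h2]
    have h3 : g * (g⁻¹ * x₀.1 * g) * g⁻¹ = x₀.1 := by group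
    rw [h3]
    exact x₀.2
  · intro hx
    have h2 := hkey _ hx
    have h3 : g⁻¹ * (g * x * g⁻¹) * g = x := by group
    rw [h3] at h2
    exact h2

theorem part3 (D : Subgroup G) (g y : G) (hg : g ∈ Subgroup.normalizer (D : Set G))
    (hy : y ∈ Subgroup.centralizer (D : Set G)) (hdvd : Nat.card D ∣ orderOf y) :
    g * y * g⁻¹ ∈ Subgroup.centralizer (D : Set G) ∧ Nat.card D ∣ orderOf (g * y * g⁻¹) := by
  constructor
  · have h1 := conj_centralizer (Subgroup.inv_mem _ hg) hy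
    rw [inv_inv] at h1
    exact h1
  · have e : g * y * g⁻¹ = MulAut.conj g y := by rw [MulAut.conj_apply]
    rw [e, MulEquiv.orderOf_eq]
    exact hdvd

end Cfsg.Agent.Lib.Helper2.QSyl
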