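import Mathlib
import Cfsg.Agent.Lib.Helper2.QSyl

set_option autoImplicit false

namespace Cfsg.Agent.Lib.Helper2.QSyl

open QuaternionGroup

open scoped commutatorElement

def sgn (m : ℕ) : QuaternionGroup m →* Multiplicative (ZMod 2) where
  toFun g := match g with
    | a _ => Multiplicative.ofAdd 0
    | xa _ => Multiplicative.ofAdd 1
  map_one' := rfl
  map_mul' := by
    rintro (i | i) (j | j)
    · rfl
    · rfl
    · rfl
    · show Multiplicative.ofAdd (0 : ZMod 2) = Multiplicative.ofAdd 1 * Multiplicative.ofAdd 1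
      rw [← ofAdd_add]
      rfl

theorem sgn_ker (m : ℕ) (g : QuaternionGroup m) (hg : sgn m g = 1) : ∃ i, g = a i := by
  rcases g with i | i
  · exact ⟨i, rfl⟩
  · exfalso
    have h1 : Multiplicative.ofAdd (1 : ZMod 2) = Multiplicative.ofAdd 0 := hg
    have h2 : (1 : ZMod 2) = 0 := Multiplicative.ofAdd.injective h1
    exact one_ne_zero h2

theorem comm_a_one_xa (m : ℕ) :
    ⁅(a 1 : QuaternionGroup m), (xa 0 : QuaternionGroup m)⁆ = a 2 := by
  rw [commutatorElement_def, mul_inv_eq_iff_eq_mul, mul_inv_eq_iff_eq_mul]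
  simp only [a_mul_xa, xa_mul_a]
  congr 1
  ring

theorem four_ne_zero (n : ℕ) : (4 : ZMod (2 * 2 ^ (n + 2))) ≠ 0 := by
  intro h
  have h1 : ((4 : ℕ) : ZMod (2 * 2 ^ (n + 2))) = 0 := by exact_mod_cast h
  rw [ZMod.natCast_eq_zero_iff] at h1
  have h2 := Nat.le_of_dvd (by norm_num) h1
  have h3 : 4 ≤ 2 ^ (n + 2) := by
    calc 4 = 2 ^ 2 := by norm_num
      _ ≤ 2 ^ (n + 2) := Nat.pow_le_pow_right (by norm_num) (by omega)
  omega

theorem main {G : Type*} [Group G] [Finite G] (S : Sylow 2 G) (n : ℕ)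
    (e : (S : Subgroup G) ≃* QuaternionGroup (2 ^ (n + 2))) (D : Subgroup G)
    (hD : D = ⁅(S : Subgroup G), (S : Subgroup G)⁆) :
    (∀ y : G, y ∈ Subgroup.centralizer (D : Set G) → Nat.card D ∣ orderOf y →
      D ≤ Subgroup.zpowers y) ∧
    (∀ g y : G, y ∈ Subgroup.centralizer (D : Set G) → Nat.card D ∣ orderOf y →
      g * y * g⁻¹ ∈ Subgroup.centralizer (D : Set G) → g ∈ Subgroup.normalizer (D : Set G)) ∧
    (∀ g y : G, g ∈ Subgroup.normalizer (D : Set G) → y ∈ Subgroup.centralizer (D : Set G) →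
      Nat.card D ∣ orderOf y →
      g * y * g⁻¹ ∈ Subgroup.centralizer (D : Set G) ∧ Nat.card D ∣ orderOf (g * y * g⁻¹)) := by
  have hDmap : D = (commutator (S : Subgroup G)).map (S : Subgroup G).subtype := by
    rw [hD, Subgroup.map_subtype_commutator]
  have hDS : D ≤ S := by
    rw [hDmap]
    exact Subgroup.map_subtype_le _
  have hker : commutator (S : Subgroup G) ≤
      ((sgn (2 ^ (n + 2))).comp e.toMonoidHom).ker :=
    Abelianization.commutator_subset_ker _
  have hDa : ∀ d (hd : d ∈ D), ∃ i, e ⟨d, hDS hd⟩ = a i := by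
    intro d hd
    have hd' := hd
    rw [hDmap] at hd'
    obtain ⟨s, hs, rfl⟩ := hd'
    have h1 := hker hs
    rw [MonoidHom.mem_ker] at h1
    exact sgn_ker _ _ h1
  have hDab : D ≤ Subgroup.centralizer (D : Set G) := by
    intro d₁ hd₁
    rw [Subgroup.mem_centralizer_iff]
    intro d₂ hd₂
    obtain ⟨i, hi⟩ := hDa d₁ hd₁
    obtain ⟨j, hj⟩ := hDa d₂ hd₂
    have h1 : (⟨d₂, hDS hd₂⟩ : (S : Subgroup G)) * ⟨d₁, hDS hd₁⟩ =
        ⟨d₁, hDS hd₁⟩ * ⟨d₂, hDS hd₂⟩ := by
      apply e.injective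
      rw [map_mul, map_mul, hi, hj, a_mul_a, a_mul_a]
      exact congrArg a (add_comm j i)
    exact congrArg Subtype.val h1
  have hSN : (S : Subgroup G) ≤ Subgroup.normalizer (D : Set G) := by
    rw [← Subgroup.normal_subgroupOf_iff_le_normalizer hDS]
    have h1 : D.subgroupOf (S : Subgroup G) = commutator (S : Subgroup G) := by
      rw [hDmap]
      exact Subgroup.comap_map_eq_self_of_injective (Subgroup.subtype_injective _) _
    rw [h1]
    infer_instance
  obtain ⟨c₀, hc₀⟩ : ∃ c₀ : (S : Subgroup G),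
      c₀ = ⁅e.symm (a 1), e.symm (xa 0)⁆ := ⟨_, rfl⟩
  have hc₀mem : (c₀ : G) ∈ D := by
    rw [hDmap]
    refine ⟨c₀, ?_, rfl⟩
    rw [hc₀, commutator_def]
    exact Subgroup.commutator_mem_commutator (Subgroup.mem_top _) (Subgroup.mem_top _)
  have hec₀ : e c₀ = a 2 := by
    rw [hc₀, map_commutatorElement, MulEquiv.apply_symm_apply, MulEquiv.apply_symm_apply,
      comm_a_one_xa]
  have hT : ∀ s ∈ (S : Subgroup G), s ∈ Subgroup.centralizer (D : Set G) →
      s ∈ Subgroup.zpowers ((e.symm (a 1) : (S : Subgroup G)) : G) := by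
    intro s hs hsC
    have h1 : (c₀ : G) * s = s * (c₀ : G) := (Subgroup.mem_centralizer_iff.1 hsC) _ hc₀mem
    have h2 : c₀ * (⟨s, hs⟩ : (S : Subgroup G)) = ⟨s, hs⟩ * c₀ := Subtype.ext h1
    have h3 := congrArg e h2
    rw [map_mul, map_mul, hec₀] at h3
    have : NeZero (2 * 2 ^ (n + 2)) := ⟨by positivity⟩
    rcases hes : e ⟨s, hs⟩ with i | i
    · have h4 : e ⟨s, hs⟩ = e ((e.symm (a 1)) ^ i.val) := by
        rw [map_pow, MulEquiv.apply_symm_apply, a_one_pow, ZMod.natCast_zmod_val, hes]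
      have h5 := e.injective h4
      have h6 : s = ((e.symm (a 1) : (S : Subgroup G)) : G) ^ i.val := by
        have h7 := congrArg Subtype.val h5
        rw [Subgroup.coe_pow] at h7
        exact h7
      rw [h6]
      exact Subgroup.npow_mem_zpowers _ _
    · exfalso
      rw [hes, a_mul_xa, xa_mul_a] at h3
      have h4 : i - 2 = i + 2 := by
        injection h3
      apply four_ne_zero n
      linear_combination -h4
  exact ⟨fun y hy hdvd => part1 S D hDS hSN hDab _ hT y hy hdvd,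
    fun g y hy hdvd hgy => part2 D (fun y hy hdvd => part1 S D hDS hSN hDab _ hT y hy hdvd)
      g y hy hdvd hgy,
    fun g y hg hy hdvd => part3 D g y hg hy hdvd⟩

end Cfsg.Agent.Lib.Helper2.QSyl
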