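import Mathlib
import Cfsg.Prelude.Def_LieRecognition

set_option autoImplicit false

namespace Cfsg.Agent.Lib.Helper2.RankOne

variable {G Ω : Type*} [Group G] [MulAction G Ω] {a : Ω} {t : G} {Q : Subgroup G}

theorem t_inv (hS : Cfsg.IsRankOneSetup G Ω a t Q) : t⁻¹ = t :=
  inv_eq_of_mul_eq_one_left hS.mul_self

theorem ta_ne (hS : Cfsg.IsRankOneSetup G Ω a t Q) : t • a ≠ a := by
  intro h
  exact hS.not_mem (MulAction.mem_stabilizer_iff.2 h)

theorem tta (hS : Cfsg.IsRankOneSetup G Ω a t Q) : t • t • a = a := by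
  rw [smul_smul, hS.mul_self, one_smul]

theorem semiregular (hS : Cfsg.IsRankOneSetup G Ω a t Q) {x : G} (hx : x ∈ Q) {c : Ω} (hc : c ≠ a)
    (hxc : x • c = c) : x = 1 := by
  obtain ⟨g, hga, hgb⟩ := (MulAction.is_two_pretransitive_iff (G := G) (α := Ω)).1
    hS.two_transitive (ta_ne hS).symm hc.symm
  have hg : g ∈ MulAction.stabilizer G a := hga
  have hg' : g⁻¹ ∈ MulAction.stabilizer G a := inv_mem hg
  have h1 : g⁻¹ * x * g⁻¹⁻¹ ∈ Q := hS.conj_mem g⁻¹ hg' x hx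
  have h2 : g⁻¹ * x * g⁻¹⁻¹ ∈ MulAction.stabilizer G (t • a) := by
    rw [MulAction.mem_stabilizer_iff, inv_inv, mul_smul, mul_smul, hgb, hxc, ← hgb, inv_smul_smul]
  have h3 : g⁻¹ * x * g⁻¹⁻¹ ∈ Q ⊓ MulAction.stabilizer G (t • a) := Subgroup.mem_inf.2 ⟨h1, h2⟩
  rw [hS.inf_eq_bot, Subgroup.mem_bot] at h3
  have h4 : x = g * (g⁻¹ * x * g⁻¹⁻¹) * g⁻¹ := by group
  rw [h4, h3]; group

theorem decomp (hS : Cfsg.IsRankOneSetup G Ω a t Q) {g : G} (hg : g ∈ MulAction.stabilizer G a) :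
    ∃ q ∈ Q, ∃ d ∈ MulAction.stabilizer G a ⊓ MulAction.stabilizer G (t • a), g = q * d := by
  rw [← hS.sup_eq, Subgroup.sup_eq_closure] at hg
  induction hg using Subgroup.closure_induction with
  | mem x hx =>
    rcases hx with hx | hx
    · exact ⟨x, hx, 1, one_mem _, by simp⟩
    · exact ⟨1, one_mem _, x, hx, by simp⟩
  | one => exact ⟨1, one_mem _, 1, one_mem _, by simp⟩
  | mul x y _ _ hx hy =>
    obtain ⟨q₁, hq₁, d₁, hd₁, rfl⟩ := hx
    obtain ⟨q₂, hq₂, d₂, hd₂, rfl⟩ := hy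
    refine ⟨q₁ * (d₁ * q₂ * d₁⁻¹),
      mul_mem hq₁ (hS.conj_mem d₁ (Subgroup.mem_inf.1 hd₁).1 q₂ hq₂), d₁ * d₂,
      mul_mem hd₁ hd₂, by group⟩
  | inv x _ hx =>
    obtain ⟨q, hq, d, hd, rfl⟩ := hx
    refine ⟨d⁻¹ * q⁻¹ * d⁻¹⁻¹,
      hS.conj_mem d⁻¹ (inv_mem (Subgroup.mem_inf.1 hd).1) q⁻¹ (inv_mem hq), d⁻¹, inv_mem hd,
      by group⟩

theorem exists_Q_smul (hS : Cfsg.IsRankOneSetup G Ω a t Q) {c : Ω} (hc : c ≠ a) :
    ∃ q ∈ Q, q • (t • a) = c := by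
  obtain ⟨g, hga, hgb⟩ := (MulAction.is_two_pretransitive_iff (G := G) (α := Ω)).1
    hS.two_transitive (ta_ne hS).symm hc.symm
  obtain ⟨q, hq, d, hd, rfl⟩ := decomp hS (show g ∈ MulAction.stabilizer G a from hga)
  refine ⟨q, hq, ?_⟩
  rw [← hgb, mul_smul, MulAction.mem_stabilizer_iff.1 (Subgroup.mem_inf.1 hd).2]

theorem canon_unique (hS : Cfsg.IsRankOneSetup G Ω a t Q) {g h f g' h' f' : G} (hg : g ∈ Q)
    (hh : h ∈ MulAction.stabilizer G a ⊓ MulAction.stabilizer G (t • a)) (hf : f ∈ Q)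
    (hg' : g' ∈ Q) (hh' : h' ∈ MulAction.stabilizer G a ⊓ MulAction.stabilizer G (t • a))
    (hf' : f' ∈ Q) (heq : g * h * t * f = g' * h' * t * f') : g = g' ∧ h = h' ∧ f = f' := by
  obtain ⟨hh1, hh2⟩ := Subgroup.mem_inf.1 hh
  obtain ⟨hh1', hh2'⟩ := Subgroup.mem_inf.1 hh'
  have hGa : (g * h)⁻¹ * (g' * h') ∈ MulAction.stabilizer G a :=
    mul_mem (inv_mem (mul_mem (hS.le hg) hh1)) (mul_mem (hS.le hg') hh1')
  have e1 : (g * h)⁻¹ * (g' * h') = t * (f * f'⁻¹) * t⁻¹ := by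
    have e0 : g' * h' = g * h * t * f * f'⁻¹ * t⁻¹ := by rw [heq]; group
    rw [e0]; group
  have h2 : f * f'⁻¹ ∈ MulAction.stabilizer G (t • a) := by
    rw [MulAction.mem_stabilizer_iff]
    rw [e1, t_inv hS, MulAction.mem_stabilizer_iff, mul_smul, mul_smul] at hGa
    have h0 := congrArg (fun w => t • w) hGa
    simp only [smul_smul t t, hS.mul_self, one_smul] at h0
    exact h0
  have h3 : f * f'⁻¹ ∈ Q ⊓ MulAction.stabilizer G (t • a) :=
    Subgroup.mem_inf.2 ⟨mul_mem hf (inv_mem hf'), h2⟩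
  rw [hS.inf_eq_bot, Subgroup.mem_bot] at h3
  have hff : f = f' := mul_inv_eq_one.1 h3
  subst hff
  have e2 : g * h = g' * h' := mul_right_cancel (mul_right_cancel heq)
  have h4 : g'⁻¹ * g = h' * h⁻¹ := by
    have e3 : g = g' * h' * h⁻¹ := by rw [← e2]; group
    rw [e3]; group
  have h5 : g'⁻¹ * g ∈ Q ⊓ MulAction.stabilizer G (t • a) :=
    Subgroup.mem_inf.2 ⟨mul_mem (inv_mem hg') hg, by rw [h4]; exact mul_mem hh2' (inv_mem hh2)⟩
  rw [hS.inf_eq_bot, Subgroup.mem_bot] at h5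
  have hgg : g = g' := (inv_mul_eq_one.1 h5).symm
  subst hgg
  exact ⟨rfl, mul_left_cancel e2, rfl⟩

theorem t_conj_mem (hS : Cfsg.IsRankOneSetup G Ω a t Q) {c : G}
    (hc : c ∈ MulAction.stabilizer G a ⊓ MulAction.stabilizer G (t • a)) :
    t * c * t ∈ MulAction.stabilizer G a ⊓ MulAction.stabilizer G (t • a) := by
  obtain ⟨hc1, hc2⟩ := Subgroup.mem_inf.1 hc
  apply Subgroup.mem_inf.2
  constructor
  · rw [MulAction.mem_stabilizer_iff, mul_smul, mul_smul, MulAction.mem_stabilizer_iff.1 hc2,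
      tta hS]
  · rw [MulAction.mem_stabilizer_iff, mul_smul, mul_smul, tta hS,
      MulAction.mem_stabilizer_iff.1 hc1]

theorem exists_ne_one (hS : Cfsg.IsRankOneSetup G Ω a t Q) : ∃ x ∈ Q, x ≠ 1 := by
  by_contra hcon
  push Not at hcon
  have hbot : Q = ⊥ := by
    rw [Subgroup.eq_bot_iff_forall]
    exact hcon
  have h1 := hS.even_card
  rw [hbot, Subgroup.card_bot] at h1
  exact absurd h1 (by decide)

end Cfsg.Agent.Lib.Helper2.RankOne
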