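import Mathlib
import Cfsg.Prelude.Def_LieRecognition
import Cfsg.Agent.Lib.Helper2.RankOne
import Cfsg.Agent.Lib.Helper2.InvDecomp

set_option autoImplicit false

namespace Cfsg.Agent.Lib.Helper2.RankOneInv

open Cfsg.Agent.Lib.Helper2.RankOne Cfsg.Agent.Lib.Helper2.Isolated Cfsg.Agent.Lib.Helper2.InvDecomp

variable {G Ω : Type*} [Group G] [MulAction G Ω] {a : Ω} {t : G} {Q : Subgroup G}

theorem q_smul_ne (hS : Cfsg.IsRankOneSetup G Ω a t Q) {q : G} (hq : q ∈ Q) : q • (t • a) ≠ a := by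
  intro h
  apply ta_ne hS
  have h1 : q • a = a := MulAction.mem_stabilizer_iff.1 (hS.le hq)
  have h2 : q • (t • a) = q • a := by rw [h, h1]
  exact smul_left_cancel q h2

theorem pretrans (hS : Cfsg.IsRankOneSetup G Ω a t Q) : MulAction.IsPretransitive G Ω := by
  have h : ∀ c : Ω, ∃ g : G, g • a = c := by
    intro c
    by_cases hc : c = a
    · exact ⟨1, by rw [one_smul, hc]⟩
    · obtain ⟨q, _, hq⟩ := exists_Q_smul hS hc
      exact ⟨q * t, by rw [mul_smul, hq]⟩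
  constructor
  intro c d
  obtain ⟨g₁, h1⟩ := h c
  obtain ⟨g₂, h2⟩ := h d
  exact ⟨g₂ * g₁⁻¹, by rw [← h1, mul_smul, inv_smul_smul, h2]⟩

theorem card_Omega [Finite G] (hS : Cfsg.IsRankOneSetup G Ω a t Q) : Nat.card Ω = Nat.card Q + 1 := by
  classical
  let φ : Option Q → Ω := fun o => match o with
    | none => a
    | some q => (q : G) • (t • a)
  have hinj : Function.Injective φ := by
    intro o₁ o₂ h
    rcases o₁ with _ | q₁ <;> rcases o₂ with _ | q₂
    · rfl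
    · exact absurd h.symm (q_smul_ne hS q₂.2)
    · exact absurd h (q_smul_ne hS q₁.2)
    · have h' : (q₁ : G) • (t • a) = (q₂ : G) • (t • a) := h
      have h3 : ((q₂ : G)⁻¹ * (q₁ : G)) • (t • a) = t • a := by
        rw [mul_smul, h', inv_smul_smul]
      have h4 := semiregular hS (mul_mem (inv_mem q₂.2) q₁.2) (ta_ne hS) h3
      congr 1
      apply Subtype.ext
      exact inv_mul_eq_one.1 h4 |>.symm
  have hsurj : Function.Surjective φ := by
    intro c
    by_cases hc : c = a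
    · exact ⟨none, hc.symm⟩
    · obtain ⟨q, hq, h⟩ := exists_Q_smul hS hc
      exact ⟨some ⟨q, hq⟩, h⟩
  rw [← Nat.card_congr (Equiv.ofBijective φ ⟨hinj, hsurj⟩), Finite.card_option]

theorem finite_Omega [Finite G] (hS : Cfsg.IsRankOneSetup G Ω a t Q) : Finite Ω := by
  have := pretrans hS
  exact Finite.of_surjective (fun g : G => g • a) (fun c => MulAction.exists_smul_eq G a c)

theorem inv_mem_Q [Finite G] (hS : Cfsg.IsRankOneSetup G Ω a t Q) {s : G}
    (hs : s ∈ MulAction.stabilizer G a) (hss : s * s = 1) : s ∈ Q := by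
  obtain ⟨q, hq, d, hd, rfl⟩ := decomp hS hs
  obtain ⟨hd1, hd2⟩ := Subgroup.mem_inf.1 hd
  have h1 : d * d = (q * (d * q * d⁻¹))⁻¹ := by
    have e : q * (d * q * d⁻¹) * (d * d) = q * d * (q * d) := by group
    rw [hss] at e
    exact eq_inv_of_mul_eq_one_right e
  have h2 : d * d ∈ Q ⊓ MulAction.stabilizer G (t • a) :=
    Subgroup.mem_inf.2 ⟨by rw [h1]; exact inv_mem (mul_mem hq (hS.conj_mem d hd1 q hq)),
      mul_mem hd2 hd2⟩
  rw [hS.inf_eq_bot, Subgroup.mem_bot] at h2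
  have hodd : Odd (orderOf d) := odd_orderOf_of_mem hS.odd_card hd
  have hd' : d = 1 := by
    apply eq_of_sq_eq_of_odd hodd (by rw [orderOf_one]; exact odd_one)
    rw [h2, one_mul]
  rw [hd', mul_one]
  exact hq

theorem exists_fixed [Finite G] (hS : Cfsg.IsRankOneSetup G Ω a t Q) {v : G} (hvv : v * v = 1) :
    ∃ c : Ω, v • c = c := by
  classical
  have := finite_Omega hS
  have := Fintype.ofFinite Ω
  have : Fact (Nat.Prime 2) := ⟨Nat.prime_two⟩
  let f : Function.End Ω := fun c => v • c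
  have hf : f ^ 2 ^ 1 = 1 := by
    rw [pow_one, pow_two]
    funext c
    show v • v • c = c
    rw [smul_smul, hvv, one_smul]
  have h1 := Equiv.Perm.card_fixedPoints_modEq hf
  have h2 : Odd (Fintype.card Ω) := by
    rw [← Nat.card_eq_fintype_card, card_Omega hS]
    exact hS.even_card.add_one
  by_contra hcon
  push Not at hcon
  have h3 : Fintype.card (Function.fixedPoints f) = 0 := by
    rw [Fintype.card_eq_zero_iff]
    exact ⟨fun ⟨c, hc⟩ => hcon c hc⟩
  rw [h3] at h1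
  have h4 : Fintype.card Ω % 2 = 0 := h1
  rcases h2 with ⟨k, hk⟩
  omega

theorem fixed_unique [Finite G] (hS : Cfsg.IsRankOneSetup G Ω a t Q) {v : G} (hv1 : v ≠ 1)
    (hvv : v * v = 1) {c c' : Ω} (hc : v • c = c) (hc' : v • c' = c') : c = c' := by
  by_contra hne
  have := pretrans hS
  obtain ⟨g, hg⟩ := MulAction.exists_smul_eq G c a
  have h1 : (g * v * g⁻¹) • a = a := by
    rw [mul_smul, mul_smul, ← hg, inv_smul_smul, hc]
  have h2 : (g * v * g⁻¹) • (g • c') = g • c' := by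
    rw [mul_smul, mul_smul, inv_smul_smul, hc']
  have h3 : (g * v * g⁻¹) * (g * v * g⁻¹) = 1 := conj_mul_self hvv g
  have h4 : g * v * g⁻¹ ∈ Q := inv_mem_Q hS (MulAction.mem_stabilizer_iff.2 h1) h3
  have h5 : g • c' ≠ a := by
    rw [← hg]
    intro h
    exact hne (smul_left_cancel g h).symm
  have h6 := semiregular hS h4 h5 h2
  apply hv1
  have e : v = g⁻¹ * (g * v * g⁻¹) * g := by group
  rw [e, h6]; group

theorem odd_mul [Finite G] (hS : Cfsg.IsRankOneSetup G Ω a t Q) {s u : G}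
    (hs : s ∈ MulAction.stabilizer G a) (hs1 : s ≠ 1) (hss : s * s = 1)
    (hu : u ∉ MulAction.stabilizer G a) (hu1 : u ≠ 1) (huu : u * u = 1) :
    Odd (orderOf (s * u)) := by
  by_contra hodd
  rw [Nat.not_odd_iff_even] at hodd
  obtain ⟨m, hm⟩ := hodd
  have hpos : 0 < orderOf (s * u) := orderOf_pos _
  have hm0 : m ≠ 0 := by omega
  have hsi : s⁻¹ = s := inv_eq_self_of_mul_self hss
  have hui : u⁻¹ = u := inv_eq_self_of_mul_self huu
  have hsr : s * (s * u) * s⁻¹ = (s * u)⁻¹ := by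
    rw [mul_inv_rev, hui, hsi, ← mul_assoc, hss, one_mul]
  have hur : u * (s * u) * u⁻¹ = (s * u)⁻¹ := by
    rw [mul_inv_rev, hui, hsi, mul_assoc, mul_assoc, huu, mul_one]
  generalize s * u = r at hm hpos hsr hur
  have hw1 : r ^ m ≠ 1 := pow_ne_one_of_lt_orderOf hm0 (by omega)
  have hww : r ^ m * r ^ m = 1 := by rw [← pow_add, ← hm, pow_orderOf_eq_one]
  have hwi : (r ^ m)⁻¹ = r ^ m := inv_eq_self_of_mul_self hww
  have hsw : s * r ^ m * s⁻¹ = r ^ m := by rw [inverts_pow hsr, hwi]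
  have huw : u * r ^ m * u⁻¹ = r ^ m := by rw [inverts_pow hur, hwi]
  have hsa : s • a = a := MulAction.mem_stabilizer_iff.1 hs
  have hwa : (r ^ m) • a = a := by
    refine fixed_unique hS hs1 hss (c := r ^ m • a) (c' := a) ?_ hsa
    have e : s * r ^ m = r ^ m * s := by
      have e0 : s * r ^ m = (s * r ^ m * s⁻¹) * s := by group
      rw [e0, hsw]
    rw [← mul_smul, e, mul_smul, hsa]
  obtain ⟨c, hc⟩ := exists_fixed hS huu
  have hca : c ≠ a := by
    rintro rfl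
    exact hu (MulAction.mem_stabilizer_iff.2 hc)
  have hwc : (r ^ m) • c = c := by
    refine fixed_unique hS hu1 huu (c := r ^ m • c) (c' := c) ?_ hc
    have e : u * r ^ m = r ^ m * u := by
      have e0 : u * r ^ m = (u * r ^ m * u⁻¹) * u := by group
      rw [e0, huw]
    rw [← mul_smul, e, mul_smul, hc]
  exact hca (fixed_unique hS hw1 hww hwc hwa)

theorem conj_of_odd {H : Type*} [Group H] {u v : H} (huu : u * u = 1) (hvv : v * v = 1)
    (hodd : Odd (orderOf (u * v))) : ∃ k : H, k * u * k⁻¹ = v ∧ u * k * u⁻¹ = k⁻¹ := by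
  have hui : u⁻¹ = u := inv_eq_self_of_mul_self huu
  have hvi : v⁻¹ = v := inv_eq_self_of_mul_self hvv
  have hri : (u * v)⁻¹ = v * u := by rw [mul_inv_rev, hui, hvi]
  have hur : u * (u * v) * u⁻¹ = (u * v)⁻¹ := by
    rw [hri, hui, ← mul_assoc, huu, one_mul]
  obtain ⟨j, hj⟩ := hodd
  have hinv : u * ((u * v) ^ (j + 1))⁻¹ * u⁻¹ = (((u * v) ^ (j + 1))⁻¹)⁻¹ := by
    have e : u * ((u * v) ^ (j + 1))⁻¹ * u⁻¹ = (u * (u * v) ^ (j + 1) * u⁻¹)⁻¹ := by group
    rw [e, inverts_pow hur]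
  refine ⟨((u * v) ^ (j + 1))⁻¹, ?_, hinv⟩
  rw [conj_by_inverted hinv, ← mul_inv_rev, ← pow_add]
  have e1 : j + 1 + (j + 1) = orderOf (u * v) + 1 := by omega
  rw [e1, pow_succ, pow_orderOf_eq_one, one_mul, hri, mul_assoc, huu, mul_one]

theorem inv_conj [Finite G] (hS : Cfsg.IsRankOneSetup G Ω a t Q) {u v : G} (hu1 : u ≠ 1)
    (huu : u * u = 1) (hv1 : v ≠ 1) (hvv : v * v = 1) : ∃ g : G, g * u * g⁻¹ = v := by
  have := pretrans hS
  have key : ∀ w : G, w ≠ 1 → w * w = 1 → ∃ g : G, g * w * g⁻¹ = t := by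
    intro w hw1 hww
    obtain ⟨c, hc⟩ := exists_fixed hS hww
    obtain ⟨g, hg⟩ := MulAction.exists_smul_eq G c a
    have h1 : (g * w * g⁻¹) • a = a := by
      rw [mul_smul, mul_smul, ← hg, inv_smul_smul, hc]
    have h3 : (g * w * g⁻¹) * (g * w * g⁻¹) = 1 := conj_mul_self hww g
    have h4 : g * w * g⁻¹ ≠ 1 := by
      intro h
      apply hw1
      have e : w = g⁻¹ * (g * w * g⁻¹) * g := by group
      rw [e, h]; group
    have hodd := odd_mul hS (MulAction.mem_stabilizer_iff.2 h1) h4 h3 hS.not_mem hS.ne_one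
      hS.mul_self
    obtain ⟨k, hk, _⟩ := conj_of_odd h3 hS.mul_self hodd
    exact ⟨k * g, by rw [← hk]; group⟩
  obtain ⟨g₁, h1⟩ := key u hu1 huu
  obtain ⟨g₂, h2⟩ := key v hv1 hvv
  refine ⟨g₂⁻¹ * g₁, ?_⟩
  have e : g₂⁻¹ * g₁ * u * (g₂⁻¹ * g₁)⁻¹ = g₂⁻¹ * (g₁ * u * g₁⁻¹) * g₂ := by group
  rw [e, h1, ← h2]; group

end Cfsg.Agent.Lib.Helper2.RankOneInv
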