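import Mathlib
import Cfsg.Prelude.Def_LieRecognition
import Cfsg.Agent.Lib.Helper2.RankOneInv

set_option autoImplicit false
set_option linter.unusedSimpArgs false

namespace Cfsg.Agent.Lib.Helper2.RankOnePair

open Cfsg.Agent.Lib.Helper2.RankOne Cfsg.Agent.Lib.Helper2.Isolated Cfsg.Agent.Lib.Helper2.InvDecomp
open Cfsg.Agent.Lib.Helper2.RankOneInv

variable {G Ω : Type*} [Group G] [MulAction G Ω] {a : Ω} {t : G} {Q : Subgroup G}

theorem pair_exists [Finite G] (hS : Cfsg.IsRankOneSetup G Ω a t Q) :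
    ∃ s r : G, s ∈ MulAction.stabilizer G a ∧ s ≠ 1 ∧ s * s = 1 ∧ r ∈ Q ∧
      t * s * t = r⁻¹ * t * r := by
  have tt := hS.mul_self
  have tt' : ∀ w : G, t * (t * w) = w := fun w => by rw [← mul_assoc, tt, one_mul]
  obtain ⟨c, hc⟩ := exists_fixed hS hS.mul_self
  have hca : c ≠ a := by
    rintro rfl
    exact hS.not_mem (MulAction.mem_stabilizer_iff.2 hc)
  obtain ⟨r, hr, hrc⟩ := exists_Q_smul hS hca
  have hrc' : r⁻¹ • c = t • a := by rw [← hrc, inv_smul_smul]
  refine ⟨t * (r⁻¹ * t * r) * t, r, ?_, ?_, ?_, hr, ?_⟩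
  · rw [MulAction.mem_stabilizer_iff]
    simp only [mul_smul]
    rw [hrc, hc, hrc', tta hS]
  · intro h
    apply hS.ne_one
    have e : t = r * (t * (t * (r⁻¹ * t * r) * t) * t) * r⁻¹ := by
      simp only [mul_assoc, tt, tt', mul_inv_cancel_left, mul_inv_cancel, mul_one]
    rw [e, h]
    simp only [mul_assoc, tt, mul_one, mul_inv_cancel]
  · simp only [mul_assoc, tt, tt', mul_inv_cancel_left, inv_mul_cancel_left, mul_inv_cancel,
      inv_mul_cancel, mul_one]
  · simp only [mul_assoc, tt, tt', mul_one]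

theorem pair_unique [Finite G] (hS : Cfsg.IsRankOneSetup G Ω a t Q) {s r s' r' : G}
    (hs : s ∈ MulAction.stabilizer G a) (hr : r ∈ Q) (h : t * s * t = r⁻¹ * t * r)
    (hs' : s' ∈ MulAction.stabilizer G a) (hr' : r' ∈ Q) (h' : t * s' * t = r'⁻¹ * t * r') :
    s = s' ∧ r = r' := by
  have tt := hS.mul_self
  have tt' : ∀ w : G, t * (t * w) = w := fun w => by rw [← mul_assoc, tt, one_mul]
  have key : ∀ s r : G, s ∈ MulAction.stabilizer G a → t * s * t = r⁻¹ * t * r →
      t • (r • (t • a)) = r • (t • a) := by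
    intro s r hs h
    have e : t * r = r * (t * s * t) := by
      rw [h]
      simp only [mul_assoc, mul_inv_cancel_left]
    rw [← mul_smul, e]
    simp only [mul_smul]
    rw [tta hS, MulAction.mem_stabilizer_iff.1 hs]
  have h1 := fixed_unique hS hS.ne_one hS.mul_self (key s r hs h) (key s' r' hs' h')
  have h2 : (r'⁻¹ * r) • (t • a) = t • a := by
    rw [mul_smul, h1, inv_smul_smul]
  have h3 := semiregular hS (mul_mem (inv_mem hr') hr) (ta_ne hS) h2
  have hrr : r = r' := (inv_mul_eq_one.1 h3).symm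
  subst hrr
  refine ⟨?_, rfl⟩
  have e1 : s = t * (t * s * t) * t := by
    simp only [mul_assoc, tt, tt', mul_one]
  have e2 : s' = t * (t * s' * t) * t := by
    simp only [mul_assoc, tt, tt', mul_one]
  rw [e1, e2, h, h']

theorem tst_props [Finite G] (hS : Cfsg.IsRankOneSetup G Ω a t Q) {s : G}
    (hs : s ∈ MulAction.stabilizer G a) (hs1 : s ≠ 1) (hss : s * s = 1) :
    t * s * t ∉ MulAction.stabilizer G a ∧ t * s * t ≠ 1 ∧ (t * s * t) * (t * s * t) = 1 ∧
      (t * s * t) • (t • a) = t • a := by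
  have tt := hS.mul_self
  have tt' : ∀ w : G, t * (t * w) = w := fun w => by rw [← mul_assoc, tt, one_mul]
  have hsa : s • a = a := MulAction.mem_stabilizer_iff.1 hs
  have hfix : (t * s * t) • (t • a) = t • a := by
    simp only [mul_smul]
    rw [tta hS, hsa]
  have hne : t * s * t ≠ 1 := by
    intro h
    apply hs1
    have e : s = t * (t * s * t) * t := by
      simp only [mul_assoc, tt, tt', mul_one]
    rw [e, h, mul_one, tt]
  have hsq : (t * s * t) * (t * s * t) = 1 := by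
    have e : (t * s * t) * (t * s * t) = t * (s * s) * t := by
      simp only [mul_assoc, tt']
    rw [e, hss, mul_one, tt]
  refine ⟨?_, hne, hsq, hfix⟩
  intro hmem
  have h1 := fixed_unique hS hne hsq hfix (MulAction.mem_stabilizer_iff.1 hmem)
  exact ta_ne hS h1

theorem K_conj_exists [Finite G] (hS : Cfsg.IsRankOneSetup G Ω a t Q) {s s' : G}
    (hs : s ∈ MulAction.stabilizer G a) (hs1 : s ≠ 1) (hss : s * s = 1)
    (hs' : s' ∈ MulAction.stabilizer G a) (hs1' : s' ≠ 1) (hss' : s' * s' = 1) :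
    ∃ k : G, k ∈ MulAction.stabilizer G a ⊓ MulAction.stabilizer G (t • a) ∧ t * k * t⁻¹ = k⁻¹ ∧
      k⁻¹ * s * k = s' := by
  have tt := hS.mul_self
  have ti := t_inv hS
  have tt' : ∀ w : G, t * (t * w) = w := fun w => by rw [← mul_assoc, tt, one_mul]
  obtain ⟨hv, hv1, hvv, hvfix⟩ := tst_props hS hs hs1 hss
  have hodd := odd_mul hS hs' hs1' hss' hv hv1 hvv
  obtain ⟨k₀, hk₀, hk₀i⟩ := conj_of_odd hss' hvv hodd
  have hsi' : s'⁻¹ = s' := inv_eq_self_of_mul_self hss'
  have huu : (k₀ * s') * (k₀ * s') = 1 := by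
    have e : (k₀ * s') * (k₀ * s') = k₀ * (s' * k₀ * s'⁻¹) := by rw [hsi']; group
    rw [e, hk₀i, mul_inv_cancel]
  have hui : (k₀ * s')⁻¹ = k₀ * s' := inv_eq_self_of_mul_self huu
  have hus : (k₀ * s') * s' * (k₀ * s')⁻¹ = t * s * t := by
    rw [← hk₀]; group
  have hsa' : s' • a = a := MulAction.mem_stabilizer_iff.1 hs'
  have hua : (k₀ * s') • a = t • a := by
    refine fixed_unique hS hv1 hvv (c := (k₀ * s') • a) (c' := t • a) ?_ hvfix
    rw [← hus, ← mul_smul, inv_mul_cancel_right, mul_smul, hsa']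
  have huta : (k₀ * s') • (t • a) = a := by
    rw [← hua, ← mul_smul, huu, one_smul]
  generalize k₀ * s' = u at huu hui hus hua huta
  refine ⟨t * u, Subgroup.mem_inf.2 ⟨?_, ?_⟩, ?_, ?_⟩
  · rw [MulAction.mem_stabilizer_iff, mul_smul, hua, tta hS]
  · rw [MulAction.mem_stabilizer_iff, mul_smul, huta]
  · rw [mul_inv_rev, hui, ti]
    simp only [mul_assoc, tt']
  · rw [mul_inv_rev, hui, ti]
    have e : u * t * s * (t * u) = u * (t * s * t) * u := by simp only [mul_assoc]
    rw [e, ← hus, hui]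
    have e2 : u * (u * s' * u) * u = (u * u) * s' * (u * u) := by simp only [mul_assoc]
    rw [e2, huu, one_mul, mul_one]

theorem K_conj_inj [Finite G] (hS : Cfsg.IsRankOneSetup G Ω a t Q) {s k k' : G}
    (hs : s ∈ MulAction.stabilizer G a) (hs1 : s ≠ 1) (hss : s * s = 1)
    (hk : k ∈ MulAction.stabilizer G a ⊓ MulAction.stabilizer G (t • a)) (hki : t * k * t⁻¹ = k⁻¹)
    (hk' : k' ∈ MulAction.stabilizer G a ⊓ MulAction.stabilizer G (t • a))
    (hki' : t * k' * t⁻¹ = k'⁻¹) (h : k⁻¹ * s * k = k'⁻¹ * s * k') : k = k' := by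
  have tt := hS.mul_self
  have ti := t_inv hS
  have tt' : ∀ w : G, t * (t * w) = w := fun w => by rw [← mul_assoc, tt, one_mul]
  have aux : ∀ k : G, k ∈ MulAction.stabilizer G a ⊓ MulAction.stabilizer G (t • a) →
      t * k * t⁻¹ = k⁻¹ →
      (k⁻¹ * s * k ∈ MulAction.stabilizer G a ∧ k⁻¹ * s * k ≠ 1 ∧
        (k⁻¹ * s * k) * (k⁻¹ * s * k) = 1) ∧
      (t * k ∉ MulAction.stabilizer G a ∧ t * k ≠ 1 ∧ (t * k) * (t * k) = 1) ∧
      (k⁻¹ * s * k * (t * k)) * (k⁻¹ * s * k * (t * k)) = k⁻¹ * s * k * (t * s * t) := by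
    intro k hk hki
    obtain ⟨hk1, hk2⟩ := Subgroup.mem_inf.1 hk
    have hka : k • a = a := MulAction.mem_stabilizer_iff.1 hk1
    have hkt : t * k * t = k⁻¹ := by rw [← hki, ti]
    have hktk : k * t * k = t := by
      have e : k * t * k = t * (t * k * t) * k := by simp only [mul_assoc, tt']
      rw [e, hkt, mul_assoc, inv_mul_cancel, mul_one]
    have huu : (t * k) * (t * k) = 1 := by
      have e : (t * k) * (t * k) = (t * k * t) * k := by simp only [mul_assoc]
      rw [e, hkt, inv_mul_cancel]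
    have hune : t * k ∉ MulAction.stabilizer G a := by
      intro hmem
      rw [MulAction.mem_stabilizer_iff, mul_smul, hka] at hmem
      exact ta_ne hS hmem
    have hu1 : t * k ≠ 1 := by
      intro h1
      apply hune
      rw [h1]
      exact one_mem _
    refine ⟨⟨mul_mem (mul_mem (inv_mem hk1) hs) hk1, ?_, ?_⟩, ⟨hune, hu1, huu⟩, ?_⟩
    · intro h1
      apply hs1
      have e : s = k * (k⁻¹ * s * k) * k⁻¹ := by group
      rw [e, h1]; group
    · have e : (k⁻¹ * s * k) * (k⁻¹ * s * k) = k⁻¹ * (s * s) * k := by group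
      rw [e, hss]; group
    · have e : (k⁻¹ * s * k * (t * k)) * (k⁻¹ * s * k * (t * k)) =
          k⁻¹ * s * k * (t * s * (k * t * k)) := by
        simp only [mul_assoc, mul_inv_cancel_left]
      rw [e, hktk]
  obtain ⟨⟨h1, h2, h3⟩, ⟨h4, h5, h6⟩, h7⟩ := aux k hk hki
  obtain ⟨_, ⟨h4', h5', h6'⟩, h7'⟩ := aux k' hk' hki'
  rw [← h] at h7'
  have hodd := odd_mul hS h1 h2 h3 h4 h5 h6
  have hodd' := odd_mul hS h1 h2 h3 h4' h5' h6'
  have h8 := eq_of_sq_eq_of_odd hodd hodd' (h7.trans h7'.symm)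
  exact mul_left_cancel (mul_left_cancel h8)

end Cfsg.Agent.Lib.Helper2.RankOnePair
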