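import Mathlib
import Cfsg.Prelude.Def_LieRecognition
import Cfsg.Agent.Lib.Helper2.RankOnePair

set_option autoImplicit false
set_option linter.unusedSimpArgs false

namespace Cfsg.Agent.Lib.Helper2.RankOneFix

open Cfsg.Agent.Lib.Helper2.RankOne Cfsg.Agent.Lib.Helper2.Isolated Cfsg.Agent.Lib.Helper2.InvDecomp
open Cfsg.Agent.Lib.Helper2.RankOneInv Cfsg.Agent.Lib.Helper2.RankOnePair

variable {G Ω : Type*} [Group G] [MulAction G Ω] {a : Ω} {t : G} {Q : Subgroup G}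

theorem Q_trans (hS : Cfsg.IsRankOneSetup G Ω a t Q) {c c' : Ω} (hc : c ≠ a) (hc' : c' ≠ a) :
    ∃ q ∈ Q, q • c = c' := by
  obtain ⟨q₁, hq₁, h1⟩ := exists_Q_smul hS hc
  obtain ⟨q₂, hq₂, h2⟩ := exists_Q_smul hS hc'
  refine ⟨q₂ * q₁⁻¹, mul_mem hq₂ (inv_mem hq₁), ?_⟩
  rw [← h1, mul_smul, inv_smul_smul, h2]

theorem T0 (hS : Cfsg.IsRankOneSetup G Ω a t Q) {Y : Set G}
    (hY : ∀ y ∈ Y, y ∈ MulAction.stabilizer G a) {c c' : Ω} (hc : c ≠ a) (hc' : c' ≠ a)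
    (hYc : ∀ y ∈ Y, y • c = c) (hYc' : ∀ y ∈ Y, y • c' = c') :
    ∃ q ∈ Q, q • c = c' ∧ ∀ y ∈ Y, y * q = q * y := by
  obtain ⟨q, hq, hqc⟩ := Q_trans hS hc hc'
  refine ⟨q, hq, hqc, ?_⟩
  intro y hy
  have h1 : y * q * y⁻¹ ∈ Q := hS.conj_mem y (hY y hy) q hq
  have hyc : y⁻¹ • c = c := by
    have h0 := hYc y hy
    rw [inv_smul_eq_iff, h0]
  have h2 : (q⁻¹ * (y * q * y⁻¹)) • c = c := by
    rw [mul_smul, mul_smul, mul_smul, hyc, hqc, hYc' y hy, ← hqc, inv_smul_smul]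
  have h3 := semiregular hS (mul_mem (inv_mem hq) h1) hc h2
  have h4 : y * q * y⁻¹ = q := by
    have e : y * q * y⁻¹ = q * (q⁻¹ * (y * q * y⁻¹)) := by group
    rw [e, h3, mul_one]
  have e : y * q = (y * q * y⁻¹) * y := by group
  rw [e, h4]

theorem T (hS : Cfsg.IsRankOneSetup G Ω a t Q) {X : Set G} {c c' c'' : Ω}
    (hXc : ∀ x ∈ X, x • c = c) (hXc' : ∀ x ∈ X, x • c' = c') (hXc'' : ∀ x ∈ X, x • c'' = c'')
    (h' : c' ≠ c) (h'' : c'' ≠ c) :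
    ∃ h ∈ Subgroup.centralizer X, h • c = c ∧ h • c' = c'' := by
  have := pretrans hS
  obtain ⟨g, hg⟩ := MulAction.exists_smul_eq G a c
  have hga : g⁻¹ • c = a := by rw [← hg, inv_smul_smul]
  have hY : ∀ y ∈ (fun x => g⁻¹ * x * g) '' X, y ∈ MulAction.stabilizer G a := by
    rintro _ ⟨x, hx, rfl⟩
    rw [MulAction.mem_stabilizer_iff, mul_smul, mul_smul, hg, hXc x hx, hga]
  have hc1 : g⁻¹ • c' ≠ a := by
    rw [← hga]
    intro h
    exact h' (smul_left_cancel g⁻¹ h)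
  have hc2 : g⁻¹ • c'' ≠ a := by
    rw [← hga]
    intro h
    exact h'' (smul_left_cancel g⁻¹ h)
  have hY1 : ∀ y ∈ (fun x => g⁻¹ * x * g) '' X, y • (g⁻¹ • c') = g⁻¹ • c' := by
    rintro _ ⟨x, hx, rfl⟩
    rw [mul_smul, mul_smul, smul_inv_smul, hXc' x hx]
  have hY2 : ∀ y ∈ (fun x => g⁻¹ * x * g) '' X, y • (g⁻¹ • c'') = g⁻¹ • c'' := by
    rintro _ ⟨x, hx, rfl⟩
    rw [mul_smul, mul_smul, smul_inv_smul, hXc'' x hx]
  obtain ⟨q, hq, hqc, hqY⟩ := T0 hS hY hc1 hc2 hY1 hY2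
  refine ⟨g * q * g⁻¹, ?_, ?_, ?_⟩
  · rw [Subgroup.mem_centralizer_iff]
    intro x hx
    have h1 := hqY (g⁻¹ * x * g) ⟨x, hx, rfl⟩
    have e1 : x * (g * q * g⁻¹) = g * ((g⁻¹ * x * g) * q) * g⁻¹ := by group
    rw [e1, h1]; group
  · rw [mul_smul, mul_smul, hga, MulAction.mem_stabilizer_iff.1 (hS.le hq), hg]
  · rw [mul_smul, mul_smul, hqc, smul_inv_smul]

theorem swap_involution [Finite G] (hS : Cfsg.IsRankOneSetup G Ω a t Q) {h : G} {p p' : Ω}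
    (hne : p ≠ p') (h1 : h • p = p') (h2 : h • p' = p) :
    ∃ m : ℕ, h ^ m ≠ 1 ∧ h ^ m * h ^ m = 1 ∧ h ^ m • p = p' ∧ h ^ m • p' = p := by
  have hpow : ∀ k : ℕ, (h ^ (2 * k)) • p = p ∧ (h ^ (2 * k)) • p' = p' ∧
      (h ^ (2 * k + 1)) • p = p' ∧ (h ^ (2 * k + 1)) • p' = p := by
    intro k
    induction k with
    | zero => simp [h1, h2]
    | succ k ih =>
      obtain ⟨i1, i2, i3, i4⟩ := ih
      have e1 : h ^ (2 * (k + 1)) = h * h ^ (2 * k + 1) := by rw [← pow_succ']; congr 1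
      have e2 : h ^ (2 * (k + 1) + 1) = h * h ^ (2 * (k + 1)) := by rw [← pow_succ']
      have j1 : (h ^ (2 * (k + 1))) • p = p := by rw [e1, mul_smul, i3, h2]
      have j2 : (h ^ (2 * (k + 1))) • p' = p' := by rw [e1, mul_smul, i4, h1]
      refine ⟨j1, j2, ?_, ?_⟩
      · rw [e2, mul_smul, j1, h1]
      · rw [e2, mul_smul, j2, h2]
  have hpos : 0 < orderOf h := orderOf_pos _
  have hn : h ^ orderOf h = 1 := pow_orderOf_eq_one h
  rcases Nat.even_or_odd' (orderOf h) with ⟨m, hm | hm⟩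
  · have hm0 : m ≠ 0 := by omega
    have hu1 : h ^ m ≠ 1 := pow_ne_one_of_lt_orderOf hm0 (by omega)
    have huu : h ^ m * h ^ m = 1 := by rw [← pow_add, ← two_mul, ← hm, hn]
    rcases Nat.even_or_odd' m with ⟨k, hk | hk⟩
    · exfalso
      obtain ⟨i1, i2, _, _⟩ := hpow k
      rw [← hk] at i1 i2
      exact hne (fixed_unique hS hu1 huu i1 i2)
    · obtain ⟨_, _, i3, i4⟩ := hpow k
      rw [← hk] at i3 i4
      exact ⟨m, hu1, huu, i3, i4⟩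
  · exfalso
    obtain ⟨_, _, i3, _⟩ := hpow m
    rw [← hm, hn, one_smul] at i3
    exact hne i3

theorem fix_of_centralized [Finite G] (hS : Cfsg.IsRankOneSetup G Ω a t Q) {u : G} (hu1 : u ≠ 1)
    (huu : u * u = 1) {c : Ω} (hc : u • c = c) {x : G} (hx : x * u = u * x) : x • c = c := by
  refine fixed_unique hS hu1 huu (c := x • c) (c' := c) ?_ hc
  rw [← mul_smul, ← hx, mul_smul, hc]

end Cfsg.Agent.Lib.Helper2.RankOneFix
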