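import Mathlib
import Cfsg.Prelude.Def_ClassicalGeometry

set_option autoImplicit false

namespace Cfsg.Agent.Lib.Helper2.Refl

open Matrix

theorem polarVec_dot {F : Type*} [CommRing F] {ι : Type} [Fintype ι] [DecidableEq ι]
    (Q : QuadraticForm F (ι → F)) (v x : ι → F) :
    Cfsg.polarVec ⇑Q v ⬝ᵥ x = QuadraticMap.polar ⇑Q v x := by
  have hx : x = ∑ j, x j • (Pi.single j (1 : F) : ι → F) := by
    ext i
    simp [Finset.sum_apply, Pi.single_apply]
  have h1 : QuadraticMap.polar ⇑Q v x = QuadraticMap.polarBilin Q v x := rfl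
  rw [h1]
  conv_rhs => rw [hx]
  rw [map_sum]
  simp only [map_smul, smul_eq_mul, dotProduct, Cfsg.polarVec]
  refine Finset.sum_congr rfl fun j _ => ?_
  rw [mul_comm]
  rfl

theorem vecMulVec_mulVec' {F : Type*} [CommRing F] {ι : Type} [Fintype ι]
    (v w x : ι → F) : Matrix.vecMulVec v w *ᵥ x = (w ⬝ᵥ x) • v := by
  rw [Matrix.vecMulVec_mulVec, op_smul_eq_smul]

theorem refl_mulVec {F : Type*} [Field F] {ι : Type} [Fintype ι] [DecidableEq ι]
    (Q : QuadraticForm F (ι → F)) (v x : ι → F) :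
    Cfsg.reflectionMatrix ⇑Q v *ᵥ x = x - ((Q v)⁻¹ * QuadraticMap.polar ⇑Q v x) • v := by
  unfold Cfsg.reflectionMatrix
  rw [Matrix.sub_mulVec, Matrix.one_mulVec, Matrix.smul_mulVec, vecMulVec_mulVec', polarVec_dot,
    smul_smul]

theorem siegel_mulVec {F : Type*} [CommRing F] {ι : Type} [Fintype ι] [DecidableEq ι]
    (Q : QuadraticForm F (ι → F)) (u v x : ι → F) (c : F) :
    Cfsg.siegelMatrix ⇑Q u v c *ᵥ x =
      x + c • (QuadraticMap.polar ⇑Q u x • v - QuadraticMap.polar ⇑Q v x • u) := by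
  unfold Cfsg.siegelMatrix
  rw [Matrix.add_mulVec, Matrix.one_mulVec, Matrix.smul_mulVec, Matrix.sub_mulVec,
    vecMulVec_mulVec', vecMulVec_mulVec', polarVec_dot, polarVec_dot]

theorem refl_preserves {F : Type*} [Field F] {ι : Type} [Fintype ι] [DecidableEq ι]
    (Q : QuadraticForm F (ι → F)) (v : ι → F) (hv : Q v ≠ 0) (x : ι → F) :
    Q (Cfsg.reflectionMatrix ⇑Q v *ᵥ x) = Q x := by
  rw [refl_mulVec, sub_eq_add_neg, ← neg_smul, QuadraticMap.map_add Q, QuadraticMap.map_smul,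
    QuadraticMap.polar_smul_right, QuadraticMap.polar_comm ⇑Q x v, smul_eq_mul, smul_eq_mul]
  field_simp
  ring

theorem refl_self {F : Type*} [Field F] {ι : Type} [Fintype ι] [DecidableEq ι]
    (Q : QuadraticForm F (ι → F)) (v : ι → F) (hv : Q v ≠ 0) :
    Cfsg.reflectionMatrix ⇑Q v *ᵥ v = -v := by
  have h : (Q v)⁻¹ * QuadraticMap.polar ⇑Q v v = 2 := by
    rw [QuadraticMap.polar_self, two_nsmul, mul_add, inv_mul_cancel₀ hv]
    norm_num
  rw [refl_mulVec, h, two_smul]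
  abel

theorem refl_fix {F : Type*} [Field F] {ι : Type} [Fintype ι] [DecidableEq ι]
    (Q : QuadraticForm F (ι → F)) (v x : ι → F) (h : QuadraticMap.polar ⇑Q v x = 0) :
    Cfsg.reflectionMatrix ⇑Q v *ᵥ x = x := by
  rw [refl_mulVec, h, mul_zero, zero_smul, sub_zero]

theorem refl_det {F : Type*} [Field F] {ι : Type} [Fintype ι] [DecidableEq ι]
    (Q : QuadraticForm F (ι → F)) (v : ι → F) (hv : Q v ≠ 0) :
    (Cfsg.reflectionMatrix ⇑Q v).det = -1 := by
  unfold Cfsg.reflectionMatrix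
  have h1 : (1 : Matrix ι ι F) - (Q v)⁻¹ • Matrix.vecMulVec v (Cfsg.polarVec ⇑Q v) =
      1 + Matrix.replicateCol Unit (-(Q v)⁻¹ • v) *
        Matrix.replicateRow Unit (Cfsg.polarVec ⇑Q v) := by
    rw [← Matrix.vecMulVec_eq Unit, sub_eq_add_neg]
    congr 1
    ext i j
    simp [Matrix.vecMulVec_apply, mul_assoc]
  have h : (Q v)⁻¹ * QuadraticMap.polar ⇑Q v v = 2 := by
    rw [QuadraticMap.polar_self, two_nsmul, mul_add, inv_mul_cancel₀ hv]
    norm_num
  rw [h1, Matrix.det_one_add_replicateCol_mul_replicateRow, dotProduct_smul, polarVec_dot,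
    smul_eq_mul, neg_mul, h]
  ring

theorem siegel_preserves {F : Type*} [CommRing F] {ι : Type} [Fintype ι] [DecidableEq ι]
    (Q : QuadraticForm F (ι → F)) (u v : ι → F) (hu : Q u = 0) (hv : Q v = 0)
    (huv : QuadraticMap.polar ⇑Q u v = 0) (c : F) (x : ι → F) :
    Q (Cfsg.siegelMatrix ⇑Q u v c *ᵥ x) = Q x := by
  have hvu : QuadraticMap.polar ⇑Q v u = 0 := by rw [QuadraticMap.polar_comm]; exact huv
  rw [siegel_mulVec, QuadraticMap.map_add Q, QuadraticMap.map_smul, QuadraticMap.polar_smul_right,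
    sub_eq_add_neg, ← neg_smul, QuadraticMap.map_add Q, QuadraticMap.map_smul,
    QuadraticMap.map_smul, hu, hv, QuadraticMap.polar_smul_left, QuadraticMap.polar_smul_right,
    hvu, QuadraticMap.polar_add_right, QuadraticMap.polar_smul_right,
    QuadraticMap.polar_smul_right, QuadraticMap.polar_comm ⇑Q x v, QuadraticMap.polar_comm ⇑Q x u]
  simp only [smul_eq_mul]
  ring

theorem siegel_fix {F : Type*} [CommRing F] {ι : Type} [Fintype ι] [DecidableEq ι]
    (Q : QuadraticForm F (ι → F)) (u v : ι → F) (hu : Q u = 0) (hv : Q v = 0)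
    (huv : QuadraticMap.polar ⇑Q u v = 0) (c : F) :
    Cfsg.siegelMatrix ⇑Q u v c *ᵥ u = u ∧ Cfsg.siegelMatrix ⇑Q u v c *ᵥ v = v := by
  have hvu : QuadraticMap.polar ⇑Q v u = 0 := by rw [QuadraticMap.polar_comm]; exact huv
  constructor
  · rw [siegel_mulVec, QuadraticMap.polar_self, hu, hvu]
    simp
  · rw [siegel_mulVec, QuadraticMap.polar_self, hv, huv]
    simp

theorem siegel_mul {F : Type*} [CommRing F] {ι : Type} [Fintype ι] [DecidableEq ι]
    (Q : QuadraticForm F (ι → F)) (u v : ι → F) (hu : Q u = 0) (hv : Q v = 0)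
    (huv : QuadraticMap.polar ⇑Q u v = 0) (c d : F) :
    Cfsg.siegelMatrix ⇑Q u v c * Cfsg.siegelMatrix ⇑Q u v d =
      Cfsg.siegelMatrix ⇑Q u v (c + d) := by
  have hvu : QuadraticMap.polar ⇑Q v u = 0 := by rw [QuadraticMap.polar_comm]; exact huv
  unfold Cfsg.siegelMatrix
  have hM : (Matrix.vecMulVec v (Cfsg.polarVec ⇑Q u) - Matrix.vecMulVec u (Cfsg.polarVec ⇑Q v)) *
      (Matrix.vecMulVec v (Cfsg.polarVec ⇑Q u) - Matrix.vecMulVec u (Cfsg.polarVec ⇑Q v)) = 0 := by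
    rw [sub_mul, mul_sub, mul_sub, Matrix.vecMulVec_mul_vecMulVec, Matrix.vecMulVec_mul_vecMulVec,
      Matrix.vecMulVec_mul_vecMulVec, Matrix.vecMulVec_mul_vecMulVec, polarVec_dot, polarVec_dot,
      polarVec_dot, polarVec_dot, huv, hvu, QuadraticMap.polar_self, QuadraticMap.polar_self,
      hu, hv]
    ext i j
    simp
  rw [add_mul, mul_add, mul_add, one_mul, mul_one, one_mul, Matrix.smul_mul, Matrix.mul_smul, hM,
    smul_zero, smul_zero, add_zero, add_smul, add_assoc, add_comm (d • _)]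

end Cfsg.Agent.Lib.Helper2.Refl
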