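import Mathlib
import Cfsg.Agent.Lib.Helper2.Refl

set_option autoImplicit false

namespace Cfsg.Agent.Lib.Helper2.Refl

open Matrix

theorem iso_det {F : Type*} [Field F] {n : ℕ} (Q : QuadraticForm F (Fin n → F))
    (hQ : (QuadraticMap.polarBilin Q).Nondegenerate) (g : Matrix (Fin n) (Fin n) F)
    (hg : ∀ u, Q (g *ᵥ u) = Q u) : g.det = 1 ∨ g.det = -1 := by
  have hcomp : LinearMap.BilinForm.comp (QuadraticMap.polarBilin Q) (Matrix.toLin' g)
      (Matrix.toLin' g) = QuadraticMap.polarBilin Q := by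
    refine LinearMap.ext₂ fun x y => ?_
    show QuadraticMap.polar ⇑Q (Matrix.toLin' g x) (Matrix.toLin' g y) = QuadraticMap.polar ⇑Q x y
    simp only [Matrix.toLin'_apply, QuadraticMap.polar, ← Matrix.mulVec_add, hg]
  have h1 := LinearMap.BilinForm.toMatrix'_comp (QuadraticMap.polarBilin Q) (Matrix.toLin' g)
    (Matrix.toLin' g)
  rw [hcomp, LinearMap.toMatrix'_toLin'] at h1
  have h2 := congrArg Matrix.det h1
  rw [Matrix.det_mul, Matrix.det_mul, Matrix.det_transpose] at h2
  have hP : (LinearMap.BilinForm.toMatrix' (QuadraticMap.polarBilin Q)).det ≠ 0 := by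
    rw [← Matrix.nondegenerate_iff_det_ne_zero, LinearMap.BilinForm.nondegenerate_toMatrix'_iff]
    exact hQ
  have h3 : g.det * g.det = 1 := by
    have h4 : (g.det * g.det - 1) *
        (LinearMap.BilinForm.toMatrix' (QuadraticMap.polarBilin Q)).det = 0 := by
      linear_combination -h2
    rcases mul_eq_zero.1 h4 with h | h
    · linear_combination h
    · exact absurd h hP
  exact mul_self_eq_one_iff.1 h3

theorem exists_neg {F : Type*} [Field F] {n : ℕ} (Q : QuadraticForm F (Fin n → F))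
    (v : Fin n → F) (hv : Q v ≠ 0) :
    ∃ g : ↥(Cfsg.isometryGroup F ⇑Q),
      ((g : Matrix.GeneralLinearGroup (Fin n) F) : Matrix (Fin n) (Fin n) F).det = -1 := by
  have hdet : (Cfsg.reflectionMatrix ⇑Q v).det ≠ 0 := by
    rw [refl_det Q v hv]
    exact neg_ne_zero.2 one_ne_zero
  refine ⟨⟨Matrix.GeneralLinearGroup.mkOfDetNeZero (Cfsg.reflectionMatrix ⇑Q v) hdet, ?_⟩, ?_⟩
  · intro u _
    exact refl_preserves Q v hv u
  · exact refl_det Q v hv

end Cfsg.Agent.Lib.Helper2.Refl
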