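import Mathlib
import Cfsg.Agent.Lib.Helper2.RegNormal

set_option autoImplicit false

namespace Cfsg.Agent.Lib.Helper2.RegNormal

open MulAction
open scoped Pointwise

variable {G : Type*} [Group G] {X : Type*} [MulAction G X]

theorem two_prim [Fintype X] (hX : 2 ≤ Fintype.card X)
    (h2 : IsMultiplyPreprimitive G X 2) (N : Subgroup G) [N.Normal]
    (htrans : IsPretransitive N X) (hreg : ∀ x : X, stabilizer N x = ⊥) :
    Fintype.card X = 3 ∨ (IsMulCommutative N ∧ (∀ n ∈ N, n ^ 2 = 1) ∧
      ∃ m : ℕ, Fintype.card X = 2 ^ m) := by
  by_cases h3 : Fintype.card X = 3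
  · left
    exact h3
  right
  have hinv := involutions hX h2 N hreg h3
  have hne : Nonempty X := by
    rw [← Fintype.card_pos_iff]
    omega
  obtain ⟨a⟩ := hne
  refine ⟨⟨⟨fun u v => Subtype.ext ?_⟩⟩, fun n hn => by rw [pow_two]; exact hinv n hn, ?_⟩
  · show (u : G) * v = v * u
    have h1 := hinv _ (N.mul_mem u.2 v.2)
    have hu := hinv _ u.2
    have hv := hinv _ v.2
    calc (u : G) * v = u * ((u : G) * v * (u * v)) * v := by rw [h1, mul_one]
      _ = ((u : G) * u) * (v * u) * (v * v) := by group
      _ = v * u := by rw [hu, hv, one_mul, mul_one]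
  · have hc := card_eq N htrans hreg a
    rw [Nat.card_eq_fintype_card (α := X)] at hc
    have hfin : Finite N := by
      apply Nat.finite_of_card_ne_zero
      rw [hc]
      omega
    have hPG : IsPGroup 2 N := fun u => ⟨1, by
      rw [pow_one, pow_two]
      exact Subtype.ext (hinv _ u.2)⟩
    obtain ⟨m, hm⟩ := IsPGroup.iff_card.1 hPG
    exact ⟨m, by rw [← hc, hm]⟩

theorem three_prim [Fintype X] (hX : 3 ≤ Fintype.card X)
    (h3 : IsMultiplyPreprimitive G X 3) (N : Subgroup G) [N.Normal]
    (htrans : IsPretransitive N X) (hreg : ∀ x : X, stabilizer N x = ⊥) :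
    Fintype.card X = 3 ∨ Fintype.card X = 4 := by
  classical
  by_cases h : Fintype.card X = 3
  · left
    exact h
  right
  have h2 : IsMultiplyPreprimitive G X 2 :=
    isMultiplyPreprimitive_of_le G X h3 (by norm_num) (by
      rw [ENat.card_eq_coe_fintype_card]
      exact_mod_cast hX)
  have hinv := involutions (by omega) h2 N hreg h
  obtain ⟨a, b, c, hab, hac, hbc⟩ := Fintype.two_lt_card_iff.1 (by omega : 2 < Fintype.card X)
  obtain ⟨n, hn⟩ := htrans.exists_smul_eq a b
  obtain ⟨m, hm⟩ := htrans.exists_smul_eq a c
  have hn' : (n : G) • a = b := hn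
  have hm' : (m : G) • a = c := hm
  have hprim : IsPreprimitive (fixingSubgroup G ({a, b} : Set X))
      (SubMulAction.ofFixingSubgroup G ({a, b} : Set X)) :=
    h3.isPreprimitive_ofFixingSubgroup (by rw [Set.encard_pair hab]; rfl)
  have hda : ((n : G) * m) • a ≠ a := by
    intro hh
    have h1 := reg_inj N hreg (N.mul_mem n.2 m.2) N.one_mem (hh.trans (one_smul G a).symm)
    have h2' : (m : G) = n := by
      have : (m : G) = (n : G) * n * m := by rw [hinv _ n.2, one_mul]
      rw [this, mul_assoc, h1, mul_one]
    apply hbc
    rw [← hn', ← hm', h2']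
  have hdb : ((n : G) * m) • a ≠ b := by
    intro hh
    rw [← hn'] at hh
    have h1 := reg_inj N hreg (N.mul_mem n.2 m.2) n.2 hh
    have h2' : (m : G) = 1 := by
      have := mul_left_cancel (h1.trans (mul_one (n : G)).symm)
      exact this
    apply hac
    rw [← hm', h2', one_smul]
  have hcd : (m : G) • a ≠ ((n : G) * m) • a := by
    intro hh
    have h1 := reg_inj N hreg m.2 (N.mul_mem n.2 m.2) hh
    have h2' : (n : G) = 1 := by
      have : (1 : G) * m = n * m := by rw [one_mul]; exact h1
      exact (mul_right_cancel this).symm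
    apply hab
    rw [← hn', h2', one_smul]
  have hB := block_trivial ({a, b} : Set X) hprim ({(m : G) • a, ((n : G) * m) • a} : Set X)
    (by
      intro x hx
      rcases hx with rfl | rfl
      · rw [hm']
        rintro (h1 | h1)
        · exact hac h1.symm
        · exact hbc h1.symm
      · rintro (h1 | h1)
        · exact hda h1
        · exact hdb h1)
    (by
      intro g hg
      have hga : g • a = a := (mem_fixingSubgroup_iff G).1 hg a (Set.mem_insert _ _)
      have hgb : g • b = b :=
        (mem_fixingSubgroup_iff G).1 hg b (Set.mem_insert_of_mem _ rfl)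
      have hgia : g⁻¹ • a = a := by rw [inv_smul_eq_iff, hga]
      have hgc : g * n * g⁻¹ = n := by
        apply reg_inj N hreg (Subgroup.Normal.conj_mem inferInstance _ n.2 g) n.2 (a := a)
        rw [mul_smul, mul_smul, hgia, hn', hgb]
      exact pair_block N hreg a n n.2 (hinv _ n.2) m m.2 g hga hgc)
  rcases hB with hB | hB
  · exact absurd (hB (Set.mem_insert _ _) (Set.mem_insert_of_mem _ rfl)) hcd
  · have huniv : (Finset.univ : Finset X) = {a, b, (m : G) • a, ((n : G) * m) • a} := by
      ext z
      simp only [Finset.mem_univ, Finset.mem_insert, Finset.mem_singleton, true_iff]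
      by_cases hz : z ∈ ({a, b} : Set X)
      · rcases hz with hz | hz
        · left
          exact hz
        · right; left
          exact hz
      · right; right
        have : z ∈ ({(m : G) • a, ((n : G) * m) • a} : Set X) := by
          rw [hB]
          exact hz
        exact this
    rw [← Finset.card_univ, huniv, Finset.card_insert_of_notMem, Finset.card_insert_of_notMem,
      Finset.card_insert_of_notMem, Finset.card_singleton]
    · rw [Finset.mem_singleton]
      exact hcd
    · rw [Finset.mem_insert, Finset.mem_singleton]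
      rintro (h1 | h1)
      · rw [hm'] at h1
        exact hbc h1
      · exact hdb h1.symm
    · rw [Finset.mem_insert, Finset.mem_insert, Finset.mem_singleton]
      rintro (h1 | h1 | h1)
      · exact hab h1
      · rw [hm'] at h1
        exact hac h1
      · exact hda h1.symm

end Cfsg.Agent.Lib.Helper2.RegNormal
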