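import Mathlib
import Cfsg.Prelude.Def_Involutions
import Cfsg.Agent.Lib.Helper2.SylowAux
import Cfsg.Agent.Lib.Helper2.Lift
import Cfsg.Agent.Lib.Helper2.SE
import Cfsg.Agent.Lib.Helper2.SE2

set_option autoImplicit false

namespace Cfsg.Agent.Lib.Helper2.SE3

open Cfsg

variable {G : Type*} [Group G]

theorem cit_structure [Finite G] (H T : Subgroup G) (hH : IsStronglyEmbedded H) (hTH : T ≤ H)
    (hinv : ∀ t ∈ H, orderOf t = 2 → t ∈ T) (hexp : ∀ t ∈ T, t ^ 2 = 1)
    (hcent : ∀ t ∈ T, orderOf t = 2 → Subgroup.centralizer ({t} : Set G) = T)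
    (hT : T ≠ ⊥) (u : G) (hu : orderOf u = 2) (huH : u ∉ H) :
    (∀ d ∈ H ⊓ H.map (MulAut.conj u).toMonoidHom, u * d * u⁻¹ = d⁻¹) ∧
    Nat.card H = Nat.card T * (Nat.card T - 1) ∧
    Subgroup.IsComplement' ((H ⊓ H.map (MulAut.conj u).toMonoidHom).subgroupOf H)
      (T.subgroupOf H) := by
  have hDodd := hH.2.2 u huH
  obtain ⟨t₀', ht₀'⟩ := (Subgroup.ne_bot_iff_exists_ne_one).1 hT
  obtain ⟨t₀, ht₀T⟩ := t₀'
  have ht₀1 : t₀ ≠ 1 := fun h => ht₀' (Subtype.ext h)
  have ht₀ : orderOf t₀ = 2 := orderOf_eq_prime (hexp t₀ ht₀T) ht₀1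
  have hDT : ∀ e ∈ H ⊓ H.map (MulAut.conj u).toMonoidHom, e ∈ T → e = 1 := by
    intro e heD heT
    by_contra hne
    have h1 : orderOf e = 2 := orderOf_eq_prime (hexp e heT) hne
    have h2 : orderOf (⟨e, heD⟩ : ↥(H ⊓ H.map (MulAut.conj u).toMonoidHom)) = 2 := by
      rw [← h1, ← Subgroup.orderOf_coe]
    have h3 := orderOf_dvd_natCard (⟨e, heD⟩ : ↥(H ⊓ H.map (MulAut.conj u).toMonoidHom))
    rw [h2] at h3
    exact (Nat.not_even_iff_odd.2 hDodd) (even_iff_two_dvd.2 h3)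
  have hdecomp : ∀ h ∈ H, ∃ d ∈ H ⊓ H.map (MulAut.conj u).toMonoidHom, d⁻¹ * h ∈ T := by
    intro h hh
    have h1 : orderOf (h * t₀ * h⁻¹) = 2 := by
      have h6 : h * t₀ * h⁻¹ = (MulAut.conj h) t₀ := by simp
      rw [h6, MulEquiv.orderOf_eq, ht₀]
    have h2 : h * t₀ * h⁻¹ ∈ H := H.mul_mem (H.mul_mem hh (hTH ht₀T)) (H.inv_mem hh)
    obtain ⟨d, hd, hdt⟩ := SE.conj_in_D H hH u hu huH t₀ (h * t₀ * h⁻¹) ht₀ (hTH ht₀T) h1 h2
    refine ⟨d, hd, ?_⟩
    rw [← hcent t₀ ht₀T ht₀, Subgroup.mem_centralizer_singleton_iff]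
    have e1 : d⁻¹ * h * t₀ = d⁻¹ * (h * t₀ * h⁻¹) * h := by group
    rw [e1, ← hdt]
    group
  have hcompl : Subgroup.IsComplement' ((H ⊓ H.map (MulAut.conj u).toMonoidHom).subgroupOf H)
      (T.subgroupOf H) := by
    apply Subgroup.isComplement'_of_disjoint_and_mul_eq_univ
    · rw [Subgroup.disjoint_def]
      intro x hx1 hx2
      apply Subtype.ext
      exact hDT x (Subgroup.mem_subgroupOf.1 hx1) (Subgroup.mem_subgroupOf.1 hx2)
    · rw [Set.eq_univ_iff_forall]
      intro h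
      obtain ⟨d, hd, hdh⟩ := hdecomp h h.2
      refine ⟨⟨d, hd.1⟩, Subgroup.mem_subgroupOf.2 hd, ⟨d⁻¹ * h, hTH hdh⟩,
        Subgroup.mem_subgroupOf.2 hdh, ?_⟩
      apply Subtype.ext
      simp
  have hcard := hcompl.card_mul_card
  rw [Nat.card_congr (Subgroup.subgroupOfEquivOfLe (inf_le_left : H ⊓ H.map (MulAut.conj u).toMonoidHom ≤ H)).toEquiv,
    Nat.card_congr (Subgroup.subgroupOfEquivOfLe hTH).toEquiv] at hcard
  have hDJ : Nat.card ↥(H ⊓ H.map (MulAut.conj u).toMonoidHom) =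
      Nat.card {t : G // orderOf t = 2 ∧ t ∈ H} := by
    apply Nat.card_eq_of_bijective
      (fun d : ↥(H ⊓ H.map (MulAut.conj u).toMonoidHom) =>
        (⟨(d : G) * t₀ * (d : G)⁻¹, by
          have h6 : (d : G) * t₀ * (d : G)⁻¹ = (MulAut.conj (d : G)) t₀ := by simp
          rw [h6, MulEquiv.orderOf_eq, ht₀],
          H.mul_mem (H.mul_mem d.2.1 (hTH ht₀T)) (H.inv_mem d.2.1)⟩ :
          {t : G // orderOf t = 2 ∧ t ∈ H}))
    constructor
    · intro d d' hdd
      have h1 : (d : G) * t₀ * (d : G)⁻¹ = (d' : G) * t₀ * (d' : G)⁻¹ := congrArg Subtype.val hdd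
      have h2 : (d' : G)⁻¹ * (d : G) ∈ T := by
        rw [← hcent t₀ ht₀T ht₀, Subgroup.mem_centralizer_singleton_iff]
        have e1 : (d' : G)⁻¹ * (d : G) * t₀ = (d' : G)⁻¹ * ((d : G) * t₀ * (d : G)⁻¹) * (d : G) := by
          group
        rw [e1, h1]
        group
      have h3 := hDT _ (Subgroup.mul_mem _ (Subgroup.inv_mem _ d'.2) d.2) h2
      apply Subtype.ext
      exact (inv_mul_eq_one.1 h3).symm
    · rintro ⟨t, ht, htH⟩
      obtain ⟨d, hd, hdt⟩ := SE.conj_in_D H hH u hu huH t₀ t ht₀ (hTH ht₀T) ht htH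
      exact ⟨⟨d, hd⟩, Subtype.ext hdt⟩
  have hJT : Nat.card T = Nat.card {t : G // orderOf t = 2 ∧ t ∈ H} + 1 := by
    rw [← Finite.card_option]
    symm
    apply Nat.card_eq_of_bijective
      (fun o : Option {t : G // orderOf t = 2 ∧ t ∈ H} =>
        (Option.elim o (1 : T) (fun t => ⟨t.1, hinv t.1 t.2.2 t.2.1⟩) : T))
    constructor
    · intro a b hab
      cases a with
      | none =>
        cases b with
        | none => rfl
        | some b =>
          exfalso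
          have h1 : (1 : G) = b.1 := congrArg Subtype.val hab
          exact SE.ne_one_of_orderOf b.2.1 h1.symm
      | some a =>
        cases b with
        | none =>
          exfalso
          have h1 : a.1 = (1 : G) := congrArg Subtype.val hab
          exact SE.ne_one_of_orderOf a.2.1 h1
        | some b =>
          have h1 : a.1 = b.1 := congrArg (fun x : ↥T => (x : G)) hab
          exact congrArg some (Subtype.ext h1)
    · intro t
      by_cases ht1 : (t : G) = 1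
      · exact ⟨none, Subtype.ext ht1.symm⟩
      · exact ⟨some ⟨t.1, orderOf_eq_prime (hexp t.1 t.2) ht1, hTH t.2⟩, rfl⟩
  refine ⟨?_, ?_, hcompl⟩
  · have hx : ((1 : G) : G ⧸ H) ≠ u • ((1 : G) : G ⧸ H) := by
      intro hh
      exact huH ((SE.mem_iff_smul_one H u).1 hh.symm)
    have hcount := SE.count_involutions H hH ((1 : G) : G ⧸ H) (u • ((1 : G) : G ⧸ H))
    have hu2 := SE.sq_of_orderOf hu
    have huinv := SE.inv_eq_self_of_sq hu2
    have hmemD : ∀ i : G, orderOf i = 2 → i • ((1 : G) : G ⧸ H) = u • ((1 : G) : G ⧸ H) →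
        u * i ∈ H ⊓ H.map (MulAut.conj u).toMonoidHom := by
      intro i hio hix
      refine ⟨(SE.mem_iff_smul_one H _).1 ?_, (SylowAux.mem_map_conj H u _).2 ?_⟩
      · rw [mul_smul, hix, ← mul_smul, ← pow_two, hu2, one_smul]
      · have h1 : (u * i) • (u • ((1 : G) : G ⧸ H)) = u • ((1 : G) : G ⧸ H) := by
          have hi2 := SE.sq_of_orderOf hio
          rw [mul_smul]
          congr 1
          rw [← hix, ← mul_smul, ← pow_two, hi2, one_smul]
        have h2 : u • ((1 : G) : G ⧸ H) = (u : G ⧸ H) := by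
          rw [MulAction.Quotient.smul_coe]
          simp
        rw [h2] at h1
        exact (SE.smul_coe_eq_iff H _ u).1 h1
    have hbij : Function.Bijective
        (fun i : {i : G // orderOf i = 2 ∧ i • ((1 : G) : G ⧸ H) = u • ((1 : G) : G ⧸ H)} =>
          (⟨u * i.1, hmemD i.1 i.2.1 i.2.2⟩ :
            ↥(H ⊓ H.map (MulAut.conj u).toMonoidHom))) := by
      apply Function.Injective.bijective_of_nat_card_le
      · intro i i' hii
        have h1 : u * i.1 = u * i'.1 := congrArg Subtype.val hii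
        exact Subtype.ext (mul_left_cancel h1)
      · rw [hDJ, hcount]
    intro d hd
    obtain ⟨i, hi⟩ := hbij.2 ⟨d, hd⟩
    have h1 : u * i.1 = d := congrArg Subtype.val hi
    have hi2 := SE.sq_of_orderOf i.2.1
    have hiinv := SE.inv_eq_self_of_sq hi2
    rw [← h1, mul_inv_rev, hiinv, huinv, ← mul_assoc, ← pow_two, hu2, one_mul]
  · rw [← hcard, hJT, ← hDJ, Nat.add_sub_cancel, mul_comm]

theorem sylow_ne_bot (T : Sylow 2 G) (hnc : ¬ IsCyclic (T : Subgroup G)) :
    (T : Subgroup G) ≠ ⊥ := by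
  intro h
  apply hnc
  rw [h]
  infer_instance

theorem sylow_exp_two [Finite G] (T : Sylow 2 G) (hT : (T : Subgroup G) ≠ ⊥)
    (hC : ∀ t : G, orderOf t = 2 → ∀ c ∈ Subgroup.centralizer ({t} : Set G), c ^ 2 = 1) :
    ∀ t ∈ (T : Subgroup G), t ^ 2 = 1 := by
  have hnt : Nontrivial (T : Subgroup G) := (Subgroup.nontrivial_iff_ne_bot _).2 hT
  obtain ⟨n, hn0, hn⟩ := T.2.nontrivial_iff_card.1 hnt
  have h2 : 2 ∣ Nat.card (T : Subgroup G) := by
    rw [hn]
    exact dvd_pow_self 2 hn0.ne'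
  obtain ⟨z, hz⟩ := exists_prime_orderOf_dvd_card' (G := (T : Subgroup G)) 2 h2
  have hz' : orderOf (z : G) = 2 := by rw [Subgroup.orderOf_coe, hz]
  have hc := SE2.centralizer_eq_sylow T hT hC _ hz' z.2
  intro t ht
  rw [← hc] at ht
  exact hC _ hz' t ht

theorem cit_main [Finite G] (T : Sylow 2 G) (hnc : ¬ IsCyclic (T : Subgroup G))
    (hnn : ¬ (T : Subgroup G).Normal)
    (hC : ∀ t : G, orderOf t = 2 → ∀ c ∈ Subgroup.centralizer ({t} : Set G), c ^ 2 = 1)
    (u : G) (hu : orderOf u = 2) (huH : u ∉ Subgroup.normalizer ((T : Subgroup G) : Set G)) :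
    (∀ d ∈ Subgroup.normalizer ((T : Subgroup G) : Set G) ⊓
        (Subgroup.normalizer ((T : Subgroup G) : Set G)).map (MulAut.conj u).toMonoidHom,
        u * d * u⁻¹ = d⁻¹) ∧
    Nat.card (Subgroup.normalizer ((T : Subgroup G) : Set G)) =
      Nat.card (T : Subgroup G) * (Nat.card (T : Subgroup G) - 1) ∧
    Subgroup.IsComplement' ((Subgroup.normalizer ((T : Subgroup G) : Set G) ⊓
        (Subgroup.normalizer ((T : Subgroup G) : Set G)).map
          (MulAut.conj u).toMonoidHom).subgroupOf (Subgroup.normalizer ((T : Subgroup G) : Set G)))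
      ((T : Subgroup G).subgroupOf (Subgroup.normalizer ((T : Subgroup G) : Set G))) := by
  have hT := sylow_ne_bot T hnc
  exact cit_structure (Subgroup.normalizer ((T : Subgroup G) : Set G)) (T : Subgroup G)
    (SE2.normalizer_stronglyEmbedded T hnc hnn hC) Subgroup.le_normalizer
    (fun t ht ho => SE2.mem_sylow_of_mem_normalizer T ht (SE2.isPGroup_zpowers_of_orderOf ho))
    (sylow_exp_two T hT hC)
    (fun t ht ho => SE2.centralizer_eq_sylow T hT hC t ho ht) hT u hu huH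

end Cfsg.Agent.Lib.Helper2.SE3
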