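import Mathlib
import Cfsg.Prelude.Def_Involutions
import Cfsg.Agent.Lib.Helper2.SylowAux
import Cfsg.Agent.Lib.Helper2.Lift
import Cfsg.Agent.Lib.Helper2.SE
import Cfsg.Agent.Lib.Helper2.SE2
import Cfsg.Agent.Lib.Helper2.SE3

set_option autoImplicit false

namespace Cfsg.Agent.Lib.Helper2.SE4

open Cfsg

variable {G : Type*} [Group G]

theorem card_D [Finite G] (H T : Subgroup G) (hH : IsStronglyEmbedded H) (hTH : T ≤ H)
    (hinv : ∀ t ∈ H, orderOf t = 2 → t ∈ T) (hexp : ∀ t ∈ T, t ^ 2 = 1)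
    (hcent : ∀ t ∈ T, orderOf t = 2 → Subgroup.centralizer ({t} : Set G) = T)
    (hT : T ≠ ⊥) (u : G) (hu : orderOf u = 2) (huH : u ∉ H) :
    Nat.card ↥(H ⊓ H.map (MulAut.conj u).toMonoidHom) = Nat.card T - 1 := by
  obtain ⟨-, hb, hc⟩ := SE3.cit_structure H T hH hTH hinv hexp hcent hT u hu huH
  have hcard := hc.card_mul_card
  rw [Nat.card_congr (Subgroup.subgroupOfEquivOfLe (inf_le_left : H ⊓ H.map (MulAut.conj u).toMonoidHom ≤ H)).toEquiv,
    Nat.card_congr (Subgroup.subgroupOfEquivOfLe hTH).toEquiv, hb, mul_comm] at hcard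
  exact Nat.eq_of_mul_eq_mul_left Nat.card_pos hcard

theorem cit_structure2 [Finite G] (H T : Subgroup G) (hH : IsStronglyEmbedded H) (hTH : T ≤ H)
    (hTn : H ≤ Subgroup.normalizer (T : Set G))
    (hinv : ∀ t ∈ H, orderOf t = 2 → t ∈ T) (hexp : ∀ t ∈ T, t ^ 2 = 1)
    (hcent : ∀ t ∈ T, orderOf t = 2 → Subgroup.centralizer ({t} : Set G) = T)
    (hT4 : 2 < Nat.card T) (u : G) (hu : orderOf u = 2) (huH : u ∉ H) :
    Subgroup.normalizer ((H ⊓ H.map (MulAut.conj u).toMonoidHom : Subgroup G) : Set G) =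
        (H ⊓ H.map (MulAut.conj u).toMonoidHom) ⊔ Subgroup.zpowers u ∧
      ∀ g : G, ((∀ d ∈ H ⊓ H.map (MulAut.conj u).toMonoidHom,
          d • (QuotientGroup.mk g : G ⧸ H) = QuotientGroup.mk g) ↔
        (QuotientGroup.mk g : G ⧸ H) = QuotientGroup.mk 1 ∨
          (QuotientGroup.mk g : G ⧸ H) = QuotientGroup.mk u) := by
  have hT : T ≠ ⊥ := by
    intro h
    rw [h] at hT4
    simp at hT4
  have hse := SE.seAct_of_stronglyEmbedded H hH
  have hDodd := hH.2.2 u huH
  obtain ⟨hinvD, hb, hcompl⟩ := SE3.cit_structure H T hH hTH hinv hexp hcent hT u hu huH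
  have hcardD := card_D H T hH hTH hinv hexp hcent hT u hu huH
  have hu2 := SE.sq_of_orderOf hu
  have huinv := SE.inv_eq_self_of_sq hu2
  have hsq : ∀ e ∈ H ⊓ H.map (MulAut.conj u).toMonoidHom, e ^ 2 = 1 → e = 1 := by
    intro e heD he2
    by_contra hne
    have h1 : orderOf e = 2 := orderOf_eq_prime he2 hne
    have h2 : orderOf (⟨e, heD⟩ : ↥(H ⊓ H.map (MulAut.conj u).toMonoidHom)) = 2 := by
      rw [← h1, ← Subgroup.orderOf_coe]
    have h3 := orderOf_dvd_natCard (⟨e, heD⟩ : ↥(H ⊓ H.map (MulAut.conj u).toMonoidHom))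
    rw [h2] at h3
    exact (Nat.not_even_iff_odd.2 hDodd) (even_iff_two_dvd.2 h3)
  have hDT : ∀ e ∈ H ⊓ H.map (MulAut.conj u).toMonoidHom, e ∈ T → e = 1 :=
    fun e heD heT => hsq e heD (hexp e heT)
  have hDne : ∃ e₀ ∈ H ⊓ H.map (MulAut.conj u).toMonoidHom, e₀ ≠ 1 := by
    have h1 : 1 < Nat.card ↥(H ⊓ H.map (MulAut.conj u).toMonoidHom) := by
      rw [hcardD]
      omega
    have h2 := (Subgroup.one_lt_card_iff_ne_bot _).1 h1
    obtain ⟨e, he⟩ := (Subgroup.ne_bot_iff_exists_ne_one).1 h2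
    exact ⟨e.1, e.2, fun h => he (Subtype.ext h)⟩
  obtain ⟨e₀, he₀D, he₀⟩ := hDne
  have hab : ∀ d ∈ H ⊓ H.map (MulAut.conj u).toMonoidHom,
      ∀ e ∈ H ⊓ H.map (MulAut.conj u).toMonoidHom, d * e = e * d := by
    intro d hd e he
    have h1 := hinvD (d * e) (Subgroup.mul_mem _ hd he)
    have h2 := hinvD d hd
    have h3 := hinvD e he
    have h4 : u * (d * e) * u⁻¹ = (u * d * u⁻¹) * (u * e * u⁻¹) := by group
    rw [h4, h2, h3, mul_inv_rev] at h1
    have h5 := congrArg (fun x => x⁻¹) h1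
    simpa using h5.symm
  have hF5 : ∀ h ∈ H, h ∈ Subgroup.normalizer
      ((H ⊓ H.map (MulAut.conj u).toMonoidHom : Subgroup G) : Set G) →
      h ∈ H ⊓ H.map (MulAut.conj u).toMonoidHom := by
    intro h hh hhN
    obtain ⟨⟨⟨d, hd⟩, ⟨t, ht⟩⟩, hdt⟩ := hcompl.2 ⟨h, hh⟩
    have hd' : (d : G) ∈ H ⊓ H.map (MulAut.conj u).toMonoidHom := Subgroup.mem_subgroupOf.1 hd
    have ht' : (t : G) ∈ T := Subgroup.mem_subgroupOf.1 ht
    have hdt' : (d : G) * (t : G) = h := congrArg Subtype.val hdt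
    have htN : (t : G) ∈ Subgroup.normalizer
        ((H ⊓ H.map (MulAut.conj u).toMonoidHom : Subgroup G) : Set G) := by
      have e1 : (t : G) = (d : G)⁻¹ * h := by rw [← hdt']; group
      rw [e1]
      exact Subgroup.mul_mem _ (Subgroup.inv_mem _ (Subgroup.le_normalizer hd')) hhN
    by_cases ht1 : (t : G) = 1
    · rw [ht1, mul_one] at hdt'
      rw [← hdt']
      exact hd'
    · exfalso
      have hto : orderOf (t : G) = 2 := orderOf_eq_prime (hexp _ ht') ht1
      apply he₀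
      apply hDT e₀ he₀D
      rw [← hcent _ ht' hto, Subgroup.mem_centralizer_singleton_iff]
      have h1 : (t : G) * e₀ * (t : G)⁻¹ ∈ H ⊓ H.map (MulAut.conj u).toMonoidHom :=
        ((Subgroup.mem_normalizer_iff.1 htN) e₀).1 he₀D
      have h2 : (t : G) * e₀ * (t : G)⁻¹ * e₀⁻¹ ∈ H ⊓ H.map (MulAut.conj u).toMonoidHom :=
        Subgroup.mul_mem _ h1 (Subgroup.inv_mem _ he₀D)
      have h3 : e₀ * (t : G)⁻¹ * e₀⁻¹ ∈ T :=
        ((Subgroup.mem_normalizer_iff.1 (hTn he₀D.1)) _).1 (T.inv_mem ht')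
      have h4 : (t : G) * e₀ * (t : G)⁻¹ * e₀⁻¹ ∈ T := by
        have e1 : (t : G) * e₀ * (t : G)⁻¹ * e₀⁻¹ = (t : G) * (e₀ * (t : G)⁻¹ * e₀⁻¹) := by group
        rw [e1]
        exact T.mul_mem ht' h3
      have h5 := hDT _ h2 h4
      have e2 : e₀ * (t : G) = ((t : G) * e₀ * (t : G)⁻¹ * e₀⁻¹)⁻¹ * ((t : G) * e₀) := by group
      rw [e2, h5, inv_one, one_mul]
  have huN : u ∈ Subgroup.normalizer
      ((H ⊓ H.map (MulAut.conj u).toMonoidHom : Subgroup G) : Set G) := by
    apply Lift.conj_le_mem_normalizer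
    intro a ha
    rw [hinvD a ha]
    exact Subgroup.inv_mem _ ha
  have hx₀ : ∀ g : G, g ∉ H → g • ((1 : G) : G ⧸ H) ≠ ((1 : G) : G ⧸ H) :=
    fun g hg hh => hg ((SE.mem_iff_smul_one H g).1 hh)
  have hpair : ∀ g : G, g ∉ H →
      (∀ e ∈ H ⊓ H.map (MulAut.conj u).toMonoidHom, g⁻¹ * e * g ∈ H) →
      ∃ w : G, w • ((1 : G) : G ⧸ H) = g • ((1 : G) : G ⧸ H) ∧
        ∀ e ∈ H ⊓ H.map (MulAut.conj u).toMonoidHom, w * e * w⁻¹ = e⁻¹ := by
    intro g hg hgD
    obtain ⟨s, hs, hsx⟩ := hse.P2 ((1 : G) : G ⧸ H)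
    obtain ⟨s', hs', hsz⟩ := hse.P2 (g • ((1 : G) : G ⧸ H))
    obtain ⟨w, hw, hwx, -⟩ := hse.P6 (fun hh => hx₀ g hg hh.symm) hs hsx hs' hsz
    have hwH : w ∉ H := by
      intro hwH
      have := (SE.mem_iff_smul_one H w).2 hwH
      rw [hwx] at this
      exact hx₀ g hg this
    have hle : H ⊓ H.map (MulAut.conj u).toMonoidHom ≤ H ⊓ H.map (MulAut.conj w).toMonoidHom := by
      intro e he
      refine ⟨he.1, (SylowAux.mem_map_conj H w e).2 ?_⟩
      have h1 : e • (g • ((1 : G) : G ⧸ H)) = g • ((1 : G) : G ⧸ H) := by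
        have h2 := (SE.mem_iff_smul_one H _).2 (hgD e he)
        rw [mul_smul, mul_smul] at h2
        have h3 := congrArg (fun z => g • z) h2
        simpa using h3
      rw [← hwx] at h1
      have h4 : w • ((1 : G) : G ⧸ H) = (w : G ⧸ H) := by
        rw [MulAction.Quotient.smul_coe]
        simp
      rw [h4] at h1
      exact (SE.smul_coe_eq_iff H e w).1 h1
    have hcardw := card_D H T hH hTH hinv hexp hcent hT w hw hwH
    have heq : H ⊓ H.map (MulAut.conj u).toMonoidHom = H ⊓ H.map (MulAut.conj w).toMonoidHom :=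
      Subgroup.eq_of_le_of_card_ge hle (by rw [hcardw, hcardD])
    obtain ⟨hinvw, -, -⟩ := SE3.cit_structure H T hH hTH hinv hexp hcent hT w hw hwH
    refine ⟨w, hwx, ?_⟩
    intro e he
    rw [heq] at he
    exact hinvw e he
  have hF6 : ∀ g ∈ Subgroup.normalizer
      ((H ⊓ H.map (MulAut.conj u).toMonoidHom : Subgroup G) : Set G),
      g ∉ H ⊓ H.map (MulAut.conj u).toMonoidHom →
      ∀ e ∈ H ⊓ H.map (MulAut.conj u).toMonoidHom, g * e * g⁻¹ = e⁻¹ := by
    intro g hgN hgD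
    have hgH : g ∉ H := fun hh => hgD (hF5 g hh hgN)
    have hg' : ∀ e ∈ H ⊓ H.map (MulAut.conj u).toMonoidHom, g⁻¹ * e * g ∈ H := by
      intro e he
      have h1 := ((Subgroup.mem_normalizer_iff.1 (Subgroup.inv_mem _ hgN)) e).1 he
      rw [inv_inv] at h1
      exact h1.1
    obtain ⟨w, hwx, hwinv⟩ := hpair g hgH hg'
    have hwN : w ∈ Subgroup.normalizer
        ((H ⊓ H.map (MulAut.conj u).toMonoidHom : Subgroup G) : Set G) := by
      apply Lift.conj_le_mem_normalizer
      intro a ha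
      rw [hwinv a ha]
      exact Subgroup.inv_mem _ ha
    have h1 : w⁻¹ * g ∈ H := by
      refine (SE.mem_iff_smul_one H _).1 ?_
      rw [mul_smul, ← hwx, inv_smul_smul]
    have h2 := hF5 _ h1 (Subgroup.mul_mem _ (Subgroup.inv_mem _ hwN) hgN)
    intro e he
    have e1 : g * e * g⁻¹ = w * ((w⁻¹ * g) * e * (w⁻¹ * g)⁻¹) * w⁻¹ := by group
    have e2 : (w⁻¹ * g) * e * (w⁻¹ * g)⁻¹ = e := by
      rw [hab _ h2 e he, mul_assoc, mul_inv_cancel, mul_one]
    rw [e1, e2]
    exact hwinv e he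
  have hF7 : ∀ g ∈ Subgroup.normalizer
      ((H ⊓ H.map (MulAut.conj u).toMonoidHom : Subgroup G) : Set G),
      g ∈ H ⊓ H.map (MulAut.conj u).toMonoidHom ∨
        u * g ∈ H ⊓ H.map (MulAut.conj u).toMonoidHom := by
    intro g hgN
    by_contra hcon
    push Not at hcon
    obtain ⟨h1, h2⟩ := hcon
    have i1 := hF6 g hgN h1 e₀ he₀D
    have i2 := hF6 (u * g) (Subgroup.mul_mem _ huN hgN) h2 e₀ he₀D
    have e1 : u * g * e₀ * (u * g)⁻¹ = u * (g * e₀ * g⁻¹) * u⁻¹ := by group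
    rw [e1, i1] at i2
    have i3 := hinvD e₀⁻¹ (Subgroup.inv_mem _ he₀D)
    rw [i3, inv_inv] at i2
    apply he₀
    apply hsq e₀ he₀D
    rw [pow_two]
    nth_rewrite 1 [i2]
    exact inv_mul_cancel e₀
  constructor
  · apply le_antisymm
    · intro g hg
      rcases hF7 g hg with h | h
      · exact (le_sup_left : _ ≤ (H ⊓ H.map (MulAut.conj u).toMonoidHom) ⊔ Subgroup.zpowers u) h
      · have e1 : g = u⁻¹ * (u * g) := by group
        rw [e1]
        exact Subgroup.mul_mem _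
          ((le_sup_right : Subgroup.zpowers u ≤ _) (Subgroup.inv_mem _ (Subgroup.mem_zpowers u)))
          ((le_sup_left : _ ≤ (H ⊓ H.map (MulAut.conj u).toMonoidHom) ⊔ Subgroup.zpowers u) h)
    · exact sup_le Subgroup.le_normalizer ((Subgroup.zpowers_le).2 huN)
  · intro g
    constructor
    · intro hfix
      by_cases hgH : g ∈ H
      · left
        exact QuotientGroup.eq.2 (by simpa using H.inv_mem hgH)
      · right
        have hg' : ∀ e ∈ H ⊓ H.map (MulAut.conj u).toMonoidHom, g⁻¹ * e * g ∈ H :=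
          fun e he => (SE.smul_coe_eq_iff H e g).1 (hfix e he)
        obtain ⟨w, hwx, hwinv⟩ := hpair g hgH hg'
        have hwN : w ∈ Subgroup.normalizer
            ((H ⊓ H.map (MulAut.conj u).toMonoidHom : Subgroup G) : Set G) := by
          apply Lift.conj_le_mem_normalizer
          intro a ha
          rw [hwinv a ha]
          exact Subgroup.inv_mem _ ha
        have hwH : w ∉ H := by
          intro hwH
          have := (SE.mem_iff_smul_one H w).2 hwH
          rw [hwx] at this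
          exact hx₀ g hgH this
        rcases hF7 w hwN with h | h
        · exact absurd h.1 hwH
        · have h3 : g • ((1 : G) : G ⧸ H) = u • ((1 : G) : G ⧸ H) := by
            rw [← hwx]
            have e1 : w = u * (u * w) := by
              rw [← mul_assoc, ← pow_two, hu2, one_mul]
            rw [e1, mul_smul, (SE.mem_iff_smul_one H _).2 h.1]
          have h4 : ∀ a : G, a • ((1 : G) : G ⧸ H) = (a : G ⧸ H) := by
            intro a
            rw [MulAction.Quotient.smul_coe]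
            simp
          rw [h4, h4] at h3
          exact h3
    · rintro (h | h) d hd
      · rw [h]
        exact (SE.mem_iff_smul_one H d).2 hd.1
      · rw [h]
        exact (SE.smul_coe_eq_iff H d u).2 ((SylowAux.mem_map_conj H u d).1 hd.2)

theorem sylow_card_gt_two [Finite G] (T : Sylow 2 G) (hnc : ¬ IsCyclic (T : Subgroup G)) :
    2 < Nat.card (T : Subgroup G) := by
  obtain ⟨n, hn⟩ := (IsPGroup.iff_card.1 T.2)
  by_contra hlt
  push Not at hlt
  apply hnc
  rcases Nat.lt_or_ge n 2 with h | h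
  · interval_cases n
    · have : Subsingleton (T : Subgroup G) := (Nat.card_eq_one_iff_unique.1 (by simpa using hn)).1
      infer_instance
    · have : Fact (Nat.Prime 2) := ⟨Nat.prime_two⟩
      exact isCyclic_of_prime_card (p := 2) (by simpa using hn)
  · exfalso
    have : 2 ^ 2 ≤ 2 ^ n := Nat.pow_le_pow_right (by norm_num) h
    omega

theorem cit_main2 [Finite G] (T : Sylow 2 G) (hnc : ¬ IsCyclic (T : Subgroup G))
    (hnn : ¬ (T : Subgroup G).Normal)
    (hC : ∀ t : G, orderOf t = 2 → ∀ c ∈ Subgroup.centralizer ({t} : Set G), c ^ 2 = 1)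
    (u : G) (hu : orderOf u = 2) (huH : u ∉ Subgroup.normalizer ((T : Subgroup G) : Set G)) :
    Subgroup.normalizer ((Subgroup.normalizer ((T : Subgroup G) : Set G) ⊓
        (Subgroup.normalizer ((T : Subgroup G) : Set G)).map (MulAut.conj u).toMonoidHom :
          Subgroup G) : Set G) =
        (Subgroup.normalizer ((T : Subgroup G) : Set G) ⊓
          (Subgroup.normalizer ((T : Subgroup G) : Set G)).map (MulAut.conj u).toMonoidHom) ⊔
            Subgroup.zpowers u ∧
      ∀ g : G, ((∀ d ∈ Subgroup.normalizer ((T : Subgroup G) : Set G) ⊓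
          (Subgroup.normalizer ((T : Subgroup G) : Set G)).map (MulAut.conj u).toMonoidHom,
          d • (QuotientGroup.mk g : G ⧸ Subgroup.normalizer ((T : Subgroup G) : Set G)) =
            QuotientGroup.mk g) ↔
        (QuotientGroup.mk g : G ⧸ Subgroup.normalizer ((T : Subgroup G) : Set G)) =
            QuotientGroup.mk 1 ∨
          (QuotientGroup.mk g : G ⧸ Subgroup.normalizer ((T : Subgroup G) : Set G)) =
            QuotientGroup.mk u) := by
  have hT := SE3.sylow_ne_bot T hnc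
  exact cit_structure2 (Subgroup.normalizer ((T : Subgroup G) : Set G)) (T : Subgroup G)
    (SE2.normalizer_stronglyEmbedded T hnc hnn hC) Subgroup.le_normalizer le_rfl
    (fun t ht ho => SE2.mem_sylow_of_mem_normalizer T ht (SE2.isPGroup_zpowers_of_orderOf ho))
    (SE3.sylow_exp_two T hT hC)
    (fun t ht ho => SE2.centralizer_eq_sylow T hT hC t ho ht) (sylow_card_gt_two T hnc) u hu huH

end Cfsg.Agent.Lib.Helper2.SE4
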