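import Mathlib
import Cfsg.Prelude.Def_Involutions
import Cfsg.Agent.Lib.Helper2.SylowAux
import Cfsg.Agent.Lib.Helper2.Lift
import Cfsg.Agent.Lib.Helper2.SE
import Cfsg.Agent.Lib.Helper2.SE2
import Cfsg.Agent.Lib.Helper2.SE3
import Cfsg.Agent.Lib.Helper2.SE4

set_option autoImplicit false

namespace Cfsg.Agent.Lib.Helper2.SE5

open Cfsg

variable {G : Type*} [Group G]

structure CIT [Finite G] (H T : Subgroup G) : Prop where
  hH : IsStronglyEmbedded H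
  hTH : T ≤ H
  hTn : H ≤ Subgroup.normalizer (T : Set G)
  hinv : ∀ t ∈ H, orderOf t = 2 → t ∈ T
  hexp : ∀ t ∈ T, t ^ 2 = 1
  hcent : ∀ t ∈ T, orderOf t = 2 → Subgroup.centralizer ({t} : Set G) = T
  hT4 : 2 < Nat.card T

section

variable [Finite G] {H T : Subgroup G}

theorem CIT.ne_bot (c : CIT H T) : T ≠ ⊥ := by
  intro h
  have := c.hT4
  rw [h] at this
  simp at this

omit [Finite G] in
theorem mk_eq_smul (H : Subgroup G) (a : G) : (a : G ⧸ H) = a • ((1 : G) : G ⧸ H) := by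
  rw [MulAction.Quotient.smul_coe]
  simp

omit [Finite G] in
theorem mem_D_iff (H : Subgroup G) (w e : G) :
    e ∈ H ⊓ H.map (MulAut.conj w).toMonoidHom ↔
      e • ((1 : G) : G ⧸ H) = ((1 : G) : G ⧸ H) ∧
        e • (w • ((1 : G) : G ⧸ H)) = w • ((1 : G) : G ⧸ H) := by
  rw [Subgroup.mem_inf, SE.mem_iff_smul_one, SylowAux.mem_map_conj, ← mk_eq_smul,
    SE.smul_coe_eq_iff]

theorem CIT.D_facts (c : CIT H T) (w : G) (hw : orderOf w = 2) (hwH : w ∉ H) :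
    (∀ d ∈ H ⊓ H.map (MulAut.conj w).toMonoidHom,
      ∀ e ∈ H ⊓ H.map (MulAut.conj w).toMonoidHom, d * e = e * d) ∧
    (∀ e ∈ H ⊓ H.map (MulAut.conj w).toMonoidHom, e ∈ T → e = 1) ∧
    (∀ h ∈ H, ∃ d ∈ H ⊓ H.map (MulAut.conj w).toMonoidHom, ∃ t ∈ T, h = d * t) ∧
    Nat.card ↥(H ⊓ H.map (MulAut.conj w).toMonoidHom) = Nat.card T - 1 := by
  have hT := c.ne_bot
  have hDodd := c.hH.2.2 w hwH
  obtain ⟨hinvD, hb, hcompl⟩ :=
    SE3.cit_structure H T c.hH c.hTH c.hinv c.hexp c.hcent hT w hw hwH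
  refine ⟨?_, ?_, ?_, SE4.card_D H T c.hH c.hTH c.hinv c.hexp c.hcent hT w hw hwH⟩
  · intro d hd e he
    have h1 := hinvD (d * e) (Subgroup.mul_mem _ hd he)
    have h2 := hinvD d hd
    have h3 := hinvD e he
    have h4 : w * (d * e) * w⁻¹ = (w * d * w⁻¹) * (w * e * w⁻¹) := by group
    rw [h4, h2, h3, mul_inv_rev] at h1
    have h5 := congrArg (fun x => x⁻¹) h1
    simpa using h5.symm
  · intro e heD heT
    by_contra hne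
    have h1 : orderOf e = 2 := orderOf_eq_prime (c.hexp e heT) hne
    have h2 : orderOf (⟨e, heD⟩ : ↥(H ⊓ H.map (MulAut.conj w).toMonoidHom)) = 2 := by
      rw [← h1, ← Subgroup.orderOf_coe]
    have h3 := orderOf_dvd_natCard (⟨e, heD⟩ : ↥(H ⊓ H.map (MulAut.conj w).toMonoidHom))
    rw [h2] at h3
    exact (Nat.not_even_iff_odd.2 hDodd) (even_iff_two_dvd.2 h3)
  · intro h hh
    obtain ⟨⟨⟨d, hd⟩, ⟨t, ht⟩⟩, hdt⟩ := hcompl.2 ⟨h, hh⟩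
    have hd' : (d : G) ∈ H ⊓ H.map (MulAut.conj w).toMonoidHom := Subgroup.mem_subgroupOf.1 hd
    have ht' : (t : G) ∈ T := Subgroup.mem_subgroupOf.1 ht
    have hdt' : (d : G) * (t : G) = h := congrArg Subtype.val hdt
    exact ⟨d, hd', t, ht', hdt'.symm⟩

theorem CIT.exists_inv_to (c : CIT H T) (z : G ⧸ H) (hz : z ≠ ((1 : G) : G ⧸ H)) :
    ∃ w : G, orderOf w = 2 ∧ w • ((1 : G) : G ⧸ H) = z ∧ w ∉ H := by
  have hse := SE.seAct_of_stronglyEmbedded H c.hH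
  obtain ⟨s, hs, hsx⟩ := hse.P2 ((1 : G) : G ⧸ H)
  obtain ⟨s', hs', hsz⟩ := hse.P2 z
  obtain ⟨w, hw, hwx, -⟩ := hse.P6 (fun hh => hz hh.symm) hs hsx hs' hsz
  refine ⟨w, hw, hwx, ?_⟩
  intro hwH
  have := (SE.mem_iff_smul_one H w).2 hwH
  rw [hwx] at this
  exact hz this

theorem CIT.three_point (c : CIT H T) (g : G) (hg : g ∈ H) (z₁ z₂ : G ⧸ H)
    (h1 : z₁ ≠ ((1 : G) : G ⧸ H)) (h2 : z₂ ≠ ((1 : G) : G ⧸ H)) (h12 : z₁ ≠ z₂)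
    (hg1 : g • z₁ = z₁) (hg2 : g • z₂ = z₂) : g = 1 := by
  obtain ⟨w₁, hw₁, hw₁x, hw₁H⟩ := c.exists_inv_to z₁ h1
  obtain ⟨w₂, hw₂, hw₂x, hw₂H⟩ := c.exists_inv_to z₂ h2
  obtain ⟨hab₁, hDT₁, hdec₁, -⟩ := c.D_facts w₁ hw₁ hw₁H
  obtain ⟨hab₂, -, -, -⟩ := c.D_facts w₂ hw₂ hw₂H
  have hgx := (SE.mem_iff_smul_one H g).2 hg
  have hgD₁ : g ∈ H ⊓ H.map (MulAut.conj w₁).toMonoidHom := by
    rw [mem_D_iff, hw₁x]
    exact ⟨hgx, hg1⟩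
  have hgD₂ : g ∈ H ⊓ H.map (MulAut.conj w₂).toMonoidHom := by
    rw [mem_D_iff, hw₂x]
    exact ⟨hgx, hg2⟩
  have hex : ∃ e ∈ H ⊓ H.map (MulAut.conj w₂).toMonoidHom, e • z₁ ≠ z₁ := by
    by_contra hcon
    push Not at hcon
    obtain ⟨a, rfl⟩ := QuotientGroup.mk_surjective z₁
    have hfix := (SE4.cit_structure2 H T c.hH c.hTH c.hTn c.hinv c.hexp c.hcent c.hT4 w₂ hw₂
      hw₂H).2 a
    rcases hfix.1 hcon with h | h
    · exact h1 h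
    · apply h12
      rw [h, mk_eq_smul H w₂, hw₂x]
  obtain ⟨e, heD₂, hez⟩ := hex
  obtain ⟨d, hdD₁, τ, hτT, hedτ⟩ := hdec₁ e heD₂.1
  have hτ1 : τ ≠ 1 := by
    rintro rfl
    rw [mul_one] at hedτ
    rw [hedτ] at hez
    have := (mem_D_iff H w₁ d).1 hdD₁
    rw [hw₁x] at this
    exact hez this.2
  have hτo : orderOf τ = 2 := orderOf_eq_prime (c.hexp τ hτT) hτ1
  have hgT : g ∈ T := by
    rw [← c.hcent τ hτT hτo, Subgroup.mem_centralizer_singleton_iff]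
    have e1 : τ = d⁻¹ * e := by rw [hedτ]; group
    have c1 := hab₁ d hdD₁ g hgD₁
    have c2 := hab₂ e heD₂ g hgD₂
    have c3 : d⁻¹ * g = g * d⁻¹ := by
      have : d⁻¹ * g = d⁻¹ * (g * d) * d⁻¹ := by group
      rw [this, ← c1]
      group
    rw [e1]
    calc g * (d⁻¹ * e) = (g * d⁻¹) * e := by group
      _ = (d⁻¹ * g) * e := by rw [c3]
      _ = d⁻¹ * (g * e) := by group
      _ = d⁻¹ * (e * g) := by rw [c2]
      _ = d⁻¹ * e * g := by group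
  exact hDT₁ g hgD₁ hgT

theorem CIT.T_trans (c : CIT H T) (u : G) (hu : orderOf u = 2) (huH : u ∉ H) (z : G ⧸ H)
    (hz : z ≠ ((1 : G) : G ⧸ H)) :
    ∃ t ∈ T, t • (u • ((1 : G) : G ⧸ H)) = z := by
  by_cases hzy : z = u • ((1 : G) : G ⧸ H)
  · exact ⟨1, T.one_mem, by rw [one_smul, hzy]⟩
  obtain ⟨w, hw, hwx, hwH⟩ := c.exists_inv_to z hz
  obtain ⟨-, hDTw, -, hcardw⟩ := c.D_facts w hw hwH
  obtain ⟨-, hDTu, hdecu, -⟩ := c.D_facts u hu huH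
  have hne : ∃ k ∈ H ⊓ H.map (MulAut.conj w).toMonoidHom, k ≠ 1 := by
    have h1 : 1 < Nat.card ↥(H ⊓ H.map (MulAut.conj w).toMonoidHom) := by
      rw [hcardw]
      have := c.hT4
      omega
    have h2 := (Subgroup.one_lt_card_iff_ne_bot _).1 h1
    obtain ⟨e, he⟩ := (Subgroup.ne_bot_iff_exists_ne_one).1 h2
    exact ⟨e.1, e.2, fun h => he (Subtype.ext h)⟩
  obtain ⟨k, hkD, hk1⟩ := hne
  obtain ⟨d, hdD, τ, hτT, hkdτ⟩ := hdecu k hkD.1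
  have hd1 : d ≠ 1 := by
    rintro rfl
    rw [one_mul] at hkdτ
    rw [hkdτ] at hkD hk1
    exact hk1 (hDTw τ hkD hτT)
  have hconjT : ∀ t ∈ T, d⁻¹ * t * d ∈ T := by
    intro t ht
    have h1 := ((Subgroup.mem_normalizer_iff.1 (c.hTn (H.inv_mem hdD.1))) t).1 ht
    rwa [inv_inv] at h1
  have hψinj : Function.Injective (fun t : ↥T => (⟨d⁻¹ * (t : G) * d * (t : G)⁻¹,
      T.mul_mem (hconjT t t.2) (T.inv_mem t.2)⟩ : ↥T)) := by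
    intro t t' htt
    have h1 : d⁻¹ * (t : G) * d * (t : G)⁻¹ = d⁻¹ * (t' : G) * d * (t' : G)⁻¹ :=
      congrArg Subtype.val htt
    have h1' : (t : G) * d * (t : G)⁻¹ = (t' : G) * d * (t' : G)⁻¹ := by
      have h0 := congrArg (fun x => d * x) h1
      simpa [mul_assoc] using h0
    have h2 : d * ((t' : G)⁻¹ * (t : G)) = ((t' : G)⁻¹ * (t : G)) * d := by
      have e : ((t' : G)⁻¹ * (t : G)) * d = (t' : G)⁻¹ * ((t : G) * d * (t : G)⁻¹) * (t : G) := by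
        group
      rw [e, h1']
      group
    by_contra hne
    have hs1 : (t' : G)⁻¹ * (t : G) ≠ 1 := by
      intro h
      apply hne
      apply Subtype.ext
      exact (inv_mul_eq_one.1 h).symm
    have hsT : (t' : G)⁻¹ * (t : G) ∈ T := T.mul_mem (T.inv_mem t'.2) t.2
    have hso : orderOf ((t' : G)⁻¹ * (t : G)) = 2 := orderOf_eq_prime (c.hexp _ hsT) hs1
    have hdT : d ∈ T := by
      rw [← c.hcent _ hsT hso, Subgroup.mem_centralizer_singleton_iff]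
      exact h2
    exact hd1 (hDTu d hdD hdT)
  have hψsurj := Finite.injective_iff_surjective.1 hψinj
  obtain ⟨t, ht⟩ := hψsurj ⟨τ, hτT⟩
  have ht' : d⁻¹ * (t : G) * d * (t : G)⁻¹ = τ := congrArg Subtype.val ht
  have hk : k = (t : G) * d * (t : G)⁻¹ := by
    rw [hkdτ, ← ht']
    group
  refine ⟨t, t.2, ?_⟩
  by_contra hne
  apply hk1
  have htx : (t : G) • ((1 : G) : G ⧸ H) = ((1 : G) : G ⧸ H) :=
    (SE.mem_iff_smul_one H _).2 (c.hTH t.2)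
  have hy : u • ((1 : G) : G ⧸ H) ≠ ((1 : G) : G ⧸ H) :=
    fun hh => huH ((SE.mem_iff_smul_one H u).1 hh)
  have hty : (t : G) • (u • ((1 : G) : G ⧸ H)) ≠ ((1 : G) : G ⧸ H) := by
    intro hh
    apply hy
    have h3 := congrArg (fun p => (t : G)⁻¹ • p) hh
    simp only [inv_smul_smul] at h3
    rw [h3, ← htx, inv_smul_smul, htx]
  have hdy := ((mem_D_iff H u d).1 hdD).2
  have hkz : k • z = z := by
    have := ((mem_D_iff H w k).1 hkD).2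
    rwa [hwx] at this
  have hkty : k • ((t : G) • (u • ((1 : G) : G ⧸ H))) = (t : G) • (u • ((1 : G) : G ⧸ H)) := by
    rw [hk, ← mul_smul, inv_mul_cancel_right, mul_smul, hdy]
  exact c.three_point k hkD.1 _ _ hty hz hne hkty hkz

theorem CIT.exists_u (c : CIT H T) : ∃ u : G, orderOf u = 2 ∧ u ∉ H := by
  have hne := c.hH.1
  obtain ⟨g, hg⟩ : ∃ g : G, g ∉ H := by
    by_contra hcon
    push Not at hcon
    exact hne ((Subgroup.eq_top_iff' H).2 hcon)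
  have hz : (g : G ⧸ H) ≠ ((1 : G) : G ⧸ H) := by
    rw [mk_eq_smul H g]
    intro hh
    exact hg ((SE.mem_iff_smul_one H g).1 hh)
  obtain ⟨w, hw, -, hwH⟩ := c.exists_inv_to _ hz
  exact ⟨w, hw, hwH⟩

theorem CIT.regular (c : CIT H T) (x y : G ⧸ H) (hx : x ≠ ((1 : G) : G ⧸ H))
    (hy : y ≠ ((1 : G) : G ⧸ H)) : ∃! t : G, t ∈ T ∧ t • x = y := by
  obtain ⟨u, hu, huH⟩ := c.exists_u
  obtain ⟨t₁, ht₁, h1⟩ := c.T_trans u hu huH x hx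
  obtain ⟨t₂, ht₂, h2⟩ := c.T_trans u hu huH y hy
  have hxy : (t₂ * t₁⁻¹) • x = y := by
    rw [← h1, mul_smul, inv_smul_smul, h2]
  refine ⟨t₂ * t₁⁻¹, ⟨T.mul_mem ht₂ (T.inv_mem ht₁), hxy⟩, ?_⟩
  rintro t ⟨htT, htx⟩
  by_contra hne
  have hse := SE.seAct_of_stronglyEmbedded H c.hH
  have hs : (t₂ * t₁⁻¹)⁻¹ * t ∈ T := T.mul_mem (T.inv_mem (T.mul_mem ht₂ (T.inv_mem ht₁))) htT
  have hs1 : (t₂ * t₁⁻¹)⁻¹ * t ≠ 1 := fun h => hne (inv_mul_eq_one.1 h).symm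
  have hso := orderOf_eq_prime (c.hexp _ hs) hs1
  have hsx : ((t₂ * t₁⁻¹)⁻¹ * t) • x = x := by
    rw [mul_smul, htx, ← hxy, inv_smul_smul]
  exact hx (hse.P1 x _ _ hso hsx ((SE.mem_iff_smul_one H _).2 (c.hTH hs)))

theorem CIT.three_point' (c : CIT H T) (g : G) (x₁ x₂ x₃ : G ⧸ H) (h12 : x₁ ≠ x₂)
    (h13 : x₁ ≠ x₃) (h23 : x₂ ≠ x₃) (hg1 : g • x₁ = x₁) (hg2 : g • x₂ = x₂)
    (hg3 : g • x₃ = x₃) : g = 1 := by
  obtain ⟨a, rfl⟩ := QuotientGroup.mk_surjective x₁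
  have hH : a⁻¹ * g * a ∈ H := (SE.smul_coe_eq_iff H g a).1 hg1
  have k := c.three_point (a⁻¹ * g * a) hH (a⁻¹ • x₂) (a⁻¹ • x₃) ?_ ?_ ?_ ?_ ?_
  · have e : g = a * (a⁻¹ * g * a) * a⁻¹ := by group
    rw [e, k]
    group
  · intro hh
    apply h12
    rw [mk_eq_smul H a, ← hh, smul_inv_smul]
  · intro hh
    apply h13
    rw [mk_eq_smul H a, ← hh, smul_inv_smul]
  · intro hh
    exact h23 (smul_left_cancel _ hh)
  · rw [mul_smul, mul_smul, smul_inv_smul, hg2]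
  · rw [mul_smul, mul_smul, smul_inv_smul, hg3]

theorem CIT.to_ref (c : CIT H T) (u : G) (hu : orderOf u = 2) (huH : u ∉ H)
    (x₁ x₂ x₃ : G ⧸ H) (h12 : x₁ ≠ x₂) (h13 : x₁ ≠ x₃) (h23 : x₂ ≠ x₃) :
    ∃ g : G, g • x₁ = ((1 : G) : G ⧸ H) ∧ g • x₂ = u • ((1 : G) : G ⧸ H) ∧
      ∃ t ∈ T, t ≠ 1 ∧ g • x₃ = t • (u • ((1 : G) : G ⧸ H)) := by
  obtain ⟨a, ha⟩ := MulAction.exists_smul_eq G x₁ ((1 : G) : G ⧸ H)
  have h2 : a • x₂ ≠ ((1 : G) : G ⧸ H) := by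
    intro hh
    rw [← ha] at hh
    exact h12 (smul_left_cancel a hh).symm
  obtain ⟨t, ht, htz⟩ := c.T_trans u hu huH (a • x₂) h2
  have htx : t⁻¹ • ((1 : G) : G ⧸ H) = ((1 : G) : G ⧸ H) :=
    (SE.mem_iff_smul_one H _).2 (c.hTH (T.inv_mem ht))
  have e1 : (t⁻¹ * a) • x₁ = ((1 : G) : G ⧸ H) := by rw [mul_smul, ha, htx]
  have e2 : (t⁻¹ * a) • x₂ = u • ((1 : G) : G ⧸ H) := by rw [mul_smul, ← htz, inv_smul_smul]
  refine ⟨t⁻¹ * a, e1, e2, ?_⟩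
  have h3 : (t⁻¹ * a) • x₃ ≠ ((1 : G) : G ⧸ H) := by
    intro hh
    exact h13 (smul_left_cancel _ (e1.trans hh.symm))
  obtain ⟨t', ht', ht'z⟩ := c.T_trans u hu huH _ h3
  refine ⟨t', ht', ?_, ht'z.symm⟩
  rintro rfl
  rw [one_smul] at ht'z
  exact h23 (smul_left_cancel _ (e2.trans ht'z))

theorem CIT.D_trans (c : CIT H T) (u : G) (hu : orderOf u = 2) (huH : u ∉ H) (t t' : G)
    (ht : t ∈ T) (ht1 : t ≠ 1) (ht' : t' ∈ T) (ht'1 : t' ≠ 1) :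
    ∃ d : G, d • ((1 : G) : G ⧸ H) = ((1 : G) : G ⧸ H) ∧
      d • (u • ((1 : G) : G ⧸ H)) = u • ((1 : G) : G ⧸ H) ∧
      d • (t • (u • ((1 : G) : G ⧸ H))) = t' • (u • ((1 : G) : G ⧸ H)) := by
  have hto := orderOf_eq_prime (c.hexp t ht) ht1
  have ht'o := orderOf_eq_prime (c.hexp t' ht') ht'1
  obtain ⟨d, hd, hdt⟩ := SE.conj_in_D H c.hH u hu huH t t' hto (c.hTH ht) ht'o (c.hTH ht')
  have hdD := (mem_D_iff H u d).1 hd
  refine ⟨d, hdD.1, hdD.2, ?_⟩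
  rw [← hdt, mul_smul, mul_smul, inv_smul_eq_iff.2 hdD.2.symm]

theorem CIT.triple_trans (c : CIT H T) (x₁ x₂ x₃ y₁ y₂ y₃ : G ⧸ H) (hx12 : x₁ ≠ x₂)
    (hx13 : x₁ ≠ x₃) (hx23 : x₂ ≠ x₃) (hy12 : y₁ ≠ y₂) (hy13 : y₁ ≠ y₃) (hy23 : y₂ ≠ y₃) :
    ∃ g : G, g • x₁ = y₁ ∧ g • x₂ = y₂ ∧ g • x₃ = y₃ := by
  obtain ⟨u, hu, huH⟩ := c.exists_u
  obtain ⟨g₁, a1, a2, t, ht, ht1, a3⟩ := c.to_ref u hu huH x₁ x₂ x₃ hx12 hx13 hx23
  obtain ⟨g₂, b1, b2, t', ht', ht'1, b3⟩ := c.to_ref u hu huH y₁ y₂ y₃ hy12 hy13 hy23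
  obtain ⟨d, d1, d2, d3⟩ := c.D_trans u hu huH t t' ht ht1 ht' ht'1
  refine ⟨g₂⁻¹ * d * g₁, ?_, ?_, ?_⟩
  · rw [mul_smul, mul_smul, a1, d1, ← b1, inv_smul_smul]
  · rw [mul_smul, mul_smul, a2, d2, ← b2, inv_smul_smul]
  · rw [mul_smul, mul_smul, a3, d3, ← b3, inv_smul_smul]

theorem cit_of_sylow (T : Sylow 2 G) (hnc : ¬ IsCyclic (T : Subgroup G))
    (hnn : ¬ (T : Subgroup G).Normal)
    (hC : ∀ t : G, orderOf t = 2 → ∀ c ∈ Subgroup.centralizer ({t} : Set G), c ^ 2 = 1) :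
    CIT (Subgroup.normalizer ((T : Subgroup G) : Set G)) (T : Subgroup G) := by
  have hT := SE3.sylow_ne_bot T hnc
  exact ⟨SE2.normalizer_stronglyEmbedded T hnc hnn hC, Subgroup.le_normalizer, le_rfl,
    fun t ht ho => SE2.mem_sylow_of_mem_normalizer T ht (SE2.isPGroup_zpowers_of_orderOf ho),
    SE3.sylow_exp_two T hT hC,
    fun t ht ho => SE2.centralizer_eq_sylow T hT hC t ho ht, SE4.sylow_card_gt_two T hnc⟩

end

end Cfsg.Agent.Lib.Helper2.SE5
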