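import Mathlib
import Cfsg.Prelude.Def_Local
import Cfsg.Agent.Lib.Helper2.SylowAux

set_option autoImplicit false

namespace Cfsg.Agent.Lib.Helper2.SL23

open Cfsg

abbrev X := Matrix.SpecialLinearGroup (Fin 2) (ZMod 3)

def zz : X := ⟨!![2, 0; 0, 2], by decide⟩

def uu : X := ⟨!![1, 1; 0, 1], by decide⟩

set_option maxRecDepth 100000 in
set_option maxHeartbeats 4000000 in
theorem inv_central : ∀ t : X, t ^ 2 = 1 → t ≠ 1 → ∀ g : X, g * t = t * g := by decide

set_option maxRecDepth 100000 in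
set_option maxHeartbeats 4000000 in
theorem gen_zz : ∀ g : X, g ≠ 1 → ∃ h : X, ∃ i j : Fin 6,
    (g ^ (i : ℕ) * (h * g * h⁻¹)) ^ (j : ℕ) = zz := by decide

set_option maxRecDepth 100000 in
set_option maxHeartbeats 4000000 in
theorem q8_mul : ∀ a b : X, a ^ 4 = 1 → b ^ 4 = 1 → (a * b) ^ 4 = 1 := by decide

set_option maxRecDepth 100000 in
set_option maxHeartbeats 4000000 in
theorem q8_conj : ∀ a g : X, a ^ 4 = 1 → (g * a * g⁻¹) ^ 4 = 1 := by decide

set_option maxRecDepth 100000 in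
set_option maxHeartbeats 4000000 in
theorem q8_cent : ∀ z : X, (∀ g : X, g ^ 4 = 1 → g * z = z * g) → z ^ 4 = 1 := by decide

theorem zz_order : orderOf zz = 2 := by
  apply orderOf_eq_prime
  · decide
  · decide

theorem uu_order : orderOf uu = 3 := by
  haveI : Fact (Nat.Prime 3) := ⟨by norm_num⟩
  apply orderOf_eq_prime
  · decide
  · decide

def Q8 : Subgroup X where
  carrier := {g | g ^ 4 = 1}
  mul_mem' := fun {a b} ha hb => q8_mul a b ha hb
  one_mem' := one_pow 4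
  inv_mem' := fun {a} ha => by
    show (a⁻¹) ^ 4 = 1
    rw [inv_pow, show a ^ 4 = 1 from ha, inv_one]

theorem Q8_normal : Q8.Normal := ⟨fun a ha g => q8_conj a g ha⟩

theorem Q8_pgroup : IsPGroup 2 Q8 := by
  intro g
  refine ⟨2, ?_⟩
  apply Subtype.ext
  rw [Subgroup.coe_pow]
  exact g.2

theorem core_bot : pPrimeCore 2 X = ⊥ := by
  unfold pPrimeCore
  rw [eq_bot_iff]
  apply sSup_le
  rintro N ⟨hN, hcop⟩
  intro g hg
  rw [Subgroup.mem_bot]
  by_contra hg1
  obtain ⟨h, i, j, hz⟩ := gen_zz g hg1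
  have hzN : zz ∈ N := by
    rw [← hz]
    exact N.pow_mem (N.mul_mem (N.pow_mem hg _) (hN.conj_mem g hg h)) _
  have h2 : 2 ∣ Nat.card N :=
    (dvd_of_eq zz_order.symm).trans (Subgroup.orderOf_dvd_natCard N hzN)
  have h3 : Nat.Coprime 2 (Nat.card N) := hcop.symm
  have h4 := Nat.Coprime.eq_one_of_dvd h3 h2
  omega

theorem Q8_le : Q8 ≤ pPrimePCore 2 X := by
  intro g hg
  unfold pPrimePCore
  rw [Subgroup.mem_comap]
  unfold pCore
  have hmem : Q8.map (QuotientGroup.mk' (pPrimeCore 2 X)) ∈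
      {N : Subgroup (X ⧸ pPrimeCore 2 X) | N.Normal ∧ IsPGroup 2 N} :=
    ⟨Subgroup.Normal.map Q8_normal _ (QuotientGroup.mk'_surjective _),
      Q8_pgroup.map _⟩
  exact le_sSup hmem (Subgroup.mem_map_of_mem _ hg)

theorem normal_le_sylow {K : Type*} [Group K] [Finite K] {p : ℕ} [Fact p.Prime]
    (N : Subgroup K) (hNn : N.Normal) (hN : IsPGroup p N) (P : Sylow p K) :
    N ≤ (P : Subgroup K) := by
  obtain ⟨P', hP'⟩ := hN.exists_le_sylow
  obtain ⟨g, hg⟩ := MulAction.exists_smul_eq K P' P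
  intro n hn
  rw [← hg, SylowAux.mem_smul_sylow]
  exact hP' (by simpa using hNn.conj_mem n hn g⁻¹)

theorem le_map_sylow {G : Type*} [Group G] [Finite G] {p : ℕ} [Fact p.Prime]
    (K Q : Subgroup G) (hQK : Q ≤ K) (hQn : Q.Normal) (hQp : IsPGroup p Q) (P : Sylow p K) :
    Q ≤ (P : Subgroup K).map K.subtype := by
  have hN : (Q.subgroupOf K).Normal := hQn.subgroupOf _
  have hNp : IsPGroup p (Q.subgroupOf K) := hQp.comap_subtype
  have hle := normal_le_sylow (Q.subgroupOf K) hN hNp P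
  intro x hx
  exact ⟨⟨x, hQK hx⟩, hle (Subgroup.mem_subgroupOf.2 hx), rfl⟩

theorem constrained : IsPConstrained 2 X := by
  haveI : Fact (Nat.Prime 2) := ⟨by norm_num⟩
  intro P
  have hQ8 := le_map_sylow (pPrimePCore 2 X) Q8 Q8_le Q8_normal Q8_pgroup P
  intro z hz
  apply Q8_le
  apply q8_cent
  intro g hg
  exact (Subgroup.mem_centralizer_iff.1 hz g (hQ8 hg))

theorem main : IsPConstrained 2 X ∧ pPrimeCore 2 X = ⊥ ∧
    (∀ t : X, orderOf t = 2 → t ∈ Subgroup.center X) ∧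
    ∃ Q : Subgroup X, Nat.card ↥Q = 3 ∧ ¬ (Q ≤ pPrimeCore 2 X) := by
  refine ⟨constrained, core_bot, ?_, Subgroup.zpowers uu, ?_, ?_⟩
  · intro t ht
    rw [Subgroup.mem_center_iff]
    intro g
    apply inv_central t
    · have h2 := pow_orderOf_eq_one t
      rw [ht] at h2
      exact h2
    · intro h1
      rw [h1, orderOf_one] at ht
      omega
  · rw [Nat.card_zpowers, uu_order]
  · rw [core_bot]
    intro h
    have := h (Subgroup.mem_zpowers uu)
    rw [Subgroup.mem_bot] at this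
    revert this
    decide

end Cfsg.Agent.Lib.Helper2.SL23
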