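import Mathlib

set_option autoImplicit false

namespace Cfsg.Agent.Lib.Helper2.SL2Tori

open Matrix

variable {F : Type*} [Field F]

theorem ch (A : Matrix (Fin 2) (Fin 2) F) (hdet : A.det = 1) :
    A * A = A.trace • A - 1 := by
  rw [Matrix.det_fin_two] at hdet
  ext i j
  fin_cases i <;> fin_cases j <;>
    simp [Matrix.mul_apply, Fin.sum_univ_two, Matrix.trace] <;>
    first | linear_combination -hdet | linear_combination hdet | ring

theorem det_lin (A : Matrix (Fin 2) (Fin 2) F) (hdet : A.det = 1) (α β : F) :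
    (α • A + β • (1 : Matrix (Fin 2) (Fin 2) F)).det = α ^ 2 + α * β * A.trace + β ^ 2 := by
  rw [Matrix.det_fin_two] at hdet
  rw [Matrix.det_fin_two]
  simp [Matrix.trace, Fin.sum_univ_two]
  linear_combination (α ^ 2) * hdet

theorem pow_lin (A : Matrix (Fin 2) (Fin 2) F) (hdet : A.det = 1) (k : ℕ) :
    ∃ a b : F, A ^ k = a • A + b • (1 : Matrix (Fin 2) (Fin 2) F) := by
  induction k with
  | zero => exact ⟨0, 1, by simp⟩
  | succ k ih =>
    obtain ⟨a, b, h⟩ := ih
    refine ⟨a * A.trace + b, -a, ?_⟩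
    rw [pow_succ, h, add_mul, Matrix.smul_mul, Matrix.smul_mul, Matrix.one_mul, ch A hdet]
    rw [smul_sub, smul_smul, add_smul, neg_smul]
    abel

theorem root_of_singular (A : Matrix (Fin 2) (Fin 2) F) (hdet : A.det = 1) (α β : F)
    (hne : α • A + β • (1 : Matrix (Fin 2) (Fin 2) F) ≠ 0)
    (hs : (α • A + β • (1 : Matrix (Fin 2) (Fin 2) F)).det = 0) :
    ∃ l : F, l * l - A.trace * l + 1 = 0 := by
  rw [det_lin A hdet] at hs
  have hα : α ≠ 0 := by
    rintro rfl
    have hβ : β = 0 := by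
      have h1 : β ^ 2 = 0 := by linear_combination hs
      exact pow_eq_zero_iff (two_ne_zero) |>.1 h1
    apply hne
    rw [hβ, zero_smul, zero_smul, add_zero]
  refine ⟨-β / α, ?_⟩
  field_simp
  linear_combination hs

theorem split_case (A : Matrix (Fin 2) (Fin 2) F) (hdet : A.det = 1) (l μ : F)
    (hsum : l + μ = A.trace) (hprod : l * μ = 1) (hne : l ≠ μ) (k : ℕ) (hl : l ^ k = 1)
    (hμ : μ ^ k = 1) : A ^ k = 1 := by
  have hd : l - μ ≠ 0 := sub_ne_zero.2 hne
  have h0 : A * A = (l + μ) • A - 1 := by rw [hsum]; exact ch A hdet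
  have hA1 : A * (A - μ • (1 : Matrix (Fin 2) (Fin 2) F)) =
      l • (A - μ • (1 : Matrix (Fin 2) (Fin 2) F)) := by
    rw [mul_sub, h0, Matrix.mul_smul, Matrix.mul_one, smul_sub, smul_smul, hprod, add_smul,
      one_smul]
    abel
  have hA2 : A * (A - l • (1 : Matrix (Fin 2) (Fin 2) F)) =
      μ • (A - l • (1 : Matrix (Fin 2) (Fin 2) F)) := by
    rw [mul_sub, h0, Matrix.mul_smul, Matrix.mul_one, smul_sub, smul_smul, mul_comm μ l, hprod,
      add_smul, one_smul]
    abel
  have hk1 : ∀ j : ℕ, A ^ j * (A - μ • (1 : Matrix (Fin 2) (Fin 2) F)) =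
      l ^ j • (A - μ • (1 : Matrix (Fin 2) (Fin 2) F)) := by
    intro j
    induction j with
    | zero => simp
    | succ j ih => rw [pow_succ, mul_assoc, hA1, Matrix.mul_smul, ih, smul_smul, pow_succ,
        mul_comm]
  have hk2 : ∀ j : ℕ, A ^ j * (A - l • (1 : Matrix (Fin 2) (Fin 2) F)) =
      μ ^ j • (A - l • (1 : Matrix (Fin 2) (Fin 2) F)) := by
    intro j
    induction j with
    | zero => simp
    | succ j ih => rw [pow_succ, mul_assoc, hA2, Matrix.mul_smul, ih, smul_smul, pow_succ,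
        mul_comm]
  have hone : (1 : Matrix (Fin 2) (Fin 2) F) =
      (l - μ)⁻¹ • ((A - μ • (1 : Matrix (Fin 2) (Fin 2) F)) -
        (A - l • (1 : Matrix (Fin 2) (Fin 2) F))) := by
    have e : (A - μ • (1 : Matrix (Fin 2) (Fin 2) F)) - (A - l • (1 : Matrix (Fin 2) (Fin 2) F)) =
        (l - μ) • (1 : Matrix (Fin 2) (Fin 2) F) := by
      rw [sub_smul]
      abel
    rw [e, smul_smul, inv_mul_cancel₀ hd, one_smul]
  calc A ^ k = A ^ k * 1 := (mul_one _).symm
    _ = (l - μ)⁻¹ • (A ^ k * (A - μ • (1 : Matrix (Fin 2) (Fin 2) F)) -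
        A ^ k * (A - l • (1 : Matrix (Fin 2) (Fin 2) F))) := by
      conv_lhs => rw [hone]
      rw [Matrix.mul_smul, mul_sub]
    _ = 1 := by
      rw [hk1, hk2, hl, hμ, one_smul, one_smul]
      exact hone.symm

theorem main [Fintype F] {q : ℕ} (hF : Fintype.card F = q) (p : ℕ) [Fact p.Prime] [CharP F p]
    (g : Matrix.SpecialLinearGroup (Fin 2) F) (hg : Nat.Coprime (orderOf g) p) :
    orderOf g ∣ q - 1 ∨ orderOf g ∣ q + 1 := by
  obtain ⟨A, hA⟩ : ∃ A : Matrix (Fin 2) (Fin 2) F, A = (g : Matrix (Fin 2) (Fin 2) F) := ⟨_, rfl⟩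
  have hdet : A.det = 1 := by rw [hA]; exact g.2
  obtain ⟨t, ht⟩ : ∃ t : F, t = A.trace := ⟨_, rfl⟩
  have hch : A * A = t • A - 1 := by rw [ht]; exact ch A hdet
  obtain ⟨k, hpk, hk⟩ := FiniteField.card F p
  rw [hF] at hk
  have hq1 : 1 ≤ q := by rw [hk]; exact Nat.one_le_pow _ _ (Fact.out : p.Prime).pos
  have hpow : ∀ j : ℕ, (g ^ j : Matrix.SpecialLinearGroup (Fin 2) F) = 1 ↔ A ^ j = 1 := by
    intro j
    rw [hA, ← Matrix.SpecialLinearGroup.coe_pow]
    constructor
    · intro h
      rw [h]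
      rfl
    · intro h
      exact Subtype.ext h
  have hhh : A ^ q * A ^ q = t • A ^ q - 1 := by
    have h1 : (A * A) ^ q = (t • A - 1) ^ q := by rw [hch]
    rw [(Commute.refl A).mul_pow, hk, sub_pow_char_pow_of_commute p k (Commute.one_right _),
      one_pow, smul_pow, ← hk] at h1
    have htq : t ^ q = t := by
      rw [← hF]
      exact FiniteField.pow_card t
    rw [htq] at h1
    exact h1
  have hcomm : A ^ q * A = A * A ^ q := ((Commute.refl A).pow_left q).eq
  have hprod : (A ^ q - A) * (A ^ q - (t • (1 : Matrix (Fin 2) (Fin 2) F) - A)) = 0 := by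
    rw [sub_mul, mul_sub, mul_sub, mul_sub, mul_sub, hhh, hch, Matrix.mul_smul, Matrix.mul_smul,
      mul_one, mul_one, hcomm]
    abel
  obtain ⟨a, b, hab⟩ := pow_lin A hdet q
  by_cases h1 : A ^ q - A = 0
  · left
    have h2 : A ^ q = A := sub_eq_zero.1 h1
    have h3 : g ^ q = g := by
      apply Subtype.ext
      rw [Matrix.SpecialLinearGroup.coe_pow, ← hA]
      exact h2
    have h4 : g ^ (q - 1) = 1 := by
      have h5 : g ^ (q - 1) * g = g := by
        rw [← pow_succ, Nat.sub_add_cancel hq1]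
        exact h3
      exact mul_eq_right.1 h5
    exact orderOf_dvd_of_pow_eq_one h4
  by_cases h2 : A ^ q - (t • (1 : Matrix (Fin 2) (Fin 2) F) - A) = 0
  · right
    have h3 : A ^ q = t • (1 : Matrix (Fin 2) (Fin 2) F) - A := sub_eq_zero.1 h2
    have h4 : A ^ (q + 1) = 1 := by
      rw [pow_succ, h3, sub_mul, Matrix.smul_mul, Matrix.one_mul, hch]
      abel
    exact orderOf_dvd_of_pow_eq_one ((hpow _).2 h4)
  have hroot : ∃ l : F, l * l - A.trace * l + 1 = 0 := by
    have hd := congrArg Matrix.det hprod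
    rw [Matrix.det_mul, Matrix.det_zero] at hd
    have e1 : A ^ q - A = (a - 1) • A + b • (1 : Matrix (Fin 2) (Fin 2) F) := by
      rw [hab, sub_smul, one_smul]
      abel
    have e2 : A ^ q - (t • (1 : Matrix (Fin 2) (Fin 2) F) - A) =
        (a + 1) • A + (b - t) • (1 : Matrix (Fin 2) (Fin 2) F) := by
      rw [hab, add_smul, one_smul, sub_smul]
      abel
    rcases mul_eq_zero.1 hd with h | h
    · rw [e1] at h h1
      exact root_of_singular A hdet _ _ h1 h
    · rw [e2] at h h2
      exact root_of_singular A hdet _ _ h2 h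
  obtain ⟨l, hl⟩ := hroot
  rw [← ht] at hl
  have hsum : l + (t - l) = A.trace := by rw [← ht]; ring
  have hprod' : l * (t - l) = 1 := by linear_combination -hl
  have hl0 : l ≠ 0 := by
    rintro rfl
    rw [zero_mul] at hprod'
    exact zero_ne_one hprod'
  have hμ0 : t - l ≠ 0 := by
    intro h
    rw [h, mul_zero] at hprod'
    exact zero_ne_one hprod'
  by_cases hne : l = t - l
  · have hl2 : l * l = 1 := by
      have h3 := hprod'
      rw [← hne] at h3
      exact h3
    have hNN : (A - l • (1 : Matrix (Fin 2) (Fin 2) F)) * (A - l • (1 : Matrix (Fin 2) (Fin 2) F)) =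
        0 := by
      have ht2 : t = l + l := by linear_combination -hne
      have hch' : A * A = (l + l) • A - 1 := by
        rw [← ht2]
        exact hch
      have e1 : (A - l • (1 : Matrix (Fin 2) (Fin 2) F)) *
          (A - l • (1 : Matrix (Fin 2) (Fin 2) F)) =
          A * A - l • A - l • A + (l * l) • (1 : Matrix (Fin 2) (Fin 2) F) := by
        simp only [sub_mul, mul_sub, Matrix.smul_mul, Matrix.mul_smul, Matrix.one_mul,
          Matrix.mul_one, smul_smul]
        abel
      rw [e1, hch', hl2, add_smul, one_smul]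
      abel
    have hp2 : 2 ≤ p := (Fact.out : p.Prime).two_le
    have hNp : (A - l • (1 : Matrix (Fin 2) (Fin 2) F)) ^ p = 0 := by
      obtain ⟨j, rfl⟩ : ∃ j, p = 2 + j := ⟨p - 2, by omega⟩
      rw [pow_add, pow_two, hNN, zero_mul]
    have hAp : A ^ p = l ^ p • (1 : Matrix (Fin 2) (Fin 2) F) := by
      have e : A = l • (1 : Matrix (Fin 2) (Fin 2) F) + (A - l • (1 : Matrix (Fin 2) (Fin 2) F)) := by
        abel
      conv_lhs => rw [e]
      rw [add_pow_char_of_commute p (by
        show Commute _ _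
        exact ((Commute.one_left _).smul_left l)), hNp, add_zero, smul_pow, one_pow]
    have hA2p : A ^ (p * 2) = 1 := by
      rw [pow_mul, hAp, smul_pow, one_pow, ← pow_mul, mul_comm p 2, pow_mul, pow_two, hl2,
        one_pow, one_smul]
    have hord : orderOf g ∣ p * 2 := orderOf_dvd_of_pow_eq_one ((hpow _).2 hA2p)
    have hord2 : orderOf g ∣ 2 := hg.dvd_of_dvd_mul_left hord
    left
    by_cases hp2' : p = 2
    · rw [hp2'] at hg
      have h1' : orderOf g = 1 := hg.eq_one_of_dvd hord2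
      rw [h1']
      exact one_dvd _
    · have hodd : Odd q := by
        rw [hk]
        exact Odd.pow ((Fact.out : p.Prime).odd_of_ne_two hp2')
      refine dvd_trans hord2 ?_
      obtain ⟨r, hr⟩ := hodd
      exact ⟨r, by omega⟩
  · left
    have hlq : l ^ (q - 1) = 1 := by
      rw [← hF]
      exact FiniteField.pow_card_sub_one_eq_one l hl0
    have hμq : (t - l) ^ (q - 1) = 1 := by
      rw [← hF]
      exact FiniteField.pow_card_sub_one_eq_one _ hμ0
    have h4 := split_case A hdet l (t - l) hsum hprod' hne (q - 1) hlq hμq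
    exact orderOf_dvd_of_pow_eq_one ((hpow _).2 h4)

end Cfsg.Agent.Lib.Helper2.SL2Tori
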