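import Mathlib
import Cfsg.Prelude.Def_ClassicalGeometry
import Cfsg.Agent.Lib.Helper2.SO33
import Cfsg.Agent.Lib.Helper2.Ord24

set_option autoImplicit false

namespace Cfsg.Agent.Lib.Helper2.SO33

open Cfsg

theorem eq_of_eqM (s t : M9) (h : eqM s t = true) : s = t := by
  unfold eqM at h
  simp only [Bool.and_eq_true] at h
  obtain ⟨⟨⟨⟨⟨⟨⟨⟨ha, hb⟩, hc⟩, hd⟩, he⟩, hf⟩, hg⟩, hh⟩, hi⟩ := h
  obtain ⟨a, b, c, d, e, f, g, h', i⟩ := s
  obtain ⟨a', b', c', d', e', f', g', h'', i'⟩ := t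
  have e1 := Nat.eq_of_beq_eq_true ha
  have e2 := Nat.eq_of_beq_eq_true hb
  have e3 := Nat.eq_of_beq_eq_true hc
  have e4 := Nat.eq_of_beq_eq_true hd
  have e5 := Nat.eq_of_beq_eq_true he
  have e6 := Nat.eq_of_beq_eq_true hf
  have e7 := Nat.eq_of_beq_eq_true hg
  have e8 := Nat.eq_of_beq_eq_true hh
  have e9 := Nat.eq_of_beq_eq_true hi
  simp only at e1 e2 e3 e4 e5 e6 e7 e8 e9
  subst e1 e2 e3 e4 e5 e6 e7 e8 e9
  rfl

theorem eqM_self (s : M9) : eqM s s = true := by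
  unfold eqM
  simp [Nat.beq_refl]

theorem d3_lt (a b c d e f : ℕ) : d3 a b c d e f < 3 := Nat.mod_lt _ (by norm_num)

theorem qN_lt (x y z : ℕ) : qN x y z < 3 := Nat.mod_lt _ (by norm_num)

theorem red_mm (s t : M9) : red (mmN s t) :=
  ⟨d3_lt _ _ _ _ _ _, d3_lt _ _ _ _ _ _, d3_lt _ _ _ _ _ _, d3_lt _ _ _ _ _ _, d3_lt _ _ _ _ _ _,
    d3_lt _ _ _ _ _ _, d3_lt _ _ _ _ _ _, d3_lt _ _ _ _ _ _, d3_lt _ _ _ _ _ _⟩

abbrev ι := Unit ⊕ (Fin 1 ⊕ Fin 1)

def E : ι ≃ Fin 3 where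
  toFun := Sum.elim (fun _ => 0) (Sum.elim (fun _ => 1) (fun _ => 2))
  invFun := ![Sum.inl (), Sum.inr (Sum.inl 0), Sum.inr (Sum.inr 0)]
  left_inv := by
    rintro (u | i | i)
    · rfl
    · fin_cases i; rfl
    · fin_cases i; rfl
  right_inv := by
    intro j
    fin_cases j <;> rfl

section field

variable {F : Type*} [Field F]

def M3 (s : M9) : Matrix (Fin 3) (Fin 3) F :=
  !![(s.a : F), (s.b : F), (s.c : F); (s.d : F), (s.e : F), (s.f : F);
    (s.g : F), (s.h : F), (s.i : F)]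

def matC (s : M9) : Matrix ι ι F := (M3 s).submatrix E E

def vecC (x y z : ℕ) : ι → F := ![(x : F), (y : F), (z : F)] ∘ E

theorem cast_mod3 (h3 : (3 : F) = 0) (n : ℕ) : ((n % 3 : ℕ) : F) = (n : F) := by
  have h := Nat.mod_add_div n 3
  have h4 : ((n % 3 + 3 * (n / 3) : ℕ) : F) = (n : F) := by rw [h]
  push_cast at h4
  rw [h3, zero_mul, add_zero] at h4
  exact h4

theorem cast_d3 (h3 : (3 : F) = 0) (a b c d e f : ℕ) :
    ((d3 a b c d e f : ℕ) : F) = (a : F) * b + c * d + e * f := by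
  show (((a * b + c * d + e * f) % 3 : ℕ) : F) = _
  rw [cast_mod3 h3]
  push_cast
  rfl

theorem cast_q (h3 : (3 : F) = 0) (x y z : ℕ) : ((qN x y z : ℕ) : F) = (x : F) ^ 2 + y * z := by
  show (((x * x + y * z) % 3 : ℕ) : F) = _
  rw [cast_mod3 h3]
  push_cast
  ring

theorem M3_mm (h3 : (3 : F) = 0) (s t : M9) : (M3 (mmN s t) : Matrix (Fin 3) (Fin 3) F) =
    M3 s * M3 t := by
  unfold M3 mmN
  simp only
  rw [Matrix.mul_fin_three]
  simp only [cast_d3 h3]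

theorem matC_mm (h3 : (3 : F) = 0) (s t : M9) : (matC (mmN s t) : Matrix ι ι F) =
    matC s * matC t := by
  unfold matC
  rw [Matrix.submatrix_mul_equiv, M3_mm h3]

theorem M3_one : (M3 I9 : Matrix (Fin 3) (Fin 3) F) = 1 := by
  unfold M3 I9
  ext i j
  fin_cases i <;> fin_cases j <;> simp

theorem matC_one : (matC I9 : Matrix ι ι F) = 1 := by
  unfold matC
  rw [M3_one, Matrix.submatrix_one_equiv]

theorem cast_det (h3 : (3 : F) = 0) (s : M9) : ((detN s : ℕ) : F) = (matC s : Matrix ι ι F).det := by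
  unfold matC
  rw [Matrix.det_submatrix_equiv_self, Matrix.det_fin_three]
  show (((s.a * (s.e * s.i + 2 * (s.f * s.h)) + 2 * (s.b * (s.d * s.i + 2 * (s.f * s.g))) +
    s.c * (s.d * s.h + 2 * (s.e * s.g))) % 3 : ℕ) : F) = _
  rw [cast_mod3 h3]
  simp only [M3, Matrix.of_apply, Matrix.cons_val', Matrix.cons_val_zero, Matrix.cons_val_one,
    Matrix.cons_val_two, Matrix.cons_val_fin_one, Matrix.head_cons, Matrix.tail_cons,
    Matrix.head_fin_const]
  push_cast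
  linear_combination ((s.a : F) * s.f * s.h + s.b * s.d * s.i + s.b * s.f * s.g + s.c * s.e * s.g) * h3

theorem Q_vecC (x y z : F) :
    quadFormOdd 1 F (![x, y, z] ∘ E) = x ^ 2 + y * z := by
  simp [quadFormOdd, E]

theorem mulVec_vecC (h3 : (3 : F) = 0) (s : M9) (x y z : ℕ) :
    Matrix.mulVec (matC s : Matrix ι ι F) (vecC x y z) =
      vecC (d3 s.a x s.b y s.c z) (d3 s.d x s.e y s.f z) (d3 s.g x s.h y s.i z) := by
  unfold matC vecC
  rw [Matrix.submatrix_mulVec_equiv]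
  congr 1
  have h1 : ((![(x : F), (y : F), (z : F)] ∘ E) ∘ E.symm) = ![(x : F), (y : F), (z : F)] := by
    funext j
    simp
  rw [h1]
  funext j
  fin_cases j <;> simp [M3, Matrix.mulVec, dotProduct, Fin.sum_univ_three, cast_d3 h3]

theorem exists_vec (hsurj : ∀ x : F, ∃ k < 3, ((k : ℕ) : F) = x) (v : ι → F) :
    ∃ x y z : ℕ, x < 3 ∧ y < 3 ∧ z < 3 ∧ v = vecC x y z := by
  obtain ⟨x, hx, hx'⟩ := hsurj (v (E.symm 0))
  obtain ⟨y, hy, hy'⟩ := hsurj (v (E.symm 1))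
  obtain ⟨z, hz, hz'⟩ := hsurj (v (E.symm 2))
  refine ⟨x, y, z, hx, hy, hz, ?_⟩
  funext i
  obtain ⟨j, rfl⟩ := E.symm.surjective i
  unfold vecC
  fin_cases j <;> simp [hx', hy', hz']

theorem bridgeA (h3 : (3 : F) = 0)
    (hinj : ∀ a b : ℕ, a < 3 → b < 3 → (a : F) = (b : F) → a = b) (s : M9)
    (hiso : ∀ v : ι → F, quadFormOdd 1 F (Matrix.mulVec (matC s) v) = quadFormOdd 1 F v) :
    isoChk s = true := by
  unfold isoChk
  rw [List.all_eq_true]
  intro x _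
  rw [List.all_eq_true]
  intro y _
  rw [List.all_eq_true]
  intro z _
  unfold isoV
  have h := hiso (vecC x y z)
  rw [mulVec_vecC h3] at h
  unfold vecC at h
  rw [Q_vecC, Q_vecC, ← cast_q h3, ← cast_q h3] at h
  have h5 : qN (d3 s.a x s.b y s.c z) (d3 s.d x s.e y s.f z) (d3 s.g x s.h y s.i z) = qN x y z :=
    hinj _ _ (qN_lt _ _ _) (qN_lt _ _ _) h
  rw [h5]
  exact Nat.beq_refl _

theorem bridgeB (h3 : (3 : F) = 0) (hsurj : ∀ x : F, ∃ k < 3, ((k : ℕ) : F) = x) (s : M9)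
    (hs : isoChk s = true) (v : ι → F) :
    quadFormOdd 1 F (Matrix.mulVec (matC s) v) = quadFormOdd 1 F v := by
  obtain ⟨x, y, z, hx, hy, hz, rfl⟩ := exists_vec hsurj v
  unfold isoChk at hs
  have h1 := List.all_eq_true.1 (List.all_eq_true.1 (List.all_eq_true.1 hs x (mem_D3 hx)) y
    (mem_D3 hy)) z (mem_D3 hz)
  unfold isoV at h1
  have h2 := Nat.eq_of_beq_eq_true h1
  rw [mulVec_vecC h3]
  unfold vecC
  rw [Q_vecC, Q_vecC, ← cast_q h3, ← cast_q h3, h2]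

theorem matC_inj (hinj : ∀ a b : ℕ, a < 3 → b < 3 → (a : F) = (b : F) → a = b) (s t : M9)
    (hs : red s) (ht : red t) (h : (matC s : Matrix ι ι F) = matC t) : s = t := by
  obtain ⟨sa, sb, sc, sd, se, sf, sg, sh, si⟩ := hs
  obtain ⟨ta, tb, tc, td, te, tf, tg, th, ti⟩ := ht
  have key : ∀ i j : Fin 3, (M3 s : Matrix (Fin 3) (Fin 3) F) i j = M3 t i j := by
    intro i j
    have := congrFun (congrFun h (E.symm i)) (E.symm j)
    simpa [matC] using this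
  have h00 := key 0 0
  have h01 := key 0 1
  have h02 := key 0 2
  have h10 := key 1 0
  have h11 := key 1 1
  have h12 := key 1 2
  have h20 := key 2 0
  have h21 := key 2 1
  have h22 := key 2 2
  simp [M3] at h00 h01 h02 h10 h11 h12 h20 h21 h22
  obtain ⟨a, b, c, d, e, f, g, h', i⟩ := s
  obtain ⟨a', b', c', d', e', f', g', h'', i'⟩ := t
  simp only at *
  have e1 := hinj _ _ sa ta h00
  have e2 := hinj _ _ sb tb h01
  have e3 := hinj _ _ sc tc h02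
  have e4 := hinj _ _ sd td h10
  have e5 := hinj _ _ se te h11
  have e6 := hinj _ _ sf tf h12
  have e7 := hinj _ _ sg tg h20
  have e8 := hinj _ _ sh th h21
  have e9 := hinj _ _ si ti h22
  subst e1 e2 e3 e4 e5 e6 e7 e8 e9
  rfl

theorem exists_code (hsurj : ∀ x : F, ∃ k < 3, ((k : ℕ) : F) = x) (A : Matrix ι ι F) :
    ∃ s : M9, red s ∧ matC s = A := by
  choose t ht1 ht2 using (fun i j => hsurj (A (E.symm i) (E.symm j)))
  refine ⟨⟨t 0 0, t 0 1, t 0 2, t 1 0, t 1 1, t 1 2, t 2 0, t 2 1, t 2 2⟩,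
    ⟨ht1 0 0, ht1 0 1, ht1 0 2, ht1 1 0, ht1 1 1, ht1 1 2, ht1 2 0, ht1 2 1, ht1 2 2⟩, ?_⟩
  ext i j
  obtain ⟨i, rfl⟩ := E.symm.surjective i
  obtain ⟨j, rfl⟩ := E.symm.surjective j
  fin_cases i <;> fin_cases j <;> simp [matC, M3, ht2]

end field

end Cfsg.Agent.Lib.Helper2.SO33
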