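import Mathlib
import Cfsg.Prelude.Def_ClassicalGeometry
import Cfsg.Agent.Lib.Helper2.SO33b

set_option autoImplicit false

namespace Cfsg.Agent.Lib.Helper2.SO33

open Cfsg

section field

variable {F : Type*} [Field F]

def φ : ↥(specialIsometryGroup F (quadFormOdd 1 F)) →* Matrix ι ι F :=
  (Units.coeHom (Matrix ι ι F)).comp
    ((isometryGroup F (quadFormOdd 1 F)).subtype.comp
      (specialIsometryGroup F (quadFormOdd 1 F)).subtype)

theorem φ_inj : Function.Injective (φ (F := F)) := by
  intro a b hab
  apply Subtype.ext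
  apply Subtype.ext
  apply Units.ext
  exact hab

theorem φ_iso (g : ↥(specialIsometryGroup F (quadFormOdd 1 F))) (v : ι → F) :
    quadFormOdd 1 F (Matrix.mulVec (φ g) v) = quadFormOdd 1 F v :=
  (g.1).2 v v

theorem φ_det (g : ↥(specialIsometryGroup F (quadFormOdd 1 F))) : (φ g).det = 1 := by
  have h := g.2
  unfold specialIsometryGroup at h
  rw [MonoidHom.mem_ker] at h
  have h2 := congrArg Units.val h
  rw [MonoidHom.comp_apply, Matrix.GeneralLinearGroup.val_det_apply] at h2
  exact h2

theorem exists_elt (M : Matrix ι ι F) (hdet : M.det = 1)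
    (hiso : ∀ v : ι → F, quadFormOdd 1 F (Matrix.mulVec M v) = quadFormOdd 1 F v) :
    ∃ g : ↥(specialIsometryGroup F (quadFormOdd 1 F)), φ g = M := by
  let u : Matrix.GeneralLinearGroup ι F :=
    Matrix.GeneralLinearGroup.mkOfDetNeZero M (by rw [hdet]; exact one_ne_zero)
  have hu : (u : Matrix ι ι F) = M := rfl
  have hmem : u ∈ isometryGroup F (quadFormOdd 1 F) := fun a _ => hiso a
  have hmem2 : (⟨u, hmem⟩ : ↥(isometryGroup F (quadFormOdd 1 F))) ∈
      specialIsometryGroup F (quadFormOdd 1 F) := by
    unfold specialIsometryGroup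
    rw [MonoidHom.mem_ker]
    apply Units.ext
    rw [MonoidHom.comp_apply, Matrix.GeneralLinearGroup.val_det_apply]
    exact hdet
  exact ⟨⟨⟨u, hmem⟩, hmem2⟩, rfl⟩

end field

theorem main {F : Type*} [Field F] [Fintype F] (hF : Fintype.card F = 3) :
    Nonempty (↥(specialIsometryGroup F (quadFormOdd 1 F)) ≃* Equiv.Perm (Fin 4)) := by
  classical
  haveI : Fact (Nat.Prime 3) := ⟨by norm_num⟩
  haveI : CharP F 3 := charP_of_card_eq_prime hF
  have h3 : (3 : F) = 0 := by
    have := CharP.cast_eq_zero F 3
    exact_mod_cast this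
  have hinj : ∀ a b : ℕ, a < 3 → b < 3 → (a : F) = (b : F) → a = b := by
    intro a b ha hb hab
    have h1 := (CharP.natCast_eq_natCast F 3).1 hab
    unfold Nat.ModEq at h1
    omega
  have hsurj : ∀ x : F, ∃ k < 3, ((k : ℕ) : F) = x := by
    have hinj' : Function.Injective (fun k : Fin 3 => ((k : ℕ) : F)) := by
      intro a b hab
      exact Fin.ext (hinj _ _ a.2 b.2 hab)
    have hbij : Function.Bijective (fun k : Fin 3 => ((k : ℕ) : F)) := by
      rw [Fintype.bijective_iff_injective_and_card]
      exact ⟨hinj', by rw [Fintype.card_fin, hF]⟩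
    intro x
    obtain ⟨k, hk⟩ := hbij.2 x
    exact ⟨k, k.2, hk⟩
  haveI : Finite ↥(specialIsometryGroup F (quadFormOdd 1 F)) := Finite.of_injective _ φ_inj
  have hcode : ∀ g : ↥(specialIsometryGroup F (quadFormOdd 1 F)),
      ∃ s : M9, red s ∧ (matC s : Matrix ι ι F) = φ g := fun g => exists_code hsurj (φ g)
  choose code hcred hcmat using hcode
  have hdetc : ∀ g, detN (code g) = 1 := by
    intro g
    have hlt : detN (code g) < 3 := Nat.mod_lt _ (by norm_num)
    exact hinj (detN (code g)) 1 hlt (by norm_num) (by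
      rw [cast_det h3, hcmat, φ_det, Nat.cast_one])
  have hisoc : ∀ g, isoChk (code g) = true := by
    intro g
    apply bridgeA h3 hinj
    intro v
    rw [hcmat]
    exact φ_iso g v
  have hchk : ∀ g, memL (code g) = true ∧
      (eqM (p6 (code g)) I9 = true → eqM (p2 (code g)) I9 = true ∨ eqM (p3 (code g)) I9 = true) := by
    intro g
    have h1 := chk_all (code g) (hcred g)
    unfold chk at h1
    have hb : (isoChk (code g) && Nat.beq (detN (code g)) 1) = true := by
      rw [hisoc g, hdetc g]
      rfl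
    rw [if_pos hb, Bool.and_eq_true] at h1
    refine ⟨h1.1, ?_⟩
    intro h6
    have h2 := h1.2
    rw [if_pos h6, Bool.or_eq_true] at h2
    exact h2
  have hmemL : ∀ g, code g ∈ L24 := by
    intro g
    have h1 := (hchk g).1
    unfold memL at h1
    rw [List.any_eq_true] at h1
    obtain ⟨t, ht, hst⟩ := h1
    rw [eq_of_eqM _ _ hst]
    exact ht
  have hcard : Nat.card ↥(specialIsometryGroup F (quadFormOdd 1 F)) = 24 := by
    let f : ↥(specialIsometryGroup F (quadFormOdd 1 F)) → {s // s ∈ L24.toFinset} :=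
      fun g => ⟨code g, List.mem_toFinset.2 (hmemL g)⟩
    have hfi : Function.Injective f := by
      intro a b hab
      have h1 : code a = code b := congrArg Subtype.val hab
      apply φ_inj
      rw [← hcmat a, ← hcmat b, h1]
    have hfs : Function.Surjective f := by
      rintro ⟨s, hs⟩
      have hs' := L24_spec s (List.mem_toFinset.1 hs)
      have hdet : (matC s : Matrix ι ι F).det = 1 := by
        rw [← cast_det h3, hs'.2.2, Nat.cast_one]
      obtain ⟨g, hg⟩ := exists_elt (matC s : Matrix ι ι F) hdet (bridgeB h3 hsurj s hs'.2.1)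
      refine ⟨g, Subtype.ext ?_⟩
      show code g = s
      apply matC_inj hinj _ _ (hcred g) hs'.1
      rw [hcmat, hg]
    rw [Nat.card_congr (Equiv.ofBijective f ⟨hfi, hfs⟩), Nat.card_eq_fintype_card,
      Fintype.card_coe, List.toFinset_card_of_nodup L24_nodup, L24_length]
  have h6 : ∀ g : ↥(specialIsometryGroup F (quadFormOdd 1 F)), orderOf g ≠ 6 := by
    intro g hg
    have hg6 : g ^ 6 = 1 := by rw [← hg, pow_orderOf_eq_one]
    have hm2 : (matC (p2 (code g)) : Matrix ι ι F) = φ (g ^ 2) := by
      unfold p2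
      rw [matC_mm h3, hcmat, map_pow, pow_two]
    have hm3 : (matC (p3 (code g)) : Matrix ι ι F) = φ (g ^ 3) := by
      unfold p3
      rw [matC_mm h3, matC_mm h3, hcmat, map_pow, pow_succ, pow_two]
    have hm6 : (matC (p6 (code g)) : Matrix ι ι F) = φ (g ^ 6) := by
      unfold p6
      rw [matC_mm h3, hm3, ← map_mul, ← pow_add]
    have hp6 : p6 (code g) = I9 := by
      have hred6 : red (p6 (code g)) := red_mm _ _
      exact matC_inj hinj (p6 (code g)) I9 hred6 (by unfold red I9; norm_num) (by
        rw [hm6, hg6, map_one, matC_one])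
    have h1 := (hchk g).2 (by rw [hp6]; exact eqM_self _)
    rcases h1 with h1 | h1
    · have h2 := eq_of_eqM _ _ h1
      have h4 : g ^ 2 = 1 := by
        apply φ_inj
        rw [← hm2, h2, matC_one, map_one]
      have := orderOf_dvd_of_pow_eq_one h4
      rw [hg] at this
      omega
    · have h2 := eq_of_eqM _ _ h1
      have h4 : g ^ 3 = 1 := by
        apply φ_inj
        rw [← hm3, h2, matC_one, map_one]
      have := orderOf_dvd_of_pow_eq_one h4
      rw [hg] at this
      omega
  exact Ord24.main hcard h6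

end Cfsg.Agent.Lib.Helper2.SO33
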