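import Mathlib
import Cfsg.Agent.Lib.Helper2.SylP
import Cfsg.Agent.Lib.Helper2.SylowAux
import Cfsg.Agent.Lib.Helper2.ConjCount

set_option autoImplicit false

namespace Cfsg.Agent.Lib.Helper2.SelfCent

open Cfsg.Agent.Lib.Helper2

variable {G : Type*} [Group G] [Finite G] (p : ℕ) [hp : Fact p.Prime]

theorem sylow_eq (z : G) (hz : orderOf z = p)
    (hC : Subgroup.centralizer ({z} : Set G) = Subgroup.zpowers z) (S : Sylow p G)
    (hS : Subgroup.zpowers z ≤ S) : (S : Subgroup G) = Subgroup.zpowers z := by
  have hz1 : z ≠ 1 := by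
    intro h
    rw [h, orderOf_one] at hz
    exact hp.out.ne_one hz.symm
  have hcard : Nat.card (Subgroup.zpowers z) = p := by rw [Nat.card_zpowers, hz]
  haveI : Nontrivial (S : Subgroup G) :=
    ⟨⟨⟨z, hS (Subgroup.mem_zpowers z)⟩, 1, fun h => hz1 (congrArg Subtype.val h)⟩⟩
  haveI := S.isPGroup'.center_nontrivial
  obtain ⟨c, hc⟩ := exists_ne (1 : Subgroup.center (S : Subgroup G))
  have hc1 : ((c : (S : Subgroup G)) : G) ≠ 1 := fun h => hc (Subtype.ext (Subtype.ext h))
  have hcz : ((c : (S : Subgroup G)) : G) ∈ Subgroup.zpowers z := by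
    rw [← hC, Subgroup.mem_centralizer_singleton_iff]
    have := (Subgroup.mem_center_iff.1 c.2) ⟨z, hS (Subgroup.mem_zpowers z)⟩
    exact (congrArg Subtype.val this).symm
  have hzp : Subgroup.zpowers ((c : (S : Subgroup G)) : G) = Subgroup.zpowers z :=
    SylP.zpowers_eq_of_card_prime _ hcard hcz hc1
  apply le_antisymm _ hS
  intro s hs
  rw [← hC, Subgroup.mem_centralizer_singleton_iff]
  have h1 := (Subgroup.mem_center_iff.1 c.2) ⟨s, hs⟩
  have h2 : s * ((c : (S : Subgroup G)) : G) = ((c : (S : Subgroup G)) : G) * s :=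
    congrArg Subtype.val h1
  have hzm : z ∈ Subgroup.zpowers ((c : (S : Subgroup G)) : G) := by
    rw [hzp]; exact Subgroup.mem_zpowers z
  obtain ⟨k, hk⟩ := Subgroup.mem_zpowers_iff.1 hzm
  rw [← hk]
  exact (Commute.zpow_right h2 k).eq

theorem main (z : G) (hz : orderOf z = p)
    (hC : Subgroup.centralizer ({z} : Set G) = Subgroup.zpowers z) :
    ∃ n t : ℕ, t = Nat.card {c : ConjClasses G // ∃ g : G, ConjClasses.mk g = c ∧ orderOf g = p} ∧
      t ∣ p - 1 ∧ Nat.card (Sylow p G) = 1 + n * p ∧
      Nat.card G * t = (p - 1) * p * (1 + n * p) := by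
  classical
  have hpp := hp.out
  have hcardz : Nat.card (Subgroup.zpowers z) = p := by rw [Nat.card_zpowers, hz]
  obtain ⟨S, hS⟩ := (SylP.isPGroup_zpowers_of_orderOf_prime hz).exists_le_sylow
  have hSz := sylow_eq p z hz hC S hS
  have hScard : Nat.card (S : Subgroup G) = p := by rw [hSz, hcardz]
  have hcardS : ∀ S' : Sylow p G, Nat.card (S' : Subgroup G) = p := by
    intro S'
    exact (Sylow.card_eq_multiplicity S').trans ((Sylow.card_eq_multiplicity S).symm.trans hScard)
  have hpf : p = p ^ (Nat.card G).factorization p :=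
    hScard.symm.trans (Sylow.card_eq_multiplicity S)
  have hcent : ∀ g : G, orderOf g = p → Nat.card (Subgroup.centralizer ({g} : Set G)) = p := by
    intro g hg
    obtain ⟨h, hh⟩ := SylowAux.exists_conj_le_sylow S (SylP.isPGroup_zpowers_of_orderOf_prime hg)
    have hw := hh g (Subgroup.mem_zpowers g)
    have hwo : orderOf (h⁻¹ * g * h) = p := by rw [SylP.orderOf_conj', hg]
    have hgw : IsConj g (h⁻¹ * g * h) := isConj_iff.2 ⟨h⁻¹, by simp⟩
    generalize h⁻¹ * g * h = w at hw hwo hgw
    have hw1 : w ≠ 1 := by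
      intro h1
      rw [h1, orderOf_one] at hwo
      exact hpp.ne_one hwo.symm
    rw [hSz] at hw
    have hzw : Subgroup.zpowers w = Subgroup.zpowers z :=
      SylP.zpowers_eq_of_card_prime _ hcardz hw hw1
    have hCw : Subgroup.centralizer ({w} : Set G) = Subgroup.centralizer ({z} : Set G) := by
      ext x
      rw [Subgroup.mem_centralizer_singleton_iff, Subgroup.mem_centralizer_singleton_iff]
      constructor
      · intro hx
        have hzm : z ∈ Subgroup.zpowers w := by rw [hzw]; exact Subgroup.mem_zpowers z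
        obtain ⟨k, hk⟩ := Subgroup.mem_zpowers_iff.1 hzm
        rw [← hk]
        exact (Commute.zpow_right hx k).eq
      · intro hx
        obtain ⟨k, hk⟩ := Subgroup.mem_zpowers_iff.1 hw
        rw [← hk]
        exact (Commute.zpow_right hx k).eq
    have c1 := ConjCount.card_conj_mul_card_centralizer g
    have c2 := ConjCount.card_conj_mul_card_centralizer w
    have hconj : ∀ y, IsConj g y ↔ IsConj w y :=
      fun y => ⟨fun hy => hgw.symm.trans hy, fun hy => hgw.trans hy⟩
    have c3 : Nat.card {y : G // IsConj g y} = Nat.card {y : G // IsConj w y} :=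
      Nat.card_congr (Equiv.subtypeEquivRight hconj)
    rw [hCw, hC, hcardz] at c2
    rw [c3] at c1
    have hpos : 0 < Nat.card {y : G // IsConj w y} :=
      Nat.card_pos_iff.2 ⟨⟨⟨w, IsConj.refl w⟩⟩, inferInstance⟩
    exact Nat.eq_of_mul_eq_mul_left hpos (c1.trans c2.symm)
  let f : {g : G // orderOf g = p} →
      {c : ConjClasses G // ∃ g : G, ConjClasses.mk g = c ∧ orderOf g = p} :=
    fun g => ⟨ConjClasses.mk g.1, g.1, rfl, g.2⟩
  have hfib : ∀ c : {c : ConjClasses G // ∃ g : G, ConjClasses.mk g = c ∧ orderOf g = p},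
      Nat.card {x : {g : G // orderOf g = p} // f x = c} * p = Nat.card G := by
    intro c
    obtain ⟨x₀, hx₀, hord⟩ := c.2
    have e : {x : {g : G // orderOf g = p} // f x = c} ≃ {y : G // IsConj x₀ y} :=
      { toFun := fun x => ⟨x.1.1, by
          have h1 : ConjClasses.mk x.1.1 = c.1 := congrArg Subtype.val x.2
          rw [← hx₀] at h1
          exact (ConjClasses.mk_eq_mk_iff_isConj.1 h1).symm⟩
        invFun := fun y => ⟨⟨y.1, by
          obtain ⟨d, hd⟩ := isConj_iff.1 y.2
          rw [← hd, ← hord]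
          exact MulEquiv.orderOf_eq (MulAut.conj d) x₀⟩, by
          apply Subtype.ext
          show ConjClasses.mk y.1 = c.1
          rw [← hx₀]
          exact ConjClasses.mk_eq_mk_iff_isConj.2 y.2.symm⟩
        left_inv := fun x => Subtype.ext (Subtype.ext rfl)
        right_inv := fun y => Subtype.ext rfl }
    rw [Nat.card_congr e, ← hcent x₀ hord]
    exact ConjCount.card_conj_mul_card_centralizer x₀
  haveI : Fintype {c : ConjClasses G // ∃ g : G, ConjClasses.mk g = c ∧ orderOf g = p} :=
    Fintype.ofFinite _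
  have hXT : Nat.card {g : G // orderOf g = p} * p
      = Nat.card {c : ConjClasses G // ∃ g : G, ConjClasses.mk g = c ∧ orderOf g = p}
        * Nat.card G := by
    rw [Nat.card_congr (Equiv.sigmaFiberEquiv f).symm, Nat.card_sigma, Finset.sum_mul,
      Finset.sum_congr rfl (fun c _ => hfib c), Finset.sum_const, Finset.card_univ,
      smul_eq_mul, ← Nat.card_eq_fintype_card]
  haveI : Fintype (Sylow p G) := Fintype.ofFinite _
  have hXS : Nat.card {g : G // orderOf g = p} = Nat.card (Sylow p G) * (p - 1) := by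
    let e : {g : G // orderOf g = p} ≃
        Σ S' : Sylow p G, {g : G // g ∈ (S' : Subgroup G) ∧ g ≠ 1} :=
      { toFun := fun g => ⟨Sylow.ofCard (Subgroup.zpowers g.1)
            ((Nat.card_zpowers g.1).trans (g.2.trans hpf)),
          ⟨g.1, Subgroup.mem_zpowers g.1, fun h => by
            have h2 := g.2
            rw [h, orderOf_one] at h2
            exact hpp.ne_one h2.symm⟩⟩
        invFun := fun s => ⟨s.2.1, by
          have h1 := SylP.zpowers_eq_of_card_prime (s.1 : Subgroup G) (hcardS s.1)
            s.2.2.1 s.2.2.2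
          rw [← Nat.card_zpowers, h1, hcardS]⟩
        left_inv := fun g => Subtype.ext rfl
        right_inv := fun s => by
          apply Sigma.subtype_ext
          · apply Sylow.ext
            rw [Sylow.coe_ofCard]
            exact SylP.zpowers_eq_of_card_prime (s.1 : Subgroup G) (hcardS s.1)
              s.2.2.1 s.2.2.2
          · rfl }
    have hfib2 : ∀ S' : Sylow p G,
        Nat.card {g : G // g ∈ (S' : Subgroup G) ∧ g ≠ 1} = p - 1 := by
      intro S'
      show Nat.card ↥(((S' : Subgroup G) : Set G) \ {1}) = p - 1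
      rw [Nat.card_coe_set_eq, Set.ncard_diff_singleton_of_mem (Subgroup.one_mem _),
        ← Nat.card_coe_set_eq]
      exact congrArg (· - 1) (hcardS S')
    rw [Nat.card_congr e, Nat.card_sigma, Finset.sum_congr rfl (fun S' _ => hfib2 S'),
      Finset.sum_const, Finset.card_univ, smul_eq_mul, ← Nat.card_eq_fintype_card]
  have hcyc : IsCyclic (S : Subgroup G) := isCyclic_of_prime_card hScard
  have hn1 : Nat.card (Sylow p G) ≡ 1 [MOD p] := card_sylow_modEq_one p G
  have hn3 : Nat.card (Sylow p G) = (Subgroup.normalizer (S : Set G)).index :=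
    Sylow.card_eq_index_normalizer S
  have hCS : Subgroup.centralizer (S : Set G) = (S : Subgroup G) := by
    apply le_antisymm
    · intro x hx
      rw [hSz, ← hC, Subgroup.mem_centralizer_singleton_iff]
      exact ((Subgroup.mem_centralizer_iff.1 hx) z (hS (Subgroup.mem_zpowers z))).symm
    · intro x hx
      rw [Subgroup.mem_centralizer_iff]
      intro y hy
      let _i := hcyc.commGroup
      exact congrArg Subtype.val (mul_comm (⟨y, hy⟩ : (S : Subgroup G)) ⟨x, hx⟩)
  have hCcard : Nat.card (Subgroup.centralizer (S : Set G)) = p := by rw [hCS, hScard]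
  have key := Subgroup.card_dvd_of_injective _
    (QuotientGroup.kerLift_injective (S : Subgroup G).normalizerMonoidHom)
  rw [Subgroup.normalizerMonoidHom_ker, ← Subgroup.index, ← Subgroup.relIndex] at key
  rw [hcyc.card_mulAut, hScard, Nat.totient_prime hpp] at key
  replace key : (Subgroup.centralizer (S : Set G)).relIndex (Subgroup.normalizer (S : Set G))
      ∣ p - 1 := key
  have hCN : Subgroup.centralizer (S : Set G) ≤ Subgroup.normalizer (S : Set G) :=
    Subgroup.centralizer_le_normalizer _
  have hN : Nat.card (Subgroup.normalizer (S : Set G))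
      = (Subgroup.centralizer (S : Set G)).relIndex (Subgroup.normalizer (S : Set G)) * p := by
    have h := Subgroup.card_mul_index
      ((Subgroup.centralizer (S : Set G)).subgroupOf (Subgroup.normalizer (S : Set G)))
    rw [Nat.card_congr (Subgroup.subgroupOfEquivOfLe hCN).toEquiv, hCcard] at h
    rw [Subgroup.relIndex, ← h, mul_comm]
  have hGN := Subgroup.card_mul_index (Subgroup.normalizer (S : Set G))
  rw [← hn3, hN] at hGN
  obtain ⟨m', hm'⟩ := key
  have hnppos : 0 < Nat.card (Sylow p G) := Nat.card_pos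
  have hGpos : 0 < Nat.card G := Nat.card_pos
  generalize (Subgroup.centralizer (S : Set G)).relIndex (Subgroup.normalizer (S : Set G)) = m
    at hGN hm'
  have hmpos : 0 < m := by
    rcases Nat.eq_zero_or_pos m with h0 | h0
    · rw [h0, zero_mul, zero_mul] at hGN
      omega
    · exact h0
  have ht : Nat.card {c : ConjClasses G // ∃ g : G, ConjClasses.mk g = c ∧ orderOf g = p}
      = m' := by
    have e1 : Nat.card {c : ConjClasses G // ∃ g : G, ConjClasses.mk g = c ∧ orderOf g = p}
        * (m * p * Nat.card (Sylow p G)) = m' * (m * p * Nat.card (Sylow p G)) := by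
      calc Nat.card {c : ConjClasses G // ∃ g : G, ConjClasses.mk g = c ∧ orderOf g = p}
            * (m * p * Nat.card (Sylow p G))
          = Nat.card {c : ConjClasses G // ∃ g : G, ConjClasses.mk g = c ∧ orderOf g = p}
            * Nat.card G := by rw [hGN]
        _ = Nat.card {g : G // orderOf g = p} * p := hXT.symm
        _ = Nat.card (Sylow p G) * (p - 1) * p := by rw [hXS]
        _ = Nat.card (Sylow p G) * (m * m') * p := by rw [hm']
        _ = m' * (m * p * Nat.card (Sylow p G)) := by ring
    have hpos : 0 < m * p * Nat.card (Sylow p G) :=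
      Nat.mul_pos (Nat.mul_pos hmpos hpp.pos) hnppos
    exact Nat.eq_of_mul_eq_mul_right hpos e1
  obtain ⟨n, hn⟩ : ∃ n, Nat.card (Sylow p G) = 1 + n * p := by
    have h1 : Nat.card (Sylow p G) % p = 1 := by
      have h2 := hn1
      unfold Nat.ModEq at h2
      rw [h2, Nat.mod_eq_of_lt hpp.one_lt]
    refine ⟨Nat.card (Sylow p G) / p, ?_⟩
    have h3 := Nat.div_add_mod (Nat.card (Sylow p G)) p
    rw [h1] at h3
    rw [mul_comm, add_comm]
    exact h3.symm
  refine ⟨n, _, rfl, ?_, hn, ?_⟩
  · rw [ht, hm']
    exact dvd_mul_left _ _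
  · rw [← hn, mul_comm (Nat.card G), ← hXT, hXS]
    ring

end Cfsg.Agent.Lib.Helper2.SelfCent
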