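import Mathlib
import Cfsg.Prelude.Def_LieExceptional
import Cfsg.Agent.Lib.Helper2.Lift

set_option autoImplicit false

namespace Cfsg.Agent.Lib.Helper2.Zass

open Cfsg.Agent.Lib.Helper2

variable {G Ω : Type*} [Group G] [MulAction G Ω]

theorem mem_E {a b : Ω} {x : G} :
    x ∈ (MulAction.stabilizer G a ⊓ MulAction.stabilizer G b : Subgroup G) ↔
      x • a = a ∧ x • b = b := by
  rw [Subgroup.mem_inf, MulAction.mem_stabilizer_iff, MulAction.mem_stabilizer_iff]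

theorem exists_ne_one (hZ : Cfsg.IsZassenhausGroup G Ω) {a b : Ω} (hab : a ≠ b) :
    ∃ x : G, x ≠ 1 ∧ x • a = a ∧ x • b = b := by
  obtain ⟨-, h2, -, ⟨g, hg1, a', b', hab', hga, hgb⟩, -⟩ := hZ
  obtain ⟨k, hka, hkb⟩ := (MulAction.is_two_pretransitive_iff.1 h2) hab' hab
  refine ⟨k * g * k⁻¹, ?_, ?_, ?_⟩
  · intro h
    apply hg1
    have : g = k⁻¹ * (k * g * k⁻¹) * k := by group
    rw [this, h]
    group
  · rw [mul_smul, mul_smul, ← hka, inv_smul_smul, hga]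
  · rw [mul_smul, mul_smul, ← hkb, inv_smul_smul, hgb]

theorem perm_of_conj (hZ : Cfsg.IsZassenhausGroup G Ω) {a b : Ω} (hab : a ≠ b) (n x : G)
    (hx1 : x ≠ 1) (hxa : x • a = a) (hxb : x • b = b)
    (hna : (n * x * n⁻¹) • a = a) (hnb : (n * x * n⁻¹) • b = b) :
    (n⁻¹ • a = a ∧ n⁻¹ • b = b) ∨ (n⁻¹ • a = b ∧ n⁻¹ • b = a) := by
  have h3 := hZ.2.2.1
  have hfa : x • (n⁻¹ • a) = n⁻¹ • a := by
    rw [mul_smul, mul_smul] at hna
    rw [← hna, inv_smul_smul]
    conv_rhs => rw [← hna]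
    rw [inv_smul_smul]
  have hfb : x • (n⁻¹ • b) = n⁻¹ • b := by
    rw [mul_smul, mul_smul] at hnb
    conv_rhs => rw [← hnb]
    rw [inv_smul_smul]
  have hne : n⁻¹ • a ≠ n⁻¹ • b := fun h => hab (smul_left_cancel _ h)
  have ha' : n⁻¹ • a = a ∨ n⁻¹ • a = b := by
    by_contra hcon
    push Not at hcon
    exact hx1 (h3 x a b (n⁻¹ • a) hab (Ne.symm hcon.2) (Ne.symm hcon.1) hxa hxb hfa)
  have hb' : n⁻¹ • b = a ∨ n⁻¹ • b = b := by
    by_contra hcon
    push Not at hcon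
    exact hx1 (h3 x a b (n⁻¹ • b) hab (Ne.symm hcon.2) (Ne.symm hcon.1) hxa hxb hfb)
  rcases ha' with ha' | ha' <;> rcases hb' with hb' | hb'
  · exact absurd (ha'.trans hb'.symm) hne
  · exact Or.inl ⟨ha', hb'⟩
  · exact Or.inr ⟨ha', hb'⟩
  · exact absurd (ha'.trans hb'.symm) hne

theorem mem_normalizer_of_perm [Finite G] {a b : Ω} (n : G)
    (h : (n⁻¹ • a = a ∧ n⁻¹ • b = b) ∨ (n⁻¹ • a = b ∧ n⁻¹ • b = a)) :
    n ∈ Subgroup.normalizer
      ((MulAction.stabilizer G a ⊓ MulAction.stabilizer G b : Subgroup G) : Set G) := by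
  apply Lift.conj_le_mem_normalizer
  intro e he
  rw [mem_E] at he ⊢
  rcases h with h | h
  · constructor
    · rw [mul_smul, mul_smul, h.1, he.1]
      exact (inv_smul_eq_iff.1 h.1).symm
    · rw [mul_smul, mul_smul, h.2, he.2]
      exact (inv_smul_eq_iff.1 h.2).symm
  · constructor
    · rw [mul_smul, mul_smul, h.1, he.2]
      exact (inv_smul_eq_iff.1 h.1).symm
    · rw [mul_smul, mul_smul, h.2, he.1]
      exact (inv_smul_eq_iff.1 h.2).symm

theorem ti_two_point [Finite G] (hZ : Cfsg.IsZassenhausGroup G Ω) {a b : Ω} (hab : a ≠ b)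
    (g : G) (hg : g ∉ Subgroup.normalizer
      ((MulAction.stabilizer G a ⊓ MulAction.stabilizer G b : Subgroup G) : Set G))
    (x : G) (hx : x ∈ (MulAction.stabilizer G a ⊓ MulAction.stabilizer G b : Subgroup G))
    (hgx : g * x * g⁻¹ ∈ (MulAction.stabilizer G a ⊓ MulAction.stabilizer G b : Subgroup G)) :
    x = 1 := by
  by_contra hx1
  rw [mem_E] at hx hgx
  exact hg (mem_normalizer_of_perm g (perm_of_conj hZ hab g x hx1 hx.1 hx.2 hgx.1 hgx.2))

theorem index_two_point [Finite G] (hZ : Cfsg.IsZassenhausGroup G Ω) {a b : Ω} (hab : a ≠ b) :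
    ((MulAction.stabilizer G a ⊓ MulAction.stabilizer G b : Subgroup G).subgroupOf
      (Subgroup.normalizer
        ((MulAction.stabilizer G a ⊓ MulAction.stabilizer G b : Subgroup G) : Set G))).index =
      2 := by
  obtain ⟨s, hsa, hsb⟩ := (MulAction.is_two_pretransitive_iff.1 hZ.2.1) hab (Ne.symm hab)
  have hsa' : s⁻¹ • a = b := by rw [inv_smul_eq_iff, hsb]
  have hsb' : s⁻¹ • b = a := by rw [inv_smul_eq_iff, hsa]
  have hsN := mem_normalizer_of_perm (G := G) s (Or.inr ⟨hsa', hsb'⟩)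
  obtain ⟨x, hx1, hxa, hxb⟩ := exists_ne_one hZ hab
  rw [Subgroup.index_eq_two_iff]
  refine ⟨⟨s, hsN⟩, ?_⟩
  intro n
  have hnx : (n : G) * x * (n : G)⁻¹ ∈
      (MulAction.stabilizer G a ⊓ MulAction.stabilizer G b : Subgroup G) :=
    (Subgroup.mem_normalizer_iff.1 n.2 x).1 (mem_E.2 ⟨hxa, hxb⟩)
  rw [mem_E] at hnx
  rw [Subgroup.mem_subgroupOf, Subgroup.mem_subgroupOf, mem_E, mem_E]
  rcases perm_of_conj hZ hab (n : G) x hx1 hxa hxb hnx.1 hnx.2 with h | h
  · right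
    have hna : (n : G) • a = a := (inv_smul_eq_iff.1 h.1).symm
    have hnb : (n : G) • b = b := (inv_smul_eq_iff.1 h.2).symm
    refine ⟨⟨hna, hnb⟩, ?_⟩
    rintro ⟨h1, -⟩
    have : ((n * ⟨s, hsN⟩ : Subgroup.normalizer
        ((MulAction.stabilizer G a ⊓ MulAction.stabilizer G b : Subgroup G) : Set G)) : G) • a =
        b := by
      show ((n : G) * s) • a = b
      rw [mul_smul, hsa, hnb]
    rw [this] at h1
    exact hab h1.symm
  · left
    have hna : (n : G) • a = b := (inv_smul_eq_iff.1 h.2).symm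
    have hnb : (n : G) • b = a := (inv_smul_eq_iff.1 h.1).symm
    refine ⟨⟨?_, ?_⟩, ?_⟩
    · show ((n : G) * s) • a = a
      rw [mul_smul, hsa, hnb]
    · show ((n : G) * s) • b = b
      rw [mul_smul, hsb, hna]
    · rintro ⟨h1, -⟩
      rw [hna] at h1
      exact hab h1.symm

end Cfsg.Agent.Lib.Helper2.Zass
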