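import Mathlib
import Cfsg.Prelude.Def_LieExceptional
import Cfsg.Agent.Lib.Helper2.Zass

set_option autoImplicit false

namespace Cfsg.Agent.Lib.Helper2.Zass

open Cfsg.Agent.Lib.Helper2

variable {G Ω : Type*} [Group G] [MulAction G Ω]

theorem three_le_card [Fintype Ω] (hZ : Cfsg.IsZassenhausGroup G Ω) : 3 ≤ Fintype.card Ω := by
  classical
  obtain ⟨hf, -, -, ⟨g, hg1, a, b, hab, hga, hgb⟩, -⟩ := hZ
  by_contra hcon
  push Not at hcon
  apply hg1
  apply hf.eq_of_smul_eq_smul
  intro c
  rw [one_smul]
  by_contra hc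
  have h3 : ({a, b, c} : Finset Ω).card = 3 := by
    rw [Finset.card_insert_of_notMem, Finset.card_pair]
    · intro h
      rw [h] at hgb
      exact hc hgb
    · rw [Finset.mem_insert, Finset.mem_singleton]
      push Not
      refine ⟨hab, ?_⟩
      intro h
      rw [← h] at hc
      exact hc hga
  have := Finset.card_le_univ ({a, b, c} : Finset Ω)
  omega

theorem ti_kernel (a : Ω) (H : Subgroup G) (hHa : H ≤ MulAction.stabilizer G a)
    (hHfix : ∀ u ∈ H, u ≠ 1 → ∀ c : Ω, u • c = c → c = a) (g : G)
    (hg : g ∉ MulAction.stabilizer G a) (u : G) (hu : u ∈ H) (hgu : g * u * g⁻¹ ∈ H) :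
    u = 1 := by
  by_contra hu1
  apply hg
  rw [MulAction.mem_stabilizer_iff]
  have h1 : g * u * g⁻¹ ≠ 1 := by
    intro h
    apply hu1
    have : u = g⁻¹ * (g * u * g⁻¹) * g := by group
    rw [this, h]
    group
  apply hHfix _ hgu h1
  rw [mul_smul, mul_smul, inv_smul_smul]
  have := hHa hu
  rw [MulAction.mem_stabilizer_iff] at this
  rw [this]

theorem exists_fixed_of_not_mem [Finite G] [Fintype Ω] (hZ : Cfsg.IsZassenhausGroup G Ω) (a : Ω)
    (H : Subgroup G) (hHa : H ≤ MulAction.stabilizer G a)
    (hHcard : Nat.card H + 1 = Fintype.card Ω)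
    (hHfix : ∀ u ∈ H, u ≠ 1 → ∀ c : Ω, u • c = c → c = a) (v₀ : G)
    (hv₀ : v₀ ∈ MulAction.stabilizer G a) (hv₀H : v₀ ∉ H) : ∃ c : Ω, c ≠ a ∧ v₀ • c = c := by
  classical
  by_contra hcon
  push Not at hcon
  haveI : Fintype G := Fintype.ofFinite G
  have h3 := three_le_card hZ
  have hthree := hZ.2.2.1
  have hburn := MulAction.sum_card_fixedBy_eq_card_orbits_mul_card_group
    (MulAction.stabilizer G a) Ω
  have horb : 2 ≤ Fintype.card (Quotient (MulAction.orbitRel (MulAction.stabilizer G a) Ω)) := by
    obtain ⟨b, hb⟩ : ∃ b : Ω, b ≠ a := by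
      by_contra hcon2
      push Not at hcon2
      have : Fintype.card Ω ≤ 1 :=
        Fintype.card_le_one_iff.2 (fun x y => (hcon2 x).trans (hcon2 y).symm)
      omega
    have : 1 < Fintype.card (Quotient (MulAction.orbitRel (MulAction.stabilizer G a) Ω)) := by
      rw [Fintype.one_lt_card_iff]
      refine ⟨Quotient.mk'' a, Quotient.mk'' b, ?_⟩
      intro h
      have h1 := (MulAction.orbitRel_apply).1 (Quotient.eq''.1 h)
      obtain ⟨k, hk⟩ := h1
      have hk' : (k : G) • b = a := hk
      have hka : (k : G) • a = a := k.2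
      apply hb
      exact smul_left_cancel (k : G) (hk'.trans hka.symm)
    exact this
  have hv₀1 : v₀ ≠ 1 := by
    intro h
    rw [h] at hv₀H
    exact hv₀H H.one_mem
  have hpoint : ∀ v : MulAction.stabilizer G a,
      Fintype.card (MulAction.fixedBy Ω v) + (if (v : G) ∈ H then 1 else 0) +
        (if (v : G) = v₀ then 1 else 0) ≤
        (if v = 1 then (Fintype.card Ω - 1) else 0) + 2 := by
    intro v
    by_cases hv1 : v = 1
    · have hvH : (v : G) ∈ H := by rw [hv1]; exact H.one_mem
      have hvv₀ : (v : G) ≠ v₀ := by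
        intro h
        rw [← h] at hv₀H
        exact hv₀H hvH
      rw [if_pos hvH, if_neg hvv₀, if_pos hv1]
      have : Fintype.card (MulAction.fixedBy Ω v) ≤ Fintype.card Ω := Fintype.card_subtype_le _
      omega
    · have hv1' : (v : G) ≠ 1 := fun h => hv1 (Subtype.ext h)
      rw [if_neg hv1]
      have hle2 : Fintype.card (MulAction.fixedBy Ω v) ≤ 2 := by
        by_contra hgt
        push Not at hgt
        obtain ⟨x, y, z, hxy, hxz, hyz⟩ := Fintype.two_lt_card_iff.1 hgt
        apply hv1'
        exact hthree (v : G) x.1 y.1 z.1 (fun h => hxy (Subtype.ext h))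
          (fun h => hyz (Subtype.ext h)) (fun h => hxz (Subtype.ext h)) x.2 y.2 z.2
      by_cases hvH : (v : G) ∈ H
      · have hvv₀ : (v : G) ≠ v₀ := by
          intro h
          rw [← h] at hv₀H
          exact hv₀H hvH
        rw [if_pos hvH, if_neg hvv₀]
        have hle1 : Fintype.card (MulAction.fixedBy Ω v) ≤ 1 := by
          rw [Fintype.card_le_one_iff]
          intro x y
          apply Subtype.ext
          rw [hHfix (v : G) hvH hv1' x.1 x.2, hHfix (v : G) hvH hv1' y.1 y.2]
        omega
      · rw [if_neg hvH]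
        by_cases hvv₀ : (v : G) = v₀
        · rw [if_pos hvv₀]
          have hle1 : Fintype.card (MulAction.fixedBy Ω v) ≤ 1 := by
            rw [Fintype.card_le_one_iff]
            intro x y
            apply Subtype.ext
            have hx : v₀ • x.1 = x.1 := by rw [← hvv₀]; exact x.2
            have hy : v₀ • y.1 = y.1 := by rw [← hvv₀]; exact y.2
            have hxa : x.1 = a := by
              by_contra h
              exact hcon x.1 h hx
            have hya : y.1 = a := by
              by_contra h
              exact hcon y.1 h hy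
            rw [hxa, hya]
          omega
        · rw [if_neg hvv₀]
          omega
  have hsum := Finset.sum_le_sum (fun v (_ : v ∈ (Finset.univ : Finset (MulAction.stabilizer G a))) =>
    hpoint v)
  rw [Finset.sum_add_distrib, Finset.sum_add_distrib, Finset.sum_add_distrib, hburn,
    Finset.sum_ite_eq' Finset.univ (1 : MulAction.stabilizer G a)] at hsum
  simp only [Finset.mem_univ, if_true, Finset.sum_const, Finset.card_univ, smul_eq_mul] at hsum
  have hH : (∑ v : MulAction.stabilizer G a, if (v : G) ∈ H then 1 else 0) = Nat.card H := by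
    rw [Finset.sum_boole, Nat.cast_id]
    rw [← Fintype.card_subtype]
    rw [← Nat.card_eq_fintype_card]
    apply Nat.card_congr
    exact
      { toFun := fun w => ⟨(w.1 : G), w.2⟩
        invFun := fun w => ⟨⟨w.1, hHa w.2⟩, w.2⟩
        left_inv := fun w => rfl
        right_inv := fun w => rfl }
  have hv : (∑ v : MulAction.stabilizer G a, if (v : G) = v₀ then 1 else 0) = 1 := by
    rw [Finset.sum_eq_single (⟨v₀, hv₀⟩ : MulAction.stabilizer G a)]
    · simp
    · intro b _ hb
      rw [if_neg]
      intro h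
      exact hb (Subtype.ext h)
    · intro h
      exact absurd (Finset.mem_univ _) h
  rw [hH, hv] at hsum
  have : 2 * Fintype.card (MulAction.stabilizer G a) ≤
      Fintype.card (Quotient (MulAction.orbitRel (MulAction.stabilizer G a) Ω)) *
        Fintype.card (MulAction.stabilizer G a) := Nat.mul_le_mul_right _ horb
  omega

theorem normalizer_kernel [Finite G] [Fintype Ω] (hZ : Cfsg.IsZassenhausGroup G Ω) (a : Ω)
    (H : Subgroup G) (hHa : H ≤ MulAction.stabilizer G a)
    (hHcard : Nat.card H + 1 = Fintype.card Ω)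
    (hHfix : ∀ u ∈ H, u ≠ 1 → ∀ c : Ω, u • c = c → c = a) :
    Subgroup.normalizer (H : Set G) = MulAction.stabilizer G a := by
  have h3 := three_le_card hZ
  apply le_antisymm
  · intro n hn
    by_contra hna
    have hnt : Nontrivial H := by
      rw [← Finite.one_lt_card_iff_nontrivial]
      omega
    obtain ⟨u, hu⟩ := exists_ne (1 : H)
    have h1 := (Subgroup.mem_normalizer_iff.1 hn (u : G)).1 u.2
    have h2 := ti_kernel a H hHa hHfix n hna (u : G) u.2 h1
    exact hu (Subtype.ext h2)
  · intro k hk
    apply Lift.conj_le_mem_normalizer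
    intro u hu
    by_contra hnot
    have hmem : k * u * k⁻¹ ∈ MulAction.stabilizer G a :=
      Subgroup.mul_mem _ (Subgroup.mul_mem _ hk (hHa hu)) (Subgroup.inv_mem _ hk)
    obtain ⟨c, hca, hc⟩ := exists_fixed_of_not_mem hZ a H hHa hHcard hHfix _ hmem hnot
    have hu1 : u ≠ 1 := by
      intro h
      apply hnot
      rw [h]
      simp
    have hfix : u • (k⁻¹ • c) = k⁻¹ • c := by
      rw [mul_smul, mul_smul] at hc
      conv_rhs => rw [← hc]
      rw [inv_smul_smul]
    have h4 := hHfix u hu hu1 _ hfix
    apply hca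
    rw [inv_smul_eq_iff] at h4
    rw [h4]
    exact (MulAction.mem_stabilizer_iff.1 hk)

end Cfsg.Agent.Lib.Helper2.Zass
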