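import Mathlib
import Cfsg.Prelude.Def_LieExceptional
import Cfsg.Agent.Lib.Helper2.Zass2
import Cfsg.Agent.Lib.Helper2.SE2

set_option autoImplicit false

namespace Cfsg.Agent.Lib.Helper2.Zass

open Cfsg.Agent.Lib.Helper2

variable {G Ω : Type*} [Group G] [MulAction G Ω]

theorem card_fixedBy_modEq [Finite Ω] (s : G) (hs : orderOf s = 2) :
    Nat.card Ω ≡ Nat.card (MulAction.fixedBy Ω s) [MOD 2] := by
  haveI : Fact (Nat.Prime 2) := ⟨Nat.prime_two⟩
  have hP : IsPGroup 2 (Subgroup.zpowers s) := SE2.isPGroup_zpowers_of_orderOf hs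
  have h := hP.card_modEq_card_fixedPoints Ω
  have e : MulAction.fixedPoints (Subgroup.zpowers s) Ω = MulAction.fixedBy Ω s := by
    ext x
    constructor
    · intro hx
      exact hx ⟨s, Subgroup.mem_zpowers s⟩
    · intro hx k
      obtain ⟨j, hj⟩ := Subgroup.mem_zpowers_iff.1 k.2
      have := MulAction.mem_fixedBy_zpow hx j
      rw [hj] at this
      exact this
  rw [e] at h
  exact h

theorem card_fixedBy_le_two [Finite Ω] (hZ : Cfsg.IsZassenhausGroup G Ω) (s : G) (hs : s ≠ 1) :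
    Nat.card (MulAction.fixedBy Ω s) ≤ 2 := by
  classical
  haveI : Fintype Ω := Fintype.ofFinite Ω
  rw [Nat.card_eq_fintype_card]
  by_contra hgt
  push Not at hgt
  obtain ⟨x, y, z, hxy, hxz, hyz⟩ := Fintype.two_lt_card_iff.1 hgt
  exact hs (hZ.2.2.1 s x.1 y.1 z.1 (fun h => hxy (Subtype.ext h))
    (fun h => hyz (Subtype.ext h)) (fun h => hxz (Subtype.ext h)) x.2 y.2 z.2)

theorem ne_one_of_orderOf_two {s : G} (hs : orderOf s = 2) : s ≠ 1 := by
  intro h
  rw [h, orderOf_one] at hs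
  omega

theorem orderOf_conj_two {t : G} (ht : orderOf t = 2) (g : G) : orderOf (g * t * g⁻¹) = 2 := by
  have h6 : g * t * g⁻¹ = (MulAut.conj g) t := by simp
  rw [h6, MulEquiv.orderOf_eq, ht]

theorem exists_swap_involution [Finite G] (hZ : Cfsg.IsZassenhausGroup G Ω) {a b : Ω}
    (hab : a ≠ b) : ∃ s : G, orderOf s = 2 ∧ s • a = b ∧ s • b = a := by
  obtain ⟨g, hga, hgb⟩ := (MulAction.is_two_pretransitive_iff.1 hZ.2.1) hab (Ne.symm hab)
  have hpow : ∀ k : ℕ, g ^ (2 * k) • a = a ∧ g ^ (2 * k + 1) • a = b := by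
    intro k
    induction k with
    | zero => simp [hga]
    | succ k ih =>
      have e1 : g ^ (2 * (k + 1)) = g * g ^ (2 * k + 1) := by
        rw [show 2 * (k + 1) = (2 * k + 1) + 1 by ring, pow_succ']
      have e2 : g ^ (2 * (k + 1) + 1) = g * g ^ (2 * (k + 1)) := by
        rw [← pow_succ']
      have h1 : g ^ (2 * (k + 1)) • a = a := by rw [e1, mul_smul, ih.2, hgb]
      exact ⟨h1, by rw [e2, mul_smul, h1, hga]⟩
  have heven : 2 ∣ orderOf g := by
    by_contra hodd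
    have h1 : orderOf g % 2 = 1 := by omega
    have h2 := (hpow (orderOf g / 2)).2
    have e : 2 * (orderOf g / 2) + 1 = orderOf g := by omega
    rw [e, pow_orderOf_eq_one, one_smul] at h2
    exact hab h2
  have hne : orderOf g ≠ 0 := (orderOf_pos g).ne'
  obtain ⟨t, ht⟩ : ∃ t : G, orderOf t = 2 := ⟨_, orderOf_pow_orderOf_div hne heven⟩
  have ht1 := ne_one_of_orderOf_two ht
  obtain ⟨c, hc⟩ : ∃ c : Ω, t • c ≠ c := by
    by_contra hcon
    push Not at hcon
    apply ht1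
    apply hZ.1.eq_of_smul_eq_smul
    intro c
    rw [hcon c, one_smul]
  have htt : t • (t • c) = c := by
    have h2 := pow_orderOf_eq_one t
    rw [ht] at h2
    rw [← mul_smul, ← pow_two, h2, one_smul]
  obtain ⟨k, hkc, hkd⟩ := (MulAction.is_two_pretransitive_iff.1 hZ.2.1) (Ne.symm hc) hab
  have hka : k⁻¹ • a = c := by rw [inv_smul_eq_iff, hkc]
  have hkb : k⁻¹ • b = t • c := by rw [inv_smul_eq_iff, hkd]
  refine ⟨k * t * k⁻¹, orderOf_conj_two ht k, ?_, ?_⟩
  · rw [mul_smul, mul_smul, hka, hkd]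
  · rw [mul_smul, mul_smul, hkb, htt, hkc]

theorem fixed_count [Finite G] [Fintype Ω] (hZ : Cfsg.IsZassenhausGroup G Ω) (s : G)
    (hs : orderOf s = 2) :
    (Odd (Fintype.card Ω) → Nat.card (MulAction.fixedBy Ω s) = 1) ∧
    (Even (Fintype.card Ω) → Nat.card (MulAction.fixedBy Ω s) = 0 ∨
      Nat.card (MulAction.fixedBy Ω s) = 2) := by
  have h1 := card_fixedBy_modEq (Ω := Ω) s hs
  have h2 := card_fixedBy_le_two hZ s (ne_one_of_orderOf_two hs)
  rw [Nat.card_eq_fintype_card] at h1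
  unfold Nat.ModEq at h1
  constructor
  · intro hodd
    rw [Nat.odd_iff] at hodd
    omega
  · intro heven
    rw [Nat.even_iff] at heven
    omega

theorem exists_swap_two_fixed [Finite G] [Fintype Ω] (hZ : Cfsg.IsZassenhausGroup G Ω) {a b : Ω}
    (hab : a ≠ b)
    (hE : Even (Nat.card ↥(MulAction.stabilizer G a ⊓ MulAction.stabilizer G b))) :
    ∃ s : G, orderOf s = 2 ∧ s • a = b ∧ s • b = a ∧ Nat.card (MulAction.fixedBy Ω s) = 2 := by
  classical
  haveI : Fact (Nat.Prime 2) := ⟨Nat.prime_two⟩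
  obtain ⟨z, hz2, hza, hzb⟩ : ∃ z : G, orderOf z = 2 ∧ z • a = a ∧ z • b = b := by
    obtain ⟨z, hz⟩ := exists_prime_orderOf_dvd_card'
      (G := ↥(MulAction.stabilizer G a ⊓ MulAction.stabilizer G b)) 2 (even_iff_two_dvd.1 hE)
    exact ⟨(z : G), by rw [Subgroup.orderOf_coe, hz], (mem_E.1 z.2).1, (mem_E.1 z.2).2⟩
  have hz1 := ne_one_of_orderOf_two hz2
  have h3 := three_le_card hZ
  obtain ⟨c, hc⟩ : ∃ c : Ω, c ∉ ({a, b} : Finset Ω) := by
    by_contra hcon
    push Not at hcon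
    have h1 : (Finset.univ : Finset Ω) ⊆ {a, b} := fun x _ => hcon x
    have h4 := Finset.card_le_card h1
    rw [Finset.card_univ, Finset.card_pair hab] at h4
    omega
  rw [Finset.mem_insert, Finset.mem_singleton] at hc
  push Not at hc
  have hzc : z • c ≠ c := by
    intro h
    exact hz1 (hZ.2.2.1 z a b c hab (Ne.symm hc.2) (Ne.symm hc.1) hza hzb h)
  have hzz : z • (z • c) = c := by
    have h2 := pow_orderOf_eq_one z
    rw [hz2] at h2
    rw [← mul_smul, ← pow_two, h2, one_smul]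
  obtain ⟨k, hkc, hkd⟩ := (MulAction.is_two_pretransitive_iff.1 hZ.2.1) (Ne.symm hzc) hab
  have hka : k⁻¹ • a = c := by rw [inv_smul_eq_iff, hkc]
  have hkb : k⁻¹ • b = z • c := by rw [inv_smul_eq_iff, hkd]
  refine ⟨k * z * k⁻¹, orderOf_conj_two hz2 k, ?_, ?_, ?_⟩
  · rw [mul_smul, mul_smul, hka, hkd]
  · rw [mul_smul, mul_smul, hkb, hzz, hkc]
  · have hle := card_fixedBy_le_two hZ (k * z * k⁻¹)
      (ne_one_of_orderOf_two (orderOf_conj_two hz2 k))
    have hfa : k • a ∈ MulAction.fixedBy Ω (k * z * k⁻¹) := by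
      rw [MulAction.mem_fixedBy, mul_smul, mul_smul, inv_smul_smul, hza]
    have hfb : k • b ∈ MulAction.fixedBy Ω (k * z * k⁻¹) := by
      rw [MulAction.mem_fixedBy, mul_smul, mul_smul, inv_smul_smul, hzb]
    have hge : 1 < Nat.card (MulAction.fixedBy Ω (k * z * k⁻¹)) := by
      rw [Nat.card_eq_fintype_card, Fintype.one_lt_card_iff]
      refine ⟨⟨k • a, hfa⟩, ⟨k • b, hfb⟩, ?_⟩
      intro h
      exact hab (smul_left_cancel k (congrArg Subtype.val h))
    omega

end Cfsg.Agent.Lib.Helper2.Zass
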