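import Mathlib
import Cfsg.Agent.Lib.Helper2.Semireg
import Cfsg.Agent.Lib.Helper2.Zass3

set_option autoImplicit false

namespace Cfsg.Agent.Lib.Helper2.Sharp2

open Cfsg.Agent.Lib.Helper2

variable {K α : Type*} [Group K] [MulAction K α]

section basic

variable (hT : ∀ a b c d : α, a ≠ b → c ≠ d → ∃ g : K, g • a = c ∧ g • b = d)
  (hS : ∀ (g : K) (a b : α), a ≠ b → g • a = a → g • b = b → g = 1)

include hT hS in
theorem exists_swap {a b : α} (hab : a ≠ b) :
    ∃ t : K, t ≠ 1 ∧ t * t = 1 ∧ t • a = b ∧ t • b = a := by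
  obtain ⟨t, hta, htb⟩ := hT a b b a hab (Ne.symm hab)
  refine ⟨t, ?_, ?_, hta, htb⟩
  · rintro rfl
    rw [one_smul] at hta
    exact hab hta
  · apply hS (t * t) a b hab
    · rw [mul_smul, hta, htb]
    · rw [mul_smul, htb, hta]

include hS in
theorem inv_unique {s t : K} (hs : s * s = 1) (ht : t * t = 1) {c : α}
    (hst : s • c = t • c) (htc : t • c ≠ c) : s = t := by
  have h1 : s⁻¹ * t = 1 := by
    apply hS (s⁻¹ * t) c (t • c) (Ne.symm htc)
    · rw [mul_smul, ← hst, inv_smul_smul]
    · rw [mul_smul, ← mul_smul t t, ht, one_smul, inv_smul_eq_iff, ← hst, ← mul_smul, hs,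
        one_smul]
  exact inv_mul_eq_one.1 h1

include hS in
theorem fix_le_one [Fintype α] [DecidableEq α] {g : K} (hg : g ≠ 1) :
    (Finset.univ.filter (fun c : α => g • c = c)).card ≤ 1 := by
  apply Finset.card_le_one.2
  intro c hc d hd
  by_contra hcd
  exact hg (hS g c d hcd (Finset.mem_filter.1 hc).2 (Finset.mem_filter.1 hd).2)

theorem card_fixedBy_eq_filter [Fintype α] [DecidableEq α] (t : K) :
    Nat.card (MulAction.fixedBy α t) = (Finset.univ.filter (fun c : α => t • c = c)).card := by
  rw [Nat.card_eq_fintype_card]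
  exact Fintype.card_of_subtype _ (by intro x; simp [MulAction.mem_fixedBy])

include hT hS in
theorem card_stabilizer [Finite K] [Fintype α] [DecidableEq α] (h2 : 2 ≤ Fintype.card α)
    (a : α) : Nat.card (MulAction.stabilizer K a) + 1 = Fintype.card α := by
  obtain ⟨b, hba⟩ := Fintype.exists_ne_of_one_lt_card (by omega : 1 < Fintype.card α) a
  have hne : ∀ g : MulAction.stabilizer K a, (g : K) • b ≠ a := by
    intro g h
    have h1 : (g : K) • b = (g : K) • a := by
      rw [h, MulAction.mem_stabilizer_iff.1 g.2]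
    exact hba (smul_left_cancel _ h1)
  have hinj : Function.Injective
      (fun g : MulAction.stabilizer K a => (⟨(g : K) • b, hne g⟩ : {c : α // c ≠ a})) := by
    intro g g' hgg
    have e : (g : K) • b = (g' : K) • b := congrArg Subtype.val hgg
    have h1 : (g : K)⁻¹ * (g' : K) = 1 := by
      apply hS _ a b (Ne.symm hba)
      · rw [mul_smul, MulAction.mem_stabilizer_iff.1 g'.2, inv_smul_eq_iff,
          MulAction.mem_stabilizer_iff.1 g.2]
      · rw [mul_smul, ← e, inv_smul_smul]
    exact Subtype.ext (inv_mul_eq_one.1 h1)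
  have hsurj : Function.Surjective
      (fun g : MulAction.stabilizer K a => (⟨(g : K) • b, hne g⟩ : {c : α // c ≠ a})) := by
    rintro ⟨c, hc⟩
    obtain ⟨g, hga, hgb⟩ := hT a b a c (Ne.symm hba) (Ne.symm hc)
    exact ⟨⟨g, MulAction.mem_stabilizer_iff.2 hga⟩, Subtype.ext hgb⟩
  rw [Nat.card_congr (Equiv.ofBijective _ ⟨hinj, hsurj⟩), Nat.card_eq_fintype_card,
    Fintype.card_of_subtype (Finset.univ.erase a) (by intro x; simp),
    Finset.card_erase_of_mem (Finset.mem_univ a), Finset.card_univ]
  omega

include hT in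
theorem pretransitive [Fintype α] (h2 : 2 ≤ Fintype.card α) : MulAction.IsPretransitive K α := by
  classical
  constructor
  intro a c
  by_cases hac : a = c
  · exact ⟨1, by rw [one_smul, hac]⟩
  · obtain ⟨g, hga, -⟩ := hT a c c a hac (Ne.symm hac)
    exact ⟨g, hga⟩

include hT hS in
theorem card_group [Finite K] [Fintype α] [DecidableEq α] (h2 : 2 ≤ Fintype.card α) :
    Nat.card K = Fintype.card α * (Fintype.card α - 1) := by
  haveI := pretransitive (K := K) hT h2
  have hne : Nonempty α := by
    rw [← Fintype.card_pos_iff]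
    omega
  obtain ⟨a⟩ := hne
  have h1 := MulAction.index_stabilizer_of_transitive (G := K) (x := a)
  have h3 := Subgroup.index_mul_card (MulAction.stabilizer K a)
  have h4 := card_stabilizer hT hS h2 a
  rw [h1, Nat.card_eq_fintype_card (α := α)] at h3
  rw [← h3]
  congr 1
  omega

include hT hS in
theorem card_fpf_le [Fintype K] [Fintype α] [DecidableEq α] [DecidableEq K]
    (h2 : 2 ≤ Fintype.card α) :
    (Finset.univ.filter (fun g : K => ∀ c : α, g • c ≠ c)).card + 1 ≤ Fintype.card α := by
  have hne : Nonempty α := by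
    rw [← Fintype.card_pos_iff]
    omega
  obtain ⟨a₀⟩ := hne
  let Fp : Finset K := Finset.univ.filter (fun g : K => ∀ c : α, g • c ≠ c)
  let St : α → Finset K := fun c => (Finset.univ.filter (fun g : K => g • c = c)).erase 1
  have hSt : ∀ c : α, (St c).card = Fintype.card α - 2 := by
    intro c
    have h1 : (1 : K) ∈ Finset.univ.filter (fun g : K => g • c = c) := by simp
    rw [Finset.card_erase_of_mem h1]
    have h3 : (Finset.univ.filter (fun g : K => g • c = c)).card =
        Nat.card (MulAction.stabilizer K c) := by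
      rw [← Semireg.card_filter_mem (MulAction.stabilizer K c)]
      congr 1
    have := card_stabilizer hT hS h2 c
    omega
  have hdisj : ((Finset.univ : Finset α) : Set α).PairwiseDisjoint St := by
    intro c _ d _ hcd
    rw [Function.onFun, Finset.disjoint_left]
    intro g hg hg'
    rw [Finset.mem_erase, Finset.mem_filter] at hg hg'
    exact hg.1 (hS g c d hcd hg.2.2 hg'.2.2)
  have hU := Finset.card_biUnion hdisj
  rw [Finset.sum_congr rfl (fun c _ => hSt c), Finset.sum_const, smul_eq_mul,
    Finset.card_univ] at hU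
  have hd1 : Disjoint ({1} : Finset K) Fp := by
    rw [Finset.disjoint_singleton_left, Finset.mem_filter]
    rintro ⟨-, h⟩
    exact h a₀ (one_smul K a₀)
  have hd2 : Disjoint (({1} : Finset K) ∪ Fp) (Finset.univ.biUnion St) := by
    rw [Finset.disjoint_left]
    intro g hg hg'
    obtain ⟨c, -, hc⟩ := Finset.mem_biUnion.1 hg'
    rw [Finset.mem_erase, Finset.mem_filter] at hc
    rcases Finset.mem_union.1 hg with h | h
    · exact hc.1 (Finset.mem_singleton.1 h)
    · exact (Finset.mem_filter.1 h).2 c hc.2.2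
  have hle := Finset.card_le_univ ((({1} : Finset K) ∪ Fp) ∪ (Finset.univ.biUnion St))
  rw [Finset.card_union_of_disjoint hd2, Finset.card_union_of_disjoint hd1,
    Finset.card_singleton, hU] at hle
  have hK : Fintype.card K = Fintype.card α * (Fintype.card α - 1) := by
    rw [← Nat.card_eq_fintype_card]
    exact card_group hT hS h2
  rw [hK] at hle
  obtain ⟨m, hm⟩ : ∃ m, Fintype.card α = m + 2 := ⟨Fintype.card α - 2, by omega⟩
  rw [hm] at hle ⊢
  simp only [Nat.add_sub_cancel] at hle
  have e : (m + 2) * (m + 2 - 1) = (m + 2) * m + (m + 2) := by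
    have : m + 2 - 1 = m + 1 := by omega
    rw [this]
    ring
  rw [e] at hle
  show Fp.card + 1 ≤ m + 2
  omega

include hT hS in
theorem card_inv_moving [Fintype K] [Fintype α] [DecidableEq α] [DecidableEq K] (c : α) :
    ((Finset.univ.filter (fun t : K => t ≠ 1 ∧ t * t = 1)).filter
      (fun t => t • c ≠ c)).card = Fintype.card α - 1 := by
  rw [← Finset.card_univ, ← Finset.card_erase_of_mem (Finset.mem_univ c)]
  apply Finset.card_bij (fun t _ => t • c)
  · intro t ht
    rw [Finset.mem_filter] at ht
    exact Finset.mem_erase.2 ⟨ht.2, Finset.mem_univ _⟩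
  · intro t ht t' ht' htt
    rw [Finset.mem_filter, Finset.mem_filter] at ht ht'
    exact inv_unique hS ht.1.2.2 ht'.1.2.2 htt ht'.2
  · intro d hd
    have hcd : c ≠ d := fun h => (Finset.ne_of_mem_erase hd) h.symm
    obtain ⟨t, ht1, htt, htc, -⟩ := exists_swap hT hS hcd
    refine ⟨t, ?_, htc⟩
    rw [Finset.mem_filter, Finset.mem_filter]
    exact ⟨⟨Finset.mem_univ _, ht1, htt⟩, by rw [htc]; exact fun h => hcd h.symm⟩

end basic

end Cfsg.Agent.Lib.Helper2.Sharp2
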