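import Mathlib
import Cfsg.Agent.Lib.Helper2.Sharp2

set_option autoImplicit false

namespace Cfsg.Agent.Lib.Helper2.Sharp2

open Cfsg.Agent.Lib.Helper2

variable {K α : Type*} [Group K] [MulAction K α]

section cases

variable (hT : ∀ a b c d : α, a ≠ b → c ≠ d → ∃ g : K, g • a = c ∧ g • b = d)
  (hS : ∀ (g : K) (a b : α), a ≠ b → g • a = a → g • b = b → g = 1)

include hT hS in
theorem mul_closed_even [Fintype K] [Fintype α] [DecidableEq α] [DecidableEq K]
    (h2 : 2 ≤ Fintype.card α) (heven : Even (Fintype.card α)) :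
    (∀ k₁ k₂ : K, (∀ c : α, k₁ • c ≠ c) → (∀ c : α, k₂ • c ≠ c) →
      k₁ * k₂ = 1 ∨ ∀ c : α, (k₁ * k₂) • c ≠ c) ∧
    (Finset.univ.filter (fun g : K => ∀ c : α, g • c ≠ c)).card + 1 = Fintype.card α := by
  haveI : Fact (Nat.Prime 2) := ⟨Nat.prime_two⟩
  have hne : Nonempty α := by
    rw [← Fintype.card_pos_iff]
    omega
  obtain ⟨a⟩ := hne
  have hA0 : ∀ t ∈ Finset.univ.filter (fun t : K => t ≠ 1 ∧ t * t = 1), ∀ c : α, t • c ≠ c := by
    intro t ht
    rw [Finset.mem_filter] at ht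
    have ho : orderOf t = 2 := orderOf_eq_prime (by rw [pow_two]; exact ht.2.2) ht.2.1
    have h1 := Zass.card_fixedBy_modEq (Ω := α) t ho
    rw [card_fixedBy_eq_filter, Nat.card_eq_fintype_card] at h1
    have h3 := fix_le_one hS ht.2.1
    have h4 : (Finset.univ.filter (fun c : α => t • c = c)).card = 0 := by
      have h5 := Nat.even_iff.1 heven
      unfold Nat.ModEq at h1
      omega
    intro c hc
    have h6 : c ∈ Finset.univ.filter (fun c : α => t • c = c) :=
      Finset.mem_filter.2 ⟨Finset.mem_univ _, hc⟩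
    rw [Finset.card_eq_zero.1 h4] at h6
    exact absurd h6 (Finset.notMem_empty _)
  have hJcard : (Finset.univ.filter (fun t : K => t ≠ 1 ∧ t * t = 1)).card =
      Fintype.card α - 1 := by
    have h1 := card_inv_moving hT hS (K := K) a
    rw [Finset.filter_true_of_mem (fun t ht => hA0 t ht a)] at h1
    exact h1
  have hJF : Finset.univ.filter (fun t : K => t ≠ 1 ∧ t * t = 1) =
      Finset.univ.filter (fun g : K => ∀ c : α, g • c ≠ c) := by
    apply Finset.eq_of_subset_of_card_le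
    · intro t ht
      exact Finset.mem_filter.2 ⟨Finset.mem_univ _, hA0 t ht⟩
    · have := card_fpf_le hT hS (K := K) h2
      omega
  refine ⟨?_, ?_⟩
  · intro k₁ k₂ h₁ h₂
    have hk₁ : k₁ ∈ Finset.univ.filter (fun t : K => t ≠ 1 ∧ t * t = 1) := by
      rw [hJF]
      exact Finset.mem_filter.2 ⟨Finset.mem_univ _, h₁⟩
    have hk₂ : k₂ ∈ Finset.univ.filter (fun t : K => t ≠ 1 ∧ t * t = 1) := by
      rw [hJF]
      exact Finset.mem_filter.2 ⟨Finset.mem_univ _, h₂⟩
    rw [Finset.mem_filter] at hk₁ hk₂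
    by_cases h : ∀ c : α, (k₁ * k₂) • c ≠ c
    · right; exact h
    · left
      push Not at h
      obtain ⟨c, hc⟩ := h
      have h3 : k₁ • c = k₂ • c := by
        rw [mul_smul] at hc
        have h4 : k₁ • (k₁ • (k₂ • c)) = k₂ • c := by rw [← mul_smul, hk₁.2.2, one_smul]
        rw [hc] at h4
        exact h4
      have h5 := inv_unique hS hk₁.2.2 hk₂.2.2 h3 (h₂ c)
      rw [h5]
      exact hk₂.2.2
  · rw [← hJF, hJcard]
    omega

include hT hS in
theorem mul_closed_odd [Fintype K] [Fintype α] [DecidableEq α] [DecidableEq K]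
    (h2 : 2 ≤ Fintype.card α) (hodd : Odd (Fintype.card α)) :
    (∀ k₁ k₂ : K, (∀ c : α, k₁ • c ≠ c) → (∀ c : α, k₂ • c ≠ c) →
      k₁ * k₂ = 1 ∨ ∀ c : α, (k₁ * k₂) • c ≠ c) ∧
    (Finset.univ.filter (fun g : K => ∀ c : α, g • c ≠ c)).card + 1 = Fintype.card α := by
  haveI : Fact (Nat.Prime 2) := ⟨Nat.prime_two⟩
  have hne : Nonempty α := by
    rw [← Fintype.card_pos_iff]
    omega
  obtain ⟨a⟩ := hne
  set J : Finset K := Finset.univ.filter (fun t : K => t ≠ 1 ∧ t * t = 1) with hJ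
  set Fp : Finset K := Finset.univ.filter (fun g : K => ∀ c : α, g • c ≠ c) with hFp
  have hJmem : ∀ t : K, t ∈ J ↔ t ≠ 1 ∧ t * t = 1 := by
    intro t
    rw [hJ, Finset.mem_filter]
    exact ⟨fun h => h.2, fun h => ⟨Finset.mem_univ _, h⟩⟩
  have hB0 : ∀ t ∈ J, (Finset.univ.filter (fun c : α => t • c = c)).card = 1 := by
    intro t ht
    rw [hJmem] at ht
    have ho : orderOf t = 2 := orderOf_eq_prime (by rw [pow_two]; exact ht.2) ht.1
    have h1 := Zass.card_fixedBy_modEq (Ω := α) t ho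
    rw [card_fixedBy_eq_filter, Nat.card_eq_fintype_card] at h1
    have h3 := fix_le_one hS ht.1
    have h5 := Nat.odd_iff.1 hodd
    unfold Nat.ModEq at h1
    omega
  have hsum := Finset.sum_card_bipartiteAbove_eq_sum_card_bipartiteBelow (s := J)
    (t := (Finset.univ : Finset α)) (fun t c => t • c = c)
  unfold Finset.bipartiteAbove Finset.bipartiteBelow at hsum
  rw [Finset.sum_congr rfl hB0, Finset.sum_const, smul_eq_mul, mul_one] at hsum
  have hterm : ∀ c : α, (J.filter (fun t => t • c = c)).card + (Fintype.card α - 1) =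
      J.card := by
    intro c
    have h1 := Finset.card_filter_add_card_filter_not (s := J) (fun t => t • c = c)
    have h3 : (J.filter (fun t => ¬ t • c = c)).card = Fintype.card α - 1 :=
      card_inv_moving hT hS (K := K) c
    omega
  obtain ⟨k, hk⟩ : ∃ k, Fintype.card α = k + 1 := ⟨Fintype.card α - 1, by omega⟩
  have hk1 : 1 ≤ k := by omega
  have hge : k ≤ J.card := by
    have := hterm a
    rw [hk] at this
    simp only [Nat.add_sub_cancel] at this
    omega
  obtain ⟨m, hm'⟩ : ∃ m, J.card = k + m := ⟨J.card - k, by omega⟩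
  have hm : ∀ c : α, (J.filter (fun t => t • c = c)).card = m := by
    intro c
    have := hterm c
    rw [hk] at this
    simp only [Nat.add_sub_cancel] at this
    omega
  rw [Finset.sum_congr rfl (fun c _ => hm c), Finset.sum_const, smul_eq_mul, Finset.card_univ,
    hk, hm'] at hsum
  have hm1 : m = 1 := by
    have h1 : k * 1 = k * m := by
      have : (k + 1) * m = k * m + m := by ring
      omega
    exact (Nat.eq_of_mul_eq_mul_left hk1 h1).symm
  have hJn : J.card = Fintype.card α := by rw [hm', hm1, hk]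
  have hB3 : ∀ s ∈ J, ∀ t ∈ J, ∀ c : α, s • c = c → t • c = c → s = t := by
    intro s hs t ht c hsc htc
    have h0 := hm c
    rw [hm1] at h0
    obtain ⟨u, hu⟩ := Finset.card_eq_one.1 h0
    have h1 : s ∈ J.filter (fun t => t • c = c) := Finset.mem_filter.2 ⟨hs, hsc⟩
    have h2 : t ∈ J.filter (fun t => t • c = c) := Finset.mem_filter.2 ⟨ht, htc⟩
    rw [hu, Finset.mem_singleton] at h1 h2
    rw [h1, h2]
  have hB4 : ∀ s ∈ J, ∀ t ∈ J, s * t = 1 ∨ ∀ c : α, (s * t) • c ≠ c := by
    intro s hs t ht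
    by_cases h : ∀ c : α, (s * t) • c ≠ c
    · right; exact h
    · left
      push Not at h
      obtain ⟨c, hc⟩ := h
      have hs' := (hJmem s).1 hs
      have ht' := (hJmem t).1 ht
      have h3 : s • c = t • c := by
        rw [mul_smul] at hc
        have h4 : s • (s • (t • c)) = t • c := by rw [← mul_smul, hs'.2, one_smul]
        rw [hc] at h4
        exact h4
      have hst : s = t := by
        by_cases htc : t • c = c
        · exact hB3 s hs t ht c (by rw [h3, htc]) htc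
        · exact inv_unique hS hs'.2 ht'.2 h3 htc
      rw [hst]
      exact ht'.2
  have h1F : (1 : K) ∉ Fp := by
    rw [hFp, Finset.mem_filter]
    rintro ⟨-, h⟩
    exact h a (one_smul K a)
  have hNfcard : (insert 1 Fp).card = Fp.card + 1 := Finset.card_insert_of_notMem h1F
  have hsub : ∀ s ∈ J, J.image (fun t => s * t) ⊆ insert 1 Fp := by
    intro s hs x hx
    obtain ⟨t, ht, rfl⟩ := Finset.mem_image.1 hx
    rcases hB4 s hs t ht with h | h
    · rw [h]
      exact Finset.mem_insert_self _ _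
    · exact Finset.mem_insert_of_mem (Finset.mem_filter.2 ⟨Finset.mem_univ _, h⟩)
  have hfle : Fp.card + 1 ≤ Fintype.card α := card_fpf_le hT hS (K := K) h2
  have himg : ∀ s ∈ J, J.image (fun t => s * t) = insert 1 Fp := by
    intro s hs
    apply Finset.eq_of_subset_of_card_le (hsub s hs)
    rw [Finset.card_image_of_injective _ (mul_right_injective s), hNfcard, hJn]
    exact hfle
  have hB5 : ∀ s ∈ J, ∀ x ∈ insert 1 Fp, ∃ t ∈ J, x = s * t := by
    intro s hs x hx
    rw [← himg s hs] at hx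
    obtain ⟨t, ht, rfl⟩ := Finset.mem_image.1 hx
    exact ⟨t, ht, rfl⟩
  obtain ⟨b, hba⟩ := Fintype.exists_ne_of_one_lt_card (by omega : 1 < Fintype.card α) a
  obtain ⟨s₀, hs₀1, hs₀s, -, -⟩ := exists_swap hT hS (Ne.symm hba)
  have hs₀ : s₀ ∈ J := (hJmem s₀).2 ⟨hs₀1, hs₀s⟩
  refine ⟨?_, ?_⟩
  · intro k₁ k₂ h₁ h₂
    have hk₁ : k₁ ∈ insert 1 Fp :=
      Finset.mem_insert_of_mem (Finset.mem_filter.2 ⟨Finset.mem_univ _, h₁⟩)
    have hk₂ : k₂ ∈ insert 1 Fp :=
      Finset.mem_insert_of_mem (Finset.mem_filter.2 ⟨Finset.mem_univ _, h₂⟩)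
    obtain ⟨t₁, ht₁, rfl⟩ := hB5 s₀ hs₀ k₁ hk₁
    obtain ⟨t₂, ht₂, rfl⟩ := hB5 t₁ ht₁ k₂ hk₂
    have e : s₀ * t₁ * (t₁ * t₂) = s₀ * t₂ := by
      rw [mul_assoc, ← mul_assoc t₁ t₁ t₂, ((hJmem t₁).1 ht₁).2, one_mul]
    rw [e]
    exact hB4 s₀ hs₀ t₂ ht₂
  · have h3 := Finset.card_le_card (hsub s₀ hs₀)
    rw [Finset.card_image_of_injective _ (mul_right_injective s₀), hNfcard, hJn] at h3
    show Fp.card + 1 = Fintype.card α
    omega

include hT hS in
theorem mul_closed [Fintype K] [Fintype α] [DecidableEq α] [DecidableEq K]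
    (h2 : 2 ≤ Fintype.card α) :
    (∀ k₁ k₂ : K, (∀ c : α, k₁ • c ≠ c) → (∀ c : α, k₂ • c ≠ c) →
      k₁ * k₂ = 1 ∨ ∀ c : α, (k₁ * k₂) • c ≠ c) ∧
    (Finset.univ.filter (fun g : K => ∀ c : α, g • c ≠ c)).card + 1 = Fintype.card α := by
  rcases Nat.even_or_odd (Fintype.card α) with h | h
  · exact mul_closed_even hT hS h2 h
  · exact mul_closed_odd hT hS h2 h

end cases

def kernel (hmul : ∀ k₁ k₂ : K, (∀ c : α, k₁ • c ≠ c) → (∀ c : α, k₂ • c ≠ c) →
    k₁ * k₂ = 1 ∨ ∀ c : α, (k₁ * k₂) • c ≠ c) : Subgroup K where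
  carrier := {g | g = 1 ∨ ∀ c : α, g • c ≠ c}
  one_mem' := Or.inl rfl
  mul_mem' := by
    rintro x y (rfl | hx) (rfl | hy)
    · left; simp
    · right; simpa using hy
    · right; simpa using hx
    · exact hmul x y hx hy
  inv_mem' := by
    rintro x (rfl | hx)
    · left; simp
    · right
      intro c hc
      apply hx c
      rw [inv_smul_eq_iff] at hc
      exact hc.symm

theorem main [Finite K] [Fintype α] [DecidableEq α]
    (hT : ∀ a b c d : α, a ≠ b → c ≠ d → ∃ g : K, g • a = c ∧ g • b = d)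
    (hS : ∀ (g : K) (a b : α), a ≠ b → g • a = a → g • b = b → g = 1)
    (h2 : 2 ≤ Fintype.card α) :
    ∃ N : Subgroup K, N.Normal ∧ (∀ g : K, g ∈ N ↔ g = 1 ∨ ∀ c : α, g • c ≠ c) ∧
      Nat.card N = Fintype.card α ∧ (∀ u ∈ N, ∀ v ∈ N, u * v = v * u) ∧
      (∃ p : ℕ, p.Prime ∧ ∀ u ∈ N, u ^ p = 1) ∧ (∀ a b : α, ∃ k ∈ N, k • a = b) := by
  classical
  haveI : Fintype K := Fintype.ofFinite K
  obtain ⟨hmul, hcard⟩ := mul_closed hT hS (K := K) h2
  have hmem : ∀ g : K, g ∈ kernel hmul ↔ g = 1 ∨ ∀ c : α, g • c ≠ c := fun g => Iff.rfl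
  have hNnorm : (kernel hmul).Normal := by
    constructor
    intro n hn g
    rcases (hmem n).1 hn with rfl | h
    · rw [hmem]; left; simp
    · rw [hmem]; right
      intro c hc
      apply h (g⁻¹ • c)
      rw [mul_smul, mul_smul] at hc
      exact eq_inv_smul_iff.2 hc
  have hne : Nonempty α := by
    rw [← Fintype.card_pos_iff]
    omega
  obtain ⟨a⟩ := hne
  have hNcard : Nat.card (kernel hmul) = Fintype.card α := by
    rw [← Semireg.card_filter_mem (kernel hmul), ← hcard]
    have e : Finset.univ.filter (fun g : K => g ∈ kernel hmul) =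
        insert 1 (Finset.univ.filter (fun g : K => ∀ c : α, g • c ≠ c)) := by
      ext g
      rw [Finset.mem_filter, Finset.mem_insert, Finset.mem_filter, hmem]
      simp
    rw [e, Finset.card_insert_of_notMem]
    rw [Finset.mem_filter]
    rintro ⟨-, h⟩
    exact h a (one_smul K a)
  have hnorm : ∀ h ∈ MulAction.stabilizer K a, ∀ u ∈ kernel hmul, h * u * h⁻¹ ∈ kernel hmul :=
    fun h _ u hu => hNnorm.conj_mem u hu h
  have hsemi : ∀ h ∈ MulAction.stabilizer K a, ∀ u ∈ kernel hmul, u ≠ 1 →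
      h * u * h⁻¹ = u → h = 1 := by
    intro h hh u hu hu1 hc
    have hfp : ∀ c : α, u • c ≠ c := ((hmem u).1 hu).resolve_left hu1
    have hha : h • a = a := MulAction.mem_stabilizer_iff.1 hh
    apply hS h a (u • a) (Ne.symm (hfp a)) hha
    have e : h * u = u * h := mul_inv_eq_iff_eq_mul.1 hc
    rw [← mul_smul, e, mul_smul, hha]
  have hcard' : Nat.card (kernel hmul) ≤ 2 * Nat.card (MulAction.stabilizer K a) + 1 := by
    have := card_stabilizer hT hS h2 a
    omega
  have hNne : kernel hmul ≠ ⊥ := by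
    intro h
    rw [h, Subgroup.card_bot] at hNcard
    omega
  have hcomm := Semireg.comm_of_semiregular _ (kernel hmul) hnorm hsemi hcard' hNne
  have hexp := Semireg.exponent_of_semiregular _ (kernel hmul) hnorm hsemi hcard' hNne
  have hreg : ∀ a b : α, ∃ k ∈ kernel hmul, k • a = b := by
    intro a b
    have hinj : Function.Injective (fun k : kernel hmul => (k : K) • a) := by
      intro k k' hkk
      have hkk' : (k : K) • a = (k' : K) • a := hkk
      have h1 : ((k' : K)⁻¹ * (k : K)) • a = a := by rw [mul_smul, hkk', inv_smul_smul]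
      have h3 : (k' : K)⁻¹ * (k : K) ∈ kernel hmul :=
        Subgroup.mul_mem _ (Subgroup.inv_mem _ k'.2) k.2
      rcases (hmem _).1 h3 with h | h
      · exact Subtype.ext (inv_mul_eq_one.1 h).symm
      · exact absurd h1 (h a)
    have hbij := hinj.bijective_of_nat_card_le (by rw [hNcard, Nat.card_eq_fintype_card])
    obtain ⟨k, hk⟩ := hbij.2 b
    exact ⟨k, k.2, hk⟩
  exact ⟨kernel hmul, hNnorm, hmem, hNcard, hcomm, hexp, hreg⟩

end Cfsg.Agent.Lib.Helper2.Sharp2
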