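import Mathlib
import Cfsg.Agent.Lib.Helper2.Sharp2b

set_option autoImplicit false

namespace Cfsg.Agent.Lib.Helper2.Sharp2

open Cfsg.Agent.Lib.Helper2

variable {K α : Type*} [Group K] [MulAction K α]

theorem nearfield_data [Finite K] [Fintype α] [DecidableEq α]
    (hT : ∀ a b c d : α, a ≠ b → c ≠ d → ∃ g : K, g • a = c ∧ g • b = d)
    (hS : ∀ (g : K) (a b : α), a ≠ b → g • a = a → g • b = b → g = 1)
    (h2 : 2 ≤ Fintype.card α) :
    ∃ (z e : α) (τ μ : α → K), z ≠ e ∧ (∀ x, τ x • z = x) ∧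
      (∀ x y, τ (τ y • x) = τ y * τ x) ∧ τ z = 1 ∧
      (∀ a, a ≠ z → μ a • e = a ∧ μ a • z = z) ∧
      (∀ a b, a ≠ z → b ≠ z → μ (μ b • a) = μ b * μ a) ∧ μ e = 1 ∧
      (∀ c y, c ≠ z → τ (μ c • y) = μ c * τ y * (μ c)⁻¹) ∧
      (∀ g : K, ∃ a b, a ≠ z ∧ g = τ b * μ a) := by
  obtain ⟨N, hNn, hmem, -, -, -, hreg⟩ := main hT hS h2
  have hne : Nonempty α := by
    rw [← Fintype.card_pos_iff]
    omega
  obtain ⟨z⟩ := hne
  obtain ⟨e, hez⟩ := Fintype.exists_ne_of_one_lt_card (by omega : 1 < Fintype.card α) z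
  have huN : ∀ k ∈ N, ∀ k' ∈ N, ∀ a : α, k • a = k' • a → k = k' := by
    intro k hk k' hk' a hkk
    have h1 : (k'⁻¹ * k) • a = a := by rw [mul_smul, hkk, inv_smul_smul]
    rcases (hmem _).1 (N.mul_mem (N.inv_mem hk') hk) with h | h
    · exact (inv_mul_eq_one.1 h).symm
    · exact absurd h1 (h a)
  have huS : ∀ m m' : K, m • z = z → m' • z = z → m • e = m' • e → m = m' := by
    intro m m' hm hm' hmm
    have h1 : m'⁻¹ * m = 1 := by
      apply hS _ z e (Ne.symm hez)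
      · rw [mul_smul, hm, inv_smul_eq_iff, hm']
      · rw [mul_smul, hmm, inv_smul_smul]
    exact (inv_mul_eq_one.1 h1).symm
  have hτex : ∀ x : α, ∃ k : K, k ∈ N ∧ k • z = x := fun x => by
    obtain ⟨k, hk, hkz⟩ := hreg z x
    exact ⟨k, hk, hkz⟩
  choose τ hτN hτ using hτex
  have hμex : ∀ a : α, ∃ m : K, a ≠ z → (m • z = z ∧ m • e = a) := by
    intro a
    by_cases ha : a = z
    · exact ⟨1, fun h => absurd ha h⟩
    · obtain ⟨m, hmz, hme⟩ := hT z e z a (Ne.symm hez) (Ne.symm ha)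
      exact ⟨m, fun _ => ⟨hmz, hme⟩⟩
  choose μ hμ using hμex
  refine ⟨z, e, τ, μ, Ne.symm hez, hτ, ?_, ?_, ?_, ?_, ?_, ?_, ?_⟩
  · intro x y
    apply huN _ (hτN _) _ (N.mul_mem (hτN y) (hτN x)) z
    rw [hτ, mul_smul, hτ]
  · exact huN _ (hτN z) _ N.one_mem z (by rw [hτ, one_smul])
  · intro a ha
    exact ⟨(hμ a ha).2, (hμ a ha).1⟩
  · intro a b ha hb
    have hne : μ b • a ≠ z := by
      intro h
      apply ha
      have h1 : μ b • a = μ b • z := by rw [h, (hμ b hb).1]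
      exact smul_left_cancel _ h1
    apply huS _ _ (hμ _ hne).1
    · rw [mul_smul, (hμ a ha).1, (hμ b hb).1]
    · rw [(hμ _ hne).2, mul_smul, (hμ a ha).2]
  · apply huS _ _ (hμ e hez).1 (one_smul K z)
    rw [(hμ e hez).2, one_smul]
  · intro c y hc
    apply huN _ (hτN _) _ (hNn.conj_mem _ (hτN y) _) z
    have h1 : (μ c)⁻¹ • z = z := by rw [inv_smul_eq_iff, (hμ c hc).1]
    rw [hτ, mul_smul, mul_smul, h1, hτ]
  · intro g
    have hz : ((τ (g • z))⁻¹ * g) • z = z := by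
      rw [mul_smul, inv_smul_eq_iff, hτ]
    have hne : ((τ (g • z))⁻¹ * g) • e ≠ z := by
      intro h
      apply hez
      have h1 : ((τ (g • z))⁻¹ * g) • e = ((τ (g • z))⁻¹ * g) • z := by rw [h, hz]
      exact smul_left_cancel _ h1
    refine ⟨((τ (g • z))⁻¹ * g) • e, g • z, hne, ?_⟩
    have h3 : μ (((τ (g • z))⁻¹ * g) • e) = (τ (g • z))⁻¹ * g :=
      huS _ _ (hμ _ hne).1 hz (hμ _ hne).2
    rw [h3, mul_inv_cancel_left]

end Cfsg.Agent.Lib.Helper2.Sharp2
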