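import Mathlib
import Cfsg.Prelude.Def_Perm
import Cfsg.Agent.Lib.Helper2.Sharp2c

set_option autoImplicit false

namespace Cfsg.Agent.Lib.Helper2.Sharp2

open Cfsg.Agent.Lib.Helper2

variable {K α : Type*} [Group K] [MulAction K α]

theorem nearfield_of_data [DecidableEq α] (z e : α) (τ μ : α → K) (hze : z ≠ e)
    (hτ : ∀ x, τ x • z = x) (hτ2 : ∀ x y, τ (τ y • x) = τ y * τ x) (hτz : τ z = 1)
    (hμ : ∀ a, a ≠ z → μ a • e = a ∧ μ a • z = z)
    (hμ2 : ∀ a b, a ≠ z → b ≠ z → μ (μ b • a) = μ b * μ a) (hμe : μ e = 1)
    (hd : ∀ c y, c ≠ z → τ (μ c • y) = μ c * τ y * (μ c)⁻¹) :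
    ∃ _ : Cfsg.NearField α, (0 : α) = z ∧ ∀ x a b : α, a ≠ z → x * a + b = τ b • (μ a • x) := by
  letI iAdd : Add α := ⟨fun x y => τ y • x⟩
  letI iZero : Zero α := ⟨z⟩
  letI iNeg : Neg α := ⟨fun x => (τ x)⁻¹ • z⟩
  letI ag : AddGroup α := AddGroup.ofLeftAxioms
    (by
      intro a b c
      show τ c • (τ b • a) = τ (τ c • b) • a
      rw [hτ2, mul_smul])
    (by
      intro a
      show τ a • z = a
      exact hτ a)
    (by
      intro a
      show τ a • ((τ a)⁻¹ • z) = z
      rw [smul_inv_smul])
  letI mo : Monoid α :=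
    { mul := fun x a => if a = z then z else μ a • x
      one := e
      mul_assoc := by
        intro x a b
        show (if b = z then z else μ b • (if a = z then z else μ a • x)) =
          (if (if b = z then z else μ b • a) = z then z
            else μ (if b = z then z else μ b • a) • x)
        by_cases hb : b = z
        · rw [if_pos hb, if_pos hb, if_pos rfl]
        · rw [if_neg hb, if_neg hb]
          by_cases ha : a = z
          · rw [if_pos ha, ha, (hμ b hb).2, if_pos rfl]
          · have hne : μ b • a ≠ z := by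
              intro h
              apply ha
              have h1 : μ b • a = μ b • z := by rw [h, (hμ b hb).2]
              exact smul_left_cancel _ h1
            rw [if_neg ha, if_neg hne, hμ2 a b ha hb, mul_smul]
      one_mul := by
        intro a
        show (if a = z then z else μ a • e) = a
        by_cases ha : a = z
        · rw [if_pos ha, ha]
        · rw [if_neg ha, (hμ a ha).1]
      mul_one := by
        intro x
        show (if e = z then z else μ e • x) = x
        rw [if_neg (Ne.symm hze), hμe, one_smul] }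
  refine ⟨@Cfsg.NearField.mk α ag mo ?_ ?_ ?_ ?_, rfl, ?_⟩
  · intro x y c
    show (if c = z then z else μ c • (τ y • x)) =
      τ (if c = z then z else μ c • y) • (if c = z then z else μ c • x)
    by_cases hc : c = z
    · rw [if_pos hc, if_pos hc, if_pos hc, hτz, one_smul]
    · rw [if_neg hc, if_neg hc, if_neg hc, hd c y hc, mul_smul, mul_smul, inv_smul_smul]
  · intro a
    show (if z = z then z else μ z • a) = z
    rw [if_pos rfl]
  · show z ≠ e
    exact hze
  · intro a ha
    have ha' : a ≠ z := ha
    have hb : (μ a)⁻¹ • e ≠ z := by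
      intro h
      apply hze
      rw [inv_smul_eq_iff, (hμ a ha').2] at h
      exact h.symm
    refine ⟨(μ a)⁻¹ • e, ?_, ?_⟩
    · show (if (μ a)⁻¹ • e = z then z else μ ((μ a)⁻¹ • e) • a) = e
      rw [if_neg hb]
      have h1 := hμ2 _ a hb ha'
      rw [smul_inv_smul, hμe] at h1
      have h2 : μ ((μ a)⁻¹ • e) = (μ a)⁻¹ := eq_inv_of_mul_eq_one_right h1.symm
      rw [h2, inv_smul_eq_iff, (hμ a ha').1]
    · show (if a = z then z else μ a • ((μ a)⁻¹ • e)) = e
      rw [if_neg ha', smul_inv_smul]
  · intro x a b ha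
    show τ b • (if a = z then z else μ a • x) = τ b • (μ a • x)
    rw [if_neg ha]

end Cfsg.Agent.Lib.Helper2.Sharp2
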