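import Mathlib
import Cfsg.Prelude.Def_Local

set_option autoImplicit false

namespace Cfsg.Agent.Lib.Helper2.SigEx

open Cfsg

theorem zp {G : Type*} [Group G] (u : G) (hu : u ^ 3 = 1) (g : G) :
    g ∈ Subgroup.zpowers u ↔ g = 1 ∨ g = u ∨ g = u ^ 2 := by
  constructor
  · rintro ⟨k, rfl⟩
    have hu' : u ^ (3 : ℤ) = 1 := by
      have : u ^ ((3 : ℕ) : ℤ) = 1 := by rw [zpow_natCast, hu]
      exact this
    have e : u ^ k = u ^ (k % 3) := by
      conv_lhs => rw [← Int.emod_add_mul_ediv k 3]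
      rw [zpow_add, zpow_mul, hu', one_zpow, mul_one]
    have h3 : k % 3 = 0 ∨ k % 3 = 1 ∨ k % 3 = 2 := by omega
    show u ^ k = 1 ∨ u ^ k = u ∨ u ^ k = u ^ 2
    rw [e]
    rcases h3 with h | h | h
    · left; rw [h, zpow_zero]
    · right; left; rw [h, zpow_one]
    · right; right; rw [h]; exact zpow_natCast u 2
  · rintro (rfl | rfl | rfl)
    · exact Subgroup.one_mem _
    · exact Subgroup.mem_zpowers _
    · exact Subgroup.pow_mem _ (Subgroup.mem_zpowers _) 2

theorem zp_comm {G : Type*} [Group G] (u : G) : ∀ g h : Subgroup.zpowers u, g * h = h * g := by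
  rintro ⟨g, hg⟩ ⟨h, hh⟩
  obtain ⟨i, rfl⟩ := Subgroup.mem_zpowers_iff.1 hg
  obtain ⟨j, rfl⟩ := Subgroup.mem_zpowers_iff.1 hh
  apply Subtype.ext
  show u ^ i * u ^ j = u ^ j * u ^ i
  rw [← zpow_add, ← zpow_add, add_comm]

abbrev X := Equiv.Perm (Fin 5)

def a : X := Equiv.swap 3 4
def b : X := Equiv.swap 1 2
def x : X := Equiv.swap 0 1 * Equiv.swap 1 2
def y : X := Equiv.swap 0 3 * Equiv.swap 3 4

def A : Subgroup X where
  carrier := {g | g = 1 ∨ g = a ∨ g = b ∨ g = a * b}
  mul_mem' := by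
    rintro _ _ (rfl | rfl | rfl | rfl) (rfl | rfl | rfl | rfl) <;>
      show _ = 1 ∨ _ = a ∨ _ = b ∨ _ = a * b <;> decide
  one_mem' := Or.inl rfl
  inv_mem' := by
    rintro _ (rfl | rfl | rfl | rfl) <;>
      show _ = 1 ∨ _ = a ∨ _ = b ∨ _ = a * b <;> decide

theorem memA (g : X) : g ∈ A ↔ g = 1 ∨ g = a ∨ g = b ∨ g = a * b := Iff.rfl

def θ : X → Subgroup X := fun g =>
  if g = a then Subgroup.zpowers x else if g = b then Subgroup.zpowers y else ⊥

theorem ta : θ a = Subgroup.zpowers x := if_pos rfl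

theorem tb : θ b = Subgroup.zpowers y := by
  unfold θ
  rw [if_neg (by decide), if_pos rfl]

theorem tab : θ (a * b) = ⊥ := by
  unfold θ
  rw [if_neg (by decide), if_neg (by decide)]

theorem x3 : x ^ 3 = 1 := by decide
theorem y3 : y ^ 3 = 1 := by decide

theorem ordx : orderOf x = 3 := by
  haveI : Fact (Nat.Prime 3) := ⟨by norm_num⟩
  exact orderOf_eq_prime x3 (by decide)

theorem ordy : orderOf y = 3 := by
  haveI : Fact (Nat.Prime 3) := ⟨by norm_num⟩
  exact orderOf_eq_prime y3 (by decide)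

theorem aA : a ∈ A := Or.inr (Or.inl rfl)
theorem bA : b ∈ A := Or.inr (Or.inr (Or.inl rfl))
theorem abA : a * b ∈ A := Or.inr (Or.inr (Or.inr rfl))

theorem hx_b : ∀ g, g ∈ Subgroup.zpowers x → b * g = g * b → g = 1 := by
  intro g hg
  rw [zp x x3] at hg
  rcases hg with rfl | rfl | rfl <;> decide

theorem hx_ab : ∀ g, g ∈ Subgroup.zpowers x → (a * b) * g = g * (a * b) → g = 1 := by
  intro g hg
  rw [zp x x3] at hg
  rcases hg with rfl | rfl | rfl <;> decide

theorem hy_a : ∀ g, g ∈ Subgroup.zpowers y → a * g = g * a → g = 1 := by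
  intro g hg
  rw [zp y y3] at hg
  rcases hg with rfl | rfl | rfl <;> decide

theorem hy_ab : ∀ g, g ∈ Subgroup.zpowers y → (a * b) * g = g * (a * b) → g = 1 := by
  intro g hg
  rw [zp y y3] at hg
  rcases hg with rfl | rfl | rfl <;> decide

theorem conj_x : ∀ c ∈ A, ∀ g ∈ Subgroup.zpowers x, c * g * c⁻¹ ∈ Subgroup.zpowers x := by
  intro c hc g hg
  rw [zp x x3] at hg ⊢
  rcases hc with rfl | rfl | rfl | rfl <;> rcases hg with rfl | rfl | rfl <;> decide

theorem conj_y : ∀ c ∈ A, ∀ g ∈ Subgroup.zpowers y, c * g * c⁻¹ ∈ Subgroup.zpowers y := by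
  intro c hc g hg
  rw [zp y y3] at hg ⊢
  rcases hc with rfl | rfl | rfl | rfl <;> rcases hg with rfl | rfl | rfl <;> decide

theorem cent_mem {c g : X} (h : g ∈ Subgroup.centralizer ({c} : Set X)) : c * g = g * c :=
  Subgroup.mem_centralizer_iff.1 h c rfl

theorem sig : IsSignalizerFunctor 2 A θ := by
  refine ⟨?_, ?_, ?_, ?_⟩
  · intro c hc hne
    rcases hc with rfl | rfl | rfl | rfl
    · exact absurd rfl hne
    · rw [ta, Subgroup.zpowers_le, Subgroup.mem_centralizer_iff]
      intro h hh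
      rw [Set.mem_singleton_iff.1 hh]
      decide
    · rw [tb, Subgroup.zpowers_le, Subgroup.mem_centralizer_iff]
      intro h hh
      rw [Set.mem_singleton_iff.1 hh]
      decide
    · rw [tab]
      exact bot_le
  · intro c hc hne
    rcases hc with rfl | rfl | rfl | rfl
    · exact absurd rfl hne
    · rw [ta, Nat.card_zpowers, ordx]
      decide
    · rw [tb, Nat.card_zpowers, ordy]
      decide
    · rw [tab, Subgroup.card_bot]
      decide
  · intro c hc hne
    rcases hc with rfl | rfl | rfl | rfl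
    · exact absurd rfl hne
    · rw [ta]
      exact conj_x
    · rw [tb]
      exact conj_y
    · rw [tab]
      intro d _ g hg
      rw [Subgroup.mem_bot] at hg ⊢
      rw [hg, mul_one, mul_inv_cancel]
  · intro c hc hne d hd hdne g hg
    have hg1 : g ∈ θ c := hg.1
    have hg2 := cent_mem hg.2
    rcases hc with rfl | rfl | rfl | rfl
    · exact absurd rfl hne
    · rcases hd with rfl | rfl | rfl | rfl
      · exact absurd rfl hdne
      · exact hg1
      · rw [ta] at hg1
        rw [hx_b g hg1 hg2]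
        exact Subgroup.one_mem _
      · rw [ta] at hg1
        rw [hx_ab g hg1 hg2]
        exact Subgroup.one_mem _
    · rcases hd with rfl | rfl | rfl | rfl
      · exact absurd rfl hdne
      · rw [tb] at hg1
        rw [hy_a g hg1 hg2]
        exact Subgroup.one_mem _
      · exact hg1
      · rw [tb] at hg1
        rw [hy_ab g hg1 hg2]
        exact Subgroup.one_mem _
    · rw [tab, Subgroup.mem_bot] at hg1
      rw [hg1]
      exact Subgroup.one_mem _

theorem main : ∃ (X : Type) (_ : Group X) (_ : Finite X) (A : Subgroup X) (θ : X → Subgroup X),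
    IsElementaryAbelian 2 A ∧ Nat.card ↥A = 4 ∧ IsSolvableSignalizerFunctor 2 A θ ∧
      ¬ IsCompleteSignalizerFunctor 2 A θ := by
  refine ⟨X, inferInstance, inferInstance, A, θ, ⟨⟨⟨?_⟩⟩, ?_⟩, ?_, ⟨sig, ?_⟩, ?_⟩
  · rintro ⟨g, hg⟩ ⟨h, hh⟩
    apply Subtype.ext
    show g * h = h * g
    rcases hg with rfl | rfl | rfl | rfl <;> rcases hh with rfl | rfl | rfl | rfl <;> decide
  · intro g hg
    rcases hg with rfl | rfl | rfl | rfl <;> decide
  · have h1 : (A : Set X) = ((({1, a, b, a * b} : Finset X)) : Set X) := by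
      ext g
      simp [memA]
    show Nat.card (A : Set X) = 4
    rw [Nat.card_coe_set_eq, h1, Set.ncard_coe_finset]
    decide
  · intro c hc hne
    rcases hc with rfl | rfl | rfl | rfl
    · exact absurd rfl hne
    · rw [ta]
      exact Group.isSolvable_of_comm (zp_comm x)
    · rw [tb]
      exact Group.isSolvable_of_comm (zp_comm y)
    · rw [tab]
      exact Group.isSolvable_of_comm (fun g h => Subsingleton.elim _ _)
  · rintro ⟨_, W, _, hW2, hWc⟩
    have hxW : x ∈ W := by
      have h1 := hWc a aA (by decide)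
      rw [ta] at h1
      have h2 : x ∈ W ⊓ Subgroup.centralizer ({a} : Set X) := by
        rw [h1]
        exact Subgroup.mem_zpowers x
      exact h2.1
    have hyW : y ∈ W := by
      have h1 := hWc b bA (by decide)
      rw [tb] at h1
      have h2 : y ∈ W ⊓ Subgroup.centralizer ({b} : Set X) := by
        rw [h1]
        exact Subgroup.mem_zpowers y
      exact h2.1
    have hw : x * y * x * y⁻¹ ∈ W := W.mul_mem (W.mul_mem (W.mul_mem hxW hyW) hxW) (W.inv_mem hyW)
    have ho : orderOf (x * y * x * y⁻¹) = 2 := orderOf_eq_prime (by decide) (by decide)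
    apply hW2
    exact (dvd_of_eq ho.symm).trans (Subgroup.orderOf_dvd_natCard W hw)

end Cfsg.Agent.Lib.Helper2.SigEx
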