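import Mathlib
import Cfsg.Agent.Lib.Helper2.SmallSupp

set_option autoImplicit false

namespace Cfsg.Agent.Lib.Helper2.SmallSupp

open Equiv Equiv.Perm
open Cfsg.Agent.Lib.Helper2.Generous (app_inv inv_app)

variable {α : Type*} [Fintype α] [DecidableEq α]

theorem case_small (G : Subgroup (Perm α)) {k : ℕ} (hk : 3 ≤ k) (hkn : k ≤ Fintype.card α)
    (hG : MulAction.IsMultiplyPretransitive G α k) (g : Perm α) (hg : g ∈ G) (hg1 : g ≠ 1)
    (hm : g.support.card ≤ k) : ∃ h ∈ G, h ≠ 1 ∧ h.support.card ≤ 3 := by
  by_cases huniv : g.support = Finset.univ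
  · have hn : Fintype.card α ≤ k := by
      rw [← Finset.card_univ, ← huniv]
      exact hm
    obtain ⟨a, b, hab⟩ : ∃ a b : α, a ≠ b :=
      Fintype.exists_pair_of_one_lt_card (by omega)
    obtain ⟨h, hh, hhs⟩ := ext_of_trans G hkn hG Finset.univ
      (by rw [Finset.card_univ]; exact hn) (swap a b)
    have e : h = swap a b := Equiv.ext (fun d => hhs d (Finset.mem_univ d))
    refine ⟨h, hh, ?_, ?_⟩
    · rw [e]
      exact fun h1 => hab (swap_eq_one_iff.1 h1)
    · rw [e, card_support_swap hab]
      omega
  · obtain ⟨e, he⟩ : ∃ e, e ∉ g.support := by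
      by_contra hcon
      push Not at hcon
      exact huniv (Finset.eq_univ_iff_forall.2 hcon)
    obtain ⟨b, hb⟩ : ∃ b, b ∈ g.support := by
      by_contra hcon
      push Not at hcon
      exact hg1 (Perm.support_eq_empty_iff.1 (Finset.eq_empty_of_forall_notMem hcon))
    obtain ⟨h, hh, hhs⟩ := ext_of_trans G hkn hG g.support hm (swap b e)
    have hfix : ∀ d ∈ g.support.erase b, h d = d := by
      intro d hd
      rw [Finset.mem_erase] at hd
      rw [hhs d hd.2, swap_apply_of_ne_of_ne hd.1 (fun h1 => he (by rw [← h1]; exact hd.2))]
    have hxs : g⁻¹ b ∈ g.support := by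
      rw [← Perm.apply_mem_support, app_inv]
      exact hb
    have hxb : g⁻¹ b ≠ b := by
      intro h1
      rw [Perm.inv_eq_iff_eq] at h1
      exact (Perm.mem_support.1 hb) h1.symm
    refine ⟨g⁻¹ * (h * g * h⁻¹),
      G.mul_mem (G.inv_mem hg) (G.mul_mem (G.mul_mem hh hg) (G.inv_mem hh)), ?_, ?_⟩
    · apply ne_one_of g h (g⁻¹ b)
      · exact hfix _ (Finset.mem_erase.2 ⟨hxb, hxs⟩)
      · rw [app_inv, hhs b hb, swap_apply_left]
        intro h1
        rw [h1] at he
        exact he hb
    · have hbound := supp_bound g h (g.support.erase b) (g.support.erase b)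
        (Finset.erase_subset _ _) hfix (Finset.erase_subset _ _) (by
          intro d hd
          rw [hfix d hd]
          exact (Finset.mem_erase.1 hd).2)
      have hA : g.support.card ≤
          ((g.support.erase b).filter (fun x => g x ∈ g.support.erase b)).card + 2 := by
        have hsub : (g.support.erase b).erase (g⁻¹ b) ⊆
            (g.support.erase b).filter (fun x => g x ∈ g.support.erase b) := by
          intro x hx
          rw [Finset.mem_erase, Finset.mem_erase] at hx
          rw [Finset.mem_filter, Finset.mem_erase, Finset.mem_erase]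
          refine ⟨hx.2, ?_, Perm.apply_mem_support.2 hx.2.2⟩
          intro h1
          apply hx.1
          rw [← h1, inv_app]
        have h1 := Finset.card_le_card hsub
        have h2 := Finset.pred_card_le_card_erase (s := g.support.erase b) (a := g⁻¹ b)
        have h3 := Finset.card_erase_of_mem hb
        omega
      have hB : (g.support.erase b).card = g.support.card - 1 := Finset.card_erase_of_mem hb
      have hpos : 0 < g.support.card := Finset.card_pos.2 ⟨b, hb⟩
      omega

theorem case_large (G : Subgroup (Perm α)) {k : ℕ} (hkn : k ≤ Fintype.card α)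
    (hG : MulAction.IsMultiplyPretransitive G α k) (g : Perm α) (hg : g ∈ G)
    (hm1 : k + 1 ≤ g.support.card) (hm2 : g.support.card + 3 ≤ 2 * k) :
    ∃ c ∈ G, c ≠ 1 ∧ c.support.card < g.support.card := by
  obtain ⟨D, hD, hDc, hex⟩ := exists_one_exit g (k - 1) (by omega)
  have hcG : ∀ h ∈ G, g⁻¹ * (h * g * h⁻¹) ∈ G := fun h hh =>
    G.mul_mem (G.inv_mem hg) (G.mul_mem (G.mul_mem hh hg) (G.inv_mem hh))
  by_cases hexit : ∃ x ∈ D, g x ∉ D
  · obtain ⟨x₀, hx₀, hy₀⟩ := hexit
    have hy₀s : g x₀ ∈ g.support := Perm.apply_mem_support.2 (hD hx₀)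
    have hins : (insert (g x₀) D).card = k := by
      rw [Finset.card_insert_of_notMem hy₀, hDc]
      omega
    obtain ⟨z, hz, hzD⟩ : ∃ z ∈ g.support, z ∉ insert (g x₀) D := by
      by_contra hcon
      push Not at hcon
      have h1 := Finset.card_le_card (show g.support ⊆ insert (g x₀) D from hcon)
      omega
    obtain ⟨h, hh, hhs⟩ := ext_of_trans G hkn hG (insert (g x₀) D) (by omega) (swap (g x₀) z)
    have hfix : ∀ d ∈ D, h d = d := by
      intro d hd
      rw [hhs d (Finset.mem_insert_of_mem hd), swap_apply_of_ne_of_ne]
      · rintro rfl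
        exact hy₀ hd
      · rintro rfl
        exact hzD (Finset.mem_insert_of_mem hd)
    have hhy : h (g x₀) = z := by rw [hhs _ (Finset.mem_insert_self _ _), swap_apply_left]
    refine ⟨_, hcG h hh, ne_one_of g h x₀ (hfix x₀ hx₀) ?_, ?_⟩
    · rw [hhy]
      intro h1
      exact hzD (by rw [h1]; exact Finset.mem_insert_self _ _)
    · have hb := supp_bound g h D (insert (g x₀) D) hD hfix (by
          intro c hc
          rcases Finset.mem_insert.1 hc with rfl | hc
          · exact hy₀s
          · exact hD hc) (by
          intro c hc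
          rcases Finset.mem_insert.1 hc with rfl | hc
          · rw [hhy]
            exact hz
          · rw [hfix c hc]
            exact hD hc)
      have hA := card_filter_ge g D hex
      omega
  · push Not at hexit
    have hAeq : D.filter (fun x => g x ∈ D) = D := Finset.filter_true_of_mem hexit
    obtain ⟨y, hy, hyD⟩ : ∃ y ∈ g.support, y ∉ D := by
      by_contra hcon
      push Not at hcon
      have h1 := Finset.card_le_card (show g.support ⊆ D from hcon)
      omega
    by_cases huniv : g.support = Finset.univ
    · obtain ⟨u, hu⟩ : ∃ u, u ∈ D := by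
        apply Finset.card_pos.1
        omega
      have hus : u ∈ g.support := hD hu
      have hxD : g⁻¹ u ∈ D := by
        by_contra hcon
        have hinj : D.image g ⊆ D := by
          intro c hc
          obtain ⟨d, hd, rfl⟩ := Finset.mem_image.1 hc
          exact hexit d hd
        have heq : D.image g = D :=
          Finset.eq_of_subset_of_card_le hinj
            (by rw [Finset.card_image_of_injective _ g.injective])
        rw [← heq] at hu
        obtain ⟨d, hd, hdu⟩ := Finset.mem_image.1 hu
        apply hcon
        rw [← hdu, inv_app]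
        exact hd
      have hxu : g⁻¹ u ≠ u := by
        intro h1
        rw [Perm.inv_eq_iff_eq] at h1
        exact (Perm.mem_support.1 hus) h1.symm
      have hyu : y ≠ u := fun h1 => hyD (h1 ▸ hu)
      have hD'c : (insert y (D.erase u)).card = k - 1 := by
        rw [Finset.card_insert_of_notMem (fun h1 => hyD (Finset.mem_of_mem_erase h1)),
          Finset.card_erase_of_mem hu, hDc]
        omega
      have huD' : u ∉ insert y (D.erase u) := by
        intro h1
        rcases Finset.mem_insert.1 h1 with h2 | h2
        · exact hyu h2.symm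
        · exact (Finset.mem_erase.1 h2).1 rfl
      have hcardu : (insert u (insert y (D.erase u))).card = k := by
        rw [Finset.card_insert_of_notMem huD', hD'c]
        omega
      obtain ⟨w, hw⟩ : ∃ w, w ∉ insert u (insert y (D.erase u)) := by
        by_contra hcon
        push Not at hcon
        have h1 : insert u (insert y (D.erase u)) = Finset.univ :=
          Finset.eq_univ_iff_forall.2 hcon
        rw [h1, ← huniv] at hcardu
        omega
      obtain ⟨h, hh, hhs⟩ := ext_of_trans G hkn hG (insert u (insert y (D.erase u)))
        (by omega) (swap u w)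
      have hfix : ∀ d ∈ insert y (D.erase u), h d = d := by
        intro d hd
        rw [hhs d (Finset.mem_insert_of_mem hd), swap_apply_of_ne_of_ne]
        · rintro rfl
          exact huD' hd
        · rintro rfl
          exact hw (Finset.mem_insert_of_mem hd)
      have hhu : h u = w := by rw [hhs _ (Finset.mem_insert_self _ _), swap_apply_left]
      have hx₀D' : g⁻¹ u ∈ insert y (D.erase u) :=
        Finset.mem_insert_of_mem (Finset.mem_erase.2 ⟨hxu, hxD⟩)
      refine ⟨_, hcG h hh, ne_one_of g h (g⁻¹ u) (hfix _ hx₀D') ?_, ?_⟩
      · rw [app_inv, hhu]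
        intro h1
        exact hw (by rw [h1]; exact Finset.mem_insert_self _ _)
      · have hb := supp_bound g h (insert y (D.erase u)) g.support
          (by rw [huniv]; exact Finset.subset_univ _) hfix (Finset.Subset.refl _)
          (by intro c _; rw [huniv]; exact Finset.mem_univ _)
        have hpig : 2 * (insert y (D.erase u)).card ≤
            ((insert y (D.erase u)).filter (fun x => g x ∈ insert y (D.erase u))).card
              + g.support.card := by
          have h1 := Finset.card_union_add_card_inter (insert y (D.erase u))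
            ((insert y (D.erase u)).image ⇑(g⁻¹ : Perm α))
          rw [Finset.card_image_of_injective _ (g⁻¹ : Perm α).injective] at h1
          have h2 : (insert y (D.erase u)) ∩ ((insert y (D.erase u)).image ⇑(g⁻¹ : Perm α)) ⊆
              (insert y (D.erase u)).filter (fun x => g x ∈ insert y (D.erase u)) := by
            intro c hc
            rw [Finset.mem_inter] at hc
            obtain ⟨d, hd, hdc⟩ := Finset.mem_image.1 hc.2
            rw [Finset.mem_filter]
            refine ⟨hc.1, ?_⟩
            rw [← hdc, app_inv]
            exact hd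
          have h3 := Finset.card_le_card h2
          have h4 : ((insert y (D.erase u)) ∪ ((insert y (D.erase u)).image ⇑(g⁻¹ : Perm α))).card
              ≤ g.support.card := by
            rw [huniv]
            exact Finset.card_le_card (Finset.subset_univ _)
          omega
        omega
    · obtain ⟨z, hz⟩ : ∃ z, z ∉ g.support := by
        by_contra hcon
        push Not at hcon
        exact huniv (Finset.eq_univ_iff_forall.2 hcon)
      have hins : (insert y D).card = k := by
        rw [Finset.card_insert_of_notMem hyD, hDc]
        omega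
      obtain ⟨h, hh, hhs⟩ := ext_of_trans G hkn hG (insert y D) (by omega) (swap y z)
      have hfix : ∀ d ∈ D, h d = d := by
        intro d hd
        rw [hhs d (Finset.mem_insert_of_mem hd), swap_apply_of_ne_of_ne]
        · rintro rfl
          exact hyD hd
        · rintro rfl
          exact hz (hD hd)
      have hhy : h y = z := by rw [hhs _ (Finset.mem_insert_self _ _), swap_apply_left]
      refine ⟨_, hcG h hh, ne_one_of' g h y (Perm.mem_support.1 hy) ?_, ?_⟩
      · rw [hhy]
        exact Perm.notMem_support.1 hz
      · have hb := supp_bound g h D D hD hfix hD (by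
          intro c hc
          rw [hfix c hc]
          exact hD hc)
        rw [hAeq] at hb
        omega

theorem exists_small (G : Subgroup (Perm α)) {k : ℕ} (hk : 3 ≤ k) (hkn : k ≤ Fintype.card α)
    (hG : MulAction.IsMultiplyPretransitive G α k) :
    ∀ n : ℕ, ∀ g : Perm α, g ∈ G → g ≠ 1 → g.support.card = n → n < 2 * k - 2 →
      ∃ h ∈ G, h ≠ 1 ∧ h.support.card ≤ 3 := by
  intro n
  induction n using Nat.strong_induction_on with
  | _ n ih =>
    intro g hg hg1 hn hsupp
    by_cases hle : g.support.card ≤ k
    · exact case_small G hk hkn hG g hg hg1 hle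
    · obtain ⟨c, hc, hc1, hclt⟩ := case_large G hkn hG g hg (by omega) (by omega)
      exact ih c.support.card (by omega) c hc hc1 rfl (by omega)

theorem main (G : Subgroup (Perm α)) {k : ℕ} (hk : 3 ≤ k) (hkn : k ≤ Fintype.card α)
    (hG : MulAction.IsMultiplyPretransitive G α k) (g : Perm α) (hg : g ∈ G) (hg1 : g ≠ 1)
    (hsupp : g.support.card < 2 * k - 2) :
    (∃ h : Perm α, h ∈ G ∧ h ≠ 1 ∧ h.support.card ≤ 3) ∧ alternatingGroup α ≤ G := by
  obtain ⟨h, hh, hh1, hs⟩ := exists_small G hk hkn hG _ g hg hg1 rfl hsupp
  refine ⟨⟨h, hh, hh1, hs⟩, ?_⟩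
  have _i := hG
  have h2 : MulAction.IsMultiplyPretransitive G α 2 :=
    MulAction.isMultiplyPretransitive_of_le (n := k) (by omega)
      (by rw [Nat.card_eq_fintype_card]; exact hkn)
  have hprim : MulAction.IsPreprimitive G α := MulAction.isPreprimitive_of_is_two_pretransitive h2
  have h0 : h.support.card ≠ 0 := fun h0 => hh1 (Perm.card_support_eq_zero.1 h0)
  have h1 := Perm.card_support_ne_one h
  have h23 : h.support.card = 2 ∨ h.support.card = 3 := by omega
  rcases h23 with h2' | h3
  · have e := Equiv.Perm.subgroup_eq_top_of_isPreprimitive_of_isSwap_mem hprim h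
      (Perm.card_support_eq_two.1 h2') hh
    rw [e]
    exact le_top
  · exact Equiv.Perm.alternatingGroup_le_of_isPreprimitive_of_isThreeCycle_mem hprim
      (card_support_eq_three_iff.1 h3) hh

end Cfsg.Agent.Lib.Helper2.SmallSupp
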