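import Mathlib
import Cfsg.Prelude.Def_ClassicalGeometry

set_option autoImplicit false

namespace Cfsg.Agent.Lib.Helper2.SpLevi

open Matrix

variable {F : Type*} [Field F] {m : ℕ}

theorem mem_symp_diag (X Y : Matrix (Fin m) (Fin m) F) :
    Matrix.fromBlocks X 0 0 Y ∈ Matrix.symplecticGroup (Fin m) F ↔ X * Yᵀ = 1 := by
  rw [SymplecticGroup.mem_iff, Matrix.J, Matrix.fromBlocks_transpose, Matrix.fromBlocks_multiply,
    Matrix.fromBlocks_multiply]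
  simp only [Matrix.mul_zero, Matrix.zero_mul, add_zero, zero_add, Matrix.mul_one,
    Matrix.mul_neg, Matrix.neg_mul, Matrix.transpose_zero, neg_zero]
  rw [Matrix.fromBlocks_inj]
  constructor
  · rintro ⟨-, h, -, -⟩
    exact neg_injective h
  · intro h
    refine ⟨rfl, by rw [h], ?_, rfl⟩
    have h1 := congrArg Matrix.transpose h
    rwa [Matrix.transpose_mul, Matrix.transpose_transpose, Matrix.transpose_one] at h1

theorem diag_mulVec (X Y : Matrix (Fin m) (Fin m) F) (v : Fin m ⊕ Fin m → F) :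
    Matrix.fromBlocks X 0 0 Y *ᵥ v = Sum.elim (X *ᵥ (v ∘ Sum.inl)) (Y *ᵥ (v ∘ Sum.inr)) := by
  rw [Matrix.fromBlocks_mulVec]
  simp

theorem stab_W (X Y : Matrix (Fin m) (Fin m) F) (hXY : X * Yᵀ = 1) (v : Fin m ⊕ Fin m → F) :
    (∀ i, v (Sum.inr i) = 0) ↔ (∀ i, (Matrix.fromBlocks X 0 0 Y *ᵥ v) (Sum.inr i) = 0) := by
  rw [diag_mulVec]
  simp only [Sum.elim_inr]
  have hYX : Xᵀ * Y = 1 := by
    have h1 : Y * Xᵀ = 1 := by
      have h2 := congrArg Matrix.transpose hXY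
      rwa [Matrix.transpose_mul, Matrix.transpose_transpose, Matrix.transpose_one] at h2
    exact mul_eq_one_comm.1 h1
  constructor
  · intro h i
    have h0 : v ∘ Sum.inr = 0 := funext h
    rw [h0, Matrix.mulVec_zero]
    rfl
  · intro h i
    have h0 : Y *ᵥ (v ∘ Sum.inr) = 0 := funext h
    have h1 : Xᵀ *ᵥ (Y *ᵥ (v ∘ Sum.inr)) = v ∘ Sum.inr := by
      rw [Matrix.mulVec_mulVec, hYX, Matrix.one_mulVec]
    rw [h0, Matrix.mulVec_zero] at h1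
    exact (congrFun h1 i).symm

theorem stab_U (X Y : Matrix (Fin m) (Fin m) F) (hXY : X * Yᵀ = 1) (v : Fin m ⊕ Fin m → F) :
    (∀ i, v (Sum.inl i) = 0) ↔ (∀ i, (Matrix.fromBlocks X 0 0 Y *ᵥ v) (Sum.inl i) = 0) := by
  rw [diag_mulVec]
  simp only [Sum.elim_inl]
  have hYX : Yᵀ * X = 1 := mul_eq_one_comm.1 hXY
  constructor
  · intro h i
    have h0 : v ∘ Sum.inl = 0 := funext h
    rw [h0, Matrix.mulVec_zero]
    rfl
  · intro h i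
    have h0 : X *ᵥ (v ∘ Sum.inl) = 0 := funext h
    have h1 : Yᵀ *ᵥ (X *ᵥ (v ∘ Sum.inl)) = v ∘ Sum.inl := by
      rw [Matrix.mulVec_mulVec, hYX, Matrix.one_mulVec]
    rw [h0, Matrix.mulVec_zero] at h1
    exact (congrFun h1 i).symm

theorem zero21 (A : Matrix (Fin m ⊕ Fin m) (Fin m ⊕ Fin m) F)
    (h : ∀ v : Fin m ⊕ Fin m → F, (∀ i : Fin m, v (Sum.inr i) = 0) →
      ∀ i : Fin m, (A *ᵥ v) (Sum.inr i) = 0) :
    A.toBlocks₂₁ = 0 := by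
  ext i j
  have h1 := h (Pi.single (Sum.inl j) 1) (fun i => Pi.single_eq_of_ne (by simp) _) i
  rw [Matrix.mulVec_single_one] at h1
  exact h1

theorem zero12 (A : Matrix (Fin m ⊕ Fin m) (Fin m ⊕ Fin m) F)
    (h : ∀ v : Fin m ⊕ Fin m → F, (∀ i : Fin m, v (Sum.inl i) = 0) →
      ∀ i : Fin m, (A *ᵥ v) (Sum.inl i) = 0) :
    A.toBlocks₁₂ = 0 := by
  ext i j
  have h1 := h (Pi.single (Sum.inr j) 1) (fun i => Pi.single_eq_of_ne (by simp) _) i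
  rw [Matrix.mulVec_single_one] at h1
  exact h1

theorem eq_diag (A : Matrix (Fin m ⊕ Fin m) (Fin m ⊕ Fin m) F) (h12 : A.toBlocks₁₂ = 0)
    (h21 : A.toBlocks₂₁ = 0) : A = Matrix.fromBlocks A.toBlocks₁₁ 0 0 A.toBlocks₂₂ := by
  conv_lhs => rw [← Matrix.fromBlocks_toBlocks A, h12, h21]

theorem main (m : ℕ) :
    Nonempty (↥(Cfsg.stabilizing (Cfsg.spToMat m F)
        {v : Fin m ⊕ Fin m → F | ∀ i : Fin m, v (Sum.inr i) = 0} ⊓
      Cfsg.stabilizing (Cfsg.spToMat m F)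
        {v : Fin m ⊕ Fin m → F | ∀ i : Fin m, v (Sum.inl i) = 0}) ≃*
      Matrix.GeneralLinearGroup (Fin m) F) := by
  have hdiag : ∀ g : ↥(Cfsg.stabilizing (Cfsg.spToMat m F)
        {v : Fin m ⊕ Fin m → F | ∀ i : Fin m, v (Sum.inr i) = 0} ⊓
      Cfsg.stabilizing (Cfsg.spToMat m F)
        {v : Fin m ⊕ Fin m → F | ∀ i : Fin m, v (Sum.inl i) = 0}),
      (g.1.1 : Matrix (Fin m ⊕ Fin m) (Fin m ⊕ Fin m) F) =
        Matrix.fromBlocks (g.1.1 : Matrix (Fin m ⊕ Fin m) (Fin m ⊕ Fin m) F).toBlocks₁₁ 0 0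
          (g.1.1 : Matrix (Fin m ⊕ Fin m) (Fin m ⊕ Fin m) F).toBlocks₂₂ := by
    intro g
    have hg := Subgroup.mem_inf.1 g.2
    exact eq_diag _ (zero12 _ (fun v hv => (hg.2 v).1 hv)) (zero21 _ (fun v hv => (hg.1 v).1 hv))
  have hinv : ∀ g : ↥(Cfsg.stabilizing (Cfsg.spToMat m F)
        {v : Fin m ⊕ Fin m → F | ∀ i : Fin m, v (Sum.inr i) = 0} ⊓
      Cfsg.stabilizing (Cfsg.spToMat m F)
        {v : Fin m ⊕ Fin m → F | ∀ i : Fin m, v (Sum.inl i) = 0}),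
      (g.1.1 : Matrix (Fin m ⊕ Fin m) (Fin m ⊕ Fin m) F).toBlocks₁₁ *
        ((g.1.1 : Matrix (Fin m ⊕ Fin m) (Fin m ⊕ Fin m) F).toBlocks₂₂)ᵀ = 1 := by
    intro g
    have h1 := g.1.2
    rw [hdiag g] at h1
    exact (mem_symp_diag _ _).1 h1
  let φ : ↥(Cfsg.stabilizing (Cfsg.spToMat m F)
        {v : Fin m ⊕ Fin m → F | ∀ i : Fin m, v (Sum.inr i) = 0} ⊓
      Cfsg.stabilizing (Cfsg.spToMat m F)
        {v : Fin m ⊕ Fin m → F | ∀ i : Fin m, v (Sum.inl i) = 0}) →*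
      Matrix.GeneralLinearGroup (Fin m) F :=
    MonoidHom.mk' (fun g => ⟨(g.1.1 : Matrix (Fin m ⊕ Fin m) (Fin m ⊕ Fin m) F).toBlocks₁₁,
        ((g.1.1 : Matrix (Fin m ⊕ Fin m) (Fin m ⊕ Fin m) F).toBlocks₂₂)ᵀ, hinv g,
        mul_eq_one_comm.1 (hinv g)⟩) (by
      intro a b
      apply Units.ext
      show ((a.1.1 : Matrix (Fin m ⊕ Fin m) (Fin m ⊕ Fin m) F) *
          (b.1.1 : Matrix (Fin m ⊕ Fin m) (Fin m ⊕ Fin m) F)).toBlocks₁₁ =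
        (a.1.1 : Matrix (Fin m ⊕ Fin m) (Fin m ⊕ Fin m) F).toBlocks₁₁ *
          (b.1.1 : Matrix (Fin m ⊕ Fin m) (Fin m ⊕ Fin m) F).toBlocks₁₁
      conv_lhs => rw [hdiag a, hdiag b, Matrix.fromBlocks_multiply]
      rw [Matrix.toBlocks_fromBlocks₁₁, Matrix.zero_mul, add_zero])
  have hφ : ∀ g, ((φ g : Matrix.GeneralLinearGroup (Fin m) F) : Matrix (Fin m) (Fin m) F) =
      (g.1.1 : Matrix (Fin m ⊕ Fin m) (Fin m ⊕ Fin m) F).toBlocks₁₁ := fun g => rfl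
  have hφ' : ∀ g, (((φ g)⁻¹ : Matrix.GeneralLinearGroup (Fin m) F) : Matrix (Fin m) (Fin m) F) =
      ((g.1.1 : Matrix (Fin m ⊕ Fin m) (Fin m ⊕ Fin m) F).toBlocks₂₂)ᵀ := fun g => rfl
  refine ⟨MulEquiv.ofBijective φ ⟨?_, ?_⟩⟩
  · intro a b hab
    apply Subtype.ext
    apply Subtype.ext
    have h1 : (a.1.1 : Matrix (Fin m ⊕ Fin m) (Fin m ⊕ Fin m) F).toBlocks₁₁ =
        (b.1.1 : Matrix (Fin m ⊕ Fin m) (Fin m ⊕ Fin m) F).toBlocks₁₁ := by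
      rw [← hφ, ← hφ, hab]
    have h2 : (a.1.1 : Matrix (Fin m ⊕ Fin m) (Fin m ⊕ Fin m) F).toBlocks₂₂ =
        (b.1.1 : Matrix (Fin m ⊕ Fin m) (Fin m ⊕ Fin m) F).toBlocks₂₂ := by
      apply Matrix.transpose_injective
      rw [← hφ', ← hφ', hab]
    rw [hdiag a, hdiag b, h1, h2]
  · intro X
    have hXY : (X : Matrix (Fin m) (Fin m) F) *
        (((X⁻¹ : Matrix.GeneralLinearGroup (Fin m) F) : Matrix (Fin m) (Fin m) F)ᵀ)ᵀ = 1 := by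
      rw [Matrix.transpose_transpose]
      exact X.mul_inv
    have hmem := (mem_symp_diag _ _).2 hXY
    refine ⟨⟨⟨_, hmem⟩, Subgroup.mem_inf.2 ⟨?_, ?_⟩⟩, ?_⟩
    · intro v
      exact stab_W _ _ hXY v
    · intro v
      exact stab_U _ _ hXY v
    · apply Units.ext
      rw [hφ]
      rfl

end Cfsg.Agent.Lib.Helper2.SpLevi
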