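import Mathlib
import Cfsg.Prelude.Def_ClassicalGeometry

set_option autoImplicit false

namespace Cfsg.Agent.Lib.Helper2.SpTrans

open Matrix

theorem J_dot {F : Type*} [CommRing F] (m : ℕ) (v : Fin m ⊕ Fin m → F) :
    (Matrix.J (Fin m) F *ᵥ v) ⬝ᵥ v = 0 := by
  rw [Matrix.J, Matrix.fromBlocks_mulVec, dotProduct, Fintype.sum_sum_type]
  simp only [Sum.elim_inl, Sum.elim_inr, Matrix.zero_mulVec, zero_add, add_zero,
    Matrix.neg_mulVec, Matrix.one_mulVec, Pi.neg_apply, Function.comp_apply]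
  rw [← Finset.sum_add_distrib]
  apply Finset.sum_eq_zero
  intro i _
  ring

theorem vecMul_J {F : Type*} [CommRing F] (m : ℕ) (x : Fin m ⊕ Fin m → F) :
    x ᵥ* Matrix.J (Fin m) F = -(Matrix.J (Fin m) F *ᵥ x) := by
  have h : Matrix.J (Fin m) F = (-Matrix.J (Fin m) F)ᵀ := by
    rw [Matrix.transpose_neg, Matrix.J_transpose, neg_neg]
  conv_lhs => rw [h]
  rw [Matrix.vecMul_transpose, Matrix.neg_mulVec]

theorem mul_add' {F : Type*} [CommRing F] (m : ℕ) (v : Fin m ⊕ Fin m → F) (c d : F) :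
    Cfsg.sympTransvection m v c * Cfsg.sympTransvection m v d =
      Cfsg.sympTransvection m v (c + d) := by
  unfold Cfsg.sympTransvection
  have hN : Matrix.vecMulVec v (Matrix.J (Fin m) F *ᵥ v) *
      Matrix.vecMulVec v (Matrix.J (Fin m) F *ᵥ v) = 0 := by
    rw [Matrix.vecMulVec_mul_vecMulVec, J_dot, zero_smul]
    ext i j
    simp [Matrix.vecMulVec_apply]
  rw [add_mul, mul_add, mul_add, one_mul, mul_one, one_mul, Matrix.smul_mul, Matrix.mul_smul, hN,
    smul_zero, smul_zero, add_zero, add_smul, add_assoc, add_comm (d • _)]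

theorem conj {F : Type*} [CommRing F] (m : ℕ) (v : Fin m ⊕ Fin m → F)
    (A : Matrix (Fin m ⊕ Fin m) (Fin m ⊕ Fin m) F) (a : F)
    (hA : A ∈ Matrix.symplecticGroup (Fin m) F) (hv : A.mulVec v = a • v) (c : F) :
    A * Cfsg.sympTransvection m v c * A⁻¹ = Cfsg.sympTransvection m v (c * a ^ 2) := by
  unfold Cfsg.sympTransvection
  have hdet : IsUnit A.det := SymplecticGroup.symplectic_det hA
  have h1 : (Matrix.J (Fin m) F *ᵥ v) ᵥ* A⁻¹ = a • (Matrix.J (Fin m) F *ᵥ v) := by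
    have e1 : (Matrix.J (Fin m) F *ᵥ v) ᵥ* (-Matrix.J (Fin m) F) = -v := by
      rw [Matrix.vecMul_neg, vecMul_J, neg_neg, Matrix.mulVec_mulVec, Matrix.J_squared,
        Matrix.neg_mulVec, Matrix.one_mulVec]
    have e2 : (-v) ᵥ* Aᵀ = -(a • v) := by
      rw [Matrix.vecMul_transpose, Matrix.mulVec_neg, hv]
    have e3 : (-(a • v)) ᵥ* Matrix.J (Fin m) F = a • (Matrix.J (Fin m) F *ᵥ v) := by
      rw [vecMul_J, Matrix.mulVec_neg, neg_neg, Matrix.mulVec_smul]
    rw [SymplecticGroup.inv_eq_symplectic_inv A hA, ← Matrix.vecMul_vecMul,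
      ← Matrix.vecMul_vecMul, e1, e2, e3]
  rw [mul_add, add_mul, mul_one, Matrix.mul_nonsing_inv A hdet, Matrix.mul_smul, Matrix.smul_mul,
    Matrix.mul_vecMulVec, Matrix.vecMulVec_mul, hv, h1]
  congr 1
  ext i j
  simp only [Matrix.smul_apply, Matrix.vecMulVec_apply, Pi.smul_apply, smul_eq_mul]
  ring

end Cfsg.Agent.Lib.Helper2.SpTrans
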