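import Mathlib
import Cfsg.Prelude.Def_ClassicalGeometry
import Cfsg.Agent.Lib.Helper2.SpTrans
import Cfsg.Agent.S0764

set_option autoImplicit false

namespace Cfsg.Agent.Lib.Helper2.SpPair

open Matrix

variable {F : Type*} [Field F] (m : ℕ)

theorem form_add_right (u v w : Fin m ⊕ Fin m → F) :
    Cfsg.sympForm m F u (v + w) = Cfsg.sympForm m F u v + Cfsg.sympForm m F u w := by
  unfold Cfsg.sympForm
  rw [Matrix.mulVec_add, dotProduct_add]

theorem form_add_left (u v w : Fin m ⊕ Fin m → F) :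
    Cfsg.sympForm m F (u + v) w = Cfsg.sympForm m F u w + Cfsg.sympForm m F v w := by
  unfold Cfsg.sympForm
  rw [add_dotProduct]

theorem form_sub_right (u v w : Fin m ⊕ Fin m → F) :
    Cfsg.sympForm m F u (v - w) = Cfsg.sympForm m F u v - Cfsg.sympForm m F u w := by
  unfold Cfsg.sympForm
  rw [Matrix.mulVec_sub, dotProduct_sub]

theorem form_self (u : Fin m ⊕ Fin m → F) : Cfsg.sympForm m F u u = 0 := by
  unfold Cfsg.sympForm
  rw [dotProduct_comm]
  exact SpTrans.J_dot m u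

theorem form_swap (u v : Fin m ⊕ Fin m → F) :
    Cfsg.sympForm m F u v = -Cfsg.sympForm m F v u := by
  have h := form_self m (u + v)
  rw [form_add_left, form_add_right, form_add_right, form_self, form_self, zero_add, add_zero] at h
  exact eq_neg_of_add_eq_zero_left h

theorem trans_apply (w x : Fin m ⊕ Fin m → F) (c : F) :
    Cfsg.sympTransvection m w c *ᵥ x = x + (c * Cfsg.sympForm m F x w) • w := by
  unfold Cfsg.sympTransvection Cfsg.sympForm
  rw [Matrix.add_mulVec, Matrix.one_mulVec, Matrix.smul_mulVec, Matrix.vecMulVec_mulVec,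
    dotProduct_comm, mul_smul, op_smul_eq_smul]

theorem form_pres (A : Matrix (Fin m ⊕ Fin m) (Fin m ⊕ Fin m) F)
    (hA : A ∈ Matrix.symplecticGroup (Fin m) F) (x y : Fin m ⊕ Fin m → F) :
    Cfsg.sympForm m F (A *ᵥ x) (A *ᵥ y) = Cfsg.sympForm m F x y := by
  unfold Cfsg.sympForm
  rw [← Matrix.vecMul_transpose, ← Matrix.dotProduct_mulVec, Matrix.mulVec_mulVec,
    Matrix.mulVec_mulVec, SymplecticGroup.mem_iff'.1 hA]

def TS : Set (Matrix.symplecticGroup (Fin m) F) :=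
  {A | ∃ (w : Fin m ⊕ Fin m → F) (c : F),
    (A : Matrix (Fin m ⊕ Fin m) (Fin m ⊕ Fin m) F) = Cfsg.sympTransvection m w c}

theorem step (x y : Fin m ⊕ Fin m → F) (hxy : Cfsg.sympForm m F x y ≠ 0) :
    ∃ A ∈ Subgroup.closure (TS (F := F) m),
      (A : Matrix (Fin m ⊕ Fin m) (Fin m ⊕ Fin m) F) *ᵥ x = y ∧
      ∀ z, Cfsg.sympForm m F z x = Cfsg.sympForm m F z y →
        (A : Matrix (Fin m ⊕ Fin m) (Fin m ⊕ Fin m) F) *ᵥ z = z := by
  refine ⟨⟨Cfsg.sympTransvection m (x - y) (Cfsg.sympForm m F x y)⁻¹,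
    Cfsg.Agent.S0764.result m _ _⟩, Subgroup.subset_closure ⟨_, _, rfl⟩, ?_, ?_⟩
  · show Cfsg.sympTransvection m (x - y) (Cfsg.sympForm m F x y)⁻¹ *ᵥ x = y
    rw [trans_apply, form_sub_right, form_self, zero_sub, mul_neg, inv_mul_cancel₀ hxy,
      neg_one_smul]
    abel
  · intro z hz
    show Cfsg.sympTransvection m (x - y) (Cfsg.sympForm m F x y)⁻¹ *ᵥ z = z
    rw [trans_apply, form_sub_right, hz, sub_self, mul_zero, zero_smul, add_zero]

theorem move_one (u v u' v' : Fin m ⊕ Fin m → F) (h : Cfsg.sympForm m F u v = 1)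
    (h' : Cfsg.sympForm m F u' v' = 1) :
    ∃ A ∈ Subgroup.closure (TS (F := F) m),
      (A : Matrix (Fin m ⊕ Fin m) (Fin m ⊕ Fin m) F) *ᵥ u = u' ∧
      ∀ z, Cfsg.sympForm m F z u = 0 → Cfsg.sympForm m F z v = 0 →
        Cfsg.sympForm m F z u' = 0 → Cfsg.sympForm m F z v' = 0 →
        (A : Matrix (Fin m ⊕ Fin m) (Fin m ⊕ Fin m) F) *ᵥ z = z := by
  by_cases h0 : Cfsg.sympForm m F u u' = 0
  · have hw : ∃ w, Cfsg.sympForm m F u w ≠ 0 ∧ Cfsg.sympForm m F w u' ≠ 0 ∧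
        ∀ z, Cfsg.sympForm m F z v = 0 → Cfsg.sympForm m F z v' = 0 →
          Cfsg.sympForm m F z w = 0 := by
      have hv'u' : Cfsg.sympForm m F v' u' = -1 := by rw [form_swap, h']
      by_cases h1 : Cfsg.sympForm m F v u' = 0
      · by_cases h2 : Cfsg.sympForm m F u v' = 0
        · refine ⟨v + v', ?_, ?_, ?_⟩
          · rw [form_add_right, h, h2, add_zero]
            exact one_ne_zero
          · rw [form_add_left, h1, hv'u', zero_add]
            exact neg_ne_zero.2 one_ne_zero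
          · intro z hz1 hz2
            rw [form_add_right, hz1, hz2, add_zero]
        · refine ⟨v', h2, ?_, fun z _ hz2 => hz2⟩
          rw [hv'u']
          exact neg_ne_zero.2 one_ne_zero
      · refine ⟨v, ?_, h1, fun z hz1 _ => hz1⟩
        rw [h]
        exact one_ne_zero
    obtain ⟨w, hw1, hw2, hw3⟩ := hw
    obtain ⟨A₁, hA₁, hA₁u, hA₁fix⟩ := step m u w hw1
    obtain ⟨A₂, hA₂, hA₂w, hA₂fix⟩ := step m w u' hw2
    refine ⟨A₂ * A₁, Subgroup.mul_mem _ hA₂ hA₁, ?_, ?_⟩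
    · show ((A₂ : Matrix (Fin m ⊕ Fin m) (Fin m ⊕ Fin m) F) *
        (A₁ : Matrix (Fin m ⊕ Fin m) (Fin m ⊕ Fin m) F)) *ᵥ u = u'
      rw [← Matrix.mulVec_mulVec, hA₁u, hA₂w]
    · intro z hz1 hz2 hz3 hz4
      show ((A₂ : Matrix (Fin m ⊕ Fin m) (Fin m ⊕ Fin m) F) *
        (A₁ : Matrix (Fin m ⊕ Fin m) (Fin m ⊕ Fin m) F)) *ᵥ z = z
      rw [← Matrix.mulVec_mulVec, hA₁fix z (by rw [hz1, hw3 z hz2 hz4]),
        hA₂fix z (by rw [hz3, hw3 z hz2 hz4])]
  · obtain ⟨A, hA, hAu, hAfix⟩ := step m u u' h0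
    exact ⟨A, hA, hAu, fun z hz1 _ hz3 _ => hAfix z (by rw [hz1, hz3])⟩

theorem move_two (u v v' : Fin m ⊕ Fin m → F) (h : Cfsg.sympForm m F u v = 1)
    (h' : Cfsg.sympForm m F u v' = 1) :
    ∃ A ∈ Subgroup.closure (TS (F := F) m),
      (A : Matrix (Fin m ⊕ Fin m) (Fin m ⊕ Fin m) F) *ᵥ u = u ∧
      (A : Matrix (Fin m ⊕ Fin m) (Fin m ⊕ Fin m) F) *ᵥ v = v' ∧
      ∀ z, Cfsg.sympForm m F z u = 0 → Cfsg.sympForm m F z v = 0 →
        Cfsg.sympForm m F z v' = 0 →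
        (A : Matrix (Fin m ⊕ Fin m) (Fin m ⊕ Fin m) F) *ᵥ z = z := by
  by_cases h0 : Cfsg.sympForm m F v v' = 0
  · have hvu : Cfsg.sympForm m F v u = -1 := by rw [form_swap, h]
    have h1 : Cfsg.sympForm m F v (v + u) ≠ 0 := by
      rw [form_add_right, form_self, hvu, zero_add]
      exact neg_ne_zero.2 one_ne_zero
    have h2 : Cfsg.sympForm m F (v + u) v' ≠ 0 := by
      rw [form_add_left, h0, h', zero_add]
      exact one_ne_zero
    have h3 : Cfsg.sympForm m F u (v + u) = 1 := by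
      rw [form_add_right, h, form_self, add_zero]
    obtain ⟨A₁, hA₁, hA₁v, hA₁fix⟩ := step m v (v + u) h1
    obtain ⟨A₂, hA₂, hA₂v, hA₂fix⟩ := step m (v + u) v' h2
    refine ⟨A₂ * A₁, Subgroup.mul_mem _ hA₂ hA₁, ?_, ?_, ?_⟩
    · show ((A₂ : Matrix (Fin m ⊕ Fin m) (Fin m ⊕ Fin m) F) *
        (A₁ : Matrix (Fin m ⊕ Fin m) (Fin m ⊕ Fin m) F)) *ᵥ u = u
      rw [← Matrix.mulVec_mulVec, hA₁fix u (by rw [h, h3]), hA₂fix u (by rw [h3, h'])]
    · show ((A₂ : Matrix (Fin m ⊕ Fin m) (Fin m ⊕ Fin m) F) *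
        (A₁ : Matrix (Fin m ⊕ Fin m) (Fin m ⊕ Fin m) F)) *ᵥ v = v'
      rw [← Matrix.mulVec_mulVec, hA₁v, hA₂v]
    · intro z hz1 hz2 hz3
      have hz4 : Cfsg.sympForm m F z (v + u) = 0 := by
        rw [form_add_right, hz1, hz2, add_zero]
      show ((A₂ : Matrix (Fin m ⊕ Fin m) (Fin m ⊕ Fin m) F) *
        (A₁ : Matrix (Fin m ⊕ Fin m) (Fin m ⊕ Fin m) F)) *ᵥ z = z
      rw [← Matrix.mulVec_mulVec, hA₁fix z (by rw [hz2, hz4]), hA₂fix z (by rw [hz4, hz3])]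
  · obtain ⟨A, hA, hAv, hAfix⟩ := step m v v' h0
    exact ⟨A, hA, hAfix u (by rw [h, h']), hAv, fun z _ hz2 hz3 => hAfix z (by rw [hz2, hz3])⟩

theorem main' (u v u' v' : Fin m ⊕ Fin m → F) (h : Cfsg.sympForm m F u v = 1)
    (h' : Cfsg.sympForm m F u' v' = 1) :
    ∃ A ∈ Subgroup.closure (TS (F := F) m),
      (A : Matrix (Fin m ⊕ Fin m) (Fin m ⊕ Fin m) F) *ᵥ u = u' ∧
      (A : Matrix (Fin m ⊕ Fin m) (Fin m ⊕ Fin m) F) *ᵥ v = v' ∧
      ∀ z, Cfsg.sympForm m F z u = 0 → Cfsg.sympForm m F z v = 0 →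
        Cfsg.sympForm m F z u' = 0 → Cfsg.sympForm m F z v' = 0 →
        (A : Matrix (Fin m ⊕ Fin m) (Fin m ⊕ Fin m) F) *ᵥ z = z := by
  obtain ⟨A₁, hA₁, hA₁u, hA₁fix⟩ := move_one m u v u' v' h h'
  have h1 : Cfsg.sympForm m F u'
      ((A₁ : Matrix (Fin m ⊕ Fin m) (Fin m ⊕ Fin m) F) *ᵥ v) = 1 := by
    rw [← hA₁u, form_pres m _ A₁.2, h]
  obtain ⟨A₂, hA₂, hA₂u, hA₂v, hA₂fix⟩ := move_two m u' _ v' h1 h'
  refine ⟨A₂ * A₁, Subgroup.mul_mem _ hA₂ hA₁, ?_, ?_, ?_⟩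
  · show ((A₂ : Matrix (Fin m ⊕ Fin m) (Fin m ⊕ Fin m) F) *
      (A₁ : Matrix (Fin m ⊕ Fin m) (Fin m ⊕ Fin m) F)) *ᵥ u = u'
    rw [← Matrix.mulVec_mulVec, hA₁u, hA₂u]
  · show ((A₂ : Matrix (Fin m ⊕ Fin m) (Fin m ⊕ Fin m) F) *
      (A₁ : Matrix (Fin m ⊕ Fin m) (Fin m ⊕ Fin m) F)) *ᵥ v = v'
    rw [← Matrix.mulVec_mulVec, hA₂v]
  · intro z hz1 hz2 hz3 hz4
    have e1 := hA₁fix z hz1 hz2 hz3 hz4
    have hz5 : Cfsg.sympForm m F z
        ((A₁ : Matrix (Fin m ⊕ Fin m) (Fin m ⊕ Fin m) F) *ᵥ v) = 0 := by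
      have := form_pres m _ A₁.2 z v
      rw [e1] at this
      rw [this, hz2]
    show ((A₂ : Matrix (Fin m ⊕ Fin m) (Fin m ⊕ Fin m) F) *
      (A₁ : Matrix (Fin m ⊕ Fin m) (Fin m ⊕ Fin m) F)) *ᵥ z = z
    rw [← Matrix.mulVec_mulVec, e1, hA₂fix z hz3 hz5 hz4]

theorem main (u v u' v' : Fin m ⊕ Fin m → F) (h : Cfsg.sympForm m F u v = 1)
    (h' : Cfsg.sympForm m F u' v' = 1) :
    ∃ A ∈ Subgroup.closure (TS (F := F) m),
      (A : Matrix (Fin m ⊕ Fin m) (Fin m ⊕ Fin m) F) *ᵥ u = u' ∧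
      (A : Matrix (Fin m ⊕ Fin m) (Fin m ⊕ Fin m) F) *ᵥ v = v' := by
  obtain ⟨A, hA, h1, h2, -⟩ := main' m u v u' v' h h'
  exact ⟨A, hA, h1, h2⟩

theorem form_single (a b : Fin m ⊕ Fin m) :
    Cfsg.sympForm m F (Pi.single a 1) (Pi.single b 1) = Matrix.J (Fin m) F a b := by
  unfold Cfsg.sympForm
  rw [single_one_dotProduct, Matrix.mulVec_single_one]
  rfl

theorem gen_aux : ∀ (d k : ℕ), k + d = m →
    ∀ A : Matrix.symplecticGroup (Fin m) F,
      (∀ i : Fin m, (i : ℕ) < k →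
        (A : Matrix (Fin m ⊕ Fin m) (Fin m ⊕ Fin m) F) *ᵥ Pi.single (Sum.inr i) 1
          = Pi.single (Sum.inr i) 1 ∧
        (A : Matrix (Fin m ⊕ Fin m) (Fin m ⊕ Fin m) F) *ᵥ Pi.single (Sum.inl i) 1
          = Pi.single (Sum.inl i) 1) →
      A ∈ Subgroup.closure (TS (F := F) m) := by
  intro d
  induction d with
  | zero =>
    intro k hk A hA
    have h1 : (A : Matrix (Fin m ⊕ Fin m) (Fin m ⊕ Fin m) F) = 1 := by
      ext a b
      have h2 : (A : Matrix (Fin m ⊕ Fin m) (Fin m ⊕ Fin m) F) *ᵥ Pi.single b 1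
          = Pi.single b 1 := by
        rcases b with i | i
        · exact (hA i (by have := i.2; omega)).2
        · exact (hA i (by have := i.2; omega)).1
      have h3 := congrFun h2 a
      rw [Matrix.mulVec_single_one] at h3
      rw [Matrix.one_apply]
      rw [show (A : Matrix (Fin m ⊕ Fin m) (Fin m ⊕ Fin m) F) a b
        = (A : Matrix (Fin m ⊕ Fin m) (Fin m ⊕ Fin m) F).col b a from rfl, h3, Pi.single_apply]
    have h2 : A = 1 := Subtype.ext h1
    rw [h2]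
    exact Subgroup.one_mem _
  | succ d ih =>
    intro k hk A hA
    have hkm : k < m := by omega
    have hJ1 : ∀ i j : Fin m, Matrix.J (Fin m) F (Sum.inr i) (Sum.inl j)
        = if i = j then 1 else 0 := by
      intro i j
      simp [Matrix.J, Matrix.one_apply]
    have hJ2 : ∀ i j : Fin m, Matrix.J (Fin m) F (Sum.inl i) (Sum.inr j)
        = if i = j then -1 else 0 := by
      intro i j
      by_cases hij : i = j <;> simp [Matrix.J, hij]
    have hJ3 : ∀ i j : Fin m, Matrix.J (Fin m) F (Sum.inl i) (Sum.inl j) = 0 := by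
      intro i j
      simp [Matrix.J]
    have hJ4 : ∀ i j : Fin m, Matrix.J (Fin m) F (Sum.inr i) (Sum.inr j) = 0 := by
      intro i j
      simp [Matrix.J]
    have h1 : Cfsg.sympForm m F (Pi.single (Sum.inr (⟨k, hkm⟩ : Fin m)) 1)
        (Pi.single (Sum.inl (⟨k, hkm⟩ : Fin m)) 1) = 1 := by
      rw [form_single, hJ1, if_pos rfl]
    have h2 : Cfsg.sympForm m F
        ((A : Matrix (Fin m ⊕ Fin m) (Fin m ⊕ Fin m) F) *ᵥ
          Pi.single (Sum.inr (⟨k, hkm⟩ : Fin m)) 1)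
        ((A : Matrix (Fin m ⊕ Fin m) (Fin m ⊕ Fin m) F) *ᵥ
          Pi.single (Sum.inl (⟨k, hkm⟩ : Fin m)) 1) = 1 := by
      rw [form_pres m _ A.2, h1]
    obtain ⟨B, hB, hBu, hBv, hBfix⟩ := main' m _ _ _ _ h1 h2
    have hBinv : ∀ z w : Fin m ⊕ Fin m → F,
        (B : Matrix (Fin m ⊕ Fin m) (Fin m ⊕ Fin m) F) *ᵥ z = w →
        ((B⁻¹ : Matrix.symplecticGroup (Fin m) F) :
          Matrix (Fin m ⊕ Fin m) (Fin m ⊕ Fin m) F) *ᵥ w = z := by
      intro z w hzw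
      have e : ((B⁻¹ : Matrix.symplecticGroup (Fin m) F) :
          Matrix (Fin m ⊕ Fin m) (Fin m ⊕ Fin m) F) *
          (B : Matrix (Fin m ⊕ Fin m) (Fin m ⊕ Fin m) F) = 1 := by
        have := congrArg (fun X : Matrix.symplecticGroup (Fin m) F =>
          (X : Matrix (Fin m ⊕ Fin m) (Fin m ⊕ Fin m) F)) (inv_mul_cancel B)
        exact this
      rw [← hzw, Matrix.mulVec_mulVec, e, Matrix.one_mulVec]
    have hC : B⁻¹ * A ∈ Subgroup.closure (TS (F := F) m) := by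
      apply ih (k + 1) (by omega)
      intro i hi
      have hcoe : ∀ z, ((B⁻¹ * A : Matrix.symplecticGroup (Fin m) F) :
          Matrix (Fin m ⊕ Fin m) (Fin m ⊕ Fin m) F) *ᵥ z
          = ((B⁻¹ : Matrix.symplecticGroup (Fin m) F) :
          Matrix (Fin m ⊕ Fin m) (Fin m ⊕ Fin m) F) *ᵥ
            ((A : Matrix (Fin m ⊕ Fin m) (Fin m ⊕ Fin m) F) *ᵥ z) := by
        intro z
        rw [Matrix.mulVec_mulVec]
        rfl
      by_cases hik : (i : ℕ) < k
      · have hne : i ≠ (⟨k, hkm⟩ : Fin m) := by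
          intro h
          rw [h] at hik
          exact lt_irrefl _ hik
        have hne' : (⟨k, hkm⟩ : Fin m) ≠ i := fun h => hne h.symm
        obtain ⟨hAu, hAv⟩ := hA i hik
        have o1 : ∀ z, Cfsg.sympForm m F z (Pi.single (Sum.inr (⟨k, hkm⟩ : Fin m)) 1) = 0 →
            Cfsg.sympForm m F z (Pi.single (Sum.inl (⟨k, hkm⟩ : Fin m)) 1) = 0 →
            (A : Matrix (Fin m ⊕ Fin m) (Fin m ⊕ Fin m) F) *ᵥ z = z →
            (B : Matrix (Fin m ⊕ Fin m) (Fin m ⊕ Fin m) F) *ᵥ z = z := by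
          intro z hz1 hz2 hAz
          apply hBfix z hz1 hz2
          · have := form_pres m _ A.2 z (Pi.single (Sum.inr (⟨k, hkm⟩ : Fin m)) 1)
            rw [hAz] at this
            rw [this, hz1]
          · have := form_pres m _ A.2 z (Pi.single (Sum.inl (⟨k, hkm⟩ : Fin m)) 1)
            rw [hAz] at this
            rw [this, hz2]
        constructor
        · rw [hcoe, hAu]
          apply hBinv
          apply o1 _ _ _ hAu
          · rw [form_single, hJ4]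
          · rw [form_single, hJ1, if_neg hne]
        · rw [hcoe, hAv]
          apply hBinv
          apply o1 _ _ _ hAv
          · rw [form_single, hJ2, if_neg hne]
          · rw [form_single, hJ3]
      · have hik' : i = (⟨k, hkm⟩ : Fin m) := by
          apply Fin.ext
          show (i : ℕ) = k
          omega
        rw [hik']
        constructor
        · rw [hcoe]
          exact hBinv _ _ hBu
        · rw [hcoe]
          exact hBinv _ _ hBv
    have e : A = B * (B⁻¹ * A) := by rw [mul_inv_cancel_left]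
    rw [e]
    exact Subgroup.mul_mem _ hB hC

theorem gen : Subgroup.closure (TS (F := F) m) = ⊤ := by
  rw [eq_top_iff]
  intro A _
  exact gen_aux m m 0 (by omega) A (fun i hi => absurd hi (Nat.not_lt_zero _))

end Cfsg.Agent.Lib.Helper2.SpPair
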