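import Mathlib
import Cfsg.Prelude.Def_ClassicalGeometry
import Cfsg.Agent.Lib.Helper2.SpPair

set_option autoImplicit false

namespace Cfsg.Agent.Lib.Helper2.SpPrim

open Matrix
open scoped LinearAlgebra.Projectivization Pointwise

variable {F : Type*} [Field F] (m : ℕ)

theorem exists_spGL (A : Matrix (Fin m ⊕ Fin m) (Fin m ⊕ Fin m) F)
    (hA : A ∈ Matrix.symplecticGroup (Fin m) F) :
    ∃ g : ↥(Cfsg.spGL m F), ∀ v : Fin m ⊕ Fin m → F,
      ((g : Matrix.GeneralLinearGroup (Fin m ⊕ Fin m) F) :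
        Matrix (Fin m ⊕ Fin m) (Fin m ⊕ Fin m) F) *ᵥ v = A *ᵥ v := by
  have hdet : IsUnit A.det := SymplecticGroup.symplectic_det hA
  refine ⟨⟨Matrix.nonsingInvUnit A hdet, ?_⟩, fun v => rfl⟩
  intro u v
  exact SpPair.form_pres m A hA u v

theorem form_J (y x : Fin m ⊕ Fin m → F) :
    Cfsg.sympForm m F y (Matrix.J (Fin m) F *ᵥ x) = -(y ⬝ᵥ x) := by
  unfold Cfsg.sympForm
  rw [Matrix.mulVec_mulVec, Matrix.J_squared, Matrix.neg_mulVec, Matrix.one_mulVec,
    dotProduct_neg]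

theorem form_smul_right (c : F) (u w : Fin m ⊕ Fin m → F) :
    Cfsg.sympForm m F u (c • w) = c * Cfsg.sympForm m F u w := by
  unfold Cfsg.sympForm
  rw [Matrix.mulVec_smul, dotProduct_smul, smul_eq_mul]

theorem form_zero_right (u : Fin m ⊕ Fin m → F) : Cfsg.sympForm m F u 0 = 0 := by
  have := form_smul_right m (0 : F) u 0
  rwa [zero_smul, zero_mul] at this

theorem exists_partner (v : Fin m ⊕ Fin m → F) (hv : v ≠ 0) :
    ∃ w, Cfsg.sympForm m F v w = 1 := by
  obtain ⟨i, hi⟩ : ∃ i, v i ≠ 0 := by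
    by_contra h
    push Not at h
    exact hv (funext h)
  refine ⟨Matrix.J (Fin m) F *ᵥ (Pi.single i (-(v i)⁻¹)), ?_⟩
  rw [form_J, dotProduct_single, mul_neg, neg_neg, mul_inv_cancel₀ hi]

theorem trans_vec (v v' : Fin m ⊕ Fin m → F) (hv : v ≠ 0) (hv' : v' ≠ 0) :
    ∃ g : ↥(Cfsg.spGL m F),
      ((g : Matrix.GeneralLinearGroup (Fin m ⊕ Fin m) F) :
        Matrix (Fin m ⊕ Fin m) (Fin m ⊕ Fin m) F) *ᵥ v = v' := by
  obtain ⟨w, hw⟩ := exists_partner m v hv
  obtain ⟨w', hw'⟩ := exists_partner m v' hv'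
  obtain ⟨A, -, hA, -⟩ := SpPair.main m v w v' w' hw hw'
  obtain ⟨g, hg⟩ := exists_spGL m A.1 A.2
  exact ⟨g, by rw [hg, hA]⟩

theorem smul_mk' (g : ↥(Cfsg.spGL m F)) (v : Fin m ⊕ Fin m → F) (hv : v ≠ 0)
    (w : Fin m ⊕ Fin m → F) (hw : w ≠ 0)
    (hgv : ((g : Matrix.GeneralLinearGroup (Fin m ⊕ Fin m) F) :
        Matrix (Fin m ⊕ Fin m) (Fin m ⊕ Fin m) F) *ᵥ v = w) :
    g • Projectivization.mk F v hv = Projectivization.mk F w hw := by
  subst hgv
  rfl

theorem lemK (B : Set (ℙ F (Fin m ⊕ Fin m → F))) (hB : MulAction.IsBlock ↥(Cfsg.spGL m F) B)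
    (u w w' : Fin m ⊕ Fin m → F) (hu : u ≠ 0) (hw : w ≠ 0) (hw' : w' ≠ 0)
    (huB : Projectivization.mk F u hu ∈ B) (hwB : Projectivization.mk F w hw ∈ B)
    (h1 : Cfsg.sympForm m F u w ≠ 0) (h2 : Cfsg.sympForm m F u w' ≠ 0) :
    Projectivization.mk F w' hw' ∈ B := by
  have e1 : Cfsg.sympForm m F u ((Cfsg.sympForm m F u w)⁻¹ • w) = 1 := by
    rw [form_smul_right, inv_mul_cancel₀ h1]
  have e2 : Cfsg.sympForm m F u ((Cfsg.sympForm m F u w')⁻¹ • w') = 1 := by
    rw [form_smul_right, inv_mul_cancel₀ h2]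
  obtain ⟨A, -, hAu, hAw, -⟩ := SpPair.move_two m u _ _ e1 e2
  obtain ⟨g, hg⟩ := exists_spGL m A.1 A.2
  have h3 : g • Projectivization.mk F u hu = Projectivization.mk F u hu :=
    smul_mk' m g u hu u hu (by rw [hg, hAu])
  have h4 : g • B = B := hB.smul_eq_of_mem huB (by rw [h3]; exact huB)
  have h5 : (A : Matrix (Fin m ⊕ Fin m) (Fin m ⊕ Fin m) F) *ᵥ w
      = (Cfsg.sympForm m F u w * (Cfsg.sympForm m F u w')⁻¹) • w' := by
    have e := hAw
    rw [Matrix.mulVec_smul] at e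
    have e' : (A : Matrix (Fin m ⊕ Fin m) (Fin m ⊕ Fin m) F) *ᵥ w
        = Cfsg.sympForm m F u w • ((Cfsg.sympForm m F u w)⁻¹ •
          ((A : Matrix (Fin m ⊕ Fin m) (Fin m ⊕ Fin m) F) *ᵥ w)) := by
      rw [smul_smul, mul_inv_cancel₀ h1, one_smul]
    rw [e', e, smul_smul]
  have h6 : (Cfsg.sympForm m F u w * (Cfsg.sympForm m F u w')⁻¹) • w' ≠ 0 :=
    smul_ne_zero (mul_ne_zero h1 (inv_ne_zero h2)) hw'
  have h7 : g • Projectivization.mk F w hw = Projectivization.mk F _ h6 :=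
    smul_mk' m g w hw _ h6 (by rw [hg, h5])
  have h8 : Projectivization.mk F _ h6 = Projectivization.mk F w' hw' := by
    rw [Projectivization.mk_eq_mk_iff']
    exact ⟨_, rfl⟩
  rw [← h8, ← h7, ← h4]
  exact Set.smul_mem_smul_set hwB

theorem lemL (B : Set (ℙ F (Fin m ⊕ Fin m → F))) (hB : MulAction.IsBlock ↥(Cfsg.spGL m F) B)
    (u w : Fin m ⊕ Fin m → F) (hu : u ≠ 0) (hw : w ≠ 0)
    (huB : Projectivization.mk F u hu ∈ B) (hwB : Projectivization.mk F w hw ∈ B)
    (h1 : Cfsg.sympForm m F u w ≠ 0) (x : Fin m ⊕ Fin m → F) (hx : x ≠ 0) :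
    Projectivization.mk F x hx ∈ B := by
  by_cases h2 : Cfsg.sympForm m F u x = 0
  · have hw' : ∃ w', Cfsg.sympForm m F u w' ≠ 0 ∧ Cfsg.sympForm m F w' x ≠ 0 := by
      by_cases h3 : Cfsg.sympForm m F w x = 0
      · obtain ⟨t, ht⟩ := exists_partner m x hx
        have htx : Cfsg.sympForm m F t x = -1 := by rw [SpPair.form_swap, ht]
        by_cases h4 : Cfsg.sympForm m F u t = 0
        · refine ⟨w + t, ?_, ?_⟩
          · rw [SpPair.form_add_right, h4, add_zero]
            exact h1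
          · rw [SpPair.form_add_left, h3, htx, zero_add]
            exact neg_ne_zero.2 one_ne_zero
        · refine ⟨t, h4, ?_⟩
          rw [htx]
          exact neg_ne_zero.2 one_ne_zero
      · exact ⟨w, h1, h3⟩
    obtain ⟨w', hw'1, hw'2⟩ := hw'
    have hw'0 : w' ≠ 0 := by
      intro h
      apply hw'1
      rw [h]
      exact form_zero_right m u
    have hw'B := lemK m B hB u w w' hu hw hw'0 huB hwB h1 hw'1
    have h5 : Cfsg.sympForm m F w' u ≠ 0 := by
      rw [SpPair.form_swap]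
      exact neg_ne_zero.2 hw'1
    exact lemK m B hB w' u x hw'0 hu hx hw'B huB h5 hw'2
  · exact lemK m B hB u w x hu hw hx huB hwB h1 h2

theorem lemM (B : Set (ℙ F (Fin m ⊕ Fin m → F))) (hB : MulAction.IsBlock ↥(Cfsg.spGL m F) B)
    (u w : Fin m ⊕ Fin m → F) (hu : u ≠ 0) (hw : w ≠ 0)
    (huB : Projectivization.mk F u hu ∈ B) (hwB : Projectivization.mk F w hw ∈ B)
    (hne : Projectivization.mk F u hu ≠ Projectivization.mk F w hw) :
    ∃ (w' : Fin m ⊕ Fin m → F) (hw' : w' ≠ 0), Projectivization.mk F w' hw' ∈ B ∧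
      Cfsg.sympForm m F w w' ≠ 0 := by
  obtain ⟨i, hi⟩ : ∃ i, u i ≠ 0 := by
    by_contra h
    push Not at h
    exact hu (funext h)
  have hj : ∃ j, u i * w j - u j * w i ≠ 0 := by
    by_contra hcon
    push Not at hcon
    apply hne
    symm
    rw [Projectivization.mk_eq_mk_iff']
    refine ⟨w i / u i, ?_⟩
    funext j
    have := hcon j
    show w i / u i * u j = w j
    field_simp
    linear_combination (-1 : F) * this
  obtain ⟨j, hj⟩ := hj
  have hdot : ∀ y : Fin m ⊕ Fin m → F,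
      y ⬝ᵥ (Pi.single j (u i) - Pi.single i (u j)) = u i * y j - u j * y i := by
    intro y
    rw [dotProduct_sub, dotProduct_single, dotProduct_single]
    ring
  have hfz : ∀ y, Cfsg.sympForm m F y
      (Matrix.J (Fin m) F *ᵥ (Pi.single j (u i) - Pi.single i (u j)))
      = -(u i * y j - u j * y i) := by
    intro y
    rw [form_J, hdot]
  generalize Matrix.J (Fin m) F *ᵥ (Pi.single j (u i) - Pi.single i (u j)) = z at hfz
  have huz : Cfsg.sympForm m F u z = 0 := by rw [hfz]; ring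
  have hwz : Cfsg.sympForm m F w z ≠ 0 := by rw [hfz]; exact neg_ne_zero.2 hj
  obtain ⟨g, hg⟩ := exists_spGL m (Cfsg.sympTransvection m z 1) (Cfsg.Agent.S0764.result m z 1)
  have hgu : ((g : Matrix.GeneralLinearGroup (Fin m ⊕ Fin m) F) :
      Matrix (Fin m ⊕ Fin m) (Fin m ⊕ Fin m) F) *ᵥ u = u := by
    rw [hg, SpPair.trans_apply, huz, mul_zero, zero_smul, add_zero]
  have hgw : ((g : Matrix.GeneralLinearGroup (Fin m ⊕ Fin m) F) :
      Matrix (Fin m ⊕ Fin m) (Fin m ⊕ Fin m) F) *ᵥ w = w + Cfsg.sympForm m F w z • z := by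
    rw [hg, SpPair.trans_apply, one_mul]
  have hf : Cfsg.sympForm m F w (w + Cfsg.sympForm m F w z • z)
      = Cfsg.sympForm m F w z * Cfsg.sympForm m F w z := by
    rw [SpPair.form_add_right, SpPair.form_self, form_smul_right, zero_add]
  have hne0 : w + Cfsg.sympForm m F w z • z ≠ 0 := by
    intro h
    rw [h, form_zero_right] at hf
    exact mul_self_ne_zero.2 hwz hf.symm
  refine ⟨_, hne0, ?_, ?_⟩
  · have h3 : g • Projectivization.mk F u hu = Projectivization.mk F u hu :=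
      smul_mk' m g u hu u hu hgu
    have h4 : g • B = B := hB.smul_eq_of_mem huB (by rw [h3]; exact huB)
    have h7 : g • Projectivization.mk F w hw = Projectivization.mk F _ hne0 :=
      smul_mk' m g w hw _ hne0 hgw
    rw [← h7, ← h4]
    exact Set.smul_mem_smul_set hwB
  · rw [hf]
    exact mul_self_ne_zero.2 hwz

theorem prim : MulAction.IsPreprimitive ↥(Cfsg.spGL m F) (ℙ F (Fin m ⊕ Fin m → F)) := by
  haveI : MulAction.IsPretransitive ↥(Cfsg.spGL m F) (ℙ F (Fin m ⊕ Fin m → F)) := by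
    constructor
    intro p p'
    induction p using Projectivization.ind with | _ v hv =>
    induction p' using Projectivization.ind with | _ v' hv' =>
    obtain ⟨g, hg⟩ := trans_vec m v v' hv hv'
    exact ⟨g, smul_mk' m g v hv v' hv' hg⟩
  refine { isTrivialBlock_of_isBlock := ?_ }
  intro B hB
  by_cases hsub : B.Subsingleton
  · exact Or.inl hsub
  · right
    rw [Set.not_subsingleton_iff] at hsub
    obtain ⟨p, hp, p', hp', hpp'⟩ := hsub
    induction p using Projectivization.ind with | _ u hu =>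
    induction p' using Projectivization.ind with | _ w hw =>
    rw [Set.eq_univ_iff_forall]
    intro q
    induction q using Projectivization.ind with | _ x hx =>
    by_cases h0 : Cfsg.sympForm m F u w = 0
    · obtain ⟨w', hw', hw'B, hww'⟩ := lemM m B hB u w hu hw hp hp' hpp'
      exact lemL m B hB w w' hw hw' hp' hw'B hww' x hx
    · exact lemL m B hB u w hu hw hp hp' h0 x hx

end Cfsg.Agent.Lib.Helper2.SpPrim
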