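import Mathlib

set_option autoImplicit false

namespace Cfsg.Agent.Lib.Helper2.SumSq

theorem det_zero_block {m : ℕ} {F : Type*} [Field F] (C D : Matrix (Fin m) (Fin m) F) :
    (Matrix.fromBlocks 0 C C.transpose D).det * (-1) ^ m = C.det ^ 2 := by
  have hJ : (Matrix.fromBlocks (0 : Matrix (Fin m) (Fin m) F) (1 : Matrix (Fin m) (Fin m) F)
      (1 : Matrix (Fin m) (Fin m) F) (0 : Matrix (Fin m) (Fin m) F)).det = (-1) ^ m := by
    have h1 : Matrix.fromBlocks (0 : Matrix (Fin m) (Fin m) F) (1 : Matrix (Fin m) (Fin m) F)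
        (1 : Matrix (Fin m) (Fin m) F) (0 : Matrix (Fin m) (Fin m) F) *
        Matrix.fromBlocks (1 : Matrix (Fin m) (Fin m) F) (0 : Matrix (Fin m) (Fin m) F)
          (1 : Matrix (Fin m) (Fin m) F) (1 : Matrix (Fin m) (Fin m) F) =
        Matrix.fromBlocks (1 : Matrix (Fin m) (Fin m) F) (1 : Matrix (Fin m) (Fin m) F)
          (1 : Matrix (Fin m) (Fin m) F) (0 : Matrix (Fin m) (Fin m) F) := by
      rw [Matrix.fromBlocks_multiply]
      simp
    have h2 := congrArg Matrix.det h1
    rw [Matrix.det_mul, Matrix.det_fromBlocks_zero₁₂, Matrix.det_one, mul_one, mul_one,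
      Matrix.det_fromBlocks_one₁₁, mul_one, zero_sub, Matrix.det_neg, Matrix.det_one, mul_one,
      Fintype.card_fin] at h2
    exact h2
  have h3 : Matrix.fromBlocks 0 C C.transpose D *
      Matrix.fromBlocks (0 : Matrix (Fin m) (Fin m) F) (1 : Matrix (Fin m) (Fin m) F)
        (1 : Matrix (Fin m) (Fin m) F) (0 : Matrix (Fin m) (Fin m) F) =
      Matrix.fromBlocks C 0 D C.transpose := by
    rw [Matrix.fromBlocks_multiply]
    simp
  have h4 := congrArg Matrix.det h3
  rw [Matrix.det_mul, hJ, Matrix.det_fromBlocks_zero₁₂, Matrix.det_transpose] at h4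
  rw [h4]
  ring

theorem sq_of_ts {F : Type*} [Field F] (h2 : (2 : F) ≠ 0) (m : ℕ)
    (W : Submodule F (Fin (2 * m) → F)) (hW : Module.finrank F W = m)
    (hts : ∀ w ∈ W, ∑ i, w i ^ 2 = 0) : IsSquare ((-1 : F) ^ m) := by
  classical
  have hpol : ∀ w ∈ W, ∀ w' ∈ W, ∑ i, w i * w' i = 0 := by
    intro w hw w' hw'
    have h := hts (w + w') (W.add_mem hw hw')
    have e : ∑ i, (w + w') i ^ 2 = ∑ i, w i ^ 2 + 2 * ∑ i, w i * w' i + ∑ i, w' i ^ 2 := by
      rw [Finset.mul_sum, ← Finset.sum_add_distrib, ← Finset.sum_add_distrib]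
      refine Finset.sum_congr rfl fun i _ => ?_
      rw [Pi.add_apply]
      ring
    rw [e, hts w hw, hts w' hw', zero_add, add_zero] at h
    exact (mul_eq_zero.1 h).resolve_left h2
  obtain ⟨W', hc⟩ := Submodule.exists_isCompl W
  have hW' : Module.finrank F W' = m := by
    have h := Submodule.finrank_add_eq_of_isCompl hc
    rw [hW, Module.finrank_fintype_fun_eq_card, Fintype.card_fin] at h
    omega
  let bW := Module.finBasisOfFinrankEq F W hW
  let bW' := Module.finBasisOfFinrankEq F W' hW'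
  let b : Module.Basis (Fin m ⊕ Fin m) F (Fin (2 * m) → F) :=
    (bW.prod bW').map (Submodule.prodEquivOfIsCompl W W' hc)
  have hbl : ∀ i, b (Sum.inl i) ∈ W := by
    intro i
    have h : b (Sum.inl i) = (bW i : Fin (2 * m) → F) := by
      simp [b]
    rw [h]
    exact (bW i).2
  let e : Fin m ⊕ Fin m ≃ Fin (2 * m) := finSumFinEquiv.trans (finCongr (two_mul m).symm)
  let bstd : Module.Basis (Fin m ⊕ Fin m) F (Fin (2 * m) → F) :=
    (Pi.basisFun F (Fin (2 * m))).reindex e.symm
  let P := bstd.toMatrix b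
  have hP : ∀ s t, P s t = b t (e s) := by
    intro s t
    simp [P, bstd, Module.Basis.toMatrix_apply]
  have hG : ∀ s t, (P.transpose * P) s t = ∑ i, b s i * b t i := by
    intro s t
    rw [Matrix.mul_apply]
    simp only [Matrix.transpose_apply, hP]
    exact Equiv.sum_comp e (fun i => b s i * b t i)
  let C : Matrix (Fin m) (Fin m) F := fun i j => ∑ k, b (Sum.inl i) k * b (Sum.inr j) k
  let D : Matrix (Fin m) (Fin m) F := fun i j => ∑ k, b (Sum.inr i) k * b (Sum.inr j) k
  have hblock : P.transpose * P = Matrix.fromBlocks 0 C C.transpose D := by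
    ext s t
    rw [hG]
    rcases s with i | i <;> rcases t with j | j
    · simp [hpol _ (hbl i) _ (hbl j)]
    · rw [Matrix.fromBlocks_apply₁₂]
    · rw [Matrix.fromBlocks_apply₂₁, Matrix.transpose_apply]
      exact Finset.sum_congr rfl fun k _ => mul_comm _ _
    · rw [Matrix.fromBlocks_apply₂₂]
  have hdet := det_zero_block C D
  rw [← hblock, Matrix.det_mul, Matrix.det_transpose] at hdet
  have hPdet : P.det ≠ 0 := by
    have h1 : P * b.toMatrix bstd = 1 := Module.Basis.toMatrix_mul_toMatrix_flip bstd b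
    intro h0
    have h2' := congrArg Matrix.det h1
    rw [Matrix.det_mul, h0, zero_mul, Matrix.det_one] at h2'
    exact zero_ne_one h2'
  refine ⟨C.det / P.det, ?_⟩
  field_simp
  linear_combination hdet

theorem exists_of_matrix {F : Type*} [Field F] {ι : Type*} [Fintype ι] [DecidableEq ι] (m : ℕ)
    (hm : Fintype.card ι = m) (A : Matrix ι ι F) (hA : A.transpose * A = -1) :
    ∃ W : Submodule F (Fin (2 * m) → F), Module.finrank F W = m ∧
      ∀ w ∈ W, ∑ i, w i ^ 2 = 0 := by
  have hcard : Fintype.card (ι ⊕ ι) = Fintype.card (Fin (2 * m)) := by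
    rw [Fintype.card_sum, Fintype.card_fin, hm, two_mul]
  let e : ι ⊕ ι ≃ Fin (2 * m) := Fintype.equivOfCardEq hcard
  let φ : (ι → F) →ₗ[F] (Fin (2 * m) → F) :=
    { toFun := fun c j => Sum.elim c (A.mulVec c) (e.symm j)
      map_add' := fun c d => by
        ext j
        show Sum.elim (c + d) (A.mulVec (c + d)) (e.symm j) =
          Sum.elim c (A.mulVec c) (e.symm j) + Sum.elim d (A.mulVec d) (e.symm j)
        generalize e.symm j = s
        rcases s with i | i
        · simp
        · simp [Matrix.mulVec_add]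
      map_smul' := fun a c => by
        ext j
        show Sum.elim (a • c) (A.mulVec (a • c)) (e.symm j) =
          a * Sum.elim c (A.mulVec c) (e.symm j)
        generalize e.symm j = s
        rcases s with i | i
        · simp
        · simp [Matrix.mulVec_smul] }
  have hφ : ∀ c j, φ c j = Sum.elim c (A.mulVec c) (e.symm j) := fun c j => rfl
  have hinj : Function.Injective φ := by
    intro c d hcd
    ext i
    have h := congrFun hcd (e (Sum.inl i))
    rw [hφ, hφ, Equiv.symm_apply_apply] at h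
    exact h
  refine ⟨LinearMap.range φ, ?_, ?_⟩
  · rw [LinearMap.finrank_range_of_inj hinj, Module.finrank_fintype_fun_eq_card, hm]
  · rintro _ ⟨c, rfl⟩
    have h1 : ∑ j, φ c j ^ 2 = ∑ s : ι ⊕ ι, Sum.elim c (A.mulVec c) s ^ 2 := by
      simp only [hφ]
      exact Equiv.sum_comp e.symm (fun s => Sum.elim c (A.mulVec c) s ^ 2)
    rw [h1, Fintype.sum_sum_type]
    simp only [Sum.elim_inl, Sum.elim_inr]
    have h2 : ∑ i, A.mulVec c i ^ 2 = - ∑ i, c i ^ 2 := by
      have e1 : ∑ i, A.mulVec c i ^ 2 = (A.mulVec c) ⬝ᵥ (A.mulVec c) := by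
        simp [dotProduct, sq]
      have e2 : ∑ i, c i ^ 2 = c ⬝ᵥ c := by simp [dotProduct, sq]
      rw [e1, e2, Matrix.dotProduct_mulVec, ← Matrix.vecMul_transpose, Matrix.vecMul_vecMul, hA,
        Matrix.vecMul_neg, Matrix.vecMul_one, neg_dotProduct]
    rw [h2, add_neg_cancel]

theorem main {F : Type*} [Field F] [Fintype F] (h2 : (2 : F) ≠ 0) (m : ℕ) :
    (∃ W : Submodule F (Fin (2 * m) → F), Module.finrank F W = m ∧
      ∀ w ∈ W, ∑ i, w i ^ 2 = 0) ↔ ¬ (Fintype.card F % 4 = 3 ∧ Odd m) := by
  classical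
  constructor
  · rintro ⟨W, hW, hts⟩ ⟨hq, hodd⟩
    have h := sq_of_ts h2 m W hW hts
    rw [hodd.neg_one_pow] at h
    exact (FiniteField.isSquare_neg_one_iff.1 h) hq
  · intro h
    by_cases hq : Fintype.card F % 4 = 3
    · have hev : Even m := by
        rw [← Nat.not_odd_iff_even]
        exact fun ho => h ⟨hq, ho⟩
      obtain ⟨k, hk⟩ := hev
      obtain ⟨p, hp⟩ := CharP.exists F
      haveI : Fact p.Prime := ⟨CharP.char_is_prime F p⟩
      have : NeZero p := ⟨(Fact.out : p.Prime).ne_zero⟩
      obtain ⟨a, b, hab⟩ := CharP.sq_add_sq F p (-1)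
      rw [Int.cast_neg, Int.cast_one] at hab
      refine exists_of_matrix (ι := Fin k ⊕ Fin k) m (by simp [hk])
        (Matrix.fromBlocks ((a : F) • 1) (-(b : F) • 1) ((b : F) • 1) ((a : F) • 1)) ?_
      rw [Matrix.fromBlocks_transpose, Matrix.fromBlocks_multiply]
      have e1 : ((a : F) • (1 : Matrix (Fin k) (Fin k) F)).transpose * ((a : F) • 1) +
          ((b : F) • (1 : Matrix (Fin k) (Fin k) F)).transpose * ((b : F) • 1) = -1 := by
        rw [Matrix.transpose_smul, Matrix.transpose_smul, Matrix.transpose_one,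
          Matrix.smul_mul, Matrix.smul_mul, Matrix.one_mul, Matrix.one_mul, smul_smul, smul_smul,
          ← add_smul, ← sq, ← sq, hab, neg_smul, one_smul]
      have e2 : ((a : F) • (1 : Matrix (Fin k) (Fin k) F)).transpose * (-(b : F) • 1) +
          ((b : F) • (1 : Matrix (Fin k) (Fin k) F)).transpose * ((a : F) • 1) = 0 := by
        rw [Matrix.transpose_smul, Matrix.transpose_smul, Matrix.transpose_one,
          Matrix.smul_mul, Matrix.smul_mul, Matrix.one_mul, Matrix.one_mul, smul_smul, smul_smul,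
          ← add_smul]
        have e : (a : F) * -(b : F) + (b : F) * (a : F) = 0 := by ring
        rw [e, zero_smul]
      have e3 : (-(b : F) • (1 : Matrix (Fin k) (Fin k) F)).transpose * ((a : F) • 1) +
          ((a : F) • (1 : Matrix (Fin k) (Fin k) F)).transpose * ((b : F) • 1) = 0 := by
        rw [Matrix.transpose_smul, Matrix.transpose_smul, Matrix.transpose_one,
          Matrix.smul_mul, Matrix.smul_mul, Matrix.one_mul, Matrix.one_mul, smul_smul, smul_smul,
          ← add_smul]
        have e : -(b : F) * (a : F) + (a : F) * (b : F) = 0 := by ring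
        rw [e, zero_smul]
      have e4 : (-(b : F) • (1 : Matrix (Fin k) (Fin k) F)).transpose * (-(b : F) • 1) +
          ((a : F) • (1 : Matrix (Fin k) (Fin k) F)).transpose * ((a : F) • 1) = -1 := by
        rw [Matrix.transpose_smul, Matrix.transpose_smul, Matrix.transpose_one,
          Matrix.smul_mul, Matrix.smul_mul, Matrix.one_mul, Matrix.one_mul, smul_smul, smul_smul,
          ← add_smul]
        have e : -(b : F) * -(b : F) + (a : F) * (a : F) = -1 := by
          rw [← hab]
          ring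
        rw [e, neg_smul, one_smul]
      have e5 : (-1 : Matrix (Fin k ⊕ Fin k) (Fin k ⊕ Fin k) F) =
          Matrix.fromBlocks (-1) 0 0 (-1) := by
        rw [← Matrix.fromBlocks_one, Matrix.fromBlocks_neg, neg_zero]
      rw [e1, e2, e3, e4, e5]
    · obtain ⟨i, hi⟩ := FiniteField.isSquare_neg_one_iff.2 hq
      refine exists_of_matrix (ι := Fin m) m (by simp) (i • 1) ?_
      rw [Matrix.transpose_smul, Matrix.transpose_one, Matrix.smul_mul, Matrix.one_mul, smul_smul,
        ← hi, neg_smul, one_smul]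

end Cfsg.Agent.Lib.Helper2.SumSq
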