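import Mathlib

set_option autoImplicit false

universe u v

namespace Cfsg.Agent.Lib.Helper2.SymForm

open Polynomial

theorem nonsq_mul_nonsq {F : Type*} [Field F] [Finite F] {a b : F} (ha : ¬ IsSquare a)
    (hb : ¬ IsSquare b) : IsSquare (a * b) := by
  classical
  have := Fintype.ofFinite F
  have ha0 : a ≠ 0 := fun h => ha (h ▸ IsSquare.zero)
  have hb0 : b ≠ 0 := fun h => hb (h ▸ IsSquare.zero)
  rw [← quadraticChar_one_iff_isSquare (mul_ne_zero ha0 hb0), map_mul,
    quadraticChar_neg_one_iff_not_isSquare.2 ha, quadraticChar_neg_one_iff_not_isSquare.2 hb]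
  norm_num

theorem exists_repr_one {F : Type*} [Field F] [Finite F] (h2 : (2 : F) ≠ 0) {a b : F}
    (ha : a ≠ 0) (hb : b ≠ 0) : ∃ x y : F, a * x ^ 2 + b * y ^ 2 = 1 := by
  classical
  have := Fintype.ofFinite F
  have hch : ringChar F ≠ 2 := by
    intro h
    have h3 := ringChar.Nat.cast_ringChar (R := F)
    rw [h] at h3
    exact h2 (by exact_mod_cast h3)
  have hodd := FiniteField.odd_card_of_char_ne_two hch
  have hf : degree (C a * X ^ 2 : F[X]) = 2 := by
    rw [degree_C_mul_X_pow 2 ha]
    rfl
  have hg : degree (C b * X ^ 2 - C 1 : F[X]) = 2 := by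
    rw [degree_sub_eq_left_of_degree_lt]
    · rw [degree_C_mul_X_pow 2 hb]
      rfl
    · rw [degree_C_mul_X_pow 2 hb]
      exact lt_of_le_of_lt degree_C_le (by norm_num)
  obtain ⟨x, y, hxy⟩ := FiniteField.exists_root_sum_quadratic hf hg hodd
  refine ⟨x, y, ?_⟩
  simp only [eval_mul, eval_C, eval_pow, eval_X, eval_sub] at hxy
  linear_combination hxy

theorem main {F : Type u} [Field F] [Finite F] (h2 : (2 : F) ≠ 0) (α : F) (hα : ¬ IsSquare α)
    (n : ℕ) : ∀ (V : Type v) [AddCommGroup V] [Module F V] [FiniteDimensional F V]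
    (B : LinearMap.BilinForm F V), B.IsSymm → B.Nondegenerate → Module.finrank F V = n + 1 →
    ∃ f : Fin (n + 1) → V, (∀ i j, i ≠ j → B (f i) (f j) = 0) ∧
      (∀ i, i ≠ Fin.last n → B (f i) (f i) = 1) ∧
      (B (f (Fin.last n)) (f (Fin.last n)) = 1 ∨ B (f (Fin.last n)) (f (Fin.last n)) = α) := by
  haveI : Invertible (2 : F) := invertibleOfNonzero h2
  induction n with
  | zero =>
    intro V _ _ _ B hS hB hn
    have hnt : Nontrivial V := Module.nontrivial_of_finrank_pos (R := F) (by omega)
    obtain ⟨u, hu⟩ := LinearMap.BilinForm.exists_bilinForm_self_ne_zero hB.ne_zero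
      (LinearMap.BilinForm.isSymm_iff.1 hS)
    by_cases hsq : IsSquare (B u u)
    · obtain ⟨s, hs⟩ := hsq
      have hs0 : s ≠ 0 := by
        rintro rfl
        rw [mul_zero] at hs
        exact hu hs
      refine ⟨fun _ => s⁻¹ • u, ?_, ?_, ?_⟩
      · intro i j hij
        exact absurd (Subsingleton.elim (α := Fin 1) i j) hij
      · intro i hi
        exact absurd (Subsingleton.elim (α := Fin 1) i _) hi
      · left
        simp only [map_smul, LinearMap.smul_apply, smul_eq_mul]
        rw [hs]
        field_simp
    · obtain ⟨s, hs⟩ := nonsq_mul_nonsq hsq hα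
      refine ⟨fun _ => (s / B u u) • u, ?_, ?_, ?_⟩
      · intro i j hij
        exact absurd (Subsingleton.elim (α := Fin 1) i j) hij
      · intro i hi
        exact absurd (Subsingleton.elim (α := Fin 1) i _) hi
      · right
        simp only [map_smul, LinearMap.smul_apply, smul_eq_mul]
        field_simp
        linear_combination (-1 : F) * hs
  | succ n ih =>
    intro V _ _ _ B hS hB hn
    have hnt : Nontrivial V := Module.nontrivial_of_finrank_pos (R := F) (by omega)
    obtain ⟨u, hu⟩ := LinearMap.BilinForm.exists_bilinForm_self_ne_zero hB.ne_zero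
      (LinearMap.BilinForm.isSymm_iff.1 hS)
    have hBW := LinearMap.BilinForm.restrict_nondegenerate_orthogonal_spanSingleton B hB
      hS.isRefl hu
    have hfW : Module.finrank F (B.orthogonal (F ∙ u)) = n + 1 := by
      rw [LinearMap.BilinForm.finrank_orthogonal hB, hn, finrank_span_singleton]
      · omega
      · rintro rfl
        simp at hu
    have hntW : Nontrivial (B.orthogonal (F ∙ u)) :=
      Module.nontrivial_of_finrank_pos (R := F) (by omega)
    obtain ⟨w, hw⟩ := LinearMap.BilinForm.exists_bilinForm_self_ne_zero hBW.ne_zero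
      (LinearMap.BilinForm.isSymm_iff.1 (hS.restrict _))
    have hw' : B (w : V) (w : V) ≠ 0 := hw
    have huw : B u (w : V) = 0 :=
      (LinearMap.BilinForm.mem_orthogonal_iff.1 w.2) u (Submodule.mem_span_singleton_self u)
    obtain ⟨x, y, hxy⟩ := exists_repr_one h2 hu hw'
    have hv : B (x • u + y • (w : V)) (x • u + y • (w : V)) = 1 := by
      simp only [map_add, map_smul, LinearMap.add_apply, LinearMap.smul_apply, smul_eq_mul]
      rw [hS.eq (w : V) u, huw]
      linear_combination hxy
    have hv0 : B (x • u + y • (w : V)) (x • u + y • (w : V)) ≠ 0 := by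
      rw [hv]
      exact one_ne_zero
    have hBV := LinearMap.BilinForm.restrict_nondegenerate_orthogonal_spanSingleton B hB
      hS.isRefl hv0
    have hfV : Module.finrank F (B.orthogonal (F ∙ (x • u + y • (w : V)))) = n + 1 := by
      rw [LinearMap.BilinForm.finrank_orthogonal hB, hn, finrank_span_singleton]
      · omega
      · intro h0
        rw [h0] at hv0
        simp at hv0
    obtain ⟨f', hf1, hf2, hf3⟩ := ih _ _ (hS.restrict _) hBV hfV
    have hvf : ∀ j, B (x • u + y • (w : V)) (f' j : V) = 0 := fun j =>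
      (LinearMap.BilinForm.mem_orthogonal_iff.1 (f' j).2) _ (Submodule.mem_span_singleton_self _)
    refine ⟨Fin.cons (x • u + y • (w : V)) (fun i => (f' i : V)), ?_, ?_, ?_⟩
    · intro i j
      refine Fin.cases ?_ (fun i' => ?_) i <;> refine Fin.cases ?_ (fun j' => ?_) j
      · intro hij
        exact absurd rfl hij
      · intro _
        rw [Fin.cons_zero, Fin.cons_succ]
        exact hvf j'
      · intro _
        rw [Fin.cons_zero, Fin.cons_succ, hS.eq]
        exact hvf i'
      · intro hij
        rw [Fin.cons_succ, Fin.cons_succ]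
        exact hf1 i' j' (fun h => hij (congrArg Fin.succ h))
    · intro i
      refine Fin.cases ?_ (fun i' => ?_) i
      · intro _
        rw [Fin.cons_zero]
        exact hv
      · intro hi
        rw [Fin.cons_succ]
        exact hf2 i' (fun h => hi (by rw [h, Fin.succ_last]))
    · rw [← Fin.succ_last, Fin.cons_succ]
      exact hf3

end Cfsg.Agent.Lib.Helper2.SymForm
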