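import Mathlib
import Cfsg.Agent.Lib.Helper2.SymForm

set_option autoImplicit false

namespace Cfsg.Agent.Lib.Helper2.SymForm

theorem isometry_of_families {F V : Type*} [Field F] [AddCommGroup V] [Module F V]
    [FiniteDimensional F V] {m : ℕ} (hn : Module.finrank F V = m + 1)
    (B B' : LinearMap.BilinForm F V) (f f' : Fin (m + 1) → V)
    (ho : ∀ i j, i ≠ j → B (f i) (f j) = 0) (ho' : ∀ i j, i ≠ j → B' (f' i) (f' j) = 0)
    (hd : ∀ i, B (f i) (f i) ≠ 0) (hdd : ∀ i, B' (f' i) (f' i) = B (f i) (f i)) :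
    ∃ g : V ≃ₗ[F] V, ∀ x y, B' (g x) (g y) = B x y := by
  have hli : LinearIndependent F f :=
    LinearMap.BilinForm.linearIndependent_of_iIsOrtho (B := B) (fun i j hij => ho i j hij) hd
  have hli' : LinearIndependent F f' :=
    LinearMap.BilinForm.linearIndependent_of_iIsOrtho (B := B') (fun i j hij => ho' i j hij)
      (fun i => by rw [hdd]; exact hd i)
  have hb : ⇑(basisOfLinearIndependentOfCardEqFinrank hli (by rw [Fintype.card_fin, hn])) = f :=
    coe_basisOfLinearIndependentOfCardEqFinrank hli _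
  have hb' : ⇑(basisOfLinearIndependentOfCardEqFinrank hli' (by rw [Fintype.card_fin, hn])) =
      f' := coe_basisOfLinearIndependentOfCardEqFinrank hli' _
  obtain ⟨b, hbb⟩ : ∃ b : Module.Basis (Fin (m + 1)) F V, ⇑b = f := ⟨_, hb⟩
  obtain ⟨b', hbb'⟩ : ∃ b' : Module.Basis (Fin (m + 1)) F V, ⇑b' = f' := ⟨_, hb'⟩
  refine ⟨b.equiv b' (Equiv.refl _), ?_⟩
  have key : B'.comp (b.equiv b' (Equiv.refl _)).toLinearMap
      (b.equiv b' (Equiv.refl _)).toLinearMap = B := by
    apply LinearMap.BilinForm.ext_basis b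
    intro i j
    simp only [LinearMap.BilinForm.comp_apply, LinearEquiv.coe_coe, Module.Basis.equiv_apply,
      Equiv.refl_apply]
    rw [hbb, hbb']
    by_cases hij : i = j
    · subst hij
      exact hdd i
    · rw [ho i j hij, ho' i j hij]
  intro x y
  have h1 := congrArg (fun C : LinearMap.BilinForm F V => C x y) key
  simpa using h1

theorem no_self_similar {F : Type*} [Field F] {m : ℕ}
    (B : LinearMap.BilinForm F (Fin (m + 1) → F)) (hB : B.Nondegenerate) (hm : Even m) (α : F)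
    (hα : ¬ IsSquare α) (g : (Fin (m + 1) → F) ≃ₗ[F] (Fin (m + 1) → F))
    (hg : ∀ x y, B (g x) (g y) = α * B x y) : False := by
  have hcomp : B.comp g.toLinearMap g.toLinearMap = α • B := by
    apply LinearMap.ext
    intro x
    apply LinearMap.ext
    intro y
    simp [hg]
  have h1 := LinearMap.BilinForm.toMatrix'_comp B g.toLinearMap g.toLinearMap
  rw [hcomp, map_smul] at h1
  have hdet : (LinearMap.BilinForm.toMatrix' B).det ≠ 0 :=
    Matrix.nondegenerate_iff_det_ne_zero.1 (LinearMap.BilinForm.nondegenerate_toMatrix'_iff.2 hB)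
  have h2 := congrArg Matrix.det h1
  rw [Matrix.det_mul, Matrix.det_mul, Matrix.det_transpose, Matrix.det_smul,
    Fintype.card_fin] at h2
  have h3 : (LinearMap.toMatrix' g.toLinearMap).det ^ 2 = α ^ (m + 1) := by
    apply mul_right_cancel₀ hdet
    linear_combination -h2
  obtain ⟨k, hk⟩ := hm
  have hα0 : α ≠ 0 := fun h => hα (h ▸ IsSquare.zero)
  obtain ⟨d, hd⟩ : ∃ d, d = (LinearMap.toMatrix' g.toLinearMap).det := ⟨_, rfl⟩
  rw [← hd] at h3
  have h4 : d ^ 2 = α ^ (k + k + 1) := by rw [h3, hk]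
  apply hα
  refine ⟨d / α ^ k, ?_⟩
  field_simp
  linear_combination -h4

end Cfsg.Agent.Lib.Helper2.SymForm
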