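import Mathlib
import Cfsg.Agent.Lib.Helper2.SymSim

set_option autoImplicit false

namespace Cfsg.Agent.Lib.Helper2.SymForm

theorem similar {F : Type*} [Field F] [Fintype F] (h2 : (2 : F) ≠ 0) {n : ℕ} (hn : Odd n)
    (Q₁ Q₂ : QuadraticForm F (Fin n → F)) (h₁ : (QuadraticMap.polarBilin Q₁).Nondegenerate)
    (h₂ : (QuadraticMap.polarBilin Q₂).Nondegenerate) :
    ∃ (g : (Fin n → F) ≃ₗ[F] (Fin n → F)) (c : F), c ≠ 0 ∧ ∀ v, Q₂ (g v) = c * Q₁ v := by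
  obtain ⟨m, rfl⟩ : ∃ m, n = m + 1 := ⟨n - 1, by have := hn.pos; omega⟩
  have hm : Even m := by
    obtain ⟨k, hk⟩ := hn
    exact ⟨k, by omega⟩
  have hch : ringChar F ≠ 2 := by
    intro h
    have h3 := ringChar.Nat.cast_ringChar (R := F)
    rw [h] at h3
    exact h2 (by exact_mod_cast h3)
  obtain ⟨α, hα⟩ := FiniteField.exists_nonsquare hch
  have hα0 : α ≠ 0 := fun h => hα (h ▸ IsSquare.zero)
  obtain ⟨B₁, hB₁⟩ : ∃ B : LinearMap.BilinForm F (Fin (m + 1) → F),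
      B = QuadraticMap.polarBilin Q₁ := ⟨_, rfl⟩
  obtain ⟨B₂, hB₂⟩ : ∃ B : LinearMap.BilinForm F (Fin (m + 1) → F),
      B = QuadraticMap.polarBilin Q₂ := ⟨_, rfl⟩
  have hS₁ : B₁.IsSymm := ⟨fun x y => by rw [hB₁]; exact QuadraticMap.polar_comm Q₁ x y⟩
  have hS₂ : B₂.IsSymm := ⟨fun x y => by rw [hB₂]; exact QuadraticMap.polar_comm Q₂ x y⟩
  have hN₁ : B₁.Nondegenerate := hB₁ ▸ h₁
  have hN₂ : B₂.Nondegenerate := hB₂ ▸ h₂
  have hS₃ : (α • B₁).IsSymm := ⟨fun x y => by simp [hS₁.eq x y]⟩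
  have hN₃ : (α • B₁).Nondegenerate := by
    refine ⟨fun x hx => hN₁.1 x (fun y => ?_), fun y hy => hN₁.2 y (fun x => ?_)⟩
    · have h := hx y
      simpa [hα0] using h
    · have h := hy x
      simpa [hα0] using h
  have hfin : Module.finrank F (Fin (m + 1) → F) = m + 1 := by simp
  obtain ⟨f₁, a1, a2, a3⟩ := main h2 α hα m (Fin (m + 1) → F) B₁ hS₁ hN₁ hfin
  obtain ⟨f₂, b1, b2, b3⟩ := main h2 α hα m (Fin (m + 1) → F) B₂ hS₂ hN₂ hfin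
  obtain ⟨f₃, c1, c2, c3⟩ := main h2 α hα m (Fin (m + 1) → F) (α • B₁) hS₃ hN₃ hfin
  have iso : ∀ (B B' : LinearMap.BilinForm F (Fin (m + 1) → F))
      (f f' : Fin (m + 1) → (Fin (m + 1) → F)),
      (∀ i j, i ≠ j → B (f i) (f j) = 0) → (∀ i j, i ≠ j → B' (f' i) (f' j) = 0) →
      (∀ i, i ≠ Fin.last m → B (f i) (f i) = 1) →
      (∀ i, i ≠ Fin.last m → B' (f' i) (f' i) = 1) →
      B' (f' (Fin.last m)) (f' (Fin.last m)) = B (f (Fin.last m)) (f (Fin.last m)) →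
      B (f (Fin.last m)) (f (Fin.last m)) ≠ 0 →
      ∃ g : (Fin (m + 1) → F) ≃ₗ[F] (Fin (m + 1) → F), ∀ x y, B' (g x) (g y) = B x y := by
    intro B B' f f' ho ho' hd hd' hl hl0
    apply isometry_of_families hfin B B' f f' ho ho'
    · intro i
      by_cases hi : i = Fin.last m
      · rw [hi]
        exact hl0
      · rw [hd i hi]
        exact one_ne_zero
    · intro i
      by_cases hi : i = Fin.last m
      · rw [hi]
        exact hl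
      · rw [hd i hi, hd' i hi]
  have hQ₁ : ∀ v, Q₁ v = 2⁻¹ * B₁ v v := by
    intro v
    rw [hB₁]
    show Q₁ v = 2⁻¹ * QuadraticMap.polar Q₁ v v
    rw [QuadraticMap.polar_self, two_nsmul]
    field_simp
    ring
  have hQ₂ : ∀ v, Q₂ v = 2⁻¹ * B₂ v v := by
    intro v
    rw [hB₂]
    show Q₂ v = 2⁻¹ * QuadraticMap.polar Q₂ v v
    rw [QuadraticMap.polar_self, two_nsmul]
    field_simp
    ring
  have fin : ∀ (g : (Fin (m + 1) → F) ≃ₗ[F] (Fin (m + 1) → F)) (c : F), c ≠ 0 →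
      (∀ x y, B₂ (g x) (g y) = c * B₁ x y) →
      ∃ (g : (Fin (m + 1) → F) ≃ₗ[F] (Fin (m + 1) → F)) (c : F), c ≠ 0 ∧
        ∀ v, Q₂ (g v) = c * Q₁ v := by
    intro g c hc hg
    refine ⟨g, c, hc, fun v => ?_⟩
    rw [hQ₂, hQ₁, hg]
    ring
  obtain ⟨d₁, hd1⟩ : ∃ d, d = B₁ (f₁ (Fin.last m)) (f₁ (Fin.last m)) := ⟨_, rfl⟩
  obtain ⟨d₂, hd2⟩ : ∃ d, d = B₂ (f₂ (Fin.last m)) (f₂ (Fin.last m)) := ⟨_, rfl⟩
  obtain ⟨d₃, hd3⟩ : ∃ d, d = (α • B₁) (f₃ (Fin.last m)) (f₃ (Fin.last m)) := ⟨_, rfl⟩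
  rw [← hd1] at a3
  rw [← hd2] at b3
  rw [← hd3] at c3
  have hd₁0 : d₁ ≠ 0 := by
    rcases a3 with h | h
    · rw [h]
      exact one_ne_zero
    · rw [h]
      exact hα0
  have hd₃0 : d₃ ≠ 0 := by
    rcases c3 with h | h
    · rw [h]
      exact one_ne_zero
    · rw [h]
      exact hα0
  by_cases h12 : d₂ = d₁
  · obtain ⟨g, hg⟩ := iso B₁ B₂ f₁ f₂ a1 b1 a2 b2 (by rw [← hd1, ← hd2, h12])
      (by rw [← hd1]; exact hd₁0)
    exact fin g 1 one_ne_zero (fun x y => by rw [hg, one_mul])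
  · by_cases h32 : d₂ = d₃
    · obtain ⟨g, hg⟩ := iso (α • B₁) B₂ f₃ f₂ c1 b1 c2 b2 (by rw [← hd3, ← hd2, h32])
        (by rw [← hd3]; exact hd₃0)
      exact fin g α hα0 (fun x y => by rw [hg]; rfl)
    · exfalso
      have h31 : d₁ = d₃ := by
        rcases a3 with rfl | rfl <;> rcases b3 with rfl | rfl <;> rcases c3 with rfl | rfl <;>
          first | rfl | exact absurd rfl h12 | exact absurd rfl h32
      obtain ⟨g, hg⟩ := iso (α • B₁) B₁ f₃ f₁ c1 a1 c2 a2 (by rw [← hd3, ← hd1, h31])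
        (by rw [← hd3]; exact hd₃0)
      exact no_self_similar B₁ hN₁ hm α hα g (fun x y => by rw [hg]; rfl)

end Cfsg.Agent.Lib.Helper2.SymForm
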