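import Mathlib
import Cfsg.Agent.Lib.Helper2.SylP
import Cfsg.Agent.Lib.Helper2.ConjCount

set_option autoImplicit false

namespace Cfsg.Agent.Lib.Helper2.SymSylow

open Cfsg.Agent.Lib.Helper2

theorem main990 {α : Type*} [Fintype α] [DecidableEq α] (hα : 2 ≤ Fintype.card α) (p : ℕ)
    [Fact p.Prime] (hp : p ≠ 2) (P : Sylow p (Equiv.Perm α)) :
    (P : Subgroup (Equiv.Perm α)) ≤ alternatingGroup α ∧
    2 * Nat.card ↥(Subgroup.normalizer ((((P : Subgroup (Equiv.Perm α)).subgroupOf
      (alternatingGroup α) : Subgroup ↥(alternatingGroup α)) : Set ↥(alternatingGroup α))))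
      = Nat.card ↥(Subgroup.normalizer ((P : Subgroup (Equiv.Perm α)) : Set (Equiv.Perm α))) := by
  have hpodd : Odd p := (Fact.out : p.Prime).odd_of_ne_two hp
  have hPA : (P : Subgroup (Equiv.Perm α)) ≤ alternatingGroup α := by
    intro x hx
    rw [Equiv.Perm.mem_alternatingGroup]
    obtain ⟨k, hk⟩ := P.isPGroup' ⟨x, hx⟩
    have hk' : x ^ p ^ k = 1 := congrArg Subtype.val hk
    have h1 : (Equiv.Perm.sign x) ^ p ^ k = 1 := by rw [← map_pow, hk', map_one]
    rcases Int.units_eq_one_or (Equiv.Perm.sign x) with h | h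
    · exact h
    · rw [h, (hpodd.pow).neg_one_pow] at h1
      exact absurd h1 (by decide)
  refine ⟨hPA, ?_⟩
  haveI : Nontrivial α := Fintype.one_lt_card_iff_nontrivial.1 (by omega)
  have hfr : Subgroup.normalizer ((P : Subgroup (Equiv.Perm α)) : Set (Equiv.Perm α))
      ⊔ alternatingGroup α = ⊤ := Sylow.normalizer_sup_eq_top' P hPA
  generalize hN : Subgroup.normalizer ((P : Subgroup (Equiv.Perm α)) : Set (Equiv.Perm α)) = N
    at hfr
  have e1 : Nat.card (Subgroup.normalizer (((P : Subgroup (Equiv.Perm α)).subgroupOf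
      (alternatingGroup α) : Subgroup (alternatingGroup α)) : Set (alternatingGroup α)))
      = Nat.card (N ⊓ alternatingGroup α : Subgroup (Equiv.Perm α)) := by
    rw [← Subgroup.subgroupOf_normalizer_eq hPA, hN, ← Subgroup.inf_subgroupOf_right]
    exact Nat.card_congr (Subgroup.subgroupOfEquivOfLe
      (inf_le_right : N ⊓ alternatingGroup α ≤ alternatingGroup α)).toEquiv
  have e2 := Subgroup.relIndex_mul_relIndex (⊥ : Subgroup (Equiv.Perm α))
    (N ⊓ alternatingGroup α) N bot_le inf_le_left
  rw [Subgroup.relIndex_bot_left, Subgroup.relIndex_bot_left, Subgroup.inf_relIndex_left] at e2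
  have e3 : (alternatingGroup α).relIndex N = 2 := by
    rw [← Subgroup.relIndex_sup_right, hfr, Subgroup.relIndex_top_right,
      alternatingGroup.index_eq_two]
  rw [e1, ← e2, e3, mul_comm]

theorem main989 {α : Type*} [Fintype α] [DecidableEq α] (p : ℕ) [hp : Fact p.Prime]
    (hα : Fintype.card α = p ∨ Fintype.card α = p + 1) (P : Sylow p (Equiv.Perm α)) :
    Nat.card ↥(Subgroup.normalizer ((P : Subgroup (Equiv.Perm α)) : Set (Equiv.Perm α)))
      = p * (p - 1) := by
  have hpp := hp.out
  have hfac : (Nat.card (Equiv.Perm α)).factorization p = 1 := by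
    rw [Nat.card_eq_fintype_card, Fintype.card_perm]
    have h1 : (p.factorial).factorization p = 1 := by
      have := Nat.factorization_factorial_mul (n := 1) hpp
      simpa using this
    rcases hα with h | h
    · rw [h, h1]
    · rw [h, Nat.factorial_succ, Nat.factorization_mul (by omega) (Nat.factorial_ne_zero p)]
      simp only [Finsupp.coe_add, Pi.add_apply]
      rw [h1, Nat.factorization_eq_zero_of_not_dvd]
      intro hd
      have := (Nat.dvd_add_right (dvd_refl p)).1 hd
      exact hpp.one_lt.ne' (Nat.dvd_one.1 this)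
  have hPcard : Nat.card (P : Subgroup (Equiv.Perm α)) = p := by
    rw [Sylow.card_eq_multiplicity, hfac, pow_one]
  have hcyc : IsCyclic (P : Subgroup (Equiv.Perm α)) := isCyclic_of_prime_card hPcard
  obtain ⟨s, hs⟩ := hcyc.exists_generator
  have hos : orderOf s = p := by rw [orderOf_eq_card_of_forall_mem_zpowers hs, hPcard]
  have hoσ : orderOf (s : Equiv.Perm α) = p := by rw [Subgroup.orderOf_coe, hos]
  have hσP : (s : Equiv.Perm α) ∈ (P : Subgroup (Equiv.Perm α)) := s.2
  have hσ1 : (s : Equiv.Perm α) ≠ 1 := by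
    intro h
    rw [h, orderOf_one] at hoσ
    exact hpp.ne_one hoσ.symm
  generalize (s : Equiv.Perm α) = σ at hoσ hσP hσ1
  have hcardle : Fintype.card α < 2 * p := by
    have := hpp.two_le
    rcases hα with h | h <;> rw [h] <;> omega
  have hct : ∀ τ : Equiv.Perm α, orderOf τ = p → τ.cycleType = {p} := by
    intro τ hτ
    have hcy : τ.IsCycle := by
      apply Equiv.Perm.isCycle_of_prime_order (by rw [hτ]; exact hpp)
      rw [hτ]
      exact lt_of_le_of_lt (Finset.card_le_univ _) hcardle
    rw [hcy.cycleType, ← hcy.orderOf, hτ]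
  have hPz : Subgroup.zpowers σ = (P : Subgroup (Equiv.Perm α)) :=
    SylP.zpowers_eq_of_card_prime _ hPcard hσP hσ1
  have hcent : Nat.card (Subgroup.centralizer ({σ} : Set (Equiv.Perm α))) = p := by
    rw [Equiv.Perm.nat_card_centralizer, hct σ hoσ]
    have h01 : Fintype.card α - p = 0 ∨ Fintype.card α - p = 1 := by omega
    rcases h01 with h | h <;> simp [h]
  have h1 := ConjCount.card_conj_fiber σ (fun y => y ∈ (P : Subgroup (Equiv.Perm α)))
  have eL : Nat.card {g : Equiv.Perm α // g⁻¹ * σ * g ∈ (P : Subgroup (Equiv.Perm α))}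
      = Nat.card (Subgroup.normalizer ((P : Subgroup (Equiv.Perm α)) : Set (Equiv.Perm α))) := by
    apply Nat.card_congr
    refine Equiv.subtypeEquiv (Equiv.inv (Equiv.Perm α)) ?_
    intro g
    show g⁻¹ * σ * g ∈ (P : Subgroup (Equiv.Perm α)) ↔
      g⁻¹ ∈ Subgroup.normalizer ((P : Subgroup (Equiv.Perm α)) : Set (Equiv.Perm α))
    constructor
    · intro h
      exact SylP.conj_mem_of_zpowers_eq _ hPz h (by rw [inv_inv])
    · intro h
      have h2 := (Subgroup.mem_normalizer_iff.1 h σ).1 hσP
      rwa [inv_inv] at h2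
  have eR : Nat.card {y : Equiv.Perm α // IsConj σ y ∧ y ∈ (P : Subgroup (Equiv.Perm α))}
      = p - 1 := by
    have e : {y : Equiv.Perm α // IsConj σ y ∧ y ∈ (P : Subgroup (Equiv.Perm α))}
        ≃ ↥(((P : Subgroup (Equiv.Perm α)) : Set (Equiv.Perm α)) \ {1}) := by
      refine Equiv.subtypeEquivRight ?_
      intro y
      constructor
      · rintro ⟨hc, hy⟩
        refine ⟨hy, ?_⟩
        intro hy1
        rw [Set.mem_singleton_iff] at hy1
        rw [hy1] at hc
        exact hσ1 (isConj_one_right.1 hc.symm)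
      · rintro ⟨hy, hy1⟩
        refine ⟨?_, hy⟩
        rw [Equiv.Perm.isConj_iff_cycleType_eq, hct σ hoσ, hct y]
        have hz := SylP.zpowers_eq_of_card_prime _ hPcard hy hy1
        rw [← Nat.card_zpowers, hz, hPcard]
    rw [Nat.card_congr e, Nat.card_coe_set_eq,
      Set.ncard_sdiff_singleton_of_mem (Subgroup.one_mem _), ← Nat.card_coe_set_eq]
    exact congrArg (· - 1) hPcard
  rw [eL, eR, hcent] at h1
  rw [h1, mul_comm]

end Cfsg.Agent.Lib.Helper2.SymSylow
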