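import Mathlib

set_option autoImplicit false

universe v

namespace Cfsg.Agent.Lib.Helper2.Sympl

variable {F : Type*} [Field F]

theorem exists_family (n : ℕ) : ∀ (V : Type v) [AddCommGroup V] [Module F V]
    [FiniteDimensional F V] (B : LinearMap.BilinForm F V) (_ : B.IsAlt),
    Module.finrank F V = n →
    ∃ (m k : ℕ) (e f : Fin m → V) (r : Fin k → V),
      (∀ i j, B (e i) (f j) = if i = j then 1 else 0) ∧ (∀ i j, B (e i) (e j) = 0) ∧
      (∀ i j, B (f i) (f j) = 0) ∧ (∀ j v, B (r j) v = 0) ∧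
      (⊤ : Submodule F V) ≤ Submodule.span F (Set.range e ∪ Set.range f ∪ Set.range r) ∧
      2 * m + k = n := by
  induction n using Nat.strong_induction_on with
  | _ n ih =>
  intro V _ _ _ B hA hn
  by_cases h0 : ∀ x y : V, B x y = 0
  · refine ⟨0, Module.finrank F V, fun i => i.elim0, fun i => i.elim0,
      fun j => Module.finBasis F V j, fun i => i.elim0, fun i => i.elim0, fun i => i.elim0,
      fun j v => h0 _ _, ?_, by omega⟩
    have h1 := (Module.finBasis F V).span_eq
    rw [← h1]
    exact Submodule.span_mono Set.subset_union_right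
  · push Not at h0
    obtain ⟨u, v₀, huv⟩ := h0
    obtain ⟨v, hv⟩ : ∃ v : V, B u v = 1 := by
      refine ⟨(B u v₀)⁻¹ • v₀, ?_⟩
      rw [map_smul, smul_eq_mul, inv_mul_cancel₀ huv]
    have hvu : B v u = -1 := by
      rw [← hA.neg_eq u v, hv]
    have huu : B u u = 0 := hA.self_eq_zero u
    have hvv : B v v = 0 := hA.self_eq_zero v
    let W : Submodule F V := LinearMap.ker (B u) ⊓ LinearMap.ker (B v)
    have hW : ∀ x, x ∈ W ↔ B u x = 0 ∧ B v x = 0 := by
      intro x
      show x ∈ LinearMap.ker (B u) ⊓ LinearMap.ker (B v) ↔ _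
      rw [Submodule.mem_inf, LinearMap.mem_ker, LinearMap.mem_ker]
    have hdec : ∀ x : V, x + (B v x) • u - (B u x) • v ∈ W := by
      intro x
      rw [hW]
      constructor
      · rw [map_sub, map_add, map_smul, map_smul, huu, hv, smul_eq_mul, smul_eq_mul]
        ring
      · rw [map_sub, map_add, map_smul, map_smul, hvu, hvv, smul_eq_mul, smul_eq_mul]
        ring
    have hrank : Module.finrank F W + 2 = Module.finrank F V := by
      have hker : LinearMap.ker ((B u).prod (B v)) = W := LinearMap.ker_prod _ _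
      have hsurj : Function.Surjective ((B u).prod (B v)) := by
        rintro ⟨a, b⟩
        refine ⟨a • v - b • u, ?_⟩
        show (B u (a • v - b • u), B v (a • v - b • u)) = (a, b)
        rw [map_sub, map_sub, map_smul, map_smul, map_smul, map_smul, huu, hv, hvu, hvv]
        simp
      have h1 := LinearMap.finrank_range_add_finrank_ker ((B u).prod (B v))
      rw [LinearMap.range_eq_top.2 hsurj, finrank_top, Module.finrank_prod, Module.finrank_self,
        hker] at h1
      omega
    obtain ⟨m', k', e', f', r', h1, h2, h3, h4, h5, h6⟩ :=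
      ih (Module.finrank F W) (by omega) W (B.restrict W) (fun x => hA x) rfl
    have heW : ∀ i, B u (e' i) = 0 ∧ B v (e' i) = 0 := fun i => (hW _).1 (e' i).2
    have hfW : ∀ i, B u (f' i) = 0 ∧ B v (f' i) = 0 := fun i => (hW _).1 (f' i).2
    have hrW : ∀ i, B u (r' i) = 0 ∧ B v (r' i) = 0 := fun i => (hW _).1 (r' i).2
    have hflip : ∀ x y : V, B x y = 0 → B y x = 0 := by
      intro x y hxy
      rw [← hA.neg_eq x y, hxy, neg_zero]
    refine ⟨m' + 1, k', Fin.cons u (fun i => (e' i : V)), Fin.cons v (fun i => (f' i : V)),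
      fun j => (r' j : V), ?_, ?_, ?_, ?_, ?_, by omega⟩
    · intro i j
      refine Fin.cases ?_ (fun i' => ?_) i <;> refine Fin.cases ?_ (fun j' => ?_) j
      · rw [Fin.cons_zero, Fin.cons_zero, if_pos rfl, hv]
      · rw [Fin.cons_zero, Fin.cons_succ, (hfW j').1, if_neg (Fin.succ_ne_zero j').symm]
      · rw [Fin.cons_succ, Fin.cons_zero, hflip _ _ (heW i').2, if_neg (Fin.succ_ne_zero i')]
      · rw [Fin.cons_succ, Fin.cons_succ]
        have h1' : B (e' i' : V) (f' j' : V) = if i' = j' then 1 else 0 := h1 i' j'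
        rw [h1']
        simp only [Fin.succ_inj]
    · intro i j
      refine Fin.cases ?_ (fun i' => ?_) i <;> refine Fin.cases ?_ (fun j' => ?_) j
      · rw [Fin.cons_zero, huu]
      · rw [Fin.cons_zero, Fin.cons_succ, (heW j').1]
      · rw [Fin.cons_succ, Fin.cons_zero, hflip _ _ (heW i').1]
      · rw [Fin.cons_succ, Fin.cons_succ]
        exact h2 i' j'
    · intro i j
      refine Fin.cases ?_ (fun i' => ?_) i <;> refine Fin.cases ?_ (fun j' => ?_) j
      · rw [Fin.cons_zero, hvv]
      · rw [Fin.cons_zero, Fin.cons_succ, (hfW j').2]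
      · rw [Fin.cons_succ, Fin.cons_zero, hflip _ _ (hfW i').2]
      · rw [Fin.cons_succ, Fin.cons_succ]
        exact h3 i' j'
    · intro j x
      obtain ⟨w, hw, hx⟩ : ∃ w ∈ W, x = w - (B v x) • u + (B u x) • v :=
        ⟨_, hdec x, by abel⟩
      have h4' : B (r' j : V) w = 0 := h4 j ⟨w, hw⟩
      show B (r' j : V) x = 0
      rw [hx, map_add, map_sub, map_smul, map_smul, h4', hflip _ _ (hrW j).1,
        hflip _ _ (hrW j).2]
      simp
    · intro x _
      set S : Set V := Set.range (Fin.cons u (fun i => (e' i : V)) : Fin (m' + 1) → V) ∪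
        Set.range (Fin.cons v (fun i => (f' i : V)) : Fin (m' + 1) → V) ∪
        Set.range (fun j => (r' j : V)) with hS
      have hu : u ∈ Submodule.span F S := by
        apply Submodule.subset_span
        left; left
        exact ⟨0, Fin.cons_zero _ _⟩
      have hvS : v ∈ Submodule.span F S := by
        apply Submodule.subset_span
        left; right
        exact ⟨0, Fin.cons_zero _ _⟩
      have hWS : ∀ w : W, (w : V) ∈ Submodule.span F S := by
        intro w
        have hw : w ∈ Submodule.span F (Set.range e' ∪ Set.range f' ∪ Set.range r') :=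
          h5 Submodule.mem_top
        have h7 : (w : V) ∈ (Submodule.span F (Set.range e' ∪ Set.range f' ∪ Set.range r')).map
            W.subtype := ⟨w, hw, rfl⟩
        rw [Submodule.map_span] at h7
        refine Submodule.span_mono ?_ h7
        rintro _ ⟨y, hy, rfl⟩
        rcases hy with (⟨i, rfl⟩ | ⟨i, rfl⟩) | ⟨i, rfl⟩
        · left; left
          exact ⟨i.succ, Fin.cons_succ _ _ _⟩
        · left; right
          exact ⟨i.succ, Fin.cons_succ _ _ _⟩
        · right
          exact ⟨i, rfl⟩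
      obtain ⟨w, hw, hx⟩ : ∃ w ∈ W, x = w - (B v x) • u + (B u x) • v :=
        ⟨_, hdec x, by abel⟩
      rw [hx]
      exact Submodule.add_mem _ (Submodule.sub_mem _ (hWS ⟨w, hw⟩) (Submodule.smul_mem _ _ hu))
        (Submodule.smul_mem _ _ hvS)

theorem exists_basis {V : Type v} [AddCommGroup V] [Module F V] [FiniteDimensional F V]
    (B : LinearMap.BilinForm F V) (hA : B.IsAlt) :
    ∃ (m k : ℕ) (b : Module.Basis ((Fin m ⊕ Fin m) ⊕ Fin k) F V),
      (∀ i j : Fin m, B (b (Sum.inl (Sum.inl i))) (b (Sum.inl (Sum.inr j))) =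
        if i = j then 1 else 0) ∧
      (∀ i j : Fin m, B (b (Sum.inl (Sum.inl i))) (b (Sum.inl (Sum.inl j))) = 0) ∧
      (∀ i j : Fin m, B (b (Sum.inl (Sum.inr i))) (b (Sum.inl (Sum.inr j))) = 0) ∧
      (∀ (j : Fin k) (v : V), B (b (Sum.inr j)) v = 0) := by
  obtain ⟨m, k, e, f, r, h1, h2, h3, h4, h5, h6⟩ := exists_family (Module.finrank F V) V B hA rfl
  have hspan : (⊤ : Submodule F V) ≤
      Submodule.span F (Set.range (Sum.elim (Sum.elim e f) r)) := by
    refine h5.trans (Submodule.span_mono ?_)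
    rintro y ((⟨i, rfl⟩ | ⟨i, rfl⟩) | ⟨i, rfl⟩)
    · exact ⟨Sum.inl (Sum.inl i), rfl⟩
    · exact ⟨Sum.inl (Sum.inr i), rfl⟩
    · exact ⟨Sum.inr i, rfl⟩
  have hcard : Fintype.card ((Fin m ⊕ Fin m) ⊕ Fin k) = Module.finrank F V := by
    rw [Fintype.card_sum, Fintype.card_sum, Fintype.card_fin, Fintype.card_fin]
    omega
  refine ⟨m, k, basisOfTopLeSpanOfCardEqFinrank _ hspan hcard, ?_, ?_, ?_, ?_⟩
  · intro i j
    rw [coe_basisOfTopLeSpanOfCardEqFinrank]
    exact h1 i j
  · intro i j
    rw [coe_basisOfTopLeSpanOfCardEqFinrank]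
    exact h2 i j
  · intro i j
    rw [coe_basisOfTopLeSpanOfCardEqFinrank]
    exact h3 i j
  · intro j x
    rw [coe_basisOfTopLeSpanOfCardEqFinrank]
    exact h4 j x

end Cfsg.Agent.Lib.Helper2.Sympl
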