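import Mathlib
import Cfsg.Prelude.Def_Characters

set_option autoImplicit false

namespace Cfsg.Agent.Lib.Helper2.TIInd

variable {G : Type*} [Group G]

theorem partA [Finite G] (K : Subgroup G)
    (hTI : ∀ g : G, g ∉ Subgroup.normalizer (K : Set G) → ∀ k ∈ K, g * k * g⁻¹ ∈ K → k = 1)
    (hC : ∀ k ∈ K, k ≠ 1 → Subgroup.centralizer ({k} : Set G) ≤ K) :
    ∀ x ∈ Subgroup.normalizer (K : Set G), x ∉ K → ∀ g : G, g * x * g⁻¹ ∉ K := by
  intro x hxN hxK g hgx
  have hk1 : g * x * g⁻¹ ≠ 1 := by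
    intro h
    have : x = 1 := by
      have h2 : g * x = g := by rwa [mul_inv_eq_one] at h
      exact mul_left_cancel (h2.trans (mul_one g).symm)
    exact hxK (this ▸ K.one_mem)
  have hgN : g ∉ Subgroup.normalizer (K : Set G) := by
    intro hg
    apply hxK
    have h1 := (Subgroup.mem_normalizer_iff.1 (Subgroup.inv_mem _ hg)) (g * x * g⁻¹)
    have h2 := h1.1 hgx
    have e : g⁻¹ * (g * x * g⁻¹) * g⁻¹⁻¹ = x := by group
    rwa [e] at h2
  have hginvN : g⁻¹ ∉ Subgroup.normalizer (K : Set G) := fun h => hgN (by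
    have := Subgroup.inv_mem _ h
    rwa [inv_inv] at this)
  generalize hk : g * x * g⁻¹ = k at hgx hk1
  have hx : x = g⁻¹ * k * g := by rw [← hk]; group
  have hord : orderOf k ≠ 1 := fun h => hk1 (orderOf_eq_one_iff.1 h)
  obtain ⟨p, hp, hpk⟩ := Nat.exists_prime_and_dvd hord
  haveI : Fact p.Prime := ⟨hp⟩
  have hk0 : orderOf (k ^ (orderOf k / p)) = p :=
    orderOf_pow_orderOf_div (orderOf_pos k).ne' hpk
  have hk0K : k ^ (orderOf k / p) ∈ K := K.pow_mem hgx _
  have hy : x ^ (orderOf k / p) = g⁻¹ * k ^ (orderOf k / p) * g := by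
    rw [hx]
    have := conj_pow (a := g⁻¹) (b := k) (i := orderOf k / p)
    rw [inv_inv] at this
    exact this
  generalize k ^ (orderOf k / p) = k₀ at hk0 hk0K hy
  generalize hyd : x ^ (orderOf k / p) = y at hy
  have hyN : y ∈ Subgroup.normalizer (K : Set G) := by
    rw [← hyd]
    exact Subgroup.pow_mem _ hxN _
  have hk01 : k₀ ≠ 1 := by
    intro h
    rw [h, orderOf_one] at hk0
    exact hp.one_lt.ne hk0
  have hyK : y ∉ K := by
    intro h
    apply hk01
    apply hTI g⁻¹ hginvN k₀ hk0K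
    rw [inv_inv, ← hy]
    exact h
  have hyord : orderOf y = p := by
    have h6 : g⁻¹ * k₀ * g = (MulAut.conj g⁻¹) k₀ := by simp
    rw [hy, h6, MulEquiv.orderOf_eq, hk0]
  have hYp : IsPGroup p (Subgroup.zpowers y) := by
    apply IsPGroup.of_card (n := 1)
    rw [Nat.card_zpowers, hyord, pow_one]
  have hYN : ∀ h ∈ Subgroup.zpowers y, ∀ k' ∈ K, h * k' * h⁻¹ ∈ K := by
    intro h hh k' hk'
    have : h ∈ Subgroup.normalizer (K : Set G) := by
      obtain ⟨i, rfl⟩ := Subgroup.mem_zpowers_iff.1 hh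
      exact Subgroup.zpow_mem _ hyN i
    exact (Subgroup.mem_normalizer_iff.1 this k').1 hk'
  let _ : MulAction (Subgroup.zpowers y) K :=
    { smul := fun h k' => ⟨(h : G) * (k' : G) * (h : G)⁻¹, hYN h h.2 k' k'.2⟩
      one_smul := fun k' => by
        apply Subtype.ext
        show ((1 : Subgroup.zpowers y) : G) * (k' : G) * ((1 : Subgroup.zpowers y) : G)⁻¹ = k'
        rw [Subgroup.coe_one, one_mul, inv_one, mul_one]
      mul_smul := fun a b k' => by
        apply Subtype.ext
        show ((a * b : Subgroup.zpowers y) : G) * (k' : G) * ((a * b : Subgroup.zpowers y) : G)⁻¹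
          = (a : G) * ((b : G) * (k' : G) * (b : G)⁻¹) * (a : G)⁻¹
        rw [Subgroup.coe_mul]
        group }
  have hdvd : p ∣ Nat.card K := by
    rw [← hk0]
    exact Subgroup.orderOf_dvd_natCard K hk0K
  have h1fix : (1 : K) ∈ MulAction.fixedPoints (Subgroup.zpowers y) K := by
    intro h
    apply Subtype.ext
    show (h : G) * ((1 : K) : G) * (h : G)⁻¹ = ((1 : K) : G)
    rw [Subgroup.coe_one, mul_one, mul_inv_cancel]
  obtain ⟨k', hk'fix, hk'1⟩ :=
    hYp.exists_fixed_point_of_prime_dvd_card_of_fixed_point (α := K) hdvd h1fix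
  have h2 := congrArg Subtype.val (hk'fix ⟨y, Subgroup.mem_zpowers y⟩)
  have h3 : y * (k' : G) * y⁻¹ = (k' : G) := h2
  have hk'1' : (k' : G) ≠ 1 := by
    intro h
    apply hk'1
    apply Subtype.ext
    rw [h]
    rfl
  apply hyK
  apply hC (k' : G) k'.2 hk'1'
  rw [Subgroup.mem_centralizer_iff]
  intro h hh
  rw [Set.mem_singleton_iff] at hh
  rw [hh]
  rw [mul_inv_eq_iff_eq_mul] at h3
  exact h3.symm

theorem partB [Fintype G] (K : Subgroup G)
    (hTI : ∀ g : G, g ∉ Subgroup.normalizer (K : Set G) → ∀ k ∈ K, g * k * g⁻¹ ∈ K → k = 1)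
    (hC : ∀ k ∈ K, k ≠ 1 → Subgroup.centralizer ({k} : Set G) ≤ K)
    (ϑ : Subgroup.normalizer (K : Set G) → ℂ)
    (hcl : Cfsg.IsClassFunction (Subgroup.normalizer (K : Set G)) ϑ)
    (hvan : ∀ x : Subgroup.normalizer (K : Set G), (x : G) ∉ K → ϑ x = 0) (h1 : ϑ 1 = 0)
    (x : Subgroup.normalizer (K : Set G)) :
    Cfsg.indFun (Subgroup.normalizer (K : Set G)) ϑ x = ϑ x := by
  classical
  have hA := partA K hTI hC
  have key : ∀ g : G, Cfsg.extendByZero (Subgroup.normalizer (K : Set G)) ϑ (g⁻¹ * (x : G) * g)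
      = if g ∈ Subgroup.normalizer (K : Set G) then ϑ x else 0 := by
    intro g
    unfold Cfsg.extendByZero
    by_cases hg : g ∈ Subgroup.normalizer (K : Set G)
    · rw [if_pos hg]
      have hmem : g⁻¹ * (x : G) * g ∈ Subgroup.normalizer (K : Set G) :=
        Subgroup.mul_mem _ (Subgroup.mul_mem _ (Subgroup.inv_mem _ hg) x.2) hg
      have e : g⁻¹ * (x : G) * g
          = ((⟨g⁻¹ * (x : G) * g, hmem⟩ : Subgroup.normalizer (K : Set G)) : G) := rfl
      rw [e, Subtype.val_injective.extend_apply]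
      have e2 : (⟨g⁻¹ * (x : G) * g, hmem⟩ : Subgroup.normalizer (K : Set G))
          = (⟨g, hg⟩ : Subgroup.normalizer (K : Set G))⁻¹ * x *
            ((⟨g, hg⟩ : Subgroup.normalizer (K : Set G))⁻¹)⁻¹ := by
        apply Subtype.ext
        show g⁻¹ * (x : G) * g = g⁻¹ * (x : G) * g⁻¹⁻¹
        rw [inv_inv]
      rw [e2, hcl]
    · rw [if_neg hg]
      have hginv : g⁻¹ ∉ Subgroup.normalizer (K : Set G) := fun h => hg (by
        have := Subgroup.inv_mem _ h
        rwa [inv_inv] at this)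
      by_cases hmem : g⁻¹ * (x : G) * g ∈ Subgroup.normalizer (K : Set G)
      · have e : g⁻¹ * (x : G) * g
            = ((⟨g⁻¹ * (x : G) * g, hmem⟩ : Subgroup.normalizer (K : Set G)) : G) := rfl
        rw [e, Subtype.val_injective.extend_apply]
        by_cases hK : g⁻¹ * (x : G) * g ∈ K
        · by_cases hxK : (x : G) ∈ K
          · have hx1 : (x : G) = 1 := hTI g⁻¹ hginv x hxK (by rw [inv_inv]; exact hK)
            have e3 : (⟨g⁻¹ * (x : G) * g, hmem⟩ : Subgroup.normalizer (K : Set G)) = 1 := by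
              apply Subtype.ext
              show g⁻¹ * (x : G) * g = 1
              rw [hx1, mul_one, inv_mul_cancel]
            rw [e3, h1]
          · exfalso
            have := hA x x.2 hxK g⁻¹
            rw [inv_inv] at this
            exact this hK
        · exact hvan _ hK
      · rw [Function.extend_apply']
        · rfl
        · rintro ⟨a, ha⟩
          exact hmem (ha ▸ a.2)
  unfold Cfsg.indFun
  rw [Finset.sum_congr rfl (fun g _ => key g), Finset.sum_ite, Finset.sum_const,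
    Finset.sum_const_zero, add_zero, nsmul_eq_mul]
  have hcard : (Finset.filter (fun g => g ∈ Subgroup.normalizer (K : Set G)) Finset.univ).card
      = Nat.card (Subgroup.normalizer (K : Set G)) := by
    rw [Nat.card_eq_fintype_card, Fintype.card_subtype]
  rw [hcard, ← mul_assoc, inv_mul_cancel₀, one_mul]
  have hpos : 0 < Nat.card (Subgroup.normalizer (K : Set G)) := Nat.card_pos
  exact_mod_cast hpos.ne'

end Cfsg.Agent.Lib.Helper2.TIInd
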