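import Mathlib
import Cfsg.Agent.Lib.Helper2.Sympl

set_option autoImplicit false

namespace Cfsg.Agent.Lib.Helper2.TensAlt

open TensorProduct

variable {F U W : Type*} [Field F] [AddCommGroup U] [Module F U] [FiniteDimensional F U]
  [AddCommGroup W] [Module F W] [FiniteDimensional F W]

theorem tmul_symm (B₁ : LinearMap.BilinForm F U) (B₂ : LinearMap.BilinForm F W)
    (hA₁ : B₁.IsAlt) (hA₂ : B₂.IsAlt) : LinearMap.IsSymm (B₁.tmul B₂) := by
  rw [LinearMap.isSymm_iff_eq_flip]
  apply TensorProduct.ext'
  intro u w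
  apply TensorProduct.ext'
  intro u' w'
  show B₂ w w' • B₁ u u' = B₂ w' w • B₁ u' u
  rw [← hA₁.neg_eq u u', ← hA₂.neg_eq w w', smul_eq_mul, smul_eq_mul, neg_mul_neg]

theorem tmul_nondeg (B₁ : LinearMap.BilinForm F U) (B₂ : LinearMap.BilinForm F W)
    (h₁ : B₁.Nondegenerate) (h₂ : B₂.Nondegenerate) :
    LinearMap.Nondegenerate (B₁.tmul B₂) := by
  classical
  have hm : LinearMap.BilinForm.toMatrix ((Module.finBasis F U).tensorProduct
      (Module.finBasis F W)) (B₁.tmul B₂) =
      Matrix.kroneckerMap (· * ·) (LinearMap.BilinForm.toMatrix (Module.finBasis F U) B₁)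
        (LinearMap.BilinForm.toMatrix (Module.finBasis F W) B₂) := by
    ext ⟨i, k⟩ ⟨j, l⟩
    simp [LinearMap.BilinForm.toMatrix_apply, Module.Basis.tensorProduct_apply, mul_comm]
  have h3 : LinearMap.BilinForm.Nondegenerate (B₁.tmul B₂) := by
    rw [LinearMap.BilinForm.nondegenerate_iff_det_ne_zero
      ((Module.finBasis F U).tensorProduct (Module.finBasis F W)), hm, Matrix.det_kronecker]
    exact mul_ne_zero
      (pow_ne_zero _ ((LinearMap.BilinForm.nondegenerate_iff_det_ne_zero _).1 h₁))
      (pow_ne_zero _ ((LinearMap.BilinForm.nondegenerate_iff_det_ne_zero _).1 h₂))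
  exact h3

theorem exists_lagrangian (B : LinearMap.BilinForm F U) (h : B.Nondegenerate) (hA : B.IsAlt)
    (k : ℕ) (hU : Module.finrank F U = 2 * k) :
    ∃ L : Submodule F U, Module.finrank F L = k ∧ ∀ x ∈ L, ∀ y ∈ L, B x y = 0 := by
  obtain ⟨m, r, b, h1, h2, h3, h4⟩ := Sympl.exists_basis B hA
  have hr : r = 0 := by
    by_contra hr
    have h5 := h.1 (b (Sum.inr ⟨0, Nat.pos_of_ne_zero hr⟩)) (h4 _)
    exact b.ne_zero _ h5
  have hdim : Module.finrank F U = 2 * m + r := by
    rw [Module.finrank_eq_card_basis b]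
    simp
    ring
  refine ⟨Submodule.span F (Set.range (fun i : Fin m => b (Sum.inl (Sum.inl i)))), ?_, ?_⟩
  · rw [finrank_span_eq_card]
    · simp
      omega
    · exact b.linearIndependent.comp _ (fun i j hij => by simpa using hij)
  · intro x hx y hy
    induction hx using Submodule.span_induction with
    | mem x hx =>
      obtain ⟨i, rfl⟩ := hx
      induction hy using Submodule.span_induction with
      | mem y hy =>
        obtain ⟨j, rfl⟩ := hy
        exact h2 i j
      | zero => simp
      | add y z _ _ hy hz => rw [map_add, hy, hz, add_zero]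
      | smul c y _ hy => rw [map_smul, hy, smul_zero]
    | zero => simp
    | add x z _ _ hx hz => rw [map_add, LinearMap.add_apply, hx, hz, add_zero]
    | smul c x _ hx => rw [map_smul, LinearMap.smul_apply, hx, smul_zero]

theorem exists_ti (B₁ : LinearMap.BilinForm F U) (B₂ : LinearMap.BilinForm F W)
    (L : Submodule F U) (hL : ∀ x ∈ L, ∀ y ∈ L, B₁ x y = 0) :
    ∃ X : Submodule F (U ⊗[F] W),
      Module.finrank F X = Module.finrank F L * Module.finrank F W ∧
      ∀ x ∈ X, ∀ y ∈ X, (B₁.tmul B₂) x y = 0 := by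
  refine ⟨LinearMap.range (L.subtype.rTensor W), ?_, ?_⟩
  · rw [LinearMap.finrank_range_of_inj
      (Module.Flat.rTensor_preserves_injective_linearMap _ L.injective_subtype),
      Module.finrank_tensorProduct]
  · rintro x ⟨t, rfl⟩ y ⟨t', rfl⟩
    induction t using TensorProduct.induction_on with
    | zero => simp
    | tmul a w =>
      induction t' using TensorProduct.induction_on with
      | zero => simp
      | tmul a' w' =>
        simp only [LinearMap.rTensor_tmul, Submodule.subtype_apply]
        rw [LinearMap.BilinForm.tensorDistrib_tmul, hL a a.2 a' a'.2, smul_zero]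
      | add t₁ t₂ h₁ h₂ => rw [map_add, map_add, h₁, h₂, add_zero]
    | add t₁ t₂ h₁ h₂ => rw [map_add, map_add, LinearMap.add_apply, h₁, h₂, add_zero]

end Cfsg.Agent.Lib.Helper2.TensAlt
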