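import Mathlib

set_option autoImplicit false

namespace Cfsg.Agent.Lib.Helper2.Torus

variable {F : Type*} [Field F] {n : ℕ}

def torus (F : Type*) [Field F] (n : ℕ) : Subgroup (Matrix.GeneralLinearGroup (Fin n) F) :=
  (Units.map (Matrix.diagonalRingHom (Fin n) F).toMonoidHom).range

theorem mem_torus_iff (h : Matrix.GeneralLinearGroup (Fin n) F) :
    h ∈ torus F n ↔ ∃ d : Fin n → F, (∀ i, d i ≠ 0) ∧
      (h : Matrix (Fin n) (Fin n) F) = Matrix.diagonal d := by
  constructor
  · rintro ⟨u, rfl⟩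
    refine ⟨(u : Fin n → F), fun i hi => ?_, rfl⟩
    have h1 : (u : Fin n → F) * ((u⁻¹ : (Fin n → F)ˣ) : Fin n → F) = 1 := u.mul_inv
    have h2 := congrFun h1 i
    rw [Pi.mul_apply, hi, zero_mul] at h2
    exact zero_ne_one h2
  · rintro ⟨d, hd, hh⟩
    refine ⟨⟨d, fun i => (d i)⁻¹, ?_, ?_⟩, ?_⟩
    · ext i
      exact mul_inv_cancel₀ (hd i)
    · ext i
      exact inv_mul_cancel₀ (hd i)
    · apply Units.ext
      rw [hh]
      rfl

theorem row_ne_zero (g : Matrix.GeneralLinearGroup (Fin n) F) (i : Fin n) :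
    ∃ j, (g : Matrix (Fin n) (Fin n) F) i j ≠ 0 := by
  by_contra hcon
  push Not at hcon
  have h1 : (g : Matrix (Fin n) (Fin n) F) * ((g⁻¹ : Matrix.GeneralLinearGroup (Fin n) F) :
      Matrix (Fin n) (Fin n) F) = 1 := g.mul_inv
  have h2 := congrFun (congrFun h1 i) i
  rw [Matrix.mul_apply, Matrix.one_apply_eq] at h2
  have h3 : ∑ j, (g : Matrix (Fin n) (Fin n) F) i j *
      ((g⁻¹ : Matrix.GeneralLinearGroup (Fin n) F) : Matrix (Fin n) (Fin n) F) j i = 0 := by
    apply Finset.sum_eq_zero
    intro j _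
    rw [hcon j, zero_mul]
  rw [h3] at h2
  exact zero_ne_one h2

theorem sigma_injective (g : Matrix.GeneralLinearGroup (Fin n) F) (σ : Fin n → Fin n)
    (hσ : ∀ i j, (g : Matrix (Fin n) (Fin n) F) i j ≠ 0 → j = σ i)
    (hσ0 : ∀ i, (g : Matrix (Fin n) (Fin n) F) i (σ i) ≠ 0) : Function.Injective σ := by
  intro i i' hii
  by_contra hne
  have h1 : (g : Matrix (Fin n) (Fin n) F) * ((g⁻¹ : Matrix.GeneralLinearGroup (Fin n) F) :
      Matrix (Fin n) (Fin n) F) = 1 := g.mul_inv
  have hrow : ∀ (a b : Fin n), ((g : Matrix (Fin n) (Fin n) F) *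
      ((g⁻¹ : Matrix.GeneralLinearGroup (Fin n) F) : Matrix (Fin n) (Fin n) F)) a b =
      (g : Matrix (Fin n) (Fin n) F) a (σ a) *
      ((g⁻¹ : Matrix.GeneralLinearGroup (Fin n) F) : Matrix (Fin n) (Fin n) F) (σ a) b := by
    intro a b
    rw [Matrix.mul_apply]
    apply Finset.sum_eq_single (σ a)
    · intro j _ hj
      have : (g : Matrix (Fin n) (Fin n) F) a j = 0 := by
        by_contra h0
        exact hj (hσ a j h0)
      rw [this, zero_mul]
    · intro h
      exact absurd (Finset.mem_univ _) h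
  have e1 := hrow i i
  have e2 := hrow i' i
  rw [h1, Matrix.one_apply_eq] at e1
  rw [h1, Matrix.one_apply_ne (Ne.symm hne), ← hii] at e2
  have h3 : ((g⁻¹ : Matrix.GeneralLinearGroup (Fin n) F) : Matrix (Fin n) (Fin n) F) (σ i) i
      = 0 := by
    rcases mul_eq_zero.1 e2.symm with h | h
    · rw [hii] at h
      exact absurd h (hσ0 i')
    · exact h
  rw [h3, mul_zero] at e1
  exact one_ne_zero e1

theorem main (hF : ∃ a : F, a ≠ 0 ∧ a ≠ 1) (g : Matrix.GeneralLinearGroup (Fin n) F) :
    g ∈ Subgroup.normalizer ((torus F n : Subgroup (Matrix.GeneralLinearGroup (Fin n) F)) :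
      Set (Matrix.GeneralLinearGroup (Fin n) F)) ↔
    ∀ i : Fin n, ∃! j : Fin n, (g : Matrix (Fin n) (Fin n) F) i j ≠ 0 := by
  classical
  constructor
  · intro hg i
    obtain ⟨j, hj⟩ := row_ne_zero g i
    refine ⟨j, hj, fun k hk => ?_⟩
    by_contra hkj
    obtain ⟨a, ha0, ha1⟩ := hF
    have hd : ∀ l : Fin n, (if l = j then a else 1) ≠ 0 := by
      intro l
      split_ifs
      · exact ha0
      · exact one_ne_zero
    obtain ⟨D, hD⟩ : ∃ D : Matrix.GeneralLinearGroup (Fin n) F, D ∈ torus F n ∧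
        (D : Matrix (Fin n) (Fin n) F) = Matrix.diagonal (fun l => if l = j then a else 1) := by
      have h1 : ∃ d : Fin n → F, (∀ i, d i ≠ 0) ∧ Matrix.diagonal (fun l => if l = j then a else 1)
          = Matrix.diagonal d := ⟨_, hd, rfl⟩
      have hdet : IsUnit (Matrix.diagonal (fun l : Fin n => if l = j then a else (1 : F))) := by
        rw [Matrix.isUnit_iff_isUnit_det, Matrix.det_diagonal]
        apply IsUnit.mk0
        exact Finset.prod_ne_zero_iff.2 (fun l _ => hd l)
      obtain ⟨D, hD⟩ := hdet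
      exact ⟨D, (mem_torus_iff D).2 ⟨_, hd, hD⟩, hD⟩
    have h2 := (Subgroup.mem_normalizer_iff.1 hg D).1 hD.1
    obtain ⟨d', hd', hX⟩ := (mem_torus_iff _).1 h2
    have h3 : (g : Matrix (Fin n) (Fin n) F) * (D : Matrix (Fin n) (Fin n) F) =
        Matrix.diagonal d' * (g : Matrix (Fin n) (Fin n) F) := by
      rw [← hX]
      have : g * D = g * D * g⁻¹ * g := by group
      have h4 := congrArg (fun u : Matrix.GeneralLinearGroup (Fin n) F =>
        (u : Matrix (Fin n) (Fin n) F)) this
      exact h4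
    rw [hD.2] at h3
    have e1 := congrFun (congrFun h3 i) j
    have e2 := congrFun (congrFun h3 i) k
    rw [Matrix.mul_diagonal, Matrix.diagonal_mul] at e1 e2
    rw [if_pos rfl] at e1
    rw [if_neg hkj, mul_one] at e2
    have h5 : d' i = 1 := by
      have : (1 - d' i) * (g : Matrix (Fin n) (Fin n) F) i k = 0 := by
        rw [sub_mul, one_mul, ← e2, sub_self]
      rcases mul_eq_zero.1 this with h | h
      · exact (sub_eq_zero.1 h).symm
      · exact absurd h hk
    rw [h5, one_mul] at e1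
    have h6 : (g : Matrix (Fin n) (Fin n) F) i j * (a - 1) = 0 := by
      rw [mul_sub, mul_one, e1, sub_self]
    rcases mul_eq_zero.1 h6 with h | h
    · exact hj h
    · exact ha1 (sub_eq_zero.1 h)
  · intro hmono
    choose σ hσ0 hσ using hmono
    have hσ' : ∀ i j, (g : Matrix (Fin n) (Fin n) F) i j ≠ 0 → j = σ i := fun i j h => hσ i j h
    have hinj := sigma_injective g σ hσ' hσ0
    have hbij : Function.Bijective σ := Finite.injective_iff_bijective.1 hinj
    have hcomm : ∀ d d' : Fin n → F, (∀ i, d' i = d (σ i)) →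
        (g : Matrix (Fin n) (Fin n) F) * Matrix.diagonal d =
          Matrix.diagonal d' * (g : Matrix (Fin n) (Fin n) F) := by
      intro d d' hdd
      ext i j
      rw [Matrix.mul_diagonal, Matrix.diagonal_mul]
      by_cases hj : j = σ i
      · rw [hj, hdd i, mul_comm]
      · have : (g : Matrix (Fin n) (Fin n) F) i j = 0 := by
          by_contra h0
          exact hj (hσ' i j h0)
        rw [this, zero_mul, mul_zero]
    rw [Subgroup.mem_normalizer_iff]
    intro h
    constructor
    · intro hh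
      obtain ⟨d, hd, hhd⟩ := (mem_torus_iff h).1 hh
      rw [mem_torus_iff]
      refine ⟨fun i => d (σ i), fun i => hd (σ i), ?_⟩
      have h1 := hcomm d (fun i => d (σ i)) (fun i => rfl)
      have h2 : ((g * h * g⁻¹ : Matrix.GeneralLinearGroup (Fin n) F) : Matrix (Fin n) (Fin n) F)
          = (g : Matrix (Fin n) (Fin n) F) * (h : Matrix (Fin n) (Fin n) F) *
            ((g⁻¹ : Matrix.GeneralLinearGroup (Fin n) F) : Matrix (Fin n) (Fin n) F) := rfl
      rw [h2, hhd, h1, Matrix.mul_assoc]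
      have h3 : (g : Matrix (Fin n) (Fin n) F) * ((g⁻¹ : Matrix.GeneralLinearGroup (Fin n) F) :
          Matrix (Fin n) (Fin n) F) = 1 := g.mul_inv
      rw [h3, Matrix.mul_one]
    · intro hh
      obtain ⟨d', hd', hhd⟩ := (mem_torus_iff _).1 hh
      rw [mem_torus_iff]
      let τ := Equiv.ofBijective σ hbij
      refine ⟨fun j => d' (τ.symm j), fun j => hd' _, ?_⟩
      have h1 := hcomm (fun j => d' (τ.symm j)) d' (fun i => by
        show d' i = d' (τ.symm (σ i))
        have : τ.symm (σ i) = i := τ.symm_apply_apply i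
        rw [this])
      have h2 : (g : Matrix (Fin n) (Fin n) F) * (h : Matrix (Fin n) (Fin n) F) =
          Matrix.diagonal d' * (g : Matrix (Fin n) (Fin n) F) := by
        rw [← hhd]
        have : g * h = g * h * g⁻¹ * g := by group
        exact congrArg (fun u : Matrix.GeneralLinearGroup (Fin n) F =>
          (u : Matrix (Fin n) (Fin n) F)) this
      have h3 : (g : Matrix (Fin n) (Fin n) F) * (h : Matrix (Fin n) (Fin n) F) =
          (g : Matrix (Fin n) (Fin n) F) * Matrix.diagonal (fun j => d' (τ.symm j)) := by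
        rw [h2, h1]
      have h4 : ((g⁻¹ : Matrix.GeneralLinearGroup (Fin n) F) : Matrix (Fin n) (Fin n) F) *
          (g : Matrix (Fin n) (Fin n) F) = 1 := g.inv_mul
      have h5 := congrArg (fun M => ((g⁻¹ : Matrix.GeneralLinearGroup (Fin n) F) :
          Matrix (Fin n) (Fin n) F) * M) h3
      simp only [← Matrix.mul_assoc, h4, Matrix.one_mul] at h5
      exact h5

end Cfsg.Agent.Lib.Helper2.Torus
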