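import Mathlib

set_option autoImplicit false

namespace Cfsg.Agent.Lib.Helper2.TransComm

theorem comm_of_eq {G : Type*} [Group G] (t g₁ g₂ : G) (h : g₁ * g₂ = t * g₂ * g₁) :
    t ∈ commutatorSet G := by
  refine ⟨g₁, g₂, ?_⟩
  rw [commutatorElement_def, h]
  group

theorem three {F : Type*} [Field F] {n : ℕ} (i j k : Fin n) (hij : i ≠ j)
    (hjk : j ≠ k) (c : F) :
    Matrix.transvection i k c * Matrix.transvection k j 1 =
      Matrix.transvection i j c * Matrix.transvection k j 1 * Matrix.transvection i k c := by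
  unfold Matrix.transvection
  have h1 : Matrix.single i k c * Matrix.single k j (1 : F) = Matrix.single i j c := by
    rw [Matrix.single_mul_single_same, mul_one]
  have h2 : Matrix.single i j c * Matrix.single k j (1 : F) = 0 :=
    Matrix.single_mul_single_of_ne c i j k hjk 1
  have h3 : Matrix.single k j (1 : F) * Matrix.single i k c = 0 :=
    Matrix.single_mul_single_of_ne 1 k j i (Ne.symm hij) c
  have h4 : Matrix.single i j c * Matrix.single i k c = 0 :=
    Matrix.single_mul_single_of_ne c i j i (Ne.symm hij) c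
  simp only [add_mul, mul_add, one_mul, mul_one, h1, h2, h3, h4, add_zero]
  abel

theorem diag_mul_single {F : Type*} [Field F] {n : ℕ} (v : Fin n → F) (i j : Fin n) (b : F) :
    Matrix.diagonal v * Matrix.single i j b = Matrix.single i j (v i * b) := by
  ext a b'
  rw [Matrix.diagonal_mul, Matrix.single_apply, Matrix.single_apply]
  by_cases h : i = a ∧ j = b'
  · rw [if_pos h, if_pos h, h.1]
  · rw [if_neg h, if_neg h, mul_zero]

theorem single_mul_diag {F : Type*} [Field F] {n : ℕ} (v : Fin n → F) (i j : Fin n) (b : F) :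
    Matrix.single i j b * Matrix.diagonal v = Matrix.single i j (b * v j) := by
  ext a b'
  rw [Matrix.mul_diagonal, Matrix.single_apply, Matrix.single_apply]
  by_cases h : i = a ∧ j = b'
  · rw [if_pos h, if_pos h, h.2]
  · rw [if_neg h, if_neg h, zero_mul]

theorem main {F : Type*} [Field F] (n : ℕ)
    (hn : 3 ≤ n ∨ (n = 2 ∧ ∃ x : F, x ≠ 0 ∧ x ^ 2 ≠ 1)) (i j : Fin n) (hij : i ≠ j) (c : F)
    (t : Matrix.SpecialLinearGroup (Fin n) F)
    (ht : (t : Matrix (Fin n) (Fin n) F) = Matrix.transvection i j c) :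
    t ∈ commutatorSet (Matrix.SpecialLinearGroup (Fin n) F) := by
  rcases hn with hn | ⟨rfl, x, hx0, hx1⟩
  · obtain ⟨k, hki, hkj⟩ : ∃ k : Fin n, k ≠ i ∧ k ≠ j := by
      by_contra hcon
      push Not at hcon
      have h1 : (Finset.univ : Finset (Fin n)) ⊆ {i, j} := by
        intro k _
        rw [Finset.mem_insert, Finset.mem_singleton]
        by_cases hk : k = i
        · exact Or.inl hk
        · exact Or.inr (hcon k hk)
      have h2 := Finset.card_le_card h1
      rw [Finset.card_univ, Fintype.card_fin] at h2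
      have h3 : ({i, j} : Finset (Fin n)).card ≤ 2 := Finset.card_le_two
      omega
    obtain ⟨g₁, hg₁⟩ : ∃ g : Matrix.SpecialLinearGroup (Fin n) F,
        (g : Matrix (Fin n) (Fin n) F) = Matrix.transvection i k c :=
      ⟨⟨_, Matrix.det_transvection_of_ne _ _ (Ne.symm hki) c⟩, rfl⟩
    obtain ⟨g₂, hg₂⟩ : ∃ g : Matrix.SpecialLinearGroup (Fin n) F,
        (g : Matrix (Fin n) (Fin n) F) = Matrix.transvection k j 1 :=
      ⟨⟨_, Matrix.det_transvection_of_ne _ _ hkj 1⟩, rfl⟩
    refine comm_of_eq t g₁ g₂ ?_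
    apply Subtype.ext
    rw [Matrix.SpecialLinearGroup.coe_mul, Matrix.SpecialLinearGroup.coe_mul,
      Matrix.SpecialLinearGroup.coe_mul, ht, hg₁, hg₂]
    exact three i j k hij (Ne.symm hkj) c
  · have hx2 : x ^ 2 - 1 ≠ 0 := sub_ne_zero.2 hx1
    have hdet : (Matrix.diagonal (fun k : Fin 2 => if k = i then x else x⁻¹)).det = 1 := by
      rw [Matrix.det_diagonal, Fin.prod_univ_two]
      fin_cases i <;> fin_cases j <;> simp_all
    obtain ⟨g₁, hg₁⟩ : ∃ g : Matrix.SpecialLinearGroup (Fin 2) F,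
        (g : Matrix (Fin 2) (Fin 2) F) =
          Matrix.diagonal (fun k : Fin 2 => if k = i then x else x⁻¹) :=
      ⟨⟨_, hdet⟩, rfl⟩
    obtain ⟨g₂, hg₂⟩ : ∃ g : Matrix.SpecialLinearGroup (Fin 2) F,
        (g : Matrix (Fin 2) (Fin 2) F) = Matrix.transvection i j (c / (x ^ 2 - 1)) :=
      ⟨⟨_, Matrix.det_transvection_of_ne _ _ hij _⟩, rfl⟩
    refine comm_of_eq t g₁ g₂ ?_
    apply Subtype.ext
    rw [Matrix.SpecialLinearGroup.coe_mul, Matrix.SpecialLinearGroup.coe_mul,
      Matrix.SpecialLinearGroup.coe_mul, ht, hg₁, hg₂]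
    rw [Matrix.transvection_mul_transvection_same _ _ hij]
    unfold Matrix.transvection
    rw [mul_add, add_mul, mul_one, one_mul, diag_mul_single, single_mul_diag, if_pos rfl,
      if_neg (Ne.symm hij)]
    congr 2
    field_simp
    ring

end Cfsg.Agent.Lib.Helper2.TransComm
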