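import Mathlib

set_option autoImplicit false

namespace Cfsg.Agent.Lib.Helper2.Transfer

open scoped IsMulCommutative

theorem quot_comm {G : Type*} [Group G] (H K : Subgroup G)
    [hKn : (K.subgroupOf H).Normal]
    (hab : ∀ x ∈ H, ∀ y ∈ H, x * y * x⁻¹ * y⁻¹ ∈ K) :
    IsMulCommutative (↥H ⧸ K.subgroupOf H) := by
  refine ⟨⟨?_⟩⟩
  intro a b
  induction a using QuotientGroup.induction_on with | _ a => ?_
  induction b using QuotientGroup.induction_on with | _ b => ?_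
  rw [← QuotientGroup.mk_mul, ← QuotientGroup.mk_mul, QuotientGroup.eq]
  rw [Subgroup.mem_subgroupOf]
  have h := hab (b⁻¹ : H) (b⁻¹).2 (a⁻¹ : H) (a⁻¹).2
  simpa [mul_assoc] using h

theorem transfer_controlled {G : Type*} [Group G] [Finite G] {p : ℕ} [Fact p.Prime]
    (H K : Subgroup G) (hKn : (K.subgroupOf H).Normal)
    (hab : ∀ x ∈ H, ∀ y ∈ H, x * y * x⁻¹ * y⁻¹ ∈ K) (hidx : Nat.Coprime p H.index) (g : G)
    (hgH : g ∈ H) (hgK : g ∉ K) (hgp : ∃ k : ℕ, orderOf g = p ^ k)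
    (hctrl : ∀ (m : ℤ) (a : G), a * g ^ m * a⁻¹ ∈ H → (a * g ^ m * a⁻¹) * (g ^ m)⁻¹ ∈ K) :
    g ∉ commutator G := by
  intro hg
  have hcomm : IsMulCommutative (↥H ⧸ K.subgroupOf H) := quot_comm H K hab
  let ϕ : ↥H →* ↥H ⧸ K.subgroupOf H := QuotientGroup.mk' (K.subgroupOf H)
  have hfint : Fintype (Quotient (MulAction.orbitRel (Subgroup.zpowers g) (G ⧸ H))) :=
    Fintype.ofFinite _
  have key : MonoidHom.transfer ϕ g = ϕ ⟨g, hgH⟩ ^ H.index := by
    rw [Subgroup.index_eq_sum_minimalPeriod H g, ← Finset.prod_pow_eq_pow_sum,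
      MonoidHom.transfer_eq_prod_quotient_orbitRel_zpowers_quot]
    apply Finset.prod_congr rfl
    intro q _
    rw [← map_pow]
    have hu := QuotientGroup.out_conj_pow_minimalPeriod_mem H g q.out
    have h1 := hctrl (Function.minimalPeriod (g • ·) q.out : ℕ) (q.out.out⁻¹)
      (by simpa using hu)
    have h2 : ϕ (⟨q.out.out⁻¹ * g ^ Function.minimalPeriod (g • ·) q.out * q.out.out, hu⟩ *
        (⟨g, hgH⟩ ^ Function.minimalPeriod (g • ·) q.out)⁻¹) = 1 := by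
      refine (QuotientGroup.eq_one_iff _).2 ?_
      rw [Subgroup.mem_subgroupOf]
      simpa using h1
    rw [map_mul, map_inv, mul_inv_eq_one] at h2
    exact h2
  have h1 : MonoidHom.transfer ϕ g = 1 :=
    MonoidHom.mem_ker.1 (Abelianization.commutator_subset_ker _ hg)
  rw [key] at h1
  obtain ⟨k, hk⟩ := hgp
  have h2 : ϕ ⟨g, hgH⟩ ^ (p ^ k) = 1 := by
    rw [← map_pow]
    have : (⟨g, hgH⟩ : ↥H) ^ (p ^ k) = 1 := by
      apply Subtype.ext
      simp [← hk, pow_orderOf_eq_one]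
    rw [this, map_one]
  have h3 : orderOf (ϕ ⟨g, hgH⟩) ∣ Nat.gcd (p ^ k) H.index :=
    Nat.dvd_gcd (orderOf_dvd_of_pow_eq_one h2) (orderOf_dvd_of_pow_eq_one h1)
  have h4 : Nat.gcd (p ^ k) H.index = 1 := Nat.Coprime.pow_left k hidx
  rw [h4, Nat.dvd_one, orderOf_eq_one_iff] at h3
  have h5 := (QuotientGroup.eq_one_iff _).1 h3
  rw [Subgroup.mem_subgroupOf] at h5
  exact hgK h5

end Cfsg.Agent.Lib.Helper2.Transfer
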