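import Mathlib

set_option autoImplicit false

namespace Cfsg.Agent.Lib.Helper2.TwoHom

open scoped Pointwise

variable {α : Type*} [DecidableEq α]

theorem pair_cases (G : Subgroup (Equiv.Perm α))
    (h2 : MulAction.IsPretransitive G (Set.powersetCard α 2)) {u v a b : α} (huv : u ≠ v)
    (hab : a ≠ b) :
    ∃ g : G, (g • u = a ∧ g • v = b) ∨ (g • u = b ∧ g • v = a) := by
  obtain ⟨g, hg⟩ := MulAction.exists_smul_eq G
    (⟨{u, v}, Finset.card_pair huv⟩ : Set.powersetCard α 2)
    (⟨{a, b}, Finset.card_pair hab⟩ : Set.powersetCard α 2)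
  have h : g • ({u, v} : Finset α) = {a, b} := by
    have := congrArg Subtype.val hg
    exact this
  refine ⟨g, ?_⟩
  have hu : g • u ∈ ({a, b} : Finset α) := by
    rw [← h]
    exact Finset.smul_mem_smul_finset (by simp)
  have hv : g • v ∈ ({a, b} : Finset α) := by
    rw [← h]
    exact Finset.smul_mem_smul_finset (by simp)
  have hne : g • u ≠ g • v := fun e => huv (smul_left_cancel g e)
  rw [Finset.mem_insert, Finset.mem_singleton] at hu hv
  rcases hu with hu | hu <;> rcases hv with hv | hv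
  · exact absurd (hu.trans hv.symm) hne
  · exact Or.inl ⟨hu, hv⟩
  · exact Or.inr ⟨hu, hv⟩
  · exact absurd (hu.trans hv.symm) hne

theorem two_transitive_of_even [Finite α] (G : Subgroup (Equiv.Perm α))
    (h2 : MulAction.IsPretransitive G (Set.powersetCard α 2)) (heven : Even (Nat.card G)) :
    MulAction.IsMultiplyPretransitive G α 2 := by
  haveI : Fact (Nat.Prime 2) := ⟨Nat.prime_two⟩
  obtain ⟨t, ht⟩ := exists_prime_orderOf_dvd_card' (G := G) 2 (even_iff_two_dvd.1 heven)
  have ht1 : t ≠ 1 := by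
    intro h
    rw [h, orderOf_one] at ht
    omega
  have ht2 : t * t = 1 := by
    have := pow_orderOf_eq_one t
    rwa [ht, pow_two] at this
  obtain ⟨a, ha⟩ : ∃ a : α, t • a ≠ a := by
    by_contra hcon
    push Not at hcon
    apply ht1
    apply Subtype.ext
    ext x
    exact hcon x
  have htb : t • (t • a) = a := by
    rw [← mul_smul, ht2, one_smul]
  have key : ∀ {u v : α}, u ≠ v → ∃ g : G, g • u = a ∧ g • v = t • a := by
    intro u v huv
    obtain ⟨g, hg | hg⟩ := pair_cases G h2 huv (Ne.symm ha)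
    · exact ⟨g, hg⟩
    · refine ⟨t * g, ?_, ?_⟩
      · rw [mul_smul, hg.1, htb]
      · rw [mul_smul, hg.2]
  rw [MulAction.is_two_pretransitive_iff]
  intro u v c d huv hcd
  obtain ⟨g₁, h₁⟩ := key huv
  obtain ⟨g₂, h₂⟩ := key hcd
  refine ⟨g₂⁻¹ * g₁, ?_, ?_⟩
  · rw [mul_smul, h₁.1, inv_smul_eq_iff, h₂.1]
  · rw [mul_smul, h₁.2, inv_smul_eq_iff, h₂.2]

theorem transitive_of_two_hom [Fintype α] (G : Subgroup (Equiv.Perm α))
    (h2 : MulAction.IsPretransitive G (Set.powersetCard α 2)) (hα : 3 ≤ Fintype.card α) :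
    MulAction.IsPretransitive G α := by
  constructor
  intro u w
  by_cases huw : u = w
  · exact ⟨1, by rw [one_smul, huw]⟩
  · obtain ⟨z, hz⟩ : ∃ z : α, z ∉ ({u, w} : Finset α) := by
      by_contra hcon
      push Not at hcon
      have h1 : (Finset.univ : Finset α) ⊆ {u, w} := fun x _ => hcon x
      have h3 := Finset.card_le_card h1
      rw [Finset.card_univ, Finset.card_pair huw] at h3
      omega
    rw [Finset.mem_insert, Finset.mem_singleton] at hz
    push Not at hz
    obtain ⟨g₁, h₁ | h₁⟩ := pair_cases G h2 (Ne.symm hz.1) (Ne.symm hz.2)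
    · exact ⟨g₁, h₁.1⟩
    · obtain ⟨g₂, h₂ | h₂⟩ := pair_cases G h2 (Ne.symm hz.1) huw
      · exact ⟨g₂ * g₁, by rw [mul_smul, h₁.1, h₂.2]⟩
      · exact ⟨g₂, h₂.1⟩

theorem primitive_of_two_hom [Fintype α] (G : Subgroup (Equiv.Perm α))
    (h2 : MulAction.IsPretransitive G (Set.powersetCard α 2)) (hα : 3 ≤ Fintype.card α) :
    MulAction.IsPreprimitive G α := by
  haveI := transitive_of_two_hom G h2 hα
  constructor
  intro B hB
  by_cases hsub : B.Subsingleton
  · exact Or.inl hsub
  · right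
    rw [Set.not_subsingleton_iff] at hsub
    obtain ⟨u, hu, v, hv, huv⟩ := hsub
    rw [Set.eq_univ_iff_forall]
    intro c
    by_cases hcu : c = u
    · rw [hcu]; exact hu
    · obtain ⟨g, hg | hg⟩ := pair_cases G h2 huv (Ne.symm hcu)
      · have h1 := (MulAction.isBlock_iff_smul_eq_of_mem.1 hB) hu (by rw [hg.1]; exact hu)
        rw [← h1, ← hg.2]
        exact Set.smul_mem_smul_set hv
      · have h1 := (MulAction.isBlock_iff_smul_eq_of_mem.1 hB) hv (by rw [hg.2]; exact hu)
        rw [← h1, ← hg.1]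
        exact Set.smul_mem_smul_set hu

end Cfsg.Agent.Lib.Helper2.TwoHom
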