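import Mathlib
import Cfsg.Prelude.Def_Classical
import Cfsg.Agent.Lib.Helper2.U32c
import Cfsg.Agent.Lib.Helper2.QuatRec

set_option autoImplicit false

namespace Cfsg.Agent.Lib.Helper2.PSL34

open Cfsg

section field

variable {F : Type*} [Field F] {ω : F}

theorem pow3_iff (C : Cod ω) (g : ↥(SU 3 F 2)) :
    (QuotientGroup.mk g : PSU 3 F 2) ^ 3 = 1 ↔ isScN (p3 (C.code g)) = true := by
  have h : (QuotientGroup.mk g : PSU 3 F 2) ^ 3 = QuotientGroup.mk (g * g * g) := by
    rw [pow_three']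
    rfl
  rw [h, C.mk_eq_one, C.code_mul, C.code_mul]
  rfl

def N3 (C : Cod ω) : Subgroup (PSU 3 F 2) where
  carrier := {x | x ^ 3 = 1}
  mul_mem' := by
    intro x y hx hy
    obtain ⟨g, rfl⟩ := QuotientGroup.mk_surjective x
    obtain ⟨h, rfl⟩ := QuotientGroup.mk_surjective y
    rw [Set.mem_setOf_eq] at hx hy ⊢
    rw [pow3_iff C] at hx hy
    rw [← QuotientGroup.mk_mul, pow3_iff C, C.code_mul]
    have h1 := List.all_eq_true.1 cube_spec (C.code g) (C.code_mem g)
    rw [hx] at h1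
    simp only [Bool.not_true, Bool.false_or] at h1
    have h2 := List.all_eq_true.1 h1 (C.code h) (C.code_mem h)
    rw [hy] at h2
    simpa using h2
  one_mem' := by simp
  inv_mem' := by
    intro x hx
    rw [Set.mem_setOf_eq] at hx ⊢
    rw [inv_pow, hx, inv_one]

theorem N3_normal (C : Cod ω) : (N3 C).Normal := by
  refine ⟨fun n hn g => ?_⟩
  change (g * n * g⁻¹) ^ 3 = 1
  have hn' : n ^ 3 = 1 := hn
  rw [conj_pow, hn']
  simp

theorem N3_card (C : Cod ω) : Nat.card (N3 C) = 9 :=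
  C.card_sub (N3 C) (fun s => isScN (p3 s)) (fun g => pow3_iff C g) 9 (by rw [count_N])

theorem u32_main [Fintype F] (hF : Fintype.card F = 4) :
    ∃ (N : Subgroup (PSU 3 F 2)) (_ : N.Normal), Nat.card N = 9 ∧ (∀ x ∈ N, x ^ 3 = 1) ∧
      Nonempty (PSU 3 F 2 ⧸ N ≃* QuaternionGroup 2) := by
  obtain ⟨ω, ⟨C⟩⟩ := exists_cod hF
  have hN : (N3 C).Normal := N3_normal C
  have hcardN : Nat.card (N3 C) = 9 := N3_card C
  refine ⟨N3 C, hN, hcardN, fun x hx => hx, ?_⟩
  have hQ : Nat.card (PSU 3 F 2 ⧸ N3 C) = 8 := by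
    have h4 := Subgroup.card_eq_card_quotient_mul_card_subgroup (N3 C)
    rw [hcardN, C.card_psu] at h4
    omega
  haveI : Finite (PSU 3 F 2 ⧸ N3 C) := Nat.finite_of_card_ne_zero (by rw [hQ]; norm_num)
  obtain ⟨a₀, ha⟩ : ∃ a, C.code a = sA := by
    have h1 := sA_mem
    unfold memL216 at h1
    obtain ⟨t, ht, hte⟩ := List.any_eq_true.1 h1
    rw [← eq_of_eqM _ _ hte] at ht
    exact C.code_surj sA ht
  obtain ⟨b₀, hb⟩ : ∃ b, C.code b = sB := by
    have h1 := sB_mem
    unfold memL216 at h1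
    obtain ⟨t, ht, hte⟩ := List.any_eq_true.1 h1
    rw [← eq_of_eqM _ _ hte] at ht
    exact C.code_surj sB ht
  let π : ↥(SU 3 F 2) →* (PSU 3 F 2 ⧸ N3 C) :=
    (QuotientGroup.mk' (N3 C)).comp (QuotientGroup.mk' _)
  have hπ : ∀ w, π w = 1 ↔ isScN (p3 (C.code w)) = true := by
    intro w
    change (QuotientGroup.mk (QuotientGroup.mk w : PSU 3 F 2) : PSU 3 F 2 ⧸ N3 C) = 1 ↔ _
    rw [QuotientGroup.eq_one_iff]
    exact pow3_iff C w
  have r1 : π a₀ * π a₀ * (π a₀ * π a₀) = 1 := by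
    rw [← map_mul π, ← map_mul π, hπ]
    simp only [C.code_mul, ha, hb, forall_const]
    exact rel1
  have r2 : π a₀ * π a₀ ≠ 1 := by
    rw [← map_mul π, Ne, hπ]
    simp only [C.code_mul, ha, hb, forall_const]
    have := rel2
    intro h
    rw [show mmN sA sA = sA2 from rfl, this] at h
    exact Bool.false_ne_true h
  have r3 : π b₀ * π b₀ * (π a₀ * π a₀) = 1 := by
    rw [← map_mul π, ← map_mul π, ← map_mul π, hπ]
    simp only [C.code_mul, ha, hb, forall_const]
    exact rel3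
  have r4 : π b₀ * π b₀ * (π b₀ * π b₀) = 1 := by
    rw [← map_mul π, ← map_mul π, hπ]
    simp only [C.code_mul, ha, hb, forall_const]
    exact rel4
  have r5 : π a₀ * π b₀ * π a₀ * (π b₀ * π b₀ * π b₀) = 1 := by
    rw [← map_mul π, ← map_mul π, ← map_mul π, ← map_mul π, ← map_mul π, hπ]
    simp only [C.code_mul, ha, hb, forall_const]
    exact rel5
  have r6 : π b₀ ≠ 1 := by
    rw [Ne, hπ, hb, rel6]
    exact Bool.false_ne_true
  have r7 : π b₀ * π a₀ ≠ 1 := by
    rw [← map_mul π, Ne, hπ]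
    simp only [C.code_mul, ha, hb, forall_const]
    rw [rel7]
    exact Bool.false_ne_true
  have r8 : π b₀ * (π a₀ * π a₀) ≠ 1 := by
    rw [← map_mul π, ← map_mul π, Ne, hπ]
    simp only [C.code_mul, ha, hb, forall_const]
    have := rel8
    intro h
    rw [show mmN sA sA = sA2 from rfl, this] at h
    exact Bool.false_ne_true h
  have r9 : π b₀ * (π a₀ * π a₀ * π a₀) ≠ 1 := by
    rw [← map_mul π, ← map_mul π, ← map_mul π, Ne, hπ]
    simp only [C.code_mul, ha, hb, forall_const]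
    have := rel9
    intro h
    rw [show mmN sA sA = sA2 from rfl, this] at h
    exact Bool.false_ne_true h
  generalize π a₀ = α at r1 r2 r3 r5 r7 r8 r9
  generalize π b₀ = β at r3 r4 r5 r6 r7 r8 r9
  have e4 : α ^ 4 = 1 := by
    rw [show (4 : ℕ) = 2 + 2 from rfl, pow_add, pow_two]
    exact r1
  have hnot : ¬ α ^ 2 ^ 1 = 1 := by
    rw [pow_one, pow_two]
    exact r2
  have hfin : α ^ 2 ^ (1 + 1) = 1 := by
    have h22 : (2 : ℕ) ^ (1 + 1) = 4 := by norm_num
    rw [h22]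
    exact e4
  have ho : orderOf α = 2 ^ (1 + 1) := orderOf_eq_prime_pow hnot hfin
  have ho4 : orderOf α = 4 := by rw [ho]; norm_num
  have hbb : β * β = α ^ 2 := by
    rw [pow_two]
    exact mul_right_cancel (r3.trans r1.symm)
  have e3 : β * β * β = β⁻¹ := eq_inv_of_mul_eq_one_left (by rw [mul_assoc (β * β) β β]; exact r4)
  have hc : β * α * β⁻¹ = α⁻¹ := by
    apply eq_inv_of_mul_eq_one_right
    rw [← mul_assoc, ← mul_assoc]
    rw [e3] at r5
    exact r5
  have hnz : β ∉ Subgroup.zpowers α := by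
    intro hmem
    rw [← mem_powers_iff_mem_zpowers] at hmem
    obtain ⟨n, hn⟩ := hmem
    obtain ⟨j, hj, hlt⟩ : ∃ j, α ^ j = β ∧ j < 4 :=
      ⟨n % 4, by rw [← ho4, pow_mod_orderOf]; exact hn, Nat.mod_lt _ (by norm_num)⟩
    subst hj
    interval_cases j
    · exact r6 (pow_zero α)
    · apply r9
      rw [pow_one, ← e4, show (4 : ℕ) = 1 + 3 from rfl, pow_add, pow_one, pow_three']
    · apply r8
      rw [pow_two]
      exact r1
    · apply r7
      rw [← e4, show (4 : ℕ) = 3 + 1 from rfl, pow_add, pow_one]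
  exact QuatRec.quat_recognize 2 α β (by rw [hQ]) (by rw [ho4]) hbb hc hnz

end field

end Cfsg.Agent.Lib.Helper2.PSL34
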