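import Mathlib
import Cfsg.Prelude.Def_ClassicalGeometry

set_option autoImplicit false

namespace Cfsg.Agent.Lib.Helper2.UTrans

open Matrix

theorem frob {F : Type*} [Field F] [Fintype F] {q : ℕ} (hF : Fintype.card F = q ^ 2) :
    (∀ a b : F, (a + b) ^ q = a ^ q + b ^ q) ∧ (∀ a : F, (a ^ q) ^ q = a) ∧ q ≠ 0 := by
  obtain ⟨p, hp⟩ := CharP.exists F
  obtain ⟨k, hpp, hk⟩ := FiniteField.card F p
  haveI : Fact p.Prime := ⟨hpp⟩
  have hq : q ∣ p ^ (k : ℕ) := by
    rw [← hk, hF]
    exact Dvd.intro_left q (by ring)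
  obtain ⟨j, hj, hqj⟩ := (Nat.dvd_prime_pow hpp).1 hq
  refine ⟨?_, ?_, ?_⟩
  · intro a b
    rw [hqj]
    exact add_pow_char_pow a b p j
  · intro a
    rw [← pow_mul, ← sq, ← hF]
    exact FiniteField.pow_card a
  · rw [hqj]
    exact pow_ne_zero _ hpp.ne_zero

noncomputable def frobHom {F : Type*} [Field F] [Fintype F] {q : ℕ}
    (hF : Fintype.card F = q ^ 2) : F →+* F where
  toFun a := a ^ q
  map_one' := one_pow q
  map_mul' a b := mul_pow a b q
  map_zero' := zero_pow (frob hF).2.2
  map_add' := (frob hF).1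

theorem h_add_left {F : Type*} [Field F] (n q : ℕ) (x y z : Fin n → F) :
    Cfsg.hermForm n F q (x + y) z = Cfsg.hermForm n F q x z + Cfsg.hermForm n F q y z := by
  unfold Cfsg.hermForm
  rw [← Finset.sum_add_distrib]
  exact Finset.sum_congr rfl fun i _ => by rw [Pi.add_apply, add_mul]

theorem h_smul_left {F : Type*} [Field F] (n q : ℕ) (a : F) (x y : Fin n → F) :
    Cfsg.hermForm n F q (a • x) y = a * Cfsg.hermForm n F q x y := by
  unfold Cfsg.hermForm
  rw [Finset.mul_sum]
  exact Finset.sum_congr rfl fun i _ => by rw [Pi.smul_apply, smul_eq_mul, mul_assoc]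

theorem h_add_right {F : Type*} [Field F] [Fintype F] {q : ℕ} (hF : Fintype.card F = q ^ 2)
    (n : ℕ) (x y z : Fin n → F) :
    Cfsg.hermForm n F q x (y + z) = Cfsg.hermForm n F q x y + Cfsg.hermForm n F q x z := by
  unfold Cfsg.hermForm
  rw [← Finset.sum_add_distrib]
  exact Finset.sum_congr rfl fun i _ => by rw [Pi.add_apply, (frob hF).1, mul_add]

theorem h_smul_right {F : Type*} [Field F] (n q : ℕ) (a : F) (x y : Fin n → F) :
    Cfsg.hermForm n F q x (a • y) = a ^ q * Cfsg.hermForm n F q x y := by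
  unfold Cfsg.hermForm
  rw [Finset.mul_sum]
  exact Finset.sum_congr rfl fun i _ => by
    rw [Pi.smul_apply, smul_eq_mul, mul_pow]
    ring

theorem h_conj {F : Type*} [Field F] [Fintype F] {q : ℕ} (hF : Fintype.card F = q ^ 2)
    (n : ℕ) (x y : Fin n → F) :
    Cfsg.hermForm n F q x y ^ q = Cfsg.hermForm n F q y x := by
  unfold Cfsg.hermForm
  have h := map_sum (frobHom hF) (fun i => x i * y i ^ q) Finset.univ
  have h' : (∑ i, x i * y i ^ q) ^ q = ∑ i, (x i * y i ^ q) ^ q := h
  rw [h']
  exact Finset.sum_congr rfl fun i _ => by rw [mul_pow, (frob hF).2.1, mul_comm]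

theorem trans_mulVec {F : Type*} [Field F] (n q : ℕ) (v x : Fin n → F) (c : F) :
    Cfsg.unitaryTransvection n q v c *ᵥ x = x + (c * Cfsg.hermForm n F q x v) • v := by
  unfold Cfsg.unitaryTransvection
  rw [Matrix.add_mulVec, Matrix.one_mulVec, Matrix.smul_mulVec, Matrix.vecMulVec_mulVec,
    op_smul_eq_smul, smul_smul]
  congr 3
  unfold Cfsg.hermForm
  exact Finset.sum_congr rfl fun i _ => mul_comm _ _

theorem key {F : Type*} [Field F] [Fintype F] {q : ℕ} (hF : Fintype.card F = q ^ 2)
    (n : ℕ) (v : Fin n → F) (hv0 : Cfsg.hermForm n F q v v = 0) (c : F) (x y : Fin n → F) :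
    Cfsg.hermForm n F q ((Cfsg.unitaryTransvection n q v c).mulVec x)
      ((Cfsg.unitaryTransvection n q v c).mulVec y) =
      Cfsg.hermForm n F q x y +
        (c ^ q + c) * (Cfsg.hermForm n F q x v * Cfsg.hermForm n F q v y) := by
  rw [trans_mulVec, trans_mulVec, h_add_left, h_add_right hF, h_add_right hF, h_smul_left,
    h_smul_left, h_smul_right, h_smul_right, hv0, mul_pow, h_conj hF]
  ring

theorem main {F : Type*} [Field F] [Fintype F] {q : ℕ} (hF : Fintype.card F = q ^ 2)
    (n : ℕ) (v : Fin n → F) (hv : v ≠ 0) (hv0 : Cfsg.hermForm n F q v v = 0) (c : F) :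
    (∀ x y : Fin n → F, Cfsg.hermForm n F q ((Cfsg.unitaryTransvection n q v c).mulVec x)
      ((Cfsg.unitaryTransvection n q v c).mulVec y) = Cfsg.hermForm n F q x y) ↔
      (c = 0 ∨ c ^ (q - 1) = -1) := by
  classical
  have hq0 : q ≠ 0 := (frob hF).2.2
  have hcq : c ^ q = c ^ (q - 1) * c := by
    rw [← pow_succ]
    congr 1
    omega
  constructor
  · intro h
    obtain ⟨i, hi⟩ : ∃ i, v i ≠ 0 := by
      by_contra hcon
      push Not at hcon
      exact hv (funext hcon)
    have h1 := h (Pi.single i 1) (Pi.single i 1)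
    rw [key hF n v hv0] at h1
    have e1 : Cfsg.hermForm n F q (Pi.single i 1) v = v i ^ q := by
      unfold Cfsg.hermForm
      rw [Finset.sum_eq_single i]
      · rw [Pi.single_eq_same, one_mul]
      · intro j _ hj
        rw [Pi.single_eq_of_ne hj, zero_mul]
      · intro hi'
        exact absurd (Finset.mem_univ i) hi'
    have e2 : Cfsg.hermForm n F q v (Pi.single i 1) = v i := by
      unfold Cfsg.hermForm
      rw [Finset.sum_eq_single i]
      · rw [Pi.single_eq_same, one_pow, mul_one]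
      · intro j _ hj
        rw [Pi.single_eq_of_ne hj, zero_pow hq0, mul_zero]
      · intro hi'
        exact absurd (Finset.mem_univ i) hi'
    rw [e1, e2] at h1
    have h2 : (c ^ q + c) * (v i ^ q * v i) = 0 := by linear_combination h1
    have h3 : c ^ q + c = 0 :=
      (mul_eq_zero.1 h2).resolve_right (mul_ne_zero (pow_ne_zero _ hi) hi)
    rw [hcq] at h3
    have h4 : c * (c ^ (q - 1) + 1) = 0 := by linear_combination h3
    rcases mul_eq_zero.1 h4 with h5 | h5
    · exact Or.inl h5
    · exact Or.inr (by linear_combination h5)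
  · intro h x y
    rw [key hF n v hv0]
    have h3 : c ^ q + c = 0 := by
      rcases h with h | h
      · rw [h, zero_pow hq0, add_zero]
      · rw [hcq, h]
        ring
    rw [h3, zero_mul, add_zero]

end Cfsg.Agent.Lib.Helper2.UTrans
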