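import Mathlib
import Cfsg.Agent.Lib.Helper2.JordanN2

set_option autoImplicit false

namespace Cfsg.Agent.Lib.Helper2.Wagner

open MulAction
open scoped Pointwise

variable {G : Type*} [Group G] {X : Type*} [MulAction G X]

def pairStab (N : Subgroup G) (b c : X) : Subgroup G where
  carrier := {g | g ∈ N ∧ ((g • b = b ∧ g • c = c) ∨ (g • b = c ∧ g • c = b))}
  one_mem' := ⟨N.one_mem, Or.inl ⟨one_smul _ _, one_smul _ _⟩⟩
  mul_mem' := by
    rintro g h ⟨hg, hg'⟩ ⟨hh, hh'⟩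
    refine ⟨N.mul_mem hg hh, ?_⟩
    rcases hg' with ⟨g1, g2⟩ | ⟨g1, g2⟩ <;> rcases hh' with ⟨h1, h2⟩ | ⟨h1, h2⟩
    · left
      rw [mul_smul, mul_smul, h1, h2]
      exact ⟨g1, g2⟩
    · right
      rw [mul_smul, mul_smul, h1, h2]
      exact ⟨g2, g1⟩
    · right
      rw [mul_smul, mul_smul, h1, h2]
      exact ⟨g1, g2⟩
    · left
      rw [mul_smul, mul_smul, h1, h2]
      exact ⟨g2, g1⟩
  inv_mem' := by
    rintro g ⟨hg, hg'⟩
    refine ⟨N.inv_mem hg, ?_⟩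
    rcases hg' with ⟨g1, g2⟩ | ⟨g1, g2⟩
    · left
      exact ⟨by rw [inv_smul_eq_iff, g1], by rw [inv_smul_eq_iff, g2]⟩
    · right
      exact ⟨by rw [inv_smul_eq_iff, g2], by rw [inv_smul_eq_iff, g1]⟩

def pointStab (N : Subgroup G) (b c : X) : Subgroup G where
  carrier := {g | g ∈ N ∧ g • b = b ∧ g • c = c}
  one_mem' := ⟨N.one_mem, one_smul _ _, one_smul _ _⟩
  mul_mem' := by
    rintro g h ⟨hg, g1, g2⟩ ⟨hh, h1, h2⟩
    exact ⟨N.mul_mem hg hh, by rw [mul_smul, h1, g1], by rw [mul_smul, h2, g2]⟩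
  inv_mem' := by
    rintro g ⟨hg, g1, g2⟩
    exact ⟨N.inv_mem hg, by rw [inv_smul_eq_iff, g1], by rw [inv_smul_eq_iff, g2]⟩

theorem no_embed [Finite G] (N : Subgroup G) {b c : X} (hbc : b ≠ c) (t : G) (ht : t ∈ N)
    (htb : t • b = c) (htc : t • c = b) (Q : Sylow 2 (pairStab N b c))
    (f : Q →* pointStab N b c) (hf : Function.Injective f) : False := by
  have : Fact (Nat.Prime 2) := ⟨Nat.prime_two⟩
  have h1 : Nat.card Q ∣ Nat.card (pointStab N b c) := Subgroup.card_dvd_of_injective f hf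
  have hle : pointStab N b c ≤ pairStab N b c := fun g hg => ⟨hg.1, Or.inl hg.2⟩
  have h2 : ((pointStab N b c).subgroupOf (pairStab N b c)).index = 2 := by
    rw [Subgroup.index_eq_two_iff]
    refine ⟨⟨t, ht, Or.inr ⟨htb, htc⟩⟩, ?_⟩
    rintro ⟨g, hg, hg'⟩
    rw [Subgroup.mem_subgroupOf, Subgroup.mem_subgroupOf]
    show Xor (g * t ∈ pointStab N b c) (g ∈ pointStab N b c)
    rcases hg' with ⟨g1, g2⟩ | ⟨g1, g2⟩
    · right
      refine ⟨⟨hg, g1, g2⟩, ?_⟩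
      rintro ⟨_, h3, _⟩
      rw [mul_smul, htb, g2] at h3
      exact hbc h3.symm
    · left
      refine ⟨⟨N.mul_mem hg ht, by rw [mul_smul, htb, g2], by rw [mul_smul, htc, g1]⟩, ?_⟩
      rintro ⟨_, h3, _⟩
      rw [g1] at h3
      exact hbc h3.symm
  have h3 : Nat.card ((pointStab N b c).subgroupOf (pairStab N b c)) =
      Nat.card (pointStab N b c) := Nat.card_congr (Subgroup.subgroupOfEquivOfLe hle).toEquiv
  have h4 := Subgroup.card_mul_index ((pointStab N b c).subgroupOf (pairStab N b c))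
  have h5 := Subgroup.card_mul_index (Q : Subgroup (pairStab N b c))
  have h6 := Q.not_dvd_index
  obtain ⟨m, hm⟩ := h1
  apply h6
  have hpos : 0 < Nat.card Q := Nat.card_pos
  rw [h2, h3, hm] at h4
  rw [← h4] at h5
  have h7 : (Q : Subgroup (pairStab N b c)).index = m * 2 := by
    apply Nat.eq_of_mul_eq_mul_left hpos
    rw [h5, mul_assoc]
  rw [h7]
  exact dvd_mul_left 2 m

theorem fix_unique [Finite G] (N : Subgroup G)
    (hN2 : ∀ a b c d : X, a ≠ b → c ≠ d → ∃ n ∈ N, n • a = c ∧ n • b = d) {b c : X}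
    (hbc : b ≠ c) (Q : Sylow 2 (pairStab N b c)) {z z' : X}
    (hz : ∀ q ∈ Q, (q : G) • z = z) (hz' : ∀ q ∈ Q, (q : G) • z' = z') : z = z' := by
  by_contra hne
  obtain ⟨t, ht, htb, htc⟩ := hN2 b c c b hbc hbc.symm
  obtain ⟨g, hg, hgb, hgc⟩ := hN2 b c z z' hbc hne
  refine no_embed N hbc t ht htb htc Q
    { toFun := fun q => ⟨g⁻¹ * (q : G) * g, ?_⟩, map_one' := ?_, map_mul' := ?_ } ?_
  · refine ⟨N.mul_mem (N.mul_mem (N.inv_mem hg) q.1.2.1) hg, ?_, ?_⟩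
    · rw [mul_smul, mul_smul, hgb, hz q.1 q.2, ← hgb, inv_smul_smul]
    · rw [mul_smul, mul_smul, hgc, hz' q.1 q.2, ← hgc, inv_smul_smul]
  · apply Subtype.ext
    simp
  · intro p q
    apply Subtype.ext
    show g⁻¹ * ((p : G) * (q : G)) * g = g⁻¹ * (p : G) * g * (g⁻¹ * (q : G) * g)
    group
  · intro p q hpq
    have h1 := congrArg Subtype.val hpq
    simp at h1
    exact h1

theorem fix_exists [Finite G] [Finite X] (N : Subgroup G) (hodd : Odd (Nat.card X)) {b c : X}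
    (Q : Sylow 2 (pairStab N b c)) : ∃ z : X, ∀ q ∈ Q, (q : G) • z = z := by
  have : Fact (Nat.Prime 2) := ⟨Nat.prime_two⟩
  have h1 : ¬ 2 ∣ Nat.card X := by
    rw [← Nat.not_even_iff_odd] at hodd
    exact fun h => hodd (even_iff_two_dvd.2 h)
  obtain ⟨z, hz⟩ := Q.2.nonempty_fixed_point_of_prime_not_dvd_card X h1
  exact ⟨z, fun q hq => hz ⟨q, hq⟩⟩

theorem exists_swap [Finite G] (N : Subgroup G) {b c : X} (hbc : b ≠ c) (t : G) (ht : t ∈ N)
    (htb : t • b = c) (htc : t • c = b) (Q : Sylow 2 (pairStab N b c)) :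
    ∃ q ∈ Q, (q : G) • b = c ∧ (q : G) • c = b := by
  by_contra hcon
  push Not at hcon
  refine no_embed N hbc t ht htb htc Q
    { toFun := fun q => ⟨(q : G), ?_⟩, map_one' := rfl, map_mul' := fun _ _ => rfl } ?_
  · rcases q.1.2.2 with h | h
    · exact ⟨q.1.2.1, h⟩
    · exact absurd h.2 (hcon q.1 q.2 h.1)
  · intro p q hpq
    have h1 := congrArg Subtype.val hpq
    exact Subtype.ext (Subtype.ext h1)

theorem pair_trans [Finite G] [Finite X] (N : Subgroup G) [hNn : N.Normal]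
    (hodd : Odd (Nat.card X))
    (hN2 : ∀ a b c d : X, a ≠ b → c ≠ d → ∃ n ∈ N, n • a = c ∧ n • b = d)
    (h3 : ∀ b c z z' : X, b ≠ c → z ≠ b → z ≠ c → z' ≠ b → z' ≠ c →
      ∃ g : G, g • b = b ∧ g • c = c ∧ g • z = z')
    {b c : X} (hbc : b ≠ c) (Q : Sylow 2 (pairStab N b c)) {z : X}
    (hz : ∀ q ∈ Q, (q : G) • z = z) (hzb : z ≠ b) (hzc : z ≠ c) {z' : X} (hz'b : z' ≠ b)
    (hz'c : z' ≠ c) : ∃ h ∈ pairStab N b c, h • z = z' := by
  have : Fact (Nat.Prime 2) := ⟨Nat.prime_two⟩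
  obtain ⟨g, hgb, hgc, hgz⟩ := h3 b c z z' hbc hzb hzc hz'b hz'c
  have hmem : ∀ x ∈ pairStab N b c, g * x * g⁻¹ ∈ pairStab N b c := by
    rintro x ⟨hx, hx'⟩
    have hgib : g⁻¹ • b = b := by rw [inv_smul_eq_iff, hgb]
    have hgic : g⁻¹ • c = c := by rw [inv_smul_eq_iff, hgc]
    refine ⟨hNn.conj_mem x hx g, ?_⟩
    rcases hx' with ⟨x1, x2⟩ | ⟨x1, x2⟩
    · left
      rw [mul_smul, mul_smul, mul_smul, mul_smul, hgib, hgic, x1, x2]
      exact ⟨hgb, hgc⟩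
    · right
      rw [mul_smul, mul_smul, mul_smul, mul_smul, hgib, hgic, x1, x2]
      exact ⟨hgc, hgb⟩
  let φ : pairStab N b c →* pairStab N b c :=
    { toFun := fun x => ⟨g * x.1 * g⁻¹, hmem x.1 x.2⟩
      map_one' := by
        apply Subtype.ext
        simp
      map_mul' := by
        intro x y
        apply Subtype.ext
        simp }
  have hR : IsPGroup 2 ((Q : Subgroup (pairStab N b c)).map φ) := Q.2.map φ
  obtain ⟨P, hP⟩ := hR.exists_le_sylow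
  obtain ⟨h, hh⟩ := exists_smul_eq (pairStab N b c) Q P
  have hPfix : ∀ p ∈ P, (p : G) • (h : G) • z = (h : G) • z := by
    intro p hp
    have hp' : p ∈ MulAut.conj h • (Q : Subgroup (pairStab N b c)) := by
      rw [← Sylow.coe_subgroup_smul, hh]
      exact hp
    rw [Subgroup.mem_smul_pointwise_iff_exists] at hp'
    obtain ⟨s, hs, hsp⟩ := hp'
    rw [← hsp, MulAut.smul_def, MulAut.conj_apply]
    show ((h : G) * (s : G) * (h : G)⁻¹) • (h : G) • z = (h : G) • z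
    rw [mul_smul, mul_smul, inv_smul_smul, hz s hs]
  have h4 : ∀ q ∈ Q, (q : G) • (g⁻¹ • (h : G) • z) = g⁻¹ • (h : G) • z := by
    intro q hq
    have h5 := hPfix (φ q) (hP (Subgroup.mem_map_of_mem φ hq))
    have h6 : ((φ q : pairStab N b c) : G) = g * (q : G) * g⁻¹ := rfl
    rw [h6, mul_smul, mul_smul] at h5
    rw [eq_inv_smul_iff]
    exact h5
  have h7 := fix_unique N hN2 hbc Q h4 hz
  refine ⟨h.1, h.2, ?_⟩
  rw [inv_smul_eq_iff] at h7
  rw [h7, hgz]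

theorem main [Finite G] [Finite X] (N : Subgroup G) [hNn : N.Normal]
    (hodd : Odd (Nat.card X))
    (hN2 : ∀ a b c d : X, a ≠ b → c ≠ d → ∃ n ∈ N, n • a = c ∧ n • b = d)
    (h3 : ∀ b c z z' : X, b ≠ c → z ≠ b → z ≠ c → z' ≠ b → z' ≠ c →
      ∃ g : G, g • b = b ∧ g • c = c ∧ g • z = z') : JordanN.NT N X 3 := by
  have key : ∀ b c : X, b ≠ c → ∀ u v : X, u ≠ b → u ≠ c → v ≠ b → v ≠ c →
      ∃ k ∈ N, k • b = b ∧ k • c = c ∧ k • u = v := by
    intro b c hbc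
    obtain ⟨t, ht, htb, htc⟩ := hN2 b c c b hbc hbc.symm
    obtain ⟨Q⟩ := (inferInstance : Nonempty (Sylow 2 (pairStab N b c)))
    obtain ⟨z, hz⟩ := fix_exists N hodd Q
    obtain ⟨t₀, ht₀, ht₀b, ht₀c⟩ := exists_swap N hbc t ht htb htc Q
    have hzb : z ≠ b := by
      intro h
      have h1 := hz t₀ ht₀
      rw [h, ht₀b] at h1
      exact hbc h1.symm
    have hzc : z ≠ c := by
      intro h
      have h1 := hz t₀ ht₀
      rw [h, ht₀c] at h1
      exact hbc h1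
    have hK : ∀ v : X, v ≠ b → v ≠ c → ∃ k ∈ N, k • b = b ∧ k • c = c ∧ k • z = v := by
      intro v hvb hvc
      obtain ⟨h, ⟨hhN, hh'⟩, hhz⟩ := pair_trans N hodd hN2 h3 hbc Q hz hzb hzc hvb hvc
      rcases hh' with ⟨h1, h2⟩ | ⟨h1, h2⟩
      · exact ⟨h, hhN, h1, h2, hhz⟩
      · refine ⟨h * (t₀ : G), N.mul_mem hhN t₀.2.1, ?_, ?_, ?_⟩
        · rw [mul_smul, ht₀b, h2]
        · rw [mul_smul, ht₀c, h1]
        · rw [mul_smul, hz t₀ ht₀, hhz]
    intro u v hub huc hvb hvc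
    obtain ⟨k₁, hk₁, e1, e2, e3⟩ := hK u hub huc
    obtain ⟨k₂, hk₂, f1, f2, f3⟩ := hK v hvb hvc
    refine ⟨k₂ * k₁⁻¹, N.mul_mem hk₂ (N.inv_mem hk₁), ?_, ?_, ?_⟩
    · rw [mul_smul, inv_smul_eq_iff.2 e1.symm, f1]
    · rw [mul_smul, inv_smul_eq_iff.2 e2.symm, f2]
    · rw [mul_smul, inv_smul_eq_iff.2 e3.symm, f3]
  intro x y hx hy
  have hx01 : x 0 ≠ x 1 := fun h => by simpa using hx h
  have hy01 : y 0 ≠ y 1 := fun h => by simpa using hy h
  obtain ⟨n₁, hn₁, e0, e1⟩ := hN2 (x 0) (x 1) (y 0) (y 1) hx01 hy01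
  have h20 : n₁ • x 2 ≠ y 0 := by
    intro h
    rw [← e0] at h
    have := hx (smul_left_cancel n₁ h)
    simp at this
  have h21 : n₁ • x 2 ≠ y 1 := by
    intro h
    rw [← e1] at h
    have := hx (smul_left_cancel n₁ h)
    simp at this
  have hy20 : y 2 ≠ y 0 := fun h => by simpa using hy h
  have hy21 : y 2 ≠ y 1 := fun h => by simpa using hy h
  obtain ⟨k, hk, f0, f1, f2⟩ := key (y 0) (y 1) hy01 (n₁ • x 2) (y 2) h20 h21 hy20 hy21
  refine ⟨k * n₁, N.mul_mem hk hn₁, ?_⟩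
  intro i
  fin_cases i
  · show (k * n₁) • x 0 = y 0
    rw [mul_smul, e0, f0]
  · show (k * n₁) • x 1 = y 1
    rw [mul_smul, e1, f1]
  · show (k * n₁) • x 2 = y 2
    rw [mul_smul, f2]

end Cfsg.Agent.Lib.Helper2.Wagner
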