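import Mathlib

set_option autoImplicit false

namespace Cfsg.Agent.Lib.Helper2.WittAlt

open Module

variable {F V : Type*} [Field F] [AddCommGroup V] [Module F V]

noncomputable def psi {ι : Type*} (B : LinearMap.BilinForm F V) (z : ι → V) :
    V →ₗ[F] (ι → F) := LinearMap.pi (fun j => B (z j))

theorem psi_apply {ι : Type*} (B : LinearMap.BilinForm F V) (z : ι → V) (v : V) (j : ι) :
    psi B z v j = B (z j) v := rfl

theorem ker_psi {ι : Type*} (B : LinearMap.BilinForm F V) (z : ι → V) :
    LinearMap.ker (psi B z) = B.orthogonal (Submodule.span F (Set.range z)) := by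
  ext v
  rw [LinearMap.mem_ker, LinearMap.BilinForm.mem_orthogonal_iff]
  constructor
  · intro h w hw
    induction hw using Submodule.span_induction with
    | mem w hw =>
      obtain ⟨j, rfl⟩ := hw
      exact congrFun h j
    | zero => rw [map_zero, LinearMap.zero_apply]
    | add a b _ _ ha hb => rw [map_add, LinearMap.add_apply, ha, hb, add_zero]
    | smul c a _ ha => rw [map_smul, LinearMap.smul_apply, ha, smul_zero]
  · intro h
    ext j
    exact h (z j) (Submodule.subset_span ⟨j, rfl⟩)

variable [FiniteDimensional F V]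

theorem finrank_ker_psi {ι : Type*} [Fintype ι] (B : LinearMap.BilinForm F V)
    (hB : B.Nondegenerate) (z : ι → V) (hz : LinearIndependent F z) :
    finrank F (LinearMap.ker (psi B z)) = finrank F V - Fintype.card ι := by
  rw [ker_psi, LinearMap.BilinForm.finrank_orthogonal hB, finrank_span_eq_card hz]

theorem psi_surjective {ι : Type*} [Fintype ι] (B : LinearMap.BilinForm F V)
    (hB : B.Nondegenerate) (z : ι → V) (hz : LinearIndependent F z) :
    Function.Surjective (psi B z) := by
  rw [← LinearMap.range_eq_top]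
  apply Submodule.eq_top_of_finrank_eq
  have h1 := LinearMap.finrank_range_add_finrank_ker (psi B z)
  rw [finrank_ker_psi B hB z hz] at h1
  have h2 := hz.fintype_card_le_finrank
  rw [Module.finrank_fintype_fun_eq_card]
  omega

theorem inf_add {ι : Type*} [Fintype ι] (B : LinearMap.BilinForm F V) (z : ι → V)
    (hz : LinearIndependent F z) :
    finrank F ↥(Submodule.span F (Set.range z) ⊓ LinearMap.ker (psi B z)) +
      finrank F ↥((Submodule.span F (Set.range z)).map (psi B z)) = Fintype.card ι := by
  have h1 := LinearMap.finrank_range_add_finrank_ker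
    ((psi B z).domRestrict (Submodule.span F (Set.range z)))
  rw [LinearMap.range_domRestrict, LinearMap.ker_domRestrict, finrank_span_eq_card hz] at h1
  have h2 : finrank F ↥((LinearMap.ker (psi B z)).comap
      (Submodule.span F (Set.range z)).subtype) =
      finrank F ↥(Submodule.span F (Set.range z) ⊓ LinearMap.ker (psi B z)) := by
    rw [← Submodule.map_comap_subtype, Submodule.finrank_map_subtype_eq]
  omega

theorem map_eq {ι : Type*} (B : LinearMap.BilinForm F V) (x y : ι → V)
    (hG : ∀ i j, B (x i) (x j) = B (y i) (y j)) :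
    (Submodule.span F (Set.range x)).map (psi B x) =
      (Submodule.span F (Set.range y)).map (psi B y) := by
  rw [Submodule.map_span, Submodule.map_span, ← Set.range_comp, ← Set.range_comp]
  congr 2
  funext i
  funext j
  show B (x j) (x i) = B (y j) (y i)
  exact hG j i

theorem ext_one {ι : Type*} [Fintype ι] (B : LinearMap.BilinForm F V) (hB : B.Nondegenerate)
    (x y : ι → V) (hx : LinearIndependent F x) (hy : LinearIndependent F y)
    (hG : ∀ i j, B (x i) (x j) = B (y i) (y j)) (hlt : Fintype.card ι < finrank F V) :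
    ∃ x₀ y₀ : V, x₀ ∉ Submodule.span F (Set.range x) ∧ y₀ ∉ Submodule.span F (Set.range y) ∧
      ∀ j, B (x j) x₀ = B (y j) y₀ := by
  have hXne : Submodule.span F (Set.range x) ≠ ⊤ := by
    intro h
    have h1 := finrank_span_eq_card hx
    rw [h, finrank_top] at h1
    omega
  obtain ⟨x₀, -, hx₀⟩ := SetLike.exists_of_lt (lt_top_iff_ne_top.2 hXne)
  by_cases hc : psi B x x₀ ∈ (Submodule.span F (Set.range x)).map (psi B x)
  · obtain ⟨x₁, hx₁, hx₁e⟩ := hc
    have hx₀' : x₀ - x₁ ∉ Submodule.span F (Set.range x) := by
      intro h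
      apply hx₀
      have := Submodule.add_mem _ h hx₁
      rwa [sub_add_cancel] at this
    have hker : x₀ - x₁ ∈ LinearMap.ker (psi B x) := by
      rw [LinearMap.mem_ker, map_sub, hx₁e, sub_self]
    have hnot : ¬ LinearMap.ker (psi B y) ≤ Submodule.span F (Set.range y) := by
      intro hle
      apply hx₀'
      have h1 := inf_add B x hx
      have h2 := inf_add B y hy
      rw [map_eq B x y hG] at h1
      rw [inf_eq_right.2 hle, finrank_ker_psi B hB y hy] at h2
      have h3 : finrank F ↥(Submodule.span F (Set.range x) ⊓ LinearMap.ker (psi B x)) =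
          finrank F ↥(LinearMap.ker (psi B x)) := by
        rw [finrank_ker_psi B hB x hx]
        omega
      have h4 := Submodule.eq_of_le_of_finrank_eq inf_le_right h3
      have h5 : x₀ - x₁ ∈ Submodule.span F (Set.range x) ⊓ LinearMap.ker (psi B x) := by
        rw [h4]
        exact hker
      exact h5.1
    obtain ⟨y₀, hy₀k, hy₀⟩ := SetLike.not_le_iff_exists.1 hnot
    refine ⟨x₀ - x₁, y₀, hx₀', hy₀, fun j => ?_⟩
    have e1 : psi B x (x₀ - x₁) j = 0 := by
      rw [LinearMap.mem_ker.1 hker]
      rfl
    have e2 : psi B y y₀ j = 0 := by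
      rw [LinearMap.mem_ker.1 hy₀k]
      rfl
    rw [psi_apply] at e1 e2
    rw [e1, e2]
  · obtain ⟨y₀, hy₀⟩ := psi_surjective B hB y hy (psi B x x₀)
    refine ⟨x₀, y₀, hx₀, fun h => ?_, fun j => ?_⟩
    · apply hc
      rw [map_eq B x y hG, ← hy₀]
      exact ⟨y₀, h, rfl⟩
    · have := congrFun hy₀ j
      rw [psi_apply, psi_apply] at this
      exact this.symm

theorem witt_family (B : LinearMap.BilinForm F V) (hB : B.Nondegenerate) (hA : B.IsAlt)
    (d : ℕ) : ∀ (ι : Type) [Fintype ι] (x y : ι → V), LinearIndependent F x →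
    LinearIndependent F y → (∀ i j, B (x i) (x j) = B (y i) (y j)) →
    Fintype.card ι + d = finrank F V →
    ∃ g : V ≃ₗ[F] V, (∀ u v, B (g u) (g v) = B u v) ∧ ∀ i, g (x i) = y i := by
  induction d with
  | zero =>
    intro ι _ x y hx hy hG hcard
    rw [add_zero] at hcard
    let bx := basisOfLinearIndependentOfCardEqFinrank' x hx hcard
    let bY := basisOfLinearIndependentOfCardEqFinrank' y hy hcard
    have hbx : ∀ i, bx i = x i := fun i => by
      show (basisOfLinearIndependentOfCardEqFinrank' x hx hcard) i = x i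
      rw [coe_basisOfLinearIndependentOfCardEqFinrank']
    have hbY : ∀ i, bY i = y i := fun i => by
      show (basisOfLinearIndependentOfCardEqFinrank' y hy hcard) i = y i
      rw [coe_basisOfLinearIndependentOfCardEqFinrank']
    have hg : ∀ i, (bx.equiv bY (Equiv.refl ι)) (bx i) = bY i := fun i => by
      rw [Module.Basis.equiv_apply]
      rfl
    refine ⟨bx.equiv bY (Equiv.refl ι), ?_, fun i => ?_⟩
    · have hcomp : B.compl₁₂ ((bx.equiv bY (Equiv.refl ι)) : V →ₗ[F] V)
          ((bx.equiv bY (Equiv.refl ι)) : V →ₗ[F] V) = B := by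
        apply LinearMap.ext_basis bx bx
        intro i j
        rw [LinearMap.compl₁₂_apply]
        show B ((bx.equiv bY (Equiv.refl ι)) (bx i)) ((bx.equiv bY (Equiv.refl ι)) (bx j)) = _
        rw [hg, hg, hbx, hbx, hbY, hbY, hG]
      intro u v
      have := LinearMap.congr_fun (LinearMap.congr_fun hcomp u) v
      rw [LinearMap.compl₁₂_apply] at this
      exact this
    · rw [← hbx, hg, hbY]
  | succ d ih =>
    intro ι _ x y hx hy hG hcard
    obtain ⟨x₀, y₀, hx₀, hy₀, h0⟩ := ext_one B hB x y hx hy hG (by omega)
    have hflip : ∀ a b c e : V, B a b = B c e → B b a = B e c := by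
      intro a b c e h
      rw [← hA.neg_eq a b, ← hA.neg_eq c e, h]
    obtain ⟨g, hg1, hg2⟩ := ih (Option ι) (fun o => Option.casesOn' o x₀ x)
      (fun o => Option.casesOn' o y₀ y) (linearIndependent_option'.2 ⟨hx, hx₀⟩)
      (linearIndependent_option'.2 ⟨hy, hy₀⟩)
      (by
        intro i j
        cases i with
        | none =>
          cases j with
          | none =>
            show B x₀ x₀ = B y₀ y₀
            rw [hA.self_eq_zero, hA.self_eq_zero]
          | some j =>
            show B x₀ (x j) = B y₀ (y j)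
            exact hflip _ _ _ _ (h0 j)
        | some i =>
          cases j with
          | none =>
            show B (x i) x₀ = B (y i) y₀
            exact h0 i
          | some j =>
            show B (x i) (x j) = B (y i) (y j)
            exact hG i j)
      (by rw [Fintype.card_option]; omega)
    exact ⟨g, hg1, fun i => hg2 (some i)⟩

theorem witt (B : LinearMap.BilinForm F V) (hB : B.Nondegenerate) (hA : B.IsAlt)
    (X Y : Submodule F V) (φ : X ≃ₗ[F] Y)
    (hφ : ∀ x x' : X, B (φ x : V) (φ x' : V) = B (x : V) (x' : V)) :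
    ∃ g : V ≃ₗ[F] V, (∀ u v : V, B (g u) (g v) = B u v) ∧ ∀ x : X, g (x : V) = (φ x : V) := by
  let bX := Module.finBasis F X
  have hx : LinearIndependent F (fun i => ((bX i : X) : V)) :=
    bX.linearIndependent.map' X.subtype (Submodule.ker_subtype X)
  have hy : LinearIndependent F (fun i => ((φ (bX i) : Y) : V)) := by
    have h1 : LinearIndependent F (fun i => φ (bX i)) :=
      bX.linearIndependent.map' (φ : X →ₗ[F] Y) (LinearEquiv.ker φ)
    exact h1.map' Y.subtype (Submodule.ker_subtype Y)
  have hle : finrank F X ≤ finrank F V := Submodule.finrank_le X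
  obtain ⟨g, hg1, hg2⟩ := witt_family B hB hA (finrank F V - finrank F X) (Fin (finrank F X))
    (fun i => ((bX i : X) : V)) (fun i => ((φ (bX i) : Y) : V)) hx hy
    (fun i j => (hφ (bX i) (bX j)).symm) (by rw [Fintype.card_fin]; omega)
  refine ⟨g, hg1, fun x => ?_⟩
  have h1 : (g : V →ₗ[F] V) ∘ₗ X.subtype = Y.subtype ∘ₗ (φ : X →ₗ[F] Y) := by
    apply bX.ext
    intro i
    exact hg2 i
  exact LinearMap.congr_fun h1 x

end Cfsg.Agent.Lib.Helper2.WittAlt
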