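import Mathlib
import Cfsg.Prelude.Def_LieExceptional
import Cfsg.Agent.Lib.Helper2.Zass3

set_option autoImplicit false

namespace Cfsg.Agent.Lib.Helper2.Zass

variable {G Ω : Type*} [Group G] [MulAction G Ω]

theorem card_two_point [Finite G] (hZ : Cfsg.IsZassenhausGroup G Ω) {a b c e : Ω} (hab : a ≠ b)
    (hce : c ≠ e) :
    Nat.card ↥(MulAction.stabilizer G c ⊓ MulAction.stabilizer G e : Subgroup G) =
      Nat.card ↥(MulAction.stabilizer G a ⊓ MulAction.stabilizer G b : Subgroup G) := by
  obtain ⟨g, hga, hgb⟩ := (MulAction.is_two_pretransitive_iff.1 hZ.2.1) hab hce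
  have h1 : (MulAction.stabilizer G c ⊓ MulAction.stabilizer G e : Subgroup G) =
      (MulAction.stabilizer G a ⊓ MulAction.stabilizer G b : Subgroup G).map
        (MulAut.conj g).toMonoidHom := by
    rw [Subgroup.map_inf_eq _ _ _ (MulAut.conj g).injective, ← hga, ← hgb,
      MulAction.stabilizer_smul_eq_stabilizer_map_conj,
      MulAction.stabilizer_smul_eq_stabilizer_map_conj]
  rw [h1]
  exact Subgroup.card_map_of_injective (MulAut.conj g).injective

theorem card_swap_le [Finite G] (c e : Ω) (S : Finset G)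
    (hS : ∀ t ∈ S, t • c = e ∧ t • e = c) :
    S.card ≤ Nat.card ↥(MulAction.stabilizer G c ⊓ MulAction.stabilizer G e : Subgroup G) := by
  classical
  rcases S.eq_empty_or_nonempty with h0 | ⟨s, hs⟩
  · rw [h0]; simp
  · have hsc := (hS s hs).1
    have hse := (hS s hs).2
    let f : {x // x ∈ S} → ↥(MulAction.stabilizer G c ⊓ MulAction.stabilizer G e : Subgroup G) :=
      fun t => ⟨s⁻¹ * t.1, by
        rw [mem_E, mul_smul, mul_smul, (hS t.1 t.2).1, (hS t.1 t.2).2, inv_smul_eq_iff,
          inv_smul_eq_iff]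
        exact ⟨hsc.symm, hse.symm⟩⟩
    have hf : Function.Injective f := by
      intro t t' htt
      have h1 : s⁻¹ * t.1 = s⁻¹ * t'.1 := congrArg Subtype.val htt
      exact Subtype.ext (mul_left_cancel h1)
    have h2 := Nat.card_le_card_of_injective f hf
    rw [Nat.card_eq_fintype_card, Fintype.card_coe] at h2
    exact h2

theorem card_fixedBy_eq_two [Finite Ω] (hZ : Cfsg.IsZassenhausGroup G Ω) (t : G) (ht : t ≠ 1)
    {c e : Ω} (hce : c ≠ e) (hc : t • c = c) (he : t • e = e) :
    Nat.card (MulAction.fixedBy Ω t) = 2 := by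
  classical
  haveI : Fintype Ω := Fintype.ofFinite Ω
  have hle := card_fixedBy_le_two hZ t ht
  have hge : 1 < Nat.card (MulAction.fixedBy Ω t) := by
    rw [Nat.card_eq_fintype_card, Fintype.one_lt_card_iff]
    refine ⟨⟨c, hc⟩, ⟨e, he⟩, ?_⟩
    intro h
    exact hce (congrArg Subtype.val h)
  omega

theorem two_point_bound [Finite G] [Fintype Ω] (hZ : Cfsg.IsZassenhausGroup G Ω) {a b : Ω}
    (hab : a ≠ b)
    (heven : Even (Nat.card ↥(MulAction.stabilizer G a ⊓ MulAction.stabilizer G b : Subgroup G))) :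
    Fintype.card Ω - 2 ≤
      2 * Nat.card ↥(MulAction.stabilizer G a ⊓ MulAction.stabilizer G b : Subgroup G) := by
  classical
  haveI : Fintype G := Fintype.ofFinite G
  haveI : Fact (Nat.Prime 2) := ⟨Nat.prime_two⟩
  obtain ⟨z, hz2, hza, hzb⟩ : ∃ z : G, orderOf z = 2 ∧ z • a = a ∧ z • b = b := by
    obtain ⟨z, hz⟩ := exists_prime_orderOf_dvd_card'
      (G := ↥(MulAction.stabilizer G a ⊓ MulAction.stabilizer G b)) 2 (even_iff_two_dvd.1 heven)
    exact ⟨(z : G), by rw [Subgroup.orderOf_coe, hz], (mem_E.1 z.2).1, (mem_E.1 z.2).2⟩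
  have h3 := three_le_card hZ
  have hfix : ∀ t : G, Nat.card (MulAction.fixedBy Ω t) =
      (Finset.univ.filter (fun c : Ω => t • c = c)).card := by
    intro t
    rw [Nat.card_eq_fintype_card]
    exact Fintype.card_of_subtype _ (by intro x; simp [MulAction.mem_fixedBy])
  let J : Finset G := Finset.univ.filter
    (fun t : G => orderOf t = 2 ∧ Nat.card (MulAction.fixedBy Ω t) = 2)
  have hJ : ∀ t : G, t ∈ J ↔ orderOf t = 2 ∧ Nat.card (MulAction.fixedBy Ω t) = 2 := by
    intro t
    simp [J]
  have hsq : ∀ t : G, orderOf t = 2 → ∀ c : Ω, t • (t • c) = c := by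
    intro t ht c
    have h2 := pow_orderOf_eq_one t
    rw [ht] at h2
    rw [← mul_smul, ← pow_two, h2, one_smul]
  have hex : ∀ c e : Ω, c ≠ e → ∃ t : G, orderOf t = 2 ∧ t • c = c ∧ t • e = e := by
    intro c e hce
    obtain ⟨k, hka, hkb⟩ := (MulAction.is_two_pretransitive_iff.1 hZ.2.1) hab hce
    refine ⟨k * z * k⁻¹, orderOf_conj_two hz2 k, ?_, ?_⟩
    · rw [← hka, mul_smul, mul_smul, inv_smul_smul, hza]
    · rw [← hkb, mul_smul, mul_smul, inv_smul_smul, hzb]
  have hA : ∀ c : Ω, Fintype.card Ω - 1 ≤ (J.filter (fun t => t • c = c)).card := by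
    intro c
    have hex' : ∀ e : Ω, ∃ t : G, c ≠ e → (orderOf t = 2 ∧ t • c = c ∧ t • e = e) := by
      intro e
      by_cases hce : c = e
      · exact ⟨1, fun h => absurd hce h⟩
      · obtain ⟨t, ht⟩ := hex c e hce
        exact ⟨t, fun _ => ht⟩
    choose f hf using hex'
    have h1 : ((Finset.univ : Finset Ω).erase c).card ≤ (J.filter (fun t => t • c = c)).card := by
      apply Finset.card_le_card_of_injOn f
      · intro e he
        have hce : c ≠ e := by
          have := Finset.ne_of_mem_erase (Finset.mem_coe.1 he)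
          exact fun h => this h.symm
        obtain ⟨h2, hc, he'⟩ := hf e hce
        rw [Finset.mem_coe, Finset.mem_filter, hJ]
        exact ⟨⟨h2, card_fixedBy_eq_two hZ _ (ne_one_of_orderOf_two h2) hce hc he'⟩, hc⟩
      · intro e he e' he' hee
        have hce : c ≠ e := by
          have := Finset.ne_of_mem_erase (Finset.mem_coe.1 he)
          exact fun h => this h.symm
        have hce' : c ≠ e' := by
          have := Finset.ne_of_mem_erase (Finset.mem_coe.1 he')
          exact fun h => this h.symm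
        obtain ⟨h2, hc, h4⟩ := hf e hce
        obtain ⟨h2', hc', h4'⟩ := hf e' hce'
        by_contra hne
        rw [← hee] at h4'
        exact ne_one_of_orderOf_two h2 (hZ.2.2.1 (f e) c e e' hce hne hce' hc h4 h4')
    rw [Finset.card_erase_of_mem (Finset.mem_univ c), Finset.card_univ] at h1
    exact h1
  have hB : ∀ c : Ω, (J.filter (fun t => ¬ t • c = c)).card ≤
      Nat.card ↥(MulAction.stabilizer G a ⊓ MulAction.stabilizer G b : Subgroup G) *
        (Fintype.card Ω - 1) := by
    intro c
    have h1 := Finset.card_le_mul_card_image_of_maps_to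
      (f := fun t : G => t • c) (s := J.filter (fun t => ¬ t • c = c))
      (t := (Finset.univ : Finset Ω).erase c)
      (fun t ht => Finset.mem_erase.2 ⟨(Finset.mem_filter.1 ht).2, Finset.mem_univ _⟩)
      (Nat.card ↥(MulAction.stabilizer G a ⊓ MulAction.stabilizer G b : Subgroup G))
      (by
        intro e he
        have hec : e ≠ c := Finset.ne_of_mem_erase he
        rw [← card_two_point hZ hab (Ne.symm hec)]
        apply card_swap_le
        intro t ht
        rw [Finset.mem_filter, Finset.mem_filter, hJ] at ht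
        refine ⟨ht.2, ?_⟩
        rw [← ht.2, hsq t ht.1.1.1])
    rw [Finset.card_erase_of_mem (Finset.mem_univ c), Finset.card_univ] at h1
    exact h1
  have hC : ∀ t ∈ J, (Finset.univ.filter (fun c : Ω => t • c = c)).card = 2 := by
    intro t ht
    rw [← hfix]
    exact ((hJ t).1 ht).2
  have hD : ∀ t ∈ J, (Finset.univ.filter (fun c : Ω => ¬ t • c = c)).card =
      Fintype.card Ω - 2 := by
    intro t ht
    have h1 := Finset.card_filter_add_card_filter_not (s := (Finset.univ : Finset Ω))
      (fun c : Ω => t • c = c)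
    rw [hC t ht, Finset.card_univ] at h1
    omega
  have hS1 := Finset.sum_card_bipartiteAbove_eq_sum_card_bipartiteBelow (s := J)
    (t := (Finset.univ : Finset Ω)) (fun t c => t • c = c)
  have hS2 := Finset.sum_card_bipartiteAbove_eq_sum_card_bipartiteBelow (s := J)
    (t := (Finset.univ : Finset Ω)) (fun t c => ¬ t • c = c)
  unfold Finset.bipartiteAbove Finset.bipartiteBelow at hS1 hS2
  rw [Finset.sum_congr rfl hC, Finset.sum_const, smul_eq_mul] at hS1
  rw [Finset.sum_congr rfl hD, Finset.sum_const, smul_eq_mul] at hS2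
  have hE1 : Fintype.card Ω * (Fintype.card Ω - 1) ≤ J.card * 2 := by
    rw [hS1]
    calc Fintype.card Ω * (Fintype.card Ω - 1)
        = ∑ _c : Ω, (Fintype.card Ω - 1) := by
          rw [Finset.sum_const, smul_eq_mul, Finset.card_univ]
      _ ≤ _ := Finset.sum_le_sum (fun c _ => hA c)
  have hE2 : J.card * (Fintype.card Ω - 2) ≤ Fintype.card Ω *
      (Nat.card ↥(MulAction.stabilizer G a ⊓ MulAction.stabilizer G b : Subgroup G) *
        (Fintype.card Ω - 1)) := by
    rw [hS2]
    calc _ ≤ ∑ _c : Ω,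
          (Nat.card ↥(MulAction.stabilizer G a ⊓ MulAction.stabilizer G b : Subgroup G) *
            (Fintype.card Ω - 1)) := Finset.sum_le_sum (fun c _ => hB c)
      _ = _ := by rw [Finset.sum_const, smul_eq_mul, Finset.card_univ]
  have hpos : 0 < Fintype.card Ω * (Fintype.card Ω - 1) := Nat.mul_pos (by omega) (by omega)
  have hfin : Fintype.card Ω * (Fintype.card Ω - 1) * (Fintype.card Ω - 2) ≤
      Fintype.card Ω * (Fintype.card Ω - 1) *
        (2 * Nat.card ↥(MulAction.stabilizer G a ⊓ MulAction.stabilizer G b : Subgroup G)) := by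
    calc Fintype.card Ω * (Fintype.card Ω - 1) * (Fintype.card Ω - 2)
        ≤ J.card * 2 * (Fintype.card Ω - 2) := Nat.mul_le_mul_right _ hE1
      _ = 2 * (J.card * (Fintype.card Ω - 2)) := by ring
      _ ≤ 2 * (Fintype.card Ω *
          (Nat.card ↥(MulAction.stabilizer G a ⊓ MulAction.stabilizer G b : Subgroup G) *
            (Fintype.card Ω - 1))) := Nat.mul_le_mul_left _ hE2
      _ = _ := by ring
  exact Nat.le_of_mul_le_mul_left hfin hpos

end Cfsg.Agent.Lib.Helper2.Zass
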